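/-
Brauer–Leonard: abelian Sylow subgroups all of whose non-identity elements have the same centralizer.
-/
import Cfsg.Agent.B.Prin
import Cfsg.Agent.B.Defect
import Cfsg.Agent.H3.Normal
import Cfsg.Agent.H3.Orth
import Cfsg.Agent.BG.Defs

set_option autoImplicit false

namespace Cfsg.Agent.C3

open Cfsg Subgroup H2 H3 BG B Finset
open scoped ComplexConjugate

universe u

variable {G : Type*} [Group G]

theorem sum_sub_eq {M : Type*} [AddCommMonoid M] [Fintype G] (H : Subgroup G) [Fintype H] (f : G → M)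
    (h : ∀ g, g ∉ H → f g = 0) : ∑ x : H, f x = ∑ g, f g := by
  classical
  exact (sum_subtype (univ.filter (· ∈ H)) (by simp) f).symm.trans
    (sum_filter_of_ne fun g _ e => by_contra fun e' => e (h g e'))

open Classical in
theorem ti_lt [Fintype G] {N : Subgroup G} {A : Set G} (hA : A ⊆ N) (h1 : 1 ∉ A)
    (hn : ∀ n ∈ N, ∀ a ∈ A, n * a * n⁻¹ ∈ A) (hTI : ∀ g, g ∉ N → ∀ a ∈ A, g * a * g⁻¹ ∉ A) {F : G → ℂ}
    (hF : IsClassFunction G F) (h0 : F 1 ≠ 0) : ∑ g, (if g ∈ A then ‖F g‖ ^ 2 else 0) < Nat.card N * nrm F := by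
  let θ : N → ℂ := fun n => if (n : G) ∈ A then F n else 0
  have h2 : IsClassFunction N θ := isClassFunction_of_isConj fun a b hab => by
    obtain ⟨c, rfl⟩ := isConj_iff.1 hab
    have : (a : G) ∈ A ↔ ((c * a * c⁻¹ : N) : G) ∈ A := ⟨hn c c.2 a, fun h => by
      simpa [mul_assoc] using hn _ (inv_mem c.2) _ h⟩
    simp only [θ, ← this]
    split_ifs
    exacts [(hF.conj_apply _ _).symm, rfl]
  have h3 : ∀ x : N, (x : G) ∉ A → x ≠ 1 → θ x = 0 := fun x hx _ => if_neg hx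
  have h4 := nrm_congr (classInner_indFun_of_TI (fun g hg a ha h => absurd h (hTI g hg a ha)) h2 h3 h3 (if_neg h1))
  have h5 : ⟪F, indFun N θ⟫ = ⟪θ, θ⟫ := by
    rw [classInner_indFun_right _ hF, classInner_def, classInner_def]
    refine congrArg _ (sum_congr rfl fun x _ => ?_)
    simp only [θ]
    split_ifs <;> simp
  have h6 := nrm_pos (φ := F - indFun N θ) fun e => h0 (by
    simpa [indFun_one, show θ 1 = 0 from if_neg h1] using congrFun e 1)
  rw [nrm_sub, h4, h5, ← nrm_def, nrm_eq_sum θ] at h6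
  have h7 : (0 : ℝ) < Nat.card N := by exact_mod_cast Nat.card_pos
  rw [← sum_sub_eq N _ fun g hg => if_neg fun h => hg (hA h), ← inv_mul_lt_iff₀ h7]
  refine lt_of_eq_of_lt (congrArg _ (sum_congr rfl fun x _ => ?_))
    (by linarith : (Nat.card N : ℝ)⁻¹ * ∑ g, ‖θ g‖ ^ 2 < nrm F)
  simp only [θ]
  split_ifs <;> simp

variable [Finite G]

theorem exists_comm_of_inertia {Q D : Subgroup G} [Q.Normal] [D.Normal] (hQD : Q ≤ D) (hc : D ≤ 𝒞 Q) {ζ : D → ℂ}
    (hζ : IsIrrCharacter D ζ) {y : G} (hy : y ∈ Q) (h : ζ ⟨y, hQD hy⟩ ≠ ζ 1) {g : G} (hg : g ∈ inertia ζ) :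
    ∃ x ∈ Q, x ≠ 1 ∧ x * g = g * x := by
  by_contra! e
  obtain ⟨x, hx, h1⟩ := exists_conj_of_fpf (g := g) (fun n hn h => by_contra fun e' => e n hn e' h) hy
  have k : ∀ {z} (hz : z ∈ Q), (⟨z, hQD hz⟩ : D) ∈ charCenter ζ := fun hz =>
    hζ.center_le_charCenter (mem_center_iff.2 fun d => Subtype.ext (mem_centralizer_iff.1 (hc d.2) _ hz).symm)
  have h2 := apply_mul_of_mem_charCenter hζ.apply_one_ne_zero (k (Normal.conj_mem inferInstance _ (inv_mem hx) g))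
    ⟨x, hQD hx⟩
  rw [mem_inertia'.1 hg ⟨x⁻¹, hQD (inv_mem hx)⟩, ← apply_mul_of_mem_charCenter hζ.apply_one_ne_zero (k (inv_mem hx))] at h2
  refine h (Eq.trans (congrArg ζ (Subtype.ext ?_)) (h2.trans (congrArg ζ (Subtype.ext (mul_inv_cancel x)))))
  exact (eq_mul_inv_of_mul_eq h1.symm).trans (by simp [mul_assoc])

theorem orbit_count {Q : Subgroup G} [Q.Normal] [IsMulCommutative Q] [Fintype Q] {e : ℕ}
    (he : ∀ θ : Q → ℂ, IsIrrCharacter Q θ → θ ≠ (fun _ => 1) → (inertia (G := G) θ).index = e) {η : Q → ℂ}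
    (hη : IsCharacter Q η) (hi : ∀ g : G, cjf g η = η) :
    ∃ m J : ℕ, ⟪η, fun _ => 1⟫ = m ∧ η 1 = (m + e * J : ℕ) ∧ ((m ^ 2 + e * J : ℕ) : ℝ) ≤ nrm η := by
  classical
  obtain ⟨c, h1, h2⟩ := hη.exists_nat_coeffs
  let o : IrrCharacter Q := ⟨fun _ => 1, isIrrCharacter_one⟩
  obtain ⟨J, hJ⟩ : e ∣ ∑ χ ∈ univ.erase o, c χ := by
    rw [← sum_fiberwise_of_maps_to (s := univ.erase o) (g := fun χ : IrrCharacter Q => cjOrbit (G := G) (χ : Q → ℂ))
      fun χ hχ => mem_image_of_mem (fun χ : IrrCharacter Q => cjOrbit (G := G) (χ : Q → ℂ)) hχ]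
    refine dvd_sum fun O hO => ?_
    obtain ⟨θ, h3, rfl⟩ := mem_image.1 hO
    have h4 : (θ : Q → ℂ) ≠ fun _ => 1 := fun e => (mem_erase.1 h3).1 (Subtype.ext e)
    rw [sum_congr rfl (g := fun _ => c θ) fun χ hχ => ?_, sum_const, smul_eq_mul, ← he θ θ.2 h4, ← card_cjOrbit]
    · refine Dvd.dvd.mul_right (dvd_of_eq (card_nbij (fun χ : IrrCharacter Q => (χ : Q → ℂ)) (fun χ hχ => ?_)
        Subtype.val_injective.injOn fun ψ hψ => ?_).symm) _
      · exact mem_coe.2 ((mem_filter.1 hχ).2 ▸ self_mem_cjOrbit)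
      · refine ⟨⟨ψ, θ.2.of_mem_cjOrbit hψ⟩, mem_filter.2 ⟨mem_erase.2 ⟨fun e => h4 ?_, mem_univ _⟩, cjOrbit_eq_of_mem hψ⟩, rfl⟩
        obtain ⟨g, rfl⟩ := mem_cjOrbit.1 hψ
        exact cjf_injective g (congrArg Subtype.val e)
    · obtain ⟨g, hg⟩ := mem_cjOrbit.1 ((mem_filter.1 hχ).2 ▸ self_mem_cjOrbit (θ := (χ : Q → ℂ)))
      exact Nat.cast_injective (R := ℂ) (by rw [← h1, ← h1, hg, ← classInner_cjf g η θ, hi])
  refine ⟨c o, J, h1 o, ?_, ?_⟩
  · rw [← hJ, add_sum_erase _ _ (mem_univ o), h2]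
    simp [fun χ : IrrCharacter Q => χ.2.degree_eq_one_of_comm]
  · rw [nrm_def, hη.isClassFunction.inner_self_re, ← hJ, ← add_sum_erase _ _ (mem_univ o)]
    simp only [h1, Complex.norm_natCast]
    exact_mod_cast Nat.add_le_add_left (sum_le_sum fun χ _ => Nat.le_self_pow two_ne_zero _) _

theorem blockPart_ker (N : Subgroup G) [N.Normal] [Fintype N] {φ : G → ℂ} (hφ : IsClassFunction G φ) :
    blockPart {χ : IrrCharacter G | N ≤ charKer (χ : G → ℂ)} φ = avg N φ := by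
  classical
  have := Fintype.ofFinite G
  exact (isClassFunction_blockPart _ _).ext_inner hφ.avg fun ψ hψ => by
    rw [classInner_blockPart _ _ ⟨ψ, hψ⟩, classInner_avg_irr _ hψ]; simp

theorem sum_reg_eq_zero {p : ℕ} [hp : Fact p.Prime] {M : Ideal AlgInt} [PMod p M] {z : G} (hz : PElt p z)
    (hn : PNil p (𝒞₁ z)) {χ : IrrCharacter G} (hχ : χ ∉ principalBlock M G) [Fintype (resOf p (𝒞₁ z))] :
    ∑ v : resOf p (𝒞₁ z), (χ : G → ℂ) (z * v) = 0 := by
  have := Fintype.ofFinite (pResidual p (𝒞₁ z))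
  have h1 := pNil_iff_card.1 (pNil_top_subtype_iff.2 hn)
  rw [resOf_top] at h1
  obtain ⟨k, hk⟩ := index_pResidual p (𝒞₁ z)
  have h2 := blockPart_principal_res (M := M) hz χ.2.isClassFunction ⟨z, self_mem_centralizer z⟩ fun w hw =>
    (hw.unique hz.isPPart_self) ▸ le_rfl
  rw [blockPart_of_not_mem hχ, principalBlock_eq_of_complement (hp.out.coprime_iff_not_dvd.1 h1.symm) hk,
    blockPart_ker _ (χ.2.isClassFunction.res _), avg_apply, Pi.zero_apply, eq_comm, mul_eq_zero] at h2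
  rw [← h2.resolve_left (inv_ne_zero card_ne_zero)]
  refine (Fintype.sum_equiv ((MulEquiv.subgroupCongr (pResidual_eq_subgroupOf p _)).trans
    (subgroupOfEquivOfLe (resOf_le p _))).toEquiv _ _ fun n => ?_).symm
  exact χ.2.isClassFunction.mul_comm _ _

theorem arith_BL {e t m J : ℤ} (he : 1 ≤ e) (ht : e < t) (hm : 1 ≤ m) (hJ : 1 ≤ J) (hs : m + e * J ≤ e * t - 2)
    (h0 : (e * t + 1) * (m ^ 2 + e * J - e) < (m + e * J) ^ 2) (h1 : ¬ (m = 1 ∧ J = 1)) :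
    m = 1 ∧ J = t - 1 := by
  have h2 : J < t := by nlinarith
  obtain ⟨r, rfl⟩ : ∃ r, t = J + 1 + r := ⟨t - J - 1, by ring⟩
  obtain ⟨u, rfl⟩ : ∃ u, J = u + 1 := ⟨J - 1, by ring⟩
  have h3 : 0 ≤ r := by omega
  have h4 : 0 ≤ u := by omega
  have h5 : (e * u + m ^ 2) * (e * r + (m - 1) ^ 2) < (e + m - m ^ 2) ^ 2 := by nlinarith
  have h6 : 0 < e + m - m ^ 2 := by
    by_contra! h
    nlinarith [mul_pos (show 0 < m + e * (u + 1) by positivity) (show 0 < e * (u + 1 + 1 + r) + 1 - (m + e * (u + 1)) by omega),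
      mul_nonneg (show 0 ≤ e * (u + 1 + 1 + r) + 1 by positivity) (neg_nonneg.2 h)]
  obtain rfl | h7 := hm.eq_or_lt
  · refine ⟨rfl, by_contra fun h => ?_⟩
    nlinarith [mul_le_mul (show 1 ≤ u by omega) (show 1 ≤ r by omega) zero_le_one h4, mul_nonneg (show 0 ≤ e by omega) h3]
  · have h8 : 4 ≤ m ^ 2 := by nlinarith
    have h9 : 1 ≤ (m - 1) ^ 2 := by nlinarith
    have h10 := mul_le_mul (show e * u + 4 ≤ e * u + m ^ 2 by omega) (show e * r + 1 ≤ e * r + (m - 1) ^ 2 by omega)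
      (by positivity) (by positivity)
    have h11 : (e + m - m ^ 2) ^ 2 ≤ (e - 2) ^ 2 := pow_le_pow_left₀ h6.le (by nlinarith) 2
    nlinarith [mul_nonneg (mul_nonneg (show 0 ≤ e by omega) h4) (mul_nonneg (show 0 ≤ e by omega) h3),
      mul_nonneg (show 0 ≤ e by omega) h3, mul_le_mul_of_nonneg_left (show e - 1 ≤ u + r by omega) (show 0 ≤ e by omega)]

section Loc

variable {Q : Subgroup G} [Q.Normal] (hs : ∀ x ∈ Q, x ≠ 1 → 𝒞₁ x = 𝒞 Q) (hc : Q ≤ 𝒞 Q)
include hs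

theorem inertia_le_of_star {D : Subgroup G} [D.Normal] (hQD : Q ≤ D) (hD : D ≤ 𝒞 Q) {ζ : D → ℂ}
    (hζ : IsIrrCharacter D ζ) {y : G} (hy : y ∈ Q) (h : ζ ⟨y, hQD hy⟩ ≠ ζ 1) : inertia ζ ≤ 𝒞 Q := fun g hg => by
  obtain ⟨x, hx, h1, h2⟩ := exists_comm_of_inertia hQD hD hζ hy h hg
  exact hs x hx h1 ▸ mem_centralizer_singleton_iff.2 h2.symm

include hc

theorem loc_count [Fintype Q] {η : Q → ℂ} (hη : IsCharacter Q η) (hi : ∀ g : G, cjf g η = η) :
    ∃ m J : ℕ, ⟪η, fun _ => 1⟫ = m ∧ η 1 = (m + (𝒞 Q).index * J : ℕ) ∧ ((m ^ 2 + (𝒞 Q).index * J : ℕ) : ℝ) ≤ nrm η := by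
  have : IsMulCommutative Q := L.isMulCommutative_of_forall fun a ha b hb => hc hb a ha
  refine orbit_count (fun θ hθ h1 => congrArg _ (le_antisymm ?_ fun g hg => cjf_of_centralizer hg θ)) hη hi
  obtain ⟨y, hy⟩ := not_forall.1 (mt hθ.eq_one_of_forall h1)
  exact inertia_le_of_star hs le_rfl hc hθ y.2 hy

theorem loc_nrm [Fintype (𝒞 Q)] {η : G → ℂ} (hη : IsCharacter G η) (hk : ¬ Q ≤ charKer η) :
    ((𝒞 Q).index : ℝ) ≤ nrm fun c : 𝒞 Q => η c := by
  obtain ⟨y, hy, h1⟩ := SetLike.not_le_iff_exists.1 hk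
  obtain ⟨ζ, h2, h3⟩ : ∃ ζ : IrrCharacter (𝒞 Q), ⟪fun c : 𝒞 Q => η c, ζ⟫ ≠ 0 ∧ (ζ : 𝒞 Q → ℂ) ⟨y, hc hy⟩ ≠ (ζ : 𝒞 Q → ℂ) 1 := by
    by_contra! h
    refine h1 (hη.mem_charKer_iff.2 (((hη.res _).isClassFunction.apply_eq_sum_irr ⟨y, hc hy⟩).trans
      ((sum_congr rfl fun ζ _ => ?_).trans ((hη.res (𝒞 Q)).isClassFunction.apply_eq_sum_irr 1).symm)))
    by_cases e : ⟪fun c : 𝒞 Q => η c, ζ⟫ = 0
    · rw [e, zero_mul, zero_mul]
    · rw [h ζ e]
  rw [← congrArg index (le_antisymm (inertia_le_of_star hs hc le_rfl ζ.2 hy h3) ζ.2.isClassFunction.le_inertia),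
    ← card_cjOrbit]
  refine OrthoN.card_le_nrm (e := id) ⟨fun i hi => (ζ.2.of_mem_cjOrbit hi).inner_self, fun i hi j hj =>
    (ζ.2.of_mem_cjOrbit hi).inner_of_ne (ζ.2.of_mem_cjOrbit hj)⟩ (hη.res _).isGen
    (fun i hi => (ζ.2.of_mem_cjOrbit hi).isGen) fun i hi => ?_
  obtain ⟨g, rfl⟩ := mem_cjOrbit.1 hi
  exact (classInner_res_cjf hη.isClassFunction g _).trans_ne h2

end Loc

theorem inner_one_le {H K : Subgroup G} (h : H ≤ K) [Fintype H] [Fintype K] {ξ : G → ℂ} (hξ : IsCharacter G ξ) {a b : ℕ}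
    (ha : ⟪fun x : K => ξ x, fun _ => 1⟫ = a) (hb : ⟪fun x : H => ξ x, fun _ => 1⟫ = b) : a ≤ b := by
  have h1 := (((hξ.res K).sub_inner_smul isIrrCharacter_one).resLe h).inner_re_nonneg isCharacter_one
  rw [ha, show resLe h ((fun x : K => ξ x) - (a : ℂ) • fun _ => 1) = (fun x : H => ξ x) - (a : ℂ) • fun _ => 1 from rfl,
    classInner_sub_left, classInner_smul_left, isIrrCharacter_one.inner_self, hb] at h1
  simpa using h1

section Glob

variable {p : ℕ} [hp : Fact p.Prime] {P : Subgroup G} (hs : ∀ x ∈ P, x ≠ 1 → 𝒞₁ x = 𝒞 P)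
include hs

theorem star_comm : P ≤ 𝒞 P := fun x hx => by
  obtain rfl | h := eq_or_ne x 1
  exacts [one_mem _, hs x hx h ▸ self_mem_centralizer x]

omit [Finite G] in
theorem star_sub {K : Subgroup G} (h : P ≤ K) : ∀ x ∈ P.subgroupOf K, x ≠ 1 → 𝒞₁ x = 𝒞 (P.subgroupOf K) := by
  intro x hx h1
  rw [H8.centralizer_subgroupOf h, ← hs x hx fun e => h1 (Subtype.ext e)]
  ext y
  simp [mem_subgroupOf, mem_centralizer_singleton_iff, Subtype.ext_iff]

theorem glob_count [Fintype P] {η : P → ℂ} (hη : IsCharacter P η)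
    (hi : ∀ g ∈ 𝒩 P, ∀ x y : P, g * x * g⁻¹ = y → η y = η x) : ∃ m J : ℕ, ⟪η, fun _ => 1⟫ = m ∧
      η 1 = (m + (𝒞 P).relIndex (𝒩 P) * J : ℕ) ∧ ((m ^ 2 + (𝒞 P).relIndex (𝒩 P) * J : ℕ) : ℝ) ≤ nrm η := by
  have := Fintype.ofFinite (P.subgroupOf (𝒩 P))
  obtain ⟨m, J, h1, h2, h3⟩ := loc_count (star_sub hs le_normalizer) (star_comm (star_sub hs le_normalizer))
    (hη.toSubOf le_normalizer) fun g => funext fun x => hi g g.2 _ _ rfl
  rw [H8.centralizer_subgroupOf le_normalizer] at h2 h3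
  exact ⟨m, J, (classInner_toSubOf le_normalizer η fun _ => 1).symm.trans h1, h2,
    h3.trans_eq (nrm_congr (classInner_toSubOf le_normalizer η η))⟩

theorem glob_q : ∃ t, Nat.card P = (𝒞 P).relIndex (𝒩 P) * t + 1 := by
  have := Fintype.ofFinite P
  obtain ⟨m, J, h1, h2, -⟩ := glob_count hs (isCharacter_regChar (G := P)) fun g _ x y h => by
    obtain rfl | e := eq_or_ne x 1
    · rw [show y = 1 from Subtype.ext (by simpa using h.symm)]
    · rw [regChar_of_ne e, regChar_of_ne fun e' => e (Subtype.ext (by simpa [e'] using h))]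
  rw [classInner_regChar_left, map_one, eq_comm, Nat.cast_eq_one] at h1
  rw [regChar_one, h1, Nat.cast_inj, add_comm] at h2
  exact ⟨J, h2⟩

theorem glob_nrm [Fintype (𝒞 P)] {ξ : G → ℂ} (hξ : IsCharacter G ξ) (hk : ¬ P ≤ charKer ξ) :
    ((𝒞 P).relIndex (𝒩 P) : ℝ) ≤ nrm fun c : 𝒞 P => ξ c := by
  have := Fintype.ofFinite (𝒞 (P.subgroupOf (𝒩 P)))
  have h1 := loc_nrm (star_sub hs le_normalizer) (star_comm (star_sub hs le_normalizer)) (hξ.res _) fun h => hk fun x hx =>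
    hξ.mem_charKer_iff.2 ((hξ.res _).mem_charKer_iff.1 (h (show (⟨x, le_normalizer hx⟩ : 𝒩 P) ∈ P.subgroupOf _ from hx)))
  revert this
  rw [H8.centralizer_subgroupOf le_normalizer]
  exact fun _ h1 => h1.trans_eq (nrm_congr (classInner_toSubOf (centralizer_le_normalizer _) (fun c : 𝒞 P => ξ c) fun c => ξ c))

variable (hP : SylIn p P ⊤)
include hP

theorem star_pNil : PNil p (𝒞 P) := (hP.mono (star_comm hs) le_top).pNil_of_normalizer_le inf_le_left

theorem sum_C {M : Type*} [AddCommMonoid M] [Fintype P] [Fintype (𝒞 P)] [Fintype (resOf p (𝒞 P))] (f : G → M) :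
    ∑ c : 𝒞 P, f c = ∑ x : P, ∑ v : resOf p (𝒞 P), f (x * v) := by
  rw [← Fintype.sum_prod_type']
  refine (Fintype.sum_bijective (fun z : P × resOf p (𝒞 P) => (⟨z.1 * z.2, mul_mem (star_comm hs z.1.2)
    (resOf_le p _ z.2.2)⟩ : 𝒞 P)) ⟨fun a b h => ?_, fun c => ?_⟩ _ _ fun _ => rfl).symm
  · have h1 : (a.1 : G) * a.2 = b.1 * b.2 := congrArg Subtype.val h
    have h2 : (b.1 : G)⁻¹ * a.1 ∈ P ⊓ resOf p (𝒞 P) := mem_inf.2 ⟨mul_mem (inv_mem b.1.2) a.1.2, by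
      rw [show (b.1 : G)⁻¹ * a.1 = b.2 * (a.2 : G)⁻¹ by rw [eq_mul_inv_iff_mul_eq, mul_assoc, h1, inv_mul_cancel_left]]
      exact mul_mem b.2.2 (inv_mem a.2.2)⟩
    rw [(star_pNil hs hP).inf_eq_bot hP.pgrp, mem_bot, inv_mul_eq_one] at h2
    exact Prod.ext (Subtype.ext h2.symm) (Subtype.ext (mul_left_cancel (h2 ▸ h1)))
  · obtain ⟨u, hu, k, hk, h⟩ := (hP.mono (star_comm hs) le_top).exists_mul_resOf c.2
    exact ⟨(⟨u, hu⟩, ⟨k, hk⟩), Subtype.ext h.symm⟩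

theorem card_C : Nat.card (𝒞 P) = Nat.card P * Nat.card (resOf p (𝒞 P)) := by
  have := Fintype.ofFinite P
  have := Fintype.ofFinite (𝒞 P)
  have := Fintype.ofFinite (resOf p (𝒞 P))
  simpa using sum_C hs hP fun _ => (1 : ℕ)

theorem star_out {M : Ideal AlgInt} [PMod p M] [Fintype (𝒞 P)] {ξ : IrrCharacter G} (hξ : ξ ∉ principalBlock M G) {a : ℕ}
    (ha : ⟪fun c : 𝒞 P => (ξ : G → ℂ) c, fun _ => 1⟫ = a) : Nat.card P * a ≤ charDegree (ξ : G → ℂ) := by
  have := Fintype.ofFinite P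
  have := Fintype.ofFinite (resOf p (𝒞 P))
  have h1 := card_mul_classInner (fun c : 𝒞 P => (ξ : G → ℂ) c) fun _ => 1
  simp only [map_one, mul_one] at h1
  rw [ha, sum_C hs hP, card_C hs hP, Fintype.sum_eq_single (1 : P) fun x hx => ?_] at h1
  · have h2 := (congrArg norm h1).trans_le ((norm_sum_le _ _).trans (sum_le_card_nsmul _ _ _ fun v _ =>
      ξ.2.isCharacter.norm_apply_le _))
    rw [card_univ, ← Nat.card_eq_fintype_card, nsmul_eq_mul, ← Nat.cast_mul, mul_right_comm, mul_comm, Complex.norm_natCast] at h2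
    exact Nat.le_of_mul_le_mul_left (by exact_mod_cast h2) Nat.card_pos
  · have h2 := hs x x.2 fun e => hx (Subtype.ext e)
    have h3 := star_pNil hs hP
    clear h1
    revert this
    rw [← h2] at h3 ⊢
    exact fun _ => sum_reg_eq_zero (pElt_of_mem hP.pgrp x.2) h3 hξ

theorem star_in {M : Ideal AlgInt} [PMod p M] [Fintype P] {ξ : IrrCharacter G} (hξ : ξ ∈ principalBlock M G)
    (h1 : (ξ : G → ℂ) ≠ fun _ => 1) {m : ℕ} (hm : ⟪fun x : P => (ξ : G → ℂ) x, fun _ => 1⟫ = m) {c : ℝ} (hc : 0 ≤ c) :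
    Nat.card P * (nrm (fun x : P => (ξ : G → ℂ) x) + c ^ 2 + 2 * (c * m)) - (charDegree (ξ : G → ℂ) + c) ^ 2 <
      (𝒞 P).relIndex (𝒩 P) * Nat.card P * (1 + c ^ 2) := by
  classical
  have := Fintype.ofFinite G
  have := Fintype.ofFinite (𝒞 P)
  have := Fintype.ofFinite (resOf p (𝒞 P))
  have hn := star_pNil hs hP
  have hC := hP.mono (star_comm hs) le_top
  have k : ∀ x ∈ P, ∀ v ∈ resOf p (𝒞 P), Commute x v ∧ ¬ p ∣ orderOf v := fun x hx v hv =>
    ⟨resOf_le p _ hv x hx, hp.out.coprime_iff_not_dvd.1 (hn v hv).symm⟩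
  let F : G → ℂ := (ξ : G → ℂ) + (c : ℂ) • fun _ => 1
  have h2 : ‖F 1‖ = charDegree (ξ : G → ℂ) + c := by
    rw [show F 1 = ((charDegree (ξ : G → ℂ) + c : ℝ) : ℂ) by simp [F, ξ.2.cast_charDegree], Complex.norm_real,
      Real.norm_of_nonneg (by positivity)]
  obtain ⟨A, hA⟩ : ∃ A : Set G, ∀ g, g ∈ A ↔ g ∈ 𝒞 P ∧ p ∣ orderOf g := ⟨_, fun _ => Iff.rfl⟩
  have h3 := ti_lt (N := 𝒩 P) (A := A) (fun g hg => centralizer_le_normalizer _ ((hA g).1 hg).1)
    (fun h => reg_one ((hA 1).1 h).2) (fun n hn a ha => (hA _).2 ⟨?_, (orderOf_conj a n).symm ▸ ((hA a).1 ha).2⟩)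
    (fun g hg a ha hb => hg ?_) (F := F) (ξ.2.isClassFunction.add ((isClassFunction_const 1).smul _))
    (norm_pos_iff.1 (h2 ▸ by have := ξ.2.charDegree_pos; positivity))
  · have h4 : ∀ x : P, ∑ v : resOf p (𝒞 P), (if (x : G) * v ∈ A then ‖F (x * v)‖ ^ 2 else 0) =
        Nat.card (resOf p (𝒞 P)) * (‖F x‖ ^ 2 - if x = 1 then ‖F 1‖ ^ 2 else 0) := fun x => by
      obtain rfl | hx := eq_or_ne x 1
      · exact (sum_eq_zero fun (v : resOf p (𝒞 P)) _ => if_neg fun e => (k 1 (one_mem _) v v.2).2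
          (by simpa using ((hA _).1 e).2)).trans (by simp)
      rw [if_neg hx, sub_zero, Nat.card_eq_fintype_card, ← nsmul_eq_mul, ← card_univ, ← sum_const]
      refine sum_congr rfl fun v _ => (if_pos ((hA _).2 ⟨mul_mem (star_comm hs x.2) (resOf_le p _ v.2), by_contra fun e => hx
        (Subtype.ext ((isPPart_mul (pElt_of_mem hP.pgrp x.2) (k x x.2 v v.2).2 (k x x.2 v v.2).1).eq_one_iff.2 e))⟩)).trans ?_
      simp only [F, Pi.add_apply, Pi.smul_apply, apply_mul_of_pNil (pElt_of_mem hP.pgrp x.2)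
        ((hs x x.2 fun e => hx (Subtype.ext e)).symm ▸ hn) (k x x.2 v v.2).1 (k x x.2 v v.2).2 hξ]
    have h5 : (0 : ℝ) < Nat.card P := by exact_mod_cast Nat.card_pos
    have h6 := nrm_eq_sum fun x : P => F x
    rw [show (fun x : P => F x) = (fun x : P => (ξ : G → ℂ) x) + (c : ℂ) • fun _ => 1 from rfl, nrm_add, nrm_ofReal_smul,
      isIrrCharacter_one.nrm_eq, classInner_smul_right, hm, eq_inv_mul_iff_mul_eq₀ h5.ne'] at h6
    rw [← sum_sub_eq (𝒞 P) (fun g => if g ∈ A then ‖F g‖ ^ 2 else 0) fun g hg => if_neg fun h => hg ((hA g).1 h).1,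
      sum_C hs hP fun g => if g ∈ A then ‖F g‖ ^ 2 else 0, sum_congr rfl fun x _ => h4 x,
      ← mul_sum, sum_sub_distrib, ← h6, nrm_add_of_orth (by
        rw [classInner_smul_right, ξ.2.inner_of_ne isIrrCharacter_one h1, mul_zero]), nrm_ofReal_smul, ξ.2.nrm_eq,
      isIrrCharacter_one.nrm_eq, ← H1.card_mul_relIndex (centralizer_le_normalizer (P : Set G)), card_C hs hP, h2] at h3
    refine lt_of_mul_lt_mul_left (a := (Nat.card (resOf p (𝒞 P)) : ℝ)) ?_ (Nat.cast_nonneg _)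
    refine lt_of_eq_of_lt (by simp) (h3.trans_eq ?_)
    push_cast; ring
  · rw [← cj_eq_of_mem_normalizer hn, ← cj_centralizer]
    exact conj_mem_cj n ((hA a).1 ha).1
  · rw [hA] at ha hb
    obtain ⟨x, hx, v, hv, rfl⟩ := hC.exists_mul_resOf ha.1
    obtain ⟨y, hy, w, hw, e⟩ := hC.exists_mul_resOf hb.1
    have h4 := isPPart_mul (pElt_of_mem hP.pgrp hx) (k x hx v hv).2 (k x hx v hv).1
    have h5 := isPPart_mul (pElt_of_mem hP.pgrp hy) (k y hy w hw).2 (k y hy w hw).1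
    rw [← e] at h5
    have h6 := cj_centralizer_singleton g x
    rw [(h4.conj g).unique h5, hs x hx (mt h4.eq_one_iff.1 (not_not.2 ha.2)), hs y hy (mt h5.eq_one_iff.1 (not_not.2 hb.2)),
      ← mem_normalizer_iff_cj] at h6
    obtain ⟨n, hn, h7⟩ := hC.frattini h6
    simpa using mul_mem (centralizer_le_normalizer _ hn) h7

theorem star_bound [Fintype (𝒞 P)] {e t : ℕ} (he : (𝒞 P).relIndex (𝒩 P) = e) (hq : Nat.card P = e * t + 1) (het : e < t)
    {ξ : IrrCharacter G} (h1 : (ξ : G → ℂ) ≠ fun _ => 1) (hk : ¬ P ≤ charKer (ξ : G → ℂ))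
    (hd : charDegree (ξ : G → ℂ) + 3 ≤ Nat.card P) {a : ℕ} (ha : ⟪fun c : 𝒞 P => (ξ : G → ℂ) c, fun _ => 1⟫ = a) :
    Nat.card P * a ≤ charDegree (ξ : G → ℂ) + e * a := by
  obtain ⟨M, hM⟩ := exists_pMod p
  by_cases hξ : ξ ∈ principalBlock M G
  swap
  · exact le_add_right (star_out hs hP hξ ha)
  have := Fintype.ofFinite P
  obtain ⟨m, J, h2, h3, h4⟩ := glob_count hs (ξ.2.isCharacter.res P) fun g _ x y h => h ▸ ξ.2.isClassFunction.conj_apply _ _
  have h5 := inner_one_le (star_comm hs) ξ.2.isCharacter ha h2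
  obtain rfl | h6 := a.eq_zero_or_pos
  · simp
  have h7 : 0 < J := Nat.pos_of_ne_zero fun e' => hk ((le_charKer_iff_inner ξ.2.isCharacter P).2 (by
    rw [h2, show (ξ : G → ℂ) 1 = _ from h3, e', mul_zero, add_zero]))
  have h8 : 0 < e := he ▸ Nat.pos_of_ne_zero index_ne_zero_of_finite
  have h9 := fun c hc => star_in hs hP hξ h1 h2 (c := c) hc
  rw [charDegree_eq (show (ξ : G → ℂ) 1 = _ from h3), he, hq] at *
  have h10 : ∀ c : ℝ, 0 ≤ c → (e * t + 1) * (m ^ 2 + e * J + c ^ 2 + 2 * (c * m)) - (m + e * J + c) ^ 2 <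
      e * (e * t + 1) * (1 + c ^ 2) := fun c hc => by
    have := h9 c hc
    push_cast at this h4
    nlinarith [mul_le_mul_of_nonneg_left h4 (show (0 : ℝ) ≤ e * t + 1 by positivity)]
  obtain ⟨h11, h12⟩ := arith_BL (e := e) (t := t) (m := m) (J := J) (by omega) (by omega) (by omega) (by omega)
    (by zify at hd; omega) (by have := h10 0 le_rfl; rify; nlinarith) fun ⟨h11, h12⟩ => by
      obtain rfl : m = 1 := by omega
      obtain rfl : J = 1 := by omega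
      have h13 : (0 : ℝ) < e := by exact_mod_cast h8
      have h14 : (e : ℝ) + 1 ≤ t := by exact_mod_cast het
      have h15 := mul_lt_mul_of_pos_left (h10 (e : ℝ)⁻¹ (by positivity)) (pow_pos h13 2)
      field_simp at h15
      push_cast at h15
      nlinarith [mul_le_mul_of_nonneg_left h14 (show (0 : ℝ) ≤ e * (e ^ 2 + e + 1) by positivity)]
  obtain rfl : m = 1 := by omega
  obtain rfl : a = 1 := by omega
  obtain rfl : t = J + 1 := by omega
  nlinarith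

theorem BL_main (hK : ∀ K : Subgroup G, K.Normal → P ≤ K → K = ⊤) {χ : G → ℂ} (hχ : IsIrrCharacter G χ)
    (h1 : χ ≠ fun _ => 1) (hd : charDegree χ ^ 2 + 1 < Nat.card P) : PNil p (⊤ : Subgroup G) ∧ charDegree χ = 1 := by
  have := Fintype.ofFinite G
  have := Fintype.ofFinite P
  have := Fintype.ofFinite (𝒞 P)
  have hk : ∀ ξ, IsIrrCharacter G ξ → ξ ≠ (fun _ => 1) → ¬ P ≤ charKer ξ := fun ξ h h' e =>
    h' (h.eq_one_of_charKer_eq_top (hK _ h.isClassFunction.charKer_normal e))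
  obtain ⟨t, hq⟩ := glob_q hs
  obtain ⟨m, J, h2, h3, -⟩ := glob_count hs (hχ.isCharacter.res P) fun g _ x y h => h ▸ hχ.isClassFunction.conj_apply _ _
  have h4 := glob_nrm hs hχ.isCharacter (hk χ hχ h1)
  have h7 : 0 < J := Nat.pos_of_ne_zero fun e' => hk χ hχ h1 ((le_charKer_iff_inner hχ.isCharacter P).2 (by
    rw [h2, show χ 1 = _ from h3, e', mul_zero, add_zero]))
  have h8 : 0 < (𝒞 P).relIndex (𝒩 P) := Nat.pos_of_ne_zero index_ne_zero_of_finite
  replace h3 := charDegree_eq (show χ 1 = _ from h3)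
  generalize he : (𝒞 P).relIndex (𝒩 P) = e at *
  have het : e < t := by nlinarith [Nat.pow_le_pow_left (show e ≤ charDegree χ by nlinarith) 2]
  have h5 : ⟪χ * fun g => conj (χ g), fun _ => 1⟫ = 1 := by simpa [classInner_mul_left] using hχ.inner_self
  have h6 := (hχ.isCharacter.mul hχ.isCharacter.conj).sub_of_inner_ne_zero isIrrCharacter_one (h5.trans_ne one_ne_zero)
  obtain ⟨c, h9, h10⟩ := h6.exists_nat_coeffs
  obtain ⟨w, hw⟩ := (hχ.isCharacter.res (𝒞 P)).isGen.exists_nat_inner_self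
  choose a ha using fun ξ : IrrCharacter G => (ξ.2.isCharacter.res (𝒞 P)).exists_nat_inner isCharacter_one
  have h11 : charDegree χ ^ 2 = ∑ ξ, c ξ * charDegree (ξ : G → ℂ) + 1 := Nat.cast_injective (R := ℂ) (by
    simpa [sub_eq_iff_eq_add, IsIrrCharacter.cast_charDegree, hχ.cast_charDegree, hχ.isCharacter.conj_apply_one, sq,
      fun ξ : IrrCharacter G => ξ.2.cast_charDegree] using congrFun h10 1)
  have h12 : w = ∑ ξ, c ξ * a ξ + 1 := Nat.cast_injective (R := ℂ) (by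
    have h : ⟪((fun x : 𝒞 P => χ x) * fun x : 𝒞 P => conj (χ x)) - fun _ => 1, fun _ => 1⟫ =
        ⟪∑ ξ : IrrCharacter G, (c ξ : ℂ) • fun x : 𝒞 P => (ξ : G → ℂ) x, fun _ => 1⟫ :=
      congrArg (fun f : 𝒞 P → ℂ => ⟪f, fun _ => 1⟫) (funext fun x => by simpa using congrFun h10 x)
    rw [classInner_sum_left, classInner_sub_left, classInner_mul_left] at h
    simpa [classInner_smul_left, ha, hw, isIrrCharacter_one.inner_self, sub_eq_iff_eq_add] using h)
  have h13 : Nat.card P * ∑ ξ, c ξ * a ξ ≤ ∑ ξ, c ξ * charDegree (ξ : G → ℂ) + e * ∑ ξ, c ξ * a ξ := by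
    rw [mul_sum, mul_sum, ← sum_add_distrib]
    refine sum_le_sum fun ξ _ => ?_
    obtain h | h := (c ξ).eq_zero_or_pos
    · simp [h]
    have h' : (ξ : G → ℂ) ≠ fun _ => 1 := fun e' => h.ne' (Nat.cast_injective (R := ℂ) (by
      rw [← h9, e', classInner_sub_left, h5, isIrrCharacter_one.inner_self, sub_self, Nat.cast_zero]))
    have := single_le_sum (f := fun ξ : IrrCharacter G => c ξ * charDegree (ξ : G → ℂ)) (fun _ _ => Nat.zero_le _) (mem_univ ξ)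
    nlinarith [Nat.mul_le_mul_left (c ξ) (star_bound hs hP he hq het h' (hk _ ξ.2 h') (by nlinarith) (ha ξ))]
  rw [nrm_eq_natCast hw, Nat.cast_le] at h4
  obtain rfl : w = 1 := by
    generalize ∑ ξ, c ξ * a ξ = u at *
    by_contra h
    obtain ⟨r, hr⟩ := Nat.exists_eq_add_of_le (show e + e ≤ Nat.card P by nlinarith)
    rw [hr] at h13 hd
    obtain h' | h' := le_or_gt e 2
    · nlinarith [Nat.mul_le_mul_left (e + r) (show 1 ≤ u by omega)]
    · nlinarith [Nat.mul_le_mul_left (e + r) (show 2 ≤ u by omega)]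
  obtain rfl : e = 1 := by omega
  refine ⟨hP.pNil_of_normalizer_le (inf_le_right.trans (relIndex_eq_one.1 he)), ?_⟩
  have h14 := (hχ.isCharacter.res (𝒞 P)).irr_of_inner_self (by simpa using hw)
  have h15 := hχ.degree_sq_le_index (hK _ hχ.isClassFunction.charCenter_normal fun x hx =>
    hχ.isCharacter.mem_charCenter_iff.2 (h14.isCharacter.mem_charCenter_iff.1 (h14.center_le_charCenter
      (show (⟨x, star_comm hs hx⟩ : 𝒞 P) ∈ _ from mem_center_iff.2 fun y => Subtype.ext (y.2 x hx).symm)))).ge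
  rw [index_top] at h15
  nlinarith [hχ.charDegree_pos]

end Glob

theorem BL_normal {p : ℕ} [Fact p.Prime] (n : ℕ) : ∀ (G : Type u) [Group G] [Finite G], Nat.card G = n → ∀ P : Subgroup G,
    SylIn p P ⊤ → (∀ x ∈ P, x ≠ 1 → 𝒞₁ x = 𝒞 P) → ∀ χ : G → ℂ, IsCharacter G χ → (∀ g, χ g = χ 1 → g = 1) →
    charDegree χ ^ 2 + 1 < Nat.card P → P.Normal := by
  induction n using Nat.strong_induction_on with | _ n ih => ?_
  intro G _ _ hn P hP hs χ hχ hf hd
  by_cases hK : ∀ K : Subgroup G, K.Normal → P ≤ K → K = ⊤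
  · have := Fintype.ofFinite G
    have h1 : commutator G = ⊥ := eq_bot_iff.2 fun g hg => hf g ((hχ.isClassFunction.apply_eq_sum_irr g).trans
      ((sum_congr rfl fun ξ _ => ?_).trans (hχ.isClassFunction.apply_eq_sum_irr 1).symm))
    · exact ⟨fun x hx g => by rwa [mem_center_iff.1 ((commutator_eq_bot_iff_center_eq_top G).1 h1 ▸ mem_top x) g,
        mul_inv_cancel_right]⟩
    by_cases e : ⟪χ, ξ⟫ = 0
    · rw [e, zero_mul, zero_mul]
    by_cases e' : (ξ : G → ℂ) = fun _ => 1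
    · rw [e']
    have h2 := (BL_main hs hP hK ξ.2 e' (by nlinarith [hχ.degree_le_of_inner_ne_zero ξ.2 e])).2
    rw [apply_of_mem_charKer (ξ.2.degree_eq_one_iff.1 (by rw [← ξ.2.cast_charDegree, h2, Nat.cast_one]) hg)]
  push Not at hK
  obtain ⟨K, h1, h2, h3⟩ := hK
  have h4 := (normal_subgroupOf_iff_le_normalizer h2).1 (ih _ (hn ▸ card_lt_of_ne_top h3) K rfl _
    (subgroupOf_self K ▸ (sylIn_subgroupOf_iff le_rfl h2).2 (hP.mono h2 le_top)) (star_sub hs h2) _ (hχ.res K)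
    (fun g hg => Subtype.ext (hf g hg)) (by rwa [Nat.card_congr (subgroupOfEquivOfLe h2).toEquiv]))
  refine normalizer_eq_top_iff.1 (eq_top_iff.2 fun g _ => ?_)
  obtain ⟨k, hk, h5⟩ := (hP.mono h2 le_top).frattini (normalizer_eq_top K ▸ mem_top g)
  simpa using mul_mem (h4 hk) h5

end Cfsg.Agent.C3
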