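import Cfsg.Agent.C3.Jordan
import Cfsg.Agent.H1.Misc
import Cfsg.Agent.H1.PGrp
import Cfsg.Agent.H2.Syl
import Cfsg.Agent.H2.Count

/-! Blichfeldt's theorem on Hall subgroups of linear groups, and Jordan's theorem. -/

set_option autoImplicit false

namespace Cfsg.Agent.C3

open Cfsg H3 Subgroup Finset H2
open scoped ComplexConjugate commutatorElement

universe u

variable {G : Type u} [Group G] [Finite G] {χ ψ : G → ℂ} {p q n : ℕ}

theorem charDegree_res (χ : G → ℂ) (H : Subgroup G) : charDegree (fun x : H => χ x) = charDegree χ := rfl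

theorem comm_of_primes (hχ : IsCharacter G χ) (hf : ∀ g, χ g = χ 1 → g = 1) {B : Subgroup G}
    (h : ∀ q : ℕ, q.Prime → q ∣ Nat.card B → charDegree χ < q) : ∀ x ∈ B, ∀ y ∈ B, x * y = y * x :=
  fun x a y b => commutatorElement_eq_one_iff_mul_comm.1 (hf _ (apply_of_mem_charKer (χ := fun x : B => χ x)
    ((hχ.res B).commutator_le_charKer h (commutator_mem_commutator (mem_top (⟨x, a⟩ : B)) (mem_top ⟨y, b⟩)))))

theorem eq_one_of_constituents [Fintype G] (hχ : IsCharacter G χ) (hf : ∀ g, χ g = χ 1 → g = 1) {g : G}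
    (h : ∀ ψ, IsIrrCharacter G ψ → charDegree ψ ≤ charDegree χ → g ∈ charKer ψ) : g = 1 :=
  hf g (apply_of_mem_charKer (hχ.isClassFunction.mem_charKer_of_forall fun ψ a b =>
    h ψ a (hχ.degree_le_of_inner_ne_zero a b)))

/-- A `p`-rational character of degree `< p - 1` has all `p`-elements in its kernel. -/
theorem le_ker_of_rat (hψ : IsCharacter G ψ) (hp : p.Prime) (hd : charDegree ψ + 1 < p) {P : Subgroup G}
    (hP : IsPGroup p P) (h : ∀ y ∈ P, ∀ k : ℕ, k.Coprime (Nat.card G) → ψ (y ^ k) = ψ y) : P ≤ charKer ψ := by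
  classical
  have := Fact.mk hp
  have := Fintype.ofFinite P
  obtain ⟨M, hM⟩ := exists_isPModular hp
  have a : ∀ y : P, ψ y = charDegree ψ - if (y : G) ∈ charKer ψ then 0 else (p : ℂ) := fun y => by
    split_ifs with a
    · rw [apply_of_mem_charKer a, hψ.cast_charDegree]; simp
    obtain ⟨m, b⟩ := hψ.isGen.exists_int_of_pow y (h y y.2)
    obtain ⟨j, c⟩ := hP y
    have d := hψ.isGen.inM_sub hM (Commute.one_right (y : G)) (k := j) (congrArg Subtype.val c)
    have e := hψ.norm_apply_le y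
    rw [hψ.mem_charKer_iff, b, ← hψ.cast_charDegree] at a
    rw [mul_one, b, ← hψ.cast_charDegree] at d
    rw [b, Complex.norm_intCast] at e
    obtain ⟨t, f⟩ := (inM_int_iff hM (n := m - charDegree ψ)).1 (by simpa using d)
    have e' : |m| ≤ charDegree ψ := by exact_mod_cast e
    have a' : m ≠ charDegree ψ := fun i => a (by simp [i])
    have : t = -1 := by
      rw [abs_le] at e'
      have : (charDegree ψ : ℤ) + 1 < p := by exact_mod_cast hd
      have : t < 0 := by by_contra! i; exact a' (by nlinarith)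
      have : -2 < t := by by_contra! i; nlinarith
      omega
    rw [b, show m = charDegree ψ - p by rw [this] at f; linarith]; simp
  obtain ⟨m, b⟩ := (hψ.res P).exists_nat_inner isCharacter_one
  have c := card_mul_classInner (fun x : P => ψ x) fun _ => 1
  rw [b] at c
  simp only [a, map_one, mul_one, sum_sub_distrib, Finset.sum_ite, sum_const, card_univ, nsmul_eq_mul,
    ← Nat.card_eq_fintype_card, mul_zero, zero_add] at c
  have d := card_filter_add_card_filter_not (s := (univ : Finset P)) fun y => (y : G) ∈ charKer ψ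
  rw [← Fintype.card_subtype, ← Nat.card_eq_fintype_card, card_univ, ← Nat.card_eq_fintype_card] at d
  have e := ((charKer ψ).subgroupOf P).card_mul_index
  obtain ⟨k, f⟩ := H1.exists_relIndex_eq_pow hP (charKer ψ)
  refine relIndex_eq_one.1 (by_contra fun i => ?_)
  have j : p ≤ ((charKer ψ).subgroupOf P).index := (Nat.le_self_pow (by rintro rfl; exact i f) p).trans f.ge
  change Nat.card ((charKer ψ).subgroupOf P) + _ = _ at d
  have k : (Nat.card P : ℤ) * m = Nat.card P * charDegree ψ -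
    (filter (fun y : P => ¬ (y : G) ∈ charKer ψ) univ).card * p := by exact_mod_cast c
  have : 0 < Nat.card P := Nat.card_pos
  generalize (filter (fun y : P => ¬ (y : G) ∈ charKer ψ) univ).card = s at *
  generalize Nat.card ((charKer ψ).subgroupOf P) = t at *
  have : t * p ≤ Nat.card P := e ▸ Nat.mul_le_mul_left t j
  zify at *
  nlinarith

theorem exists_exp (hp : p.Prime) (k : ℕ) (hk : k.Coprime (Nat.card G)) : ∃ l : ℕ, l.Coprime (Nat.card G) ∧
    (∀ g : G, ¬ p ∣ orderOf g → g ^ l = g) ∧ ∀ (g : G) (j : ℕ), g ^ p ^ j = 1 → g ^ l = g ^ k := by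
  obtain ⟨a, m, b, c⟩ := Nat.exists_eq_pow_mul_and_not_dvd (Nat.card_pos (α := G)).ne' p hp.ne_one
  have d : (p ^ a).Coprime m := (hp.coprime_iff_not_dvd.2 b).pow_left a
  obtain ⟨l, e, f⟩ := Nat.chineseRemainder d k 1
  refine ⟨l, c ▸ Nat.Coprime.mul_right ?_ ?_, fun g i => ?_, fun g j i => pow_eq_pow_iff_modEq.2 (e.of_dvd ?_)⟩
  · exact (e.gcd_eq.trans (hk.coprime_dvd_right (c ▸ dvd_mul_right _ _)) :)
  · exact (f.gcd_eq.trans (Nat.gcd_one_left m) :)
  · exact (pow_eq_pow_iff_modEq.2 (f.of_dvd (((hp.coprime_iff_not_dvd.2 i).symm.pow_right a).dvd_of_dvd_mul_left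
      (c ▸ orderOf_dvd_natCard g)))).trans (pow_one g)
  · obtain ⟨t, -, i⟩ := (Nat.dvd_prime_pow hp).1 (orderOf_dvd_of_pow_eq_one i)
    exact (i ▸ (hp.coprime_iff_not_dvd.2 b).pow_left t : (orderOf g).Coprime m).dvd_of_dvd_mul_right
      (c ▸ orderOf_dvd_natCard g)

theorem exists_commute (hχ : IsCharacter G χ) (hf : ∀ g, χ g = χ 1 → g = 1) (hp : p.Prime) (hq : q.Prime)
    (h1 : charDegree χ + 1 < p) (h2 : charDegree χ + 1 < q) (h3 : p ∣ Nat.card G) (h4 : q ∣ Nat.card G) :
    ∃ x y : G, orderOf x = p ∧ orderOf y = q ∧ Commute x y := by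
  have := Fintype.ofFinite G
  have := Fact.mk hp
  have := Fact.mk hq
  by_contra h
  have a : ∀ g : G, p ∣ orderOf g → ¬ q ∣ orderOf g := fun g a b => h ⟨_, _,
    orderOf_pow_orderOf_div (orderOf_pos g).ne' a, orderOf_pow_orderOf_div (orderOf_pos g).ne' b,
    Commute.pow_pow_self _ _ _⟩
  obtain ⟨x, b⟩ := exists_prime_orderOf_dvd_card' p h3
  obtain ⟨y, c⟩ := exists_prime_orderOf_dvd_card' q h4
  refine h ⟨x, y, b, c, commutatorElement_eq_one_iff_commute.1 (eq_one_of_constituents hχ hf fun ψ d e => ?_)⟩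
  have := d.isClassFunction.charKer_normal
  have f : ∀ {p : ℕ} {x : G}, p.Prime → charDegree χ + 1 < p → orderOf x = p → x ∉ charKer ψ →
      ∃ l : ℕ, l.Coprime (Nat.card G) ∧ (∀ g : G, ¬ p ∣ orderOf g → g ^ l = g) ∧ (fun g => ψ (g ^ l)) ≠ ψ :=
    fun {p x} hp h1 b f => by_contra fun i => f (by
      have j := isPGroup_zpowers_of_orderOf (b.trans (pow_one p).symm)
      refine le_ker_of_rat d.isCharacter hp (by omega) j (fun z k t l => ?_) (mem_zpowers x)
      obtain ⟨l, m, n, o⟩ := exists_exp hp t l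
      obtain ⟨s, r⟩ := isPGroup_iff_forall.1 j z k
      rw [← o z s r]
      exact congrFun (by_contra fun r => i ⟨l, m, n, r⟩ : (fun g => ψ (g ^ l)) = ψ) z)
  by_contra i
  obtain ⟨k, j, l, m⟩ := f hp h1 b fun j => i (by
    simpa [commutatorElement_def, mul_assoc] using mul_mem j (this.conj_mem _ (inv_mem j) y))
  obtain ⟨k', j', l', m'⟩ := f hq h2 c fun j => i (mul_mem (this.conj_mem _ j x) (inv_mem j))
  have o : (fun g => ψ (g ^ (k * k'))) + ψ = (fun g => ψ (g ^ k)) + fun g => ψ (g ^ k') := funext fun g => by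
    simp only [Pi.add_apply]
    by_cases o : p ∣ orderOf g
    · rw [mul_comm, pow_mul, l' g (a g o)]
    · rw [pow_mul, l g o, add_comm]
  have r := congrArg (classInner · ψ) o
  simp only [classInner_add_left, d.inner_self, (d.comp_pow j).inner_of_ne d m,
    (d.comp_pow j').inner_of_ne d m'] at r
  obtain ⟨s, t⟩ := (d.comp_pow (j.mul_left j')).isCharacter.exists_nat_inner d.isCharacter
  rw [t, add_zero] at r
  exact Nat.succ_ne_zero s (by exact_mod_cast r)

theorem not_dvd_index_cent [Fact p.Prime] (P : Sylow p G) {A : Subgroup G} (hA : ∀ x ∈ A, ∀ y ∈ A, x * y = y * x)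
    (h1 : ¬ p ∣ A.index) (h2 : ¬ q ∣ A.index) : ¬ q ∣ (centralizer (P : Set G)).index := fun h => by
  obtain ⟨R, a⟩ := exists_sylIn p A
  obtain ⟨g, -, b⟩ := (a.trans_of_not_dvd le_top (by simpa)).exists_cj_eq (sylIn_top P)
  refine h2 (h.trans ?_)
  rw [← relIndex_top_right (H := A), ← relIndex_cj g, cj_top, relIndex_top_right]
  refine index_dvd_of_le ?_
  change _ ≤ centralizer ((P : Subgroup G) : Set G)
  rw [← b, ← cj_centralizer]
  exact cj_mono g fun x c y d => hA y (a.le d) x c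

theorem blich_aux (m : ℕ) : ∀ (G : Type u) [Group G] [Finite G] {χ : G → ℂ}, Nat.card G = m →
    IsCharacter G χ → (∀ g, χ g = χ 1 → g = 1) → ∃ A : Subgroup G, IsPiHall {q | charDegree χ + 1 < q} A := by
  induction m using Nat.strong_induction_on with | _ m ih =>
  intro G _ _ χ hm hχ hf
  have := Fintype.ofFinite G
  set π := {q | charDegree χ + 1 < q}
  have IH : ∀ H : Subgroup G, H ≠ ⊤ → ∃ A, IsPiHallOf π A H := fun H a =>
    (ih _ (hm ▸ H1.card_lt_of_ne_top a) H rfl (hχ.res H) fun g b => Subtype.ext (hf _ b)).elim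
      fun A b => ⟨_, H1.isPiHallOf_map_subtype b⟩
  have ab : ∀ {B : Subgroup G}, (∀ q : ℕ, q.Prime → q ∣ Nat.card B → q ∈ π) → ∀ x ∈ B, ∀ y ∈ B, x * y = y * x :=
    fun a => comm_of_primes hχ hf fun q b c => Nat.lt_of_succ_lt (a q b c)
  have idx : ∀ {A H : Subgroup G} {q : ℕ}, IsPiHallOf π A H → q.Prime → q ∈ π → ¬ q ∣ H.index → ¬ q ∣ A.index :=
    fun a b c d => relIndex_mul_index a.1 ▸ b.not_dvd_mul (a.2.2 _ b c) d
  have fin : ∀ H : Subgroup G, H ≠ ⊤ → (∀ q : ℕ, q.Prime → q ∈ π → ¬ q ∣ H.index) → ∃ A : Subgroup G,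
      IsPiHall π A := fun H a b => (IH H a).imp fun A c => ⟨c.2.1, fun q d e => idx c d e (b q d e)⟩
  have pg : ∀ {p : ℕ} {P : Subgroup G}, p.Prime → p ∈ π → IsPGroup p P → ∀ q : ℕ, q.Prime → q ∣ Nat.card P →
      q ∈ π := fun {p P} a b c q d e => by
    have := Fact.mk a
    rwa [H1.isPGroup_iff_forall_prime.1 c q d e]
  have cen : ∀ {p : ℕ} {x : G}, p.Prime → p ∈ π → orderOf x = p → ¬ p ∣ (centralizer ({x} : Set G)).index :=
    fun {p x} a b c d => by
      have := Fact.mk a
      obtain ⟨P, e⟩ := (isPGroup_zpowers_of_orderOf (c.trans (pow_one p).symm)).exists_le_sylow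
      exact P.not_dvd_index (d.trans (index_dvd_of_le fun y f => mem_centralizer_singleton_iff.2
        (ab (pg a b P.2) y f x (e (mem_zpowers x)))))
  by_cases h : ∃ z ∈ center G, ∃ r ∈ π, r.Prime ∧ orderOf z = r
  · obtain ⟨z, hz, r, a, hr, b⟩ := h
    have := Fact.mk hr
    obtain ⟨M, c, d, e, f⟩ := H1.exists_normal_residual (G := G) r
    have i : M ≠ ⊤ := fun i => hr.one_lt.ne' (by
      rw [← b, orderOf_eq_one_iff]
      refine eq_one_of_constituents hχ hf fun ψ j k => ?_
      obtain ⟨δ, l⟩ := j.isCharacter.exists_det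
      obtain ⟨s, t, n, o⟩ := Nat.exists_eq_pow_mul_and_not_dvd (Nat.card_pos (α := G)).ne' r hr.ne_one
      have v := (e (δ ^ t).ker fun g v => by
        rw [MonoidHom.mem_ker, MonoidHom.pow_apply, ← map_pow, orderOf_dvd_iff_pow_eq_one.1
          ((v.pow_right s).dvd_of_dvd_mul_left (o ▸ orderOf_dvd_natCard g)), map_one]) (i.ge (mem_top z))
      obtain ⟨μ, w⟩ := exists_linear_of_le_charCenter j.apply_one_ne_zero j.center_le_charCenter
      have x := congrFun l z
      rw [j.isCharacter.detChar_of_scalar (w ⟨z, hz⟩)] at x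
      have y : μ ⟨z, hz⟩ ^ (charDegree ψ * t) = 1 := by
        rw [pow_mul]; exact Units.ext (by simpa [x] using congrArg Units.val v)
      have y' : μ ⟨z, hz⟩ ^ r = 1 := by
        rw [← map_pow, ← map_one μ]
        exact congrArg μ (Subtype.ext (by rw [← b]; exact pow_orderOf_eq_one z))
      have : μ ⟨z, hz⟩ = 1 := orderOf_eq_one_iff.1 (Nat.eq_one_of_dvd_coprimes
        (hr.coprime_iff_not_dvd.2 (hr.not_dvd_mul (Nat.not_dvd_of_pos_of_lt j.charDegree_pos
          (by have : _ < r := a; omega)) n)) (orderOf_dvd_of_pow_eq_one y') (orderOf_dvd_of_pow_eq_one y))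
      exact mem_charKer.2 fun g => by simpa [this] using w ⟨z, hz⟩ g)
    have j : ∀ q : ℕ, q.Prime → q ≠ r → ¬ q ∣ M.index := fun q j k l =>
      k ((Nat.prime_dvd_prime_iff_eq j hr).1 (f q j l))
    obtain ⟨A, k⟩ := IH M i
    obtain ⟨R⟩ := (inferInstance : Nonempty (Sylow r G))
    by_cases l : centralizer (R : Set G) = ⊤
    · refine ⟨A ⊔ R, H1.pi_sup (le_top.trans (l.ge.trans (centralizer_le_normalizer _))) k.2.1 (pg hr a R.2),
        fun q n o s => ?_⟩
      by_cases t : q = r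
      · exact R.not_dvd_index ((dvd_of_eq t.symm).trans (s.trans (index_dvd_of_le le_sup_right)))
      · exact idx k n o (j q n t) (s.trans (index_dvd_of_le le_sup_left))
    refine fin _ l fun q n o => ?_
    by_cases t : q = r
    · exact not_dvd_index_cent R (ab (pg hr a R.2)) R.not_dvd_index fun s => R.not_dvd_index ((dvd_of_eq t.symm).trans s)
    have := Fact.mk n
    obtain ⟨Q, s⟩ := exists_sylIn q A
    have v := s.trans_of_not_dvd k.1 (k.2.2 q n o)
    obtain ⟨S, w⟩ := exists_sylIn r (normalizer (Q : Set G))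
    have x : ¬ r ∣ (normalizer (Q : Set G)).index := fun x => k.2.2 r hr a (x.trans (by
      rw [← H1.forall_mul_iff_relIndex_eq_index.1 fun g => (v.frattini (le_normalizer_of_normal (K := ⊤)
        (mem_top g))).elim fun y ⟨h1, h2⟩ => ⟨y, h1, _, h2, by simp⟩]
      exact relIndex_dvd_of_le_left _ ((le_centralizer_iff.1 fun y h1 u h2 => ab k.2.1 u h2 y (s.le h1)).trans
        (centralizer_le_normalizer _))))
    refine not_dvd_index_cent R (ab (H1.pi_sup w.le (pg hr a w.pgrp) (pg n o s.pgrp))) (fun y => ?_) fun y => ?_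
    · exact (w.trans_of_not_dvd le_top (by simpa)).not_dvd_relIndex
        (by simpa using y.trans (index_dvd_of_le le_sup_left))
    · exact (v.trans_of_not_dvd le_top (by simpa using j q n t)).not_dvd_relIndex
        (by simpa using y.trans (index_dvd_of_le le_sup_right))
  by_cases h0 : ∀ p : ℕ, p.Prime → p ∈ π → ¬ p ∣ Nat.card G
  · exact ⟨⊥, fun p a b => absurd (by simpa using b) a.one_lt.ne', by simpa using h0⟩
  push Not at h0
  obtain ⟨p, hp, a, b⟩ := h0
  have := Fact.mk hp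
  obtain ⟨P⟩ := (inferInstance : Nonempty (Sylow p G))
  have nc : ∀ {q : ℕ} {x : G}, q.Prime → q ∈ π → orderOf x = q → centralizer ({x} : Set G) ≠ ⊤ :=
    fun {q x} c d e f => h ⟨x, mem_center_iff.2 fun g => mem_centralizer_singleton_iff.1 (f.ge (mem_top g)),
      q, d, c, e⟩
  refine fin (centralizer (P : Set G)) (fun c => ?_) fun q hq c d => ?_
  · obtain ⟨x, d, e⟩ := H1.exists_mem_orderOf_eq_prime hp (P.dvd_card_of_dvd_card b)
    exact nc hp a e (top_le_iff.1 (c.ge.trans (centralizer_le (by simpa))))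
  obtain ⟨x, y, e, f, i⟩ := exists_commute hχ hf hp hq a c b (d.trans (index_dvd_card _))
  obtain ⟨A, j⟩ := IH _ (nc hp a e)
  obtain ⟨y', k, l⟩ := H1.exists_mem_orderOf_eq_prime hq ((hq.dvd_mul.1 (H1.card_mul_relIndex j.1 ▸ f ▸
    H1.orderOf_dvd_card_of_mem (mem_centralizer_singleton_iff.2 i.symm))).resolve_right (j.2.2 q hq c))
  obtain ⟨B, n⟩ := IH _ (nc hq c l)
  exact not_dvd_index_cent P (ab n.2.1) (idx n hp a fun o => idx j hp a (cen hp a e) (o.trans (index_dvd_of_le
    fun w o => mem_centralizer_singleton_iff.2 (ab j.2.1 w o y' k)))) (idx n hq c (cen hq c l)) d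

theorem exists_abelian_dvd_factorial [Group.IsNilpotent G] (hχ : IsCharacter G χ) :
    ∃ B : Subgroup G, B.Normal ∧ B.index ∣ (charDegree χ).factorial ∧ ⁅B, B⁆ ≤ charKer χ := by
  have := Fintype.ofFinite G
  refine hχ.induction_on (P := fun χ => ∃ B : Subgroup G, B.Normal ∧ B.index ∣ (charDegree χ).factorial ∧
    ⁅B, B⁆ ≤ charKer χ) ⟨⊤, inferInstance, by simp, fun _ _ => mem_charKer.2 fun _ => rfl⟩
    fun φ ψ a b ⟨B, c, d, e⟩ => ?_
  obtain ⟨H, l, f⟩ := a.exists_eq_ind_linear
  refine ⟨H.normalCore ⊓ B, inferInstance, ?_, fun x i => mem_charKer.2 fun y => ?_⟩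
  · rw [charDegree_eq (χ := φ + ψ) (n := H.index + charDegree ψ) (by simp [f, indFun_one, b.cast_charDegree])]
    refine Dvd.dvd.trans ?_ (Nat.factorial_mul_factorial_dvd_factorial_add _ _)
    rw [← relIndex_mul_index inf_le_right, inf_relIndex_right]
    refine mul_dvd_mul ((relIndex_dvd_index_of_normal _ _).trans ?_) d
    classical
    have := Fintype.ofFinite (G ⧸ H)
    rw [normalCore_eq_ker, index_ker]
    refine (card_subgroup_dvd_card _).trans (dvd_of_eq ?_)
    rw [Nat.card_eq_fintype_card, Fintype.card_perm, ← Nat.card_eq_fintype_card, ← index_eq_card]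
  · have j : ⁅H.normalCore, H.normalCore⁆ ≤ charKer φ := by
      rw [f, le_charKer_ind_iff ((commutator_le_left _ _).trans H.normalCore_le) (isCharacter_linear l),
        charKer_linear]
      have : ⁅H.normalCore, H.normalCore⁆ ≤ l.ker.map H.subtype := commutator_le.2 fun a ha b hb =>
        ⟨⁅(⟨a, H.normalCore_le ha⟩ : H), ⟨b, H.normalCore_le hb⟩⁆, by
          change l _ = 1
          rw [map_commutatorElement, commutatorElement_eq_one_iff_mul_comm, mul_comm], rfl⟩
      intro x hx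
      obtain ⟨y, hy, h4⟩ := this hx
      rwa [← Subtype.ext h4]
    simp only [Pi.add_apply, mem_charKer.1 (j (commutator_mono inf_le_left inf_le_left i)) y,
      mem_charKer.1 (e (commutator_mono inf_le_right inf_le_right i)) y]

end Cfsg.Agent.C3
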