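import Cfsg.Agent.H1.Frattini
import Cfsg.Agent.H1.Coprime

/-! Fixed-point-free automorphisms of order four; reduction for nilpotent derived subgroups. -/

set_option autoImplicit false

namespace Cfsg.Agent.C3.FP

open Subgroup commutatorElement

universe u

theorem der_nil {ι : Type*} (Q : ∀ (Γ : Type u) [Group Γ], Subgroup Γ → (ι → Γ) → Prop)
    (hq : ∀ (Γ : Type u) [Group Γ] [Finite Γ] (K : Subgroup Γ) [K.Normal] (a : ι → Γ) (V : Subgroup Γ) [V.Normal],
      Group.IsSolvable K → V ≤ K → Q Γ K a → Q (Γ ⧸ V) (K.map (QuotientGroup.mk' V)) (fun i => (a i : Γ ⧸ V)))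
    (hm : ∀ (Γ : Type u) [Group Γ] [Finite Γ] (K : Subgroup Γ) [K.Normal] (a : ι → Γ) (V : Subgroup Γ) [V.Normal] (p : ℕ),
      p.Prime → Group.IsSolvable K → V ≠ ⊥ → V ≤ K → IsElementaryAbelian p V →
      (∀ M : Subgroup Γ, M.Normal → M ≤ V → M = ⊥ ∨ M = V) → Q Γ K a → ⁅K, K⁆ ≤ centralizer (V : Set Γ))
    (n : ℕ) : ∀ (Γ : Type u) [Group Γ] [Finite Γ] (K : Subgroup Γ) [K.Normal] (a : ι → Γ), Nat.card Γ = n →
      Group.IsSolvable K → Q Γ K a → Group.IsNilpotent ↥⁅K, K⁆ := by
  induction n using Nat.strong_induction_on with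
  | _ n ih =>
  intro Γ _ _ K _ a hn hs hQ
  by_cases hK : K = ⊥
  · subst hK; rw [commutator_bot_left]; infer_instance
  obtain ⟨V, p, hVn, hV, hVK, hp, hE, hmin⟩ := H1.exists_minimal_normal_elementary K hK hs
  have hc := hm Γ K a V p hp hs hV hVK hE hmin hQ
  have hlt : Nat.card (Γ ⧸ V) < n := by
    rw [← hn, ← V.card_mul_index, ← index_eq_card]
    exact lt_mul_of_one_lt_left (Nat.pos_of_ne_zero V.index_ne_zero_of_finite) ((one_lt_card_iff_ne_bot V).2 hV)
  haveI : (K.map (QuotientGroup.mk' V)).Normal := Normal.map inferInstance _ (QuotientGroup.mk'_surjective V)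
  have h := ih _ hlt (Γ ⧸ V) (K.map (QuotientGroup.mk' V)) _ rfl
    (solvable_of_surjective (MonoidHom.subgroupMap_surjective (QuotientGroup.mk' V) K)) (hq Γ K a V hs hVK hQ)
  rw [← map_commutator] at h
  refine Subgroup.isNilpotent_of_ker_le_center ((QuotientGroup.mk' V).subgroupMap ⁅K, K⁆) fun x hx => ?_
  have hx' : (x : Γ) ∈ V := (QuotientGroup.eq_one_iff _).1 (congrArg Subtype.val hx)
  exact mem_center_iff.2 fun y => Subtype.ext (hc y.2 _ hx').symm

theorem norm4 {V : Type*} [CommGroup V] {t : MulAut V} (ht : t ^ 4 = 1) (hf : ∀ v, t v = v → v = 1) (v : V) :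
    v * t v * t (t v) * t (t (t v)) = 1 := by
  apply hf
  have : t (t (t (t v))) = v := by simpa [pow_succ] using DFunLike.congr_fun ht v
  simp only [map_mul, this]
  ac_rfl

theorem lemA {V : Type*} [CommGroup V] [Finite V] {t : MulAut V} (ht : t ^ 4 = 1) (hf : ∀ v, t v = v → v = 1)
    (f : MulAut V →* MulAut V) (hft : ∀ a, t * a = f a * t)
    (B : Subgroup (MulAut V)) (hc : ∀ a ∈ B, ∀ b ∈ B, a * b = b * a) (hn : ∀ a ∈ B, f a ∈ B)
    (hinv : ∀ a ∈ B, f (f a) = a⁻¹) (hodd : ∀ a ∈ B, a * a = 1 → a = 1)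
    (hco : (Nat.card B).Coprime (Nat.card V)) (hconj : ∀ a ∈ B, IsConj t (a * t)) : B = ⊥ := by
  classical
  haveI := Fintype.ofFinite B
  let β : B → B := fun a => ⟨f a, hn _ a.2⟩
  have hβ : Function.Bijective β := Finite.injective_iff_bijective.1 fun a b h => by
    have := congrArg (fun x : B => f x) h
    simp only [β, hinv _ a.2, hinv _ b.2, inv_inj] at this
    exact Subtype.ext this
  have hγ : Function.Bijective (fun a => a * β a) := Finite.injective_iff_bijective.1 fun ⟨a, ha⟩ ⟨b, hb⟩ h => by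
    have h1 : a * f a = b * f b := congrArg Subtype.val h
    have hd : b⁻¹ * a ∈ B := B.mul_mem (B.inv_mem hb) ha
    have h2 : f (b⁻¹ * a) = (b⁻¹ * a)⁻¹ := by
      rw [map_mul, map_inv, ← hc _ (hn _ ha) _ (B.inv_mem (hn _ hb))]
      calc f a * (f b)⁻¹ = a⁻¹ * (a * f a) * (f b)⁻¹ := by group
        _ = _ := by rw [h1]; group
    have h3 := hinv _ hd
    rw [h2, map_inv, h2, inv_inv] at h3
    have := hodd _ hd (by nth_rewrite 1 [h3]; exact inv_mul_cancel _)
    exact Subtype.ext (inv_mul_eq_one.1 this).symm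
  have key : ∀ v : V, v ^ Nat.card B = ∏ a : B, a.1 v := fun v => by
    have h1 : ∀ a : B, v * a.1 (t v) * (a * β a).1 (t (t v)) * (β a).1 (t (t (t v))) = 1 := fun ⟨a, ha⟩ => by
      obtain ⟨c, hc'⟩ := isConj_iff.1 (hconj _ ha)
      have := norm4 (t := a * t) (by rw [← hc', conj_pow, ht]; simp) (fun w hw => by
        rw [← hc'] at hw
        have : t (c⁻¹ w) = c⁻¹ w := by
          apply c.injective; simpa using hw
        simpa using congrArg c (hf _ this)) v
      have e2 : a * t * (a * t) = a * f a * (t * t) := by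
        rw [mul_assoc, ← mul_assoc t, hft]; simp only [mul_assoc]
      have e3 : a * t * (a * t * (a * t)) = f a * (t * (t * t)) := by
        rw [e2, mul_assoc, ← mul_assoc t, hft, map_mul, hinv _ ha, hc _ (hn _ ha) _ (B.inv_mem ha)]; group
      have f2 := DFunLike.congr_fun e2 v
      have f3 := DFunLike.congr_fun e3 v
      simp only [MulAut.mul_apply] at this f2 f3
      rw [f3, f2] at this
      exact this
    have h2 := Finset.prod_eq_one (s := Finset.univ) fun a _ => h1 a
    simp only [Finset.prod_mul_distrib, Finset.prod_const, Finset.card_univ] at h2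
    rw [hγ.prod_comp (fun a : B => a.1 (t (t v))), hβ.prod_comp (fun a : B => a.1 (t (t (t v))))] at h2
    have h3 := Finset.prod_eq_one (s := Finset.univ) fun (a : B) _ => (congrArg a.1 (norm4 ht hf v)).trans (map_one _)
    simp only [map_mul, Finset.prod_mul_distrib] at h3
    rw [Nat.card_eq_fintype_card]
    exact mul_right_cancel (mul_right_cancel (mul_right_cancel (h2.trans h3.symm)))
  refine (eq_bot_iff_forall _).2 fun b hb => MulEquiv.ext fun v => ?_
  apply (powCoprime hco.symm).injective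
  simp only [powCoprime_apply, MulAut.one_apply]
  rw [← map_pow, key v, map_prod]
  exact (Group.mulLeft_bijective (⟨b, hb⟩ : B)).prod_comp (fun a : B => a.1 v)

theorem fpf_quot {Γ Δ : Type*} [Group Γ] [Finite Γ] [Group Δ] (π : Γ →* Δ) {K : Subgroup Γ} [K.Normal] {s : Γ}
    (h : ∀ k ∈ K, s * k * s⁻¹ = k → k = 1) : (∀ k ∈ K.map π, π s * k * (π s)⁻¹ = k → k = 1) ∧
      ∀ k ∈ K, ∃ c ∈ K, k = c * (s * c * s⁻¹)⁻¹ := by
  have hs : ∀ (N : Subgroup Γ) [N.Normal], N ≤ K → ∀ k ∈ N, ∃ c ∈ N, k = c * (s * c * s⁻¹)⁻¹ := fun N _ hN k hk => by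
    have : MonoidHom.FixedPointFree (MulAut.conjNormal (H := N) s) := fun g hg =>
      Subtype.ext (h _ (hN g.2) (congrArg Subtype.val hg))
    obtain ⟨c, hc⟩ := this.commutatorMap_surjective ⟨k, hk⟩
    exact ⟨c, c.2, by simpa [div_eq_mul_inv] using (congrArg Subtype.val hc).symm⟩
  refine ⟨?_, hs K le_rfl⟩
  rintro _ ⟨k, hk, rfl⟩ he
  obtain ⟨c, hc, e⟩ := hs (K ⊓ π.ker) inf_le_left (k⁻¹ * (s * k * s⁻¹))
    ⟨K.mul_mem (K.inv_mem hk) (Normal.conj_mem inferInstance _ hk _), show π _ = 1 by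
      rw [map_mul, map_mul, map_mul, map_inv, map_inv, he, inv_mul_cancel]⟩
  have : k * c = 1 := h _ (K.mul_mem hk hc.1) (by
    calc s * (k * c) * s⁻¹ = k * (k⁻¹ * (s * k * s⁻¹)) * (s * c * s⁻¹) := by group
      _ = _ := by rw [e]; group)
  rw [eq_inv_of_mul_eq_one_left this, map_inv, inv_eq_one]; exact hc.2

/-- The image of `K` in the automorphism group of a minimal normal `p`-subgroup has Fitting subgroup prime to `p`. -/
theorem fit_coprime {Γ : Type*} [Group Γ] [Finite Γ] (K V : Subgroup Γ) [K.Normal] [V.Normal] {p : ℕ} (hp : p.Prime)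
    (hV : V ≠ ⊥) (hE : IsPGroup p V) (hmin : ∀ M : Subgroup Γ, M.Normal → M ≤ V → M = ⊥ ∨ M = V) :
    (Nat.card (fittingSubgroup ↥(K.map (MulAut.conjNormal (H := V))))).Coprime (Nat.card V) := by
  haveI : Fact p.Prime := ⟨hp⟩
  set π := MulAut.conjNormal (H := V)
  set H := K.map π
  have h0 : pCore p H = ⊥ := by
    set P := (pCore p H).map H.subtype
    have hP : IsPGroup p P := (H1.isPGroup_pCore p H).map _
    have hn : ∀ g : Γ, π g ∈ normalizer (P : Set (MulAut V)) := fun g =>
      H1.normalizer_le_normalizer_map_pCore p H (by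
        have := le_normalizer_map (H := K) π
        rw [normalizer_eq_top] at this
        exact this ⟨g, trivial, rfl⟩)
    let W : Subgroup V := { carrier := {v | ∀ x ∈ P, x v = v}
                            one_mem' := fun x _ => map_one x
                            mul_mem' := fun ha hb x hx => by rw [map_mul, ha x hx, hb x hx]
                            inv_mem' := fun ha x hx => by rw [map_inv, ha x hx] }
    have hW : (W.map V.subtype).Normal := ⟨by
      rintro _ ⟨v, hv, rfl⟩ g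
      refine ⟨π g v, fun x hx => ?_, rfl⟩
      have := hv _ ((mem_normalizer_iff''.1 (hn g) x).1 hx)
      simpa using congrArg (π g) this⟩
    obtain ⟨k, hk⟩ := hE.exists_card_eq
    have hk0 : k ≠ 0 := by rintro rfl; exact hV (by simpa using hk)
    obtain ⟨b, hb, hb1⟩ := hP.exists_fixed_point_of_prime_dvd_card_of_fixed_point V (hk ▸ dvd_pow_self p hk0)
      (a := 1) (fun x => map_one x.1)
    rcases hmin _ hW (map_subtype_le W) with h | h
    · exact absurd (Subtype.ext ((eq_bot_iff_forall _).1 h b ⟨b, fun x hx => hb ⟨x, hx⟩, rfl⟩)) hb1.symm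
    · rw [← map_subtype_inj, Subgroup.map_bot]
      refine (eq_bot_iff_forall _).2 fun x hx => MulEquiv.ext fun v => ?_
      obtain ⟨w, hw, e⟩ : (v : Γ) ∈ W.map V.subtype := h.symm ▸ v.2
      obtain rfl : w = v := Subtype.ext e
      exact hw x hx
  obtain ⟨k, hk⟩ := hE.exists_card_eq
  rw [hk]
  refine Nat.Coprime.pow_right _ ((Nat.coprime_comm.1 (hp.coprime_iff_not_dvd.2 fun hd => ?_)))
  obtain ⟨x, hx⟩ := exists_prime_orderOf_dvd_card' p hd
  have := H1.le_pCore_of_le_fittingSubgroup (P := zpowers (x : H)) (IsPGroup.of_card (n := 1) (by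
    rw [Nat.card_zpowers, orderOf_coe, hx, pow_one])) (zpowers_le.2 x.2)
  rw [h0, le_bot_iff, zpowers_eq_bot, OneMemClass.coe_eq_one] at this
  rw [this, orderOf_one] at hx
  exact hp.one_lt.ne hx

theorem lemB {V : Type*} [CommGroup V] [Finite V] {t : MulAut V} (ht : t ^ 4 = 1) (hf : ∀ v, t v = v → v = 1)
    (H : Subgroup (MulAut V)) (hn : t ∈ normalizer (H : Set (MulAut V))) (hs : Group.IsSolvable H)
    (hH : ∀ h ∈ H, t * h * t⁻¹ = h → h = 1) (hsurj : ∀ h ∈ H, ∃ c ∈ H, h = c * (t * c * t⁻¹)⁻¹)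
    (hodd : ∀ a ∈ H, a * a = 1 → a = 1)
    (hco : (Nat.card (fittingSubgroup H)).Coprime (Nat.card V)) : ∀ a ∈ H, ∀ b ∈ H, a * b = b * a := by
  set F := (fittingSubgroup H).map H.subtype
  have hFH : F ≤ H := map_subtype_le _
  have hnF := H1.normalizer_le_normalizer_map_fittingSubgroup H
  obtain ⟨f, hf'⟩ : ∃ f : MulAut V →* MulAut V, ∀ a, t * a * t⁻¹ = f a := ⟨(MulAut.conj t).toMonoidHom, fun _ => rfl⟩
  simp only [hf'] at hH hsurj
  have hft : ∀ a, t * a = f a * t := fun a => by rw [← hf', inv_mul_cancel_right]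
  have htF : ∀ g ∈ F, f g ∈ F := fun g hg => hf' g ▸ (mem_normalizer_iff.1 (hnF hn) g).1 hg
  have htH : ∀ g ∈ H, f g ∈ H := fun g hg => hf' g ▸ (mem_normalizer_iff.1 hn g).1 hg
  have f4 : ∀ a, f (f (f (f a))) = a := fun a => by
    simp only [← hf']
    calc _ = t ^ 4 * a * (t ^ 4)⁻¹ := by simp only [pow_succ, pow_zero, one_mul, mul_inv_rev, mul_assoc]
      _ = _ := by rw [ht]; group
  have h1 : ∀ x ∈ F, f (f x) = x⁻¹ → x = 1 := fun x hx hxi => by
    have hxy : x * f x = f x * x := by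
      obtain ⟨c, hc, e⟩ := hsurj x (hFH hx)
      have e1 : x * f x = c * (f (f c))⁻¹ := by rw [e, map_mul, map_inv]; group
      have e2 : f (f (x * f x)) = (x * f x)⁻¹ := by rw [e1]; simp only [map_mul, map_inv, f4]; group
      simp only [map_mul, map_inv, hxi] at e2
      rw [← inv_inj, ← e2, mul_inv_rev]
    have hB : closure {x, f x} ≤ F := (closure_le _).2 (by rintro _ (rfl | rfl); exacts [hx, htF _ hx])
    have hcm : ∀ a ∈ closure {x, f x}, ∀ b ∈ closure {x, f x}, a * b = b * a := fun a ha b hb =>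
      congrArg Subtype.val ((isMulCommutative_closure (k := {x, f x}) (by
        rintro _ (rfl | rfl) _ (rfl | rfl) <;> first | rfl | exact hxy | exact hxy.symm)).is_comm.comm ⟨a, ha⟩ ⟨b, hb⟩)
    have hx' : x ∈ closure {x, f x} := subset_closure (.inl rfl)
    have hy' : f x ∈ closure {x, f x} := subset_closure (.inr rfl)
    have := lemA ht hf f hft (closure {x, f x}) hcm (fun a ha => ?_) (fun a ha => ?_) (fun a ha => hodd a (hFH (hB ha))) ?_
      fun a ha => ?_
    · rw [this] at hx'; exact hx'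
    · induction ha using closure_induction with
      | mem z hz => rcases hz with rfl | rfl
                    · exact hy'
                    · rw [hxi]; exact inv_mem hx'
      | one => simpa using one_mem _
      | mul a b _ _ ha hb => simpa using mul_mem ha hb
      | inv a _ ha => simpa using inv_mem ha
    · induction ha using closure_induction with
      | mem z hz => rcases hz with rfl | rfl
                    · exact hxi
                    · rw [hxi, map_inv]
      | one => simp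
      | mul a b ha' hb' ha hb => rw [map_mul, map_mul, ha, hb, hcm _ ha' _ hb', mul_inv_rev]
      | inv a _ ha => rw [map_inv, map_inv, ha]
    · exact Nat.Coprime.coprime_dvd_left ((card_dvd_of_le hB).trans (card_map_dvd _ _)) hco
    · obtain ⟨c, hc, e⟩ := hsurj a (hFH (hB ha))
      refine isConj_iff.2 ⟨c, ?_⟩
      rw [e, ← hf']; group
  have h2 : ∀ g ∈ F, f g = g⁻¹ := fun g hg => by
    have a1 : ∀ g ∈ F, f (f g) = g := fun g hg =>
      (inv_mul_eq_one.1 (h1 (g⁻¹ * f (f g)) (F.mul_mem (F.inv_mem hg) (htF _ (htF _ hg))) (by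
        simp only [map_mul, map_inv, f4]; group))).symm
    have b1 : ∀ a ∈ F, ∃ c ∈ F, a = c * (f c)⁻¹ := fun a ha => by
      have : Function.Injective (fun c : F => (⟨c * (f c)⁻¹, F.mul_mem c.2 (F.inv_mem (htF _ c.2))⟩ : F)) := fun c d h => by
        have h' : (c : MulAut V) * (f c)⁻¹ = d * (f d)⁻¹ := congrArg Subtype.val h
        refine Subtype.ext (inv_mul_eq_one.1 (hH _ (hFH (F.mul_mem (F.inv_mem c.2) d.2)) ?_))
        rw [map_mul, map_inv]
        calc _ = (c : MulAut V)⁻¹ * (c * (f c)⁻¹) * f d := by group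
          _ = _ := by rw [h']; group
      obtain ⟨c, hc⟩ := Finite.injective_iff_surjective.1 this ⟨a, ha⟩
      exact ⟨c, c.2, (congrArg Subtype.val hc).symm⟩
    obtain ⟨c, hc, rfl⟩ := b1 g hg
    rw [map_mul, map_inv, a1 _ hc]; group
  have h3 : ∀ h ∈ H, ∀ g ∈ F, g * h = h * g := fun h hh g hg => by
    obtain ⟨c, hc, rfl⟩ := hsurj h hh
    have hcg : c⁻¹ * g * c ∈ F := (mem_normalizer_iff''.1 (hnF (le_normalizer hc)) g).1 hg
    have e1 := h2 _ (F.inv_mem hcg)
    rw [map_inv, map_mul, map_mul, map_inv, h2 _ hg] at e1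
    calc _ = c * (c⁻¹ * g * c)⁻¹⁻¹ * (f c)⁻¹ := by group
      _ = _ := by rw [← e1]; group
  intro a ha b hb
  exact h3 _ hb _ (H1.inf_centralizer_map_fittingSubgroup_le hs ⟨ha, fun g hg => h3 _ ha g hg⟩)

theorem four_nil {Γ : Type u} [Group Γ] [Finite Γ] (K : Subgroup Γ) [K.Normal] (s : Γ) (hs : Group.IsSolvable K)
    (h4 : s ^ 4 = 1) (hf : ∀ k ∈ K, s * k * s⁻¹ = k → k = 1) : Group.IsNilpotent ↥⁅K, K⁆ := by
  refine der_nil (ι := Unit) (fun Γ _ K a => a () ^ 4 = 1 ∧ ∀ k ∈ K, a () * k * (a ())⁻¹ = k → k = 1) ?_ ?_ _ Γ K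
    (fun _ => s) rfl hs ⟨h4, hf⟩
  · rintro Γ _ _ K _ a V _ - - ⟨h1, h2⟩
    exact ⟨by rw [← QuotientGroup.mk_pow, h1]; rfl, (fpf_quot (QuotientGroup.mk' V) h2).1⟩
  · rintro Γ _ _ K _ a V _ p hp hs hV hVK hE hmin ⟨h1, h2⟩
    haveI : IsMulCommutative V := hE.1
    letI : CommGroup V := { (inferInstance : Group V) with mul_comm := fun a b => hE.1.is_comm.comm a b }
    set π := MulAut.conjNormal (H := V)
    obtain ⟨q1, q2⟩ := fpf_quot π h2
    have hodd : Odd (Nat.card K) := by
      haveI : Fact (Nat.Prime 2) := ⟨Nat.prime_two⟩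
      have hP : IsPGroup 2 (zpowers (MulAut.conjNormal (H := K) (a ()))) := by
        rw [IsPGroup.iff_card, Nat.card_zpowers]
        obtain ⟨i, -, hi⟩ := (Nat.dvd_prime_pow Nat.prime_two (m := 2)).1 (orderOf_dvd_of_pow_eq_one (x := MulAut.conjNormal (H := K) (a ()))
          (n := 2 ^ 2) (by rw [← map_pow]; exact (congrArg _ h1).trans (map_one _)))
        exact ⟨i, hi⟩
      rw [← Nat.not_even_iff_odd, even_iff_two_dvd]
      intro hd
      obtain ⟨b, hb, hb1⟩ := hP.exists_fixed_point_of_prime_dvd_card_of_fixed_point K hd (a := 1) (fun x => map_one x.1)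
      exact hb1 (Subtype.ext (h2 b b.2 (congrArg Subtype.val (hb ⟨_, mem_zpowers _⟩))).symm)
    have := lemB (V := V) (t := π (a ())) (by rw [← map_pow, h1, map_one]) (fun v hv => Subtype.ext (h2 _ (hVK v.2) (congrArg Subtype.val hv)))
      (K.map π) (by
        have := le_normalizer_map (H := K) π
        rw [normalizer_eq_top] at this
        exact this ⟨_, trivial, rfl⟩) (solvable_of_surjective (MonoidHom.subgroupMap_surjective π K)) q1
      (by rintro _ ⟨k, hk, rfl⟩
          obtain ⟨c, hc, rfl⟩ := q2 k hk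
          exact ⟨_, ⟨c, hc, rfl⟩, by simp only [map_mul, map_inv]⟩)
      (fun x hx h => by
        have h5 : orderOf x ∣ 2 := orderOf_dvd_of_pow_eq_one (by rw [sq, h])
        have h6 : orderOf x ∣ Nat.card K := (orderOf_dvd_natCard _ hx).trans (card_map_dvd _ _)
        exact orderOf_eq_one_iff.1 (Nat.eq_one_of_dvd_coprimes (Nat.coprime_two_left.2 hodd) h5 h6))
      (fit_coprime K V hp hV (H1.IsElementaryAbelian.isPGroup' hE) hmin)
    refine commutator_le.2 fun x hx y hy v hv => ?_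
    have e : π ⁅x, y⁆ = 1 := by
      rw [map_commutatorElement, commutatorElement_eq_one_iff_mul_comm]
      exact this _ ⟨x, hx, rfl⟩ _ ⟨y, hy, rfl⟩
    have := congrArg Subtype.val (DFunLike.congr_fun e ⟨v, hv⟩)
    exact (mul_inv_eq_iff_eq_mul.1 this).symm

theorem nil_of_inl {G A : Type*} [Group G] [Group A] (φ : A →* MulAut G)
    (h : Group.IsNilpotent ↥⁅(SemidirectProduct.inl : G →* G ⋊[φ] A).range, (SemidirectProduct.inl : G →* G ⋊[φ] A).range⁆) :
    Group.IsNilpotent (_root_.commutator G) := by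
  rw [← map_commutator_eq] at h
  exact nilpotent_of_mulEquiv (equivMapOfInjective (_root_.commutator G) (SemidirectProduct.inl : G →* G ⋊[φ] A) SemidirectProduct.inl_injective).symm

end Cfsg.Agent.C3.FP
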