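import Cfsg.Agent.H2.BG3a
import Cfsg.Agent.H2.Crit
import Cfsg.Agent.C3.FP1

/-! An operator of prime order without fixed vectors: the case of 2-groups (Fermat primes). -/

set_option autoImplicit false

namespace Cfsg.Agent.C3.FP

open Subgroup Module H2 commutatorElement

universe u

theorem gauss {G : Type*} [Group G] [Finite G] {Q Z Z0 Y : Subgroup G} (hZ : ∀ z ∈ Z, ∀ x ∈ Q, x * z = z * x)
    (hc : ∀ x ∈ Q, ∀ y ∈ Q, ⁅x, y⁆ ∈ Z) (hsq : ∀ x ∈ Q, x * x ∈ Z)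
    (h2 : ∀ z ∈ Z, ∀ z' ∈ Z, z ∉ Z0 → z' ∉ Z0 → z * z' ∈ Z0)
    (hY : ∀ x, x ∈ Y ↔ x ∈ Q ∧ ∀ y ∈ Q, ⁅x, y⁆ ∈ Z0) (hY2 : ∀ y ∈ Y, y * y ∈ Z0) :
    ((Nat.card Q : ℤ) - 2 * Nat.card {x : Q // x.1 * x.1 ∉ Z0}) ^ 2 = Nat.card Q * Nat.card Y := by
  classical
  haveI := Fintype.ofFinite Q
  let ε : G → ℤ := fun z => if z ∈ Z0 then 1 else -1
  have hε : ∀ z ∈ Z, ∀ z' ∈ Z, ε (z * z') = ε z * ε z' := fun z hz z' hz' => by
    by_cases a : z ∈ Z0 <;> by_cases b : z' ∈ Z0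
    · simp [ε, a, b, Z0.mul_mem a b]
    · simp [ε, a, b, (Z0.mul_mem_cancel_left a).not.2 b]
    · simp [ε, a, b, (Z0.mul_mem_cancel_right b).not.2 a]
    · simp [ε, a, b, h2 z hz z' hz' a b]
  have hε2 : ∀ z, ε z * ε z = 1 := fun z => by simp only [ε]; split_ifs <;> norm_num
  have hT : ∑ x : Q, ε (x.1 * x.1) = (Nat.card Q : ℤ) - 2 * Nat.card {x : Q // x.1 * x.1 ∉ Z0} := by
    have : ∀ x : Q, ε (x.1 * x.1) = 1 - 2 * (if x.1 * x.1 ∉ Z0 then 1 else 0) := fun x => by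
      simp only [ε]; split_ifs <;> norm_num
    simp only [this, Finset.sum_sub_distrib, ← Finset.mul_sum, Finset.sum_boole, Nat.card_eq_fintype_card, Fintype.card_subtype]
    simp
  have hS : ∀ w : Q, ∑ x : Q, ε ⁅w.1, x.1⁆ = if w.1 ∈ Y then (Nat.card Q : ℤ) else 0 := fun w => by
    split_ifs with h
    · rw [Finset.sum_congr rfl (g := fun _ => 1) fun x _ => if_pos (((hY _).1 h).2 _ x.2)]
      simp
    · obtain ⟨y, hy, hy'⟩ : ∃ y ∈ Q, ⁅w.1, y⁆ ∉ Z0 := by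
        by_contra hh; push Not at hh; exact h ((hY _).2 ⟨w.2, hh⟩)
      have e := (Group.mulRight_bijective (⟨y, hy⟩ : Q)).sum_comp fun x : Q => ε ⁅w.1, x.1⁆
      have e2 : ∀ x : Q, ε ⁅w.1, (x * ⟨y, hy⟩ : Q).1⁆ = -ε ⁅w.1, x.1⁆ := fun x => by
        have : ⁅w.1, x.1 * y⁆ = ⁅w.1, x.1⁆ * ⁅w.1, y⁆ := by
          calc _ = ⁅w.1, x.1⁆ * (x.1 * ⁅w.1, y⁆) * x.1⁻¹ := by simp only [commutatorElement_def]; group
            _ = _ := by rw [hZ _ (hc _ w.2 _ hy) _ x.2]; group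
        rw [Subgroup.coe_mul, this, hε _ (hc _ w.2 _ x.2) _ (hc _ w.2 _ hy)]
        simp [ε, hy']
      simp only [e2, Finset.sum_neg_distrib] at e
      omega
  rw [← hT, sq, Finset.sum_mul_sum]
  calc ∑ x : Q, ∑ y : Q, ε (x.1 * x.1) * ε (y.1 * y.1) = ∑ x : Q, ∑ w : Q, ε (w.1 * w.1) * ε ⁅w.1, x.1⁆ := by
        refine Finset.sum_congr rfl fun x _ => ?_
        rw [← (Group.mulRight_bijective x).sum_comp]
        refine Finset.sum_congr rfl fun w _ => ?_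
        have : (w * x).1 * (w * x).1 = ⁅w.1, x.1⁆ * (w.1 * w.1) * (x.1 * x.1) := by
          calc _ = ⁅w.1, x.1⁆ * (x.1 * (w.1 * w.1)) * x.1 := by simp only [commutatorElement_def, Subgroup.coe_mul]; group
            _ = _ := by rw [hZ _ (hsq _ w.2) _ x.2]; group
        rw [this, hε _ (Z.mul_mem (hc _ w.2 _ x.2) (hsq _ w.2)) _ (hsq _ x.2), hε _ (hc _ w.2 _ x.2) _ (hsq _ w.2)]
        linear_combination (ε ⁅w.1, x.1⁆ * ε (w.1 * w.1)) * hε2 (x.1 * x.1)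
    _ = ∑ w : Q, if w.1 ∈ Y then (Nat.card Q : ℤ) else 0 := by
        rw [Finset.sum_comm]
        refine Finset.sum_congr rfl fun w _ => ?_
        rw [← Finset.mul_sum, hS]
        split_ifs with h
        · simp [ε, hY2 _ h]
        · simp
    _ = _ := by
        rw [← Finset.sum_filter, Finset.sum_const, nsmul_eq_mul, mul_comm, ← Fintype.card_subtype, ← Nat.card_eq_fintype_card]
        congr 2
        exact H1.card_subgroupOf (fun x hx => ((hY x).1 hx).1 : Y ≤ Q)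

theorem dvd_card_of_conj {G : Type*} [Group G] [Finite G] {p : ℕ} [Fact p.Prime] {A Q : Subgroup G} (hA : IsPGroup p A)
    (hn : A ≤ normalizer (Q : Set G)) (S : G → Prop) (hS : ∀ a ∈ A, ∀ x ∈ Q, S x → S (a * x * a⁻¹))
    (h : ∀ x ∈ Q, S x → x ∉ centralizer (A : Set G)) : p ∣ Nat.card {x : Q // S x.1} := by
  letI : MulAction A {x : Q // S x.1} :=
    { smul := fun a x => ⟨⟨a * x * a⁻¹, (mem_normalizer_iff.1 (hn a.2) _).1 x.1.2⟩, hS _ a.2 _ x.1.2 x.2⟩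
      one_smul := fun x => Subtype.ext (Subtype.ext (by change (1 : G) * _ * (1 : G)⁻¹ = _; simp))
      mul_smul := fun a b x => Subtype.ext (Subtype.ext (by
        change (a.1 * b.1) * _ * (a.1 * b.1)⁻¹ = a.1 * (b.1 * _ * b.1⁻¹) * a.1⁻¹; group)) }
  have := hA.card_modEq_card_fixedPoints {x : Q // S x.1}
  haveI hE : IsEmpty (MulAction.fixedPoints A {x : Q // S x.1}) := ⟨fun ⟨x, hx⟩ => h _ x.1.2 x.2 fun a ha =>
    mul_inv_eq_iff_eq_mul.1 (congrArg (fun y : {x : Q // S x.1} => y.1.1) (hx ⟨a, ha⟩))⟩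
  rwa [@Nat.card_of_isEmpty _ hE, Nat.modEq_zero_iff_dvd] at this

theorem relIndex_le_mul {G : Type*} [Group G] [Finite G] {Y Q P C : Subgroup G} (hQ : Q ≤ normalizer (Y : Set G))
    (hP : P ≤ Q) (hC : C ≤ Q) (h : ∀ q ∈ Q, ∃ p ∈ P, ∃ c ∈ C, q = p * c) :
    Y.relIndex Q ≤ Y.relIndex P * Y.relIndex C := by
  rw [← H1.card_sec _ _ hQ, ← H1.card_sec _ _ (hP.trans hQ), ← H1.card_sec _ _ (hC.trans hQ), ← Nat.card_prod]
  refine Nat.card_le_card_of_surjective (fun x : H1.sec Y P × H1.sec Y C =>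
    (⟨x.1.1 * x.2.1, mul_mem (H1.sec_mono hP x.1.2) (H1.sec_mono hC x.2.2)⟩ : H1.sec Y Q)) fun ⟨y, hy⟩ => ?_
  obtain ⟨x, hx', hx, rfl⟩ := H1.mem_sec_iff.1 hy
  obtain ⟨p, hp, c, hc, rfl⟩ := h x hx
  exact ⟨(⟨_, H1.secMk_mem_sec hp (hQ (hP hp))⟩, ⟨_, H1.secMk_mem_sec hc (hQ (hC hc))⟩), Subtype.ext (map_mul _ _ _).symm⟩

variable {F : Type*} {Γ : Type u} {W : Type*} [Field F] [Group Γ] [AddCommGroup W] [Module F W]
  [Finite Γ] [FiniteDimensional F W] [IsAlgClosed F]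

theorem fact1 (ρ : Representation F Γ W) {K R N D : Subgroup Γ} (hn : R ≤ normalizer (K : Set Γ))
    (hR : (Nat.card R).Prime) (hKR : ⁅K, R⁆ = K) (hKN : ⁅K, K⁆ ≤ N) (hc : K ⊔ R ≤ centralizer (N : Set Γ))
    (hK0 : (Nat.card K : F) ≠ 0) (hR0 : (Nat.card R : F) ≠ 0) (hfix : fixS ρ R = ⊥) {μ : N →* Fˣ} {w : W}
    (hw : w ∈ wt ρ N μ) (hw0 : w ≠ 0) (hD : ∀ x ∈ K, (∀ y ∈ K, ⁅x, y⁆ ∈ stabV ρ w) → x ∈ D) :
    D.relIndex K ≤ (Nat.card R - 1) ^ 2 := by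
  have hZ : ⁅K, K⁆ ≤ centralizer ((K ⊔ R : Subgroup Γ) : Set Γ) := hKN.trans (le_centralizer_iff.1 hc)
  obtain ⟨U, hU1, hU2, hU3, hU4⟩ := exists_min_inv ρ (K ⊔ R) (U := wt ρ N μ)
    ((Submodule.ne_bot_iff _).2 ⟨w, hw, hw0⟩) fun g hg v hv => by
      have := rep_mem_wt ⟨g, BG.cent_le_norm _ (hc hg)⟩ hv
      rwa [cjw_eq_of_cent _ (hc hg)] at this
  haveI : Nontrivial U := Submodule.nontrivial_iff_ne_bot.2 hU2
  have e1 : K.subgroupOf (K ⊔ R) ⊔ R.subgroupOf (K ⊔ R) = ⊤ := by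
    rw [← subgroupOf_sup le_sup_left le_sup_right, subgroupOf_self]
  have e2 := H1.card_subgroupOf (le_sup_left : K ≤ K ⊔ R)
  have e3 := H1.card_subgroupOf (le_sup_right : R ≤ K ⊔ R)
  obtain ⟨h3, h4⟩ := core34 (ρ := subRep ρ _ U hU3) (K := K.subgroupOf (K ⊔ R)) (R := R.subgroupOf (K ⊔ R))
    (e1 ▸ irrOn_subRep hU3 hU4) (H8.subgroupOf_le_normalizer hn) (e3 ▸ hR)
    (by rw [← H8.subgroupOf_commutator le_sup_left le_sup_right, hKR])
    (by
      rw [← H8.subgroupOf_commutator le_sup_left le_sup_left, e1]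
      intro z hz
      exact mem_centralizer_iff.2 fun g _ => Subtype.ext (mem_centralizer_iff.1 (hZ hz) g g.2))
    (by rwa [e2]) (by rwa [e3])
    (eq_bot_iff.2 fun u hu => by
      have := (mem_fixS_subRep le_sup_right hU3).1 hu
      rw [hfix, Submodule.mem_bot] at this
      exact Subtype.ext this)
  have h5 : finrank F U ≤ Nat.card R - 1 := by
    have := hR.two_le
    rw [e3] at h3; omega
  refine le_trans ?_ (Nat.pow_le_pow_left h5 2)
  rw [h4]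
  have hm : ∀ a ∈ K, ∀ x ∈ K, ⁅a, x⁆ ∈ N := fun a ha x hx => hKN (commutator_mem_commutator ha hx)
  have hcn : ∀ a ∈ K, ∀ z ∈ N, a * z * a⁻¹ = z := fun a ha z hz => by
    rw [← hc (mem_sup_left ha) z hz, mul_inv_cancel_right]
  let m : K → (K.subgroupOf (K ⊔ R) →* Fˣ) := fun x => MonoidHom.mk' (fun a => μ ⟨⁅a.1.1, x.1⁆, hm _ a.2 _ x.2⟩) fun a b => by
    rw [mul_comm, ← map_mul]
    congr 1
    refine Subtype.ext ?_
    change ⁅a.1.1 * b.1.1, x.1⁆ = ⁅b.1.1, x.1⁆ * ⁅a.1.1, x.1⁆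
    rw [← hcn a.1.1 a.2 _ (hm b.1.1 b.2 _ x.2)]
    simp only [commutatorElement_def]; group
  have hmem : ∀ x, m x ∈ projW (subRep ρ _ U hU3) (K.subgroupOf (K ⊔ R)) := fun x =>
    ⟨(subRep ρ _ U hU3).asGroupHom ⟨x, mem_sup_left x.2⟩, mem_wt_linHom.2 fun a u => Subtype.ext (by
      change ρ a.1.1 (ρ x.1 u) = (μ ⟨⁅a.1.1, x.1⁆, hm _ a.2 _ x.2⟩ : F) • ρ x.1 (ρ a.1.1 u)
      rw [← hU1 (hU3 _ (mem_sup_left x.2) _ (hU3 _ a.1.2 _ u.2)) ⟨_, hm a.1.1 a.2 _ x.2⟩, ← rep_mul_apply, ← rep_mul_apply,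
        ← rep_mul_apply]
      congr 2
      simp only [commutatorElement_def]; group)⟩
  haveI : Finite (projW (subRep ρ _ U hU3) (K.subgroupOf (K ⊔ R))) :=
    Nat.finite_of_card_ne_zero (h4 ▸ pow_ne_zero 2 finrank_pos.ne')
  refine Nat.card_le_card_of_injective (fun q : K ⧸ D.subgroupOf K => (⟨m q.out, hmem _⟩ : projW _ _)) fun q q' h => ?_
  rw [← q.out_eq, ← q'.out_eq]
  refine Quotient.sound (QuotientGroup.leftRel_apply.2 (hD _ (q.out⁻¹ * q'.out).2 fun y hy => ?_))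
  have e := DFunLike.congr_fun (congrArg Subtype.val h) ⟨⟨y, mem_sup_left hy⟩, hy⟩
  have hd := hm _ hy _ (q.out⁻¹ * q'.out).2
  have e' : μ ⟨_, hd⟩ = 1 := by
    have : (⟨⁅y, q'.out.1⁆, hm _ hy _ q'.out.2⟩ : N) = ⟨⁅y, q.out.1⁆, hm _ hy _ q.out.2⟩ * ⟨_, hd⟩ := Subtype.ext (by
      change ⁅y, q'.out.1⁆ = ⁅y, q.out.1⁆ * ⁅y, (q.out⁻¹ * q'.out).1⁆
      rw [← hcn _ q.out.2 _ hd]
      simp only [commutatorElement_def, Subgroup.coe_mul, Subgroup.coe_inv]; group)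
    change μ ⟨⁅y, q.out.1⁆, _⟩ = μ ⟨⁅y, q'.out.1⁆, _⟩ at e
    rw [this, map_mul] at e
    exact (left_eq_mul.1 e)
  rw [← commutatorElement_inv]
  refine inv_mem ?_
  have := hw ⟨_, hd⟩
  rwa [e', Units.val_one, one_smul] at this

theorem ab_cent (ρ : Representation F Γ W) (hρ : MonoidHom.ker ρ = ⊥) {A B : Subgroup Γ} [IsMulCommutative A]
    (hB : (Nat.card B).Prime) (hn : B ≤ normalizer (A : Set Γ)) (hc : (Nat.card B).Coprime (Nat.card A))
    (hA0 : (Nat.card A : F) ≠ 0) (hfix : fixS ρ B = ⊥) : ⁅A, B⁆ = ⊥ := by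
  have hle : ⁅A, B⁆ ≤ A := H8.commutator_le_left_of_norm hn
  have := wielandt_rep ρ (K := ⁅A, B⁆) (R := B) (H1.isSolvable_of_le hle (isSolvable_of_comm fun a b => IsMulCommutative.is_comm.comm a b))
    (H1.le_normalizer_commutator hn le_normalizer) (natCast_ne_zero_of_dvd (card_dvd_of_le hle) hA0)
    (L.FPF.of_prime hB (H1.commutator_inf_centralizer_eq_bot hn hc))
  rw [fixS_sup, hfix, inf_bot_eq, add_left_inj] at this
  rw [← le_bot_iff, ← hρ, ← fixS_eq_top_iff]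
  exact Submodule.eq_top_of_finrank_eq this.symm

omit [FiniteDimensional F W] [IsAlgClosed F] in
theorem fin_cent {Q R B : Subgroup Γ} (hs : Group.IsSolvable R) (hBR : B ≤ normalizer (R : Set Γ))
    (hRQ : R ≤ normalizer (Q : Set Γ)) (hc : (Nat.card B).Coprime (Nat.card R))
    (hyp : R ⊓ centralizer (B : Set Γ) ≤ centralizer ((Q ⊓ centralizer (B : Set Γ) : Subgroup Γ) : Set Γ))
    (h : ⁅Q, B⁆ = ⊥) : ⁅Q, R⁆ = ⊥ := by
  rw [commutator_eq_bot_iff_le_centralizer] at h ⊢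
  rw [inf_eq_left.2 h] at hyp
  rw [le_centralizer_iff, ← H1.commutator_sup_centralizer hBR hc (.inr hs)]
  exact sup_le (comm_le_right_of_le (le_centralizer_iff.1 h) (hRQ.trans (H1.normalizer_le_normalizer_centralizer Q))) hyp

theorem arith2 {i j t : ℕ} (h : t ^ 2 = 2 ^ (i + j) * 2 ^ i) : ∃ n, j = 2 * n ∧ t = 2 ^ (i + n) := by
  rw [← pow_add] at h
  obtain ⟨s, -, rfl⟩ := (Nat.dvd_prime_pow Nat.prime_two).1 (h ▸ dvd_pow_self t two_ne_zero)
  rw [← pow_mul] at h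
  have := Nat.pow_right_injective le_rfl h
  exact ⟨s - i, by omega, by congr 1; omega⟩

theorem key2 (ρ : Representation F Γ W) (hρ : MonoidHom.ker ρ = ⊥) {B : Subgroup Γ} (hB : (Nat.card B).Prime)
    (hBo : Nat.card B ≠ 2) (h2 : (2 : F) ≠ 0) (hB0 : (Nat.card B : F) ≠ 0) (hfix : fixS ρ B = ⊥) {r : ℕ} [hr : Fact r.Prime]
    (hr2 : r ≠ 2) (hrb : r ≠ Nat.card B) (Q : Subgroup Γ) : ∀ R : Subgroup Γ, IsPGroup 2 Q → IsPGroup r R →
      B ≤ normalizer (Q : Set Γ) → B ≤ normalizer (R : Set Γ) → R ≤ normalizer (Q : Set Γ) →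
      R ⊓ centralizer (B : Set Γ) ≤ centralizer ((Q ⊓ centralizer (B : Set Γ) : Subgroup Γ) : Set Γ) → ⁅Q, R⁆ = ⊥ := by
  haveI : Fact (Nat.Prime 2) := ⟨Nat.prime_two⟩
  haveI : Fact (Nat.card B).Prime := ⟨hB⟩
  have hBp : IsPGroup (Nat.card B) B := IsPGroup.of_card (n := 1) (pow_one _).symm
  induction Q using WellFoundedLT.induction with
  | _ Q ihQ =>
  intro R
  induction R using WellFoundedLT.induction with
  | _ R ihR =>
  intro hQ hR hBQ hBR hRQ hyp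
  have c1 : ∀ {X : Subgroup Γ}, X ≤ Q → (Nat.card B).Coprime (Nat.card X) := fun h =>
    IsPGroup.coprime_card_of_ne _ _ hBo _ _ hBp (hQ.to_le h)
  have c2 : ∀ {X : Subgroup Γ}, X ≤ Q → (Nat.card R).Coprime (Nat.card X) := fun h =>
    IsPGroup.coprime_card_of_ne _ _ hr2 _ _ hR (hQ.to_le h)
  have c3 : (Nat.card B).Coprime (Nat.card R) := IsPGroup.coprime_card_of_ne _ _ hrb.symm _ _ hBp hR
  have c0 : ∀ {X : Subgroup Γ}, X ≤ Q → (Nat.card X : F) ≠ 0 := fun h => by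
    obtain ⟨k, hk⟩ := (hQ.to_le h).exists_card_eq
    rw [hk]; simpa using fun h => absurd h h2
  have sR : Group.IsSolvable R := haveI := hR.isNilpotent; inferInstance
  have sQ : ∀ {X : Subgroup Γ}, X ≤ Q → Group.IsSolvable X := fun h => haveI := (hQ.to_le h).isNilpotent; inferInstance
  have ihQ' : ∀ X < Q, B ≤ normalizer (X : Set Γ) → R ≤ normalizer (X : Set Γ) → ⁅X, R⁆ = ⊥ := fun X hX h1 h3 =>
    ihQ X hX R (hQ.to_le hX.le) hR h1 hBR h3 (hyp.trans (centralizer_le (SetLike.coe_subset_coe.2 (inf_le_inf_right _ hX.le))))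
  have ihR' : ∀ X < R, B ≤ normalizer (X : Set Γ) → X ≤ centralizer (Q : Set Γ) := fun X hX h1 =>
    le_centralizer_iff.1 (commutator_eq_bot_iff_le_centralizer.1
      (ihR X hX hQ (hR.to_le hX.le) hBQ h1 (hX.le.trans hRQ) ((inf_le_inf_right _ hX.le).trans hyp)))
  by_contra hne
  have hQR : ⁅Q, R⁆ = Q := by
    by_contra h
    have := ihQ' _ (lt_of_le_of_ne (H8.commutator_le_left_of_norm hRQ) h) (H1.le_normalizer_commutator hBQ hBR)
      (H1.le_normalizer_commutator hRQ le_normalizer)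
    exact hne (H1.commutator_eq_bot_of_commutator_commutator hRQ (c2 le_rfl) this)
  have hna : ¬ IsMulCommutative Q := fun h =>
    hne (fin_cent sR hBR hRQ c3 hyp (ab_cent ρ hρ hB hBQ (c1 le_rfl) (c0 le_rfl) hfix))
  obtain ⟨s1, s2, s3⟩ := special_of_cent_abelian hQ hRQ
    (hR.exists_card_eq.choose_spec.symm ▸ Nat.Coprime.pow_left _ ((Nat.coprime_primes hr.out Nat.prime_two).2 hr2)) hQR
    fun X hX hXa hXn => le_centralizer_iff.1 (commutator_eq_bot_iff_le_centralizer.1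
      (ihQ' X (lt_of_le_of_ne hX fun e => hna (e ▸ hXa)) (hBQ.trans hXn) (hRQ.trans hXn)))
  set Z := Zc Q with hZ
  have hZQ : Z ≤ Q := inf_le_left
  haveI hZa : IsMulCommutative Z := ⟨⟨fun a b => Subtype.ext (b.2.2 _ a.2.1)⟩⟩
  have hZc : ∀ z ∈ Z, ∀ x ∈ Q, x * z = z * x := fun z hz x hx => hz.2 x hx
  have nZ : normalizer (Q : Set Γ) ≤ normalizer (Z : Set Γ) := s1 ▸ H1.le_normalizer_commutator le_rfl le_rfl
  have hZB : Z ≤ centralizer (B : Set Γ) :=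
    commutator_eq_bot_iff_le_centralizer.1 (ab_cent ρ hρ hB (hBQ.trans nZ) (c1 hZQ) (c0 hZQ) hfix)
  have hZR : Z ≤ centralizer (R : Set Γ) := s3.ge.trans inf_le_right
  have hcm : ∀ x ∈ Q, ∀ y ∈ Q, ⁅x, y⁆ ∈ Z := fun x hx y hy => s1 ▸ commutator_mem_commutator hx hy
  have hsq : ∀ x ∈ Q, x * x ∈ Z := fun x hx => by rw [← sq, ← s2]; exact H1.pow_mem_map_frattini hQ hx
  have hz2 : ∀ z ∈ Z, z * z = 1 := by
    let W2 : Subgroup Γ :=
      { carrier := {z | z ∈ Z ∧ z * z = 1}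
        one_mem' := ⟨Z.one_mem, one_mul 1⟩
        mul_mem' := fun {a b} ha hb => ⟨Z.mul_mem ha.1 hb.1, by
          calc a * b * (a * b) = a * (b * a) * b := by group
            _ = _ := by rw [hZc _ ha.1 _ (hZQ hb.1), ← mul_assoc, ha.2, one_mul, hb.2]⟩
        inv_mem' := fun {a} ha => ⟨Z.inv_mem ha.1, by rw [← mul_inv_rev, ha.2, inv_one]⟩ }
    have : ⁅Q, Q⁆ ≤ W2 := commutator_le.2 fun x hx y hy => ⟨hcm x hx y hy, by
      calc ⁅x, y⁆ * ⁅x, y⁆ = x * (x⁻¹ * ⁅x, y⁆) * ⁅x, y⁆ := by group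
        _ = x * x * y * (x * x)⁻¹ * y⁻¹ := by
          rw [hZc _ (hcm x hx y hy) _ (Q.inv_mem hx)]; simp only [commutatorElement_def]; group
        _ = 1 := by rw [← hZc _ (hsq x hx) y hy]; group⟩
    exact fun z hz => (this (s1 ▸ hz)).2
  have hZ0 : Z ≠ ⊥ := fun e => hna ⟨⟨fun a b => Subtype.ext (commutatorElement_eq_one_iff_mul_comm.1
    (mem_bot.1 (e ▸ hcm _ a.2 _ b.2)))⟩⟩
  obtain ⟨μ, hμ, w, hw, hw0⟩ := exists_wt_ne_bot (ρ := ρ) (c0 hZQ) (by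
    rw [commutator_eq_bot_iff_le_centralizer.2 (le_centralizer Z), fixS_bot, top_le_iff, fixS_eq_top_iff, hρ, le_bot_iff]
    exact hZ0)
  set Z0 := stabV ρ w
  have hneg : ∀ z ∈ Z, z ∉ Z0 → ρ z w = -w := fun z hz h => by
    have e := hw ⟨z, hz⟩
    have e2 : (μ ⟨z, hz⟩ : F) * μ ⟨z, hz⟩ = 1 := by
      rw [← Units.val_mul, ← map_mul, show (⟨z, hz⟩ : Z) * ⟨z, hz⟩ = 1 from Subtype.ext (hz2 z hz), map_one, Units.val_one]
    rcases mul_self_eq_one_iff.1 e2 with e3 | e3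
    · rw [e3, one_smul] at e; exact absurd e h
    · rw [e3, neg_one_smul] at e; exact e
  have hi2 : ∀ z ∈ Z, ∀ z' ∈ Z, z ∉ Z0 → z' ∉ Z0 → z * z' ∈ Z0 := fun z hz z' hz' h h' => by
    change ρ (z * z') w = w
    rw [rep_mul_apply, hneg _ hz' h', map_neg, hneg _ hz h, neg_neg]
  let Y : Subgroup Γ :=
    { carrier := {x | x ∈ Q ∧ ∀ y ∈ Q, ⁅x, y⁆ ∈ Z0}
      one_mem' := ⟨Q.one_mem, fun y _ => by simpa using Z0.one_mem⟩
      mul_mem' := fun {a b} ha hb => ⟨Q.mul_mem ha.1 hb.1, fun y hy => by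
        have : ⁅a * b, y⁆ = ⁅b, y⁆ * ⁅a, y⁆ := by
          calc _ = a * ⁅b, y⁆ * a⁻¹ * ⁅a, y⁆ := by simp only [commutatorElement_def]; group
            _ = _ := by rw [hZc _ (hcm _ hb.1 _ hy) _ ha.1]; group
        exact this ▸ Z0.mul_mem (hb.2 y hy) (ha.2 y hy)⟩
      inv_mem' := fun {a} ha => ⟨Q.inv_mem ha.1, fun y hy => by
        have : ⁅a⁻¹, y⁆ = ⁅a, y⁆⁻¹ := by
          calc _ = a⁻¹ * ⁅a, y⁆⁻¹ * a := by simp only [commutatorElement_def]; group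
            _ = _ := by rw [hZc _ (Z.inv_mem (hcm _ ha.1 _ hy)) _ (Q.inv_mem ha.1)]; group
        exact this ▸ Z0.inv_mem (ha.2 y hy)⟩ }
  have hYQ : Y ≤ Q := fun x hx => hx.1
  have hZY : Z ≤ Y := fun z hz => ⟨hZQ hz, fun y hy => by
    rw [commutatorElement_eq_one_iff_mul_comm.2 (hZc z hz y hy).symm]; exact Z0.one_mem⟩
  have nY : ∀ {X : Subgroup Γ}, X ≤ normalizer (Q : Set Γ) → Z ≤ centralizer (X : Set Γ) → X ≤ normalizer (Y : Set Γ) :=
    fun {X} h1 h3 g hg => H1.mem_normalizer_of_conj_mem fun x hx => ⟨(mem_normalizer_iff.1 (h1 hg) x).1 hx.1, fun y hy => by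
      have hy' := (mem_normalizer_iff''.1 (h1 hg) y).1 hy
      have : ⁅g * x * g⁻¹, y⁆ = ⁅x, g⁻¹ * y * g⁆ := by
        calc _ = g * ⁅x, g⁻¹ * y * g⁆ * g⁻¹ := by simp only [commutatorElement_def]; group
          _ = _ := by rw [h3 (hcm _ hx.1 _ hy') g hg]; group
      exact this ▸ hx.2 _ hy'⟩
  have nQ := nY le_normalizer (fun z hz => hz.2)
  have nR := nY hRQ hZR
  have nB := nY hBQ hZB
  have hYne : ¬ Q ≤ Y := fun h => hμ (by
    have : Z ≤ Z0 := s1 ▸ commutator_le.2 fun x hx y hy => (h hx).2 y hy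
    exact eq_of_mem_wt hw0 hw (by rw [wt_one]; exact mem_fixS_iff_le.2 this))
  have hmul : ∀ a ∈ Q, ∀ b ∈ Q, a * b * (a * b) = ⁅a, b⁆ * (a * a) * (b * b) := fun a ha b hb => by
    calc _ = ⁅a, b⁆ * (b * (a * a)) * b := by simp only [commutatorElement_def]; group
      _ = _ := by rw [hZc _ (hsq _ ha) _ hb]; group
  have hY2 : ∀ y ∈ Y, y * y ∈ Z0 := by
    let Y1 : Subgroup Γ :=
      { carrier := {y | y ∈ Y ∧ y * y ∈ Z0}
        one_mem' := ⟨Y.one_mem, by simpa using Z0.one_mem⟩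
        mul_mem' := fun {a b} ha hb => ⟨Y.mul_mem ha.1 hb.1, by
          rw [hmul _ ha.1.1 _ hb.1.1]; exact Z0.mul_mem (Z0.mul_mem (ha.1.2 _ hb.1.1) ha.2) hb.2⟩
        inv_mem' := fun {a} ha => ⟨Y.inv_mem ha.1, by rw [← mul_inv_rev]; exact Z0.inv_mem ha.2⟩ }
    have : Y ≤ Y1 := by
      rw [← H1.commutator_sup_centralizer nR (c2 hYQ) (.inl sR)]
      refine sup_le (commutator_le.2 fun y hy g hg => ?_) fun y hy => ⟨hy.1, ?_⟩
      · have h1 : g * y⁻¹ * g⁻¹ ∈ Y := (mem_normalizer_iff.1 (nR hg) _).1 (Y.inv_mem hy)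
        have h3 : ⁅y, g⁆ = y * (g * y⁻¹ * g⁻¹) := by simp only [commutatorElement_def]; group
        have h4 : g * y⁻¹ * g⁻¹ * (g * y⁻¹ * g⁻¹) = (y * y)⁻¹ := by
          calc _ = g * (y * y)⁻¹ * g⁻¹ := by group
            _ = _ := by rw [hZR (Z.inv_mem (hsq _ hy.1)) g hg]; group
        refine ⟨h3 ▸ Y.mul_mem hy h1, ?_⟩
        rw [h3, hmul _ hy.1 _ h1.1, h4, mul_inv_cancel_right]
        exact hy.2 _ h1.1
      · rw [hz2 _ (s3.le ⟨hy.1.1, hy.2⟩)]; exact Z0.one_mem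
    exact fun y hy => (this hy).2
  have hG := gauss hZc hcm hsq hi2 (Y := Y) (fun _ => Iff.rfl) hY2
  obtain ⟨i, hi⟩ := (hQ.to_le hYQ).exists_card_eq
  obtain ⟨j, hj⟩ : ∃ j, Y.relIndex Q = 2 ^ j := by
    obtain ⟨k, hk⟩ := hQ.exists_card_eq
    obtain ⟨j, -, hj⟩ := (Nat.dvd_prime_pow Nat.prime_two).1 (hk ▸ relIndex_dvd_card Y Q)
    exact ⟨j, hj⟩
  have hQc : Nat.card Q = 2 ^ (i + j) := by
    rw [pow_add, ← hi, ← hj, ← H1.card_subgroupOf hYQ, relIndex, card_mul_index]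
  obtain ⟨n, hn, hT⟩ := arith2 (i := i) (j := j)
    (t := ((Nat.card Q : ℤ) - 2 * Nat.card {x : Q // x.1 * x.1 ∉ Z0}).natAbs) (by
      apply Nat.cast_injective (R := ℤ)
      rw [Nat.cast_pow, Int.natAbs_sq, hG, hQc, hi]; push_cast; rfl)
  have hn0 : n ≠ 0 := by
    rintro rfl
    exact hYne (relIndex_eq_one.1 (by rw [hj, hn]; rfl))
  have hP : ⁅Q, B⁆ ≤ Q := H8.commutator_le_left_of_norm hBQ
  have f1 := fact1 ρ (K := ⁅Q, B⁆) (R := B) (N := Z) (D := Y) (H1.le_normalizer_commutator hBQ le_normalizer) hB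
    (H1.commutator_commutator_eq hBQ (c1 le_rfl) (.inr (sQ le_rfl))) (s1 ▸ commutator_mono hP hP)
    (sup_le (hP.trans (le_centralizer_iff.1 inf_le_right)) (le_centralizer_iff.1 hZB)) (c0 hP) hB0 hfix hw hw0
    fun x hx h => ⟨hP hx, fun y hy => by
      obtain ⟨p, hp, c, hc, rfl⟩ := H1.exists_commutator_mul_centralizer hBQ (c1 le_rfl) (.inr (sQ le_rfl)) hy
      have h1 : ⁅Q, B⁆ ≤ centralizer ({c} : Set Γ) := commutator_le.2 fun q hq g hg _ e => by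
        rw [show _ = c from e]
        have a1 : Commute q ⁅c, q⁆ := hZc _ (hcm _ hc.1 _ hq) q hq
        have a2 : Commute g ⁅c, q⁆ := hZB (hcm _ hc.1 _ hq) g hg
        have a3 : c * g * c⁻¹ = g := by rw [← hc.2 g hg, mul_inv_cancel_right]
        calc c * ⁅q, g⁆ = ⁅c, q⁆ * (q * (c * g * c⁻¹) * q⁻¹) * ⁅c, q⁆⁻¹ * (c * g * c⁻¹)⁻¹ * c := by
              simp only [commutatorElement_def]; group
          _ = _ := by
            rw [a3, ← ((a1.mul_left a2).mul_left a1.inv_left).eq]; simp only [commutatorElement_def]; group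
      have : ⁅x, p * c⁆ = ⁅x, p⁆ := by
        calc _ = x * p * (c * x⁻¹) * c⁻¹ * p⁻¹ := by simp only [commutatorElement_def]; group
          _ = _ := by rw [(centralizer ({c} : Set Γ)).inv_mem (h1 hx) c rfl]; simp only [commutatorElement_def]; group
      exact this ▸ h p hp⟩
  have f2 := (relIndex_le_mul nQ hP inf_le_left fun q hq =>
    H1.exists_commutator_mul_centralizer hBQ (c1 le_rfl) (.inr (sQ le_rfl)) hq).trans (Nat.mul_le_mul_right _ f1)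
  rw [hj, hn] at f2
  have hb3 : 3 ≤ Nat.card B := by have := hB.two_le; omega
  by_cases h1 : ⁅R, B⁆ = R
  · have hR0 : R ≠ ⊥ := by rintro rfl; exact hne (commutator_bot_right Q)
    have hR' := ihR' _ (H1.commutator_lt_self sR hR0) (H1.le_normalizer_commutator hBR hBR)
    obtain ⟨W', _, _, _, σ, g1, g2, g3⟩ := exists_sec_rep (p := 2) (AlgebraicClosure (ZMod 2)) (U := Y) (V := Q) (X := R ⊔ B) nQ
      (sup_le nR nB) (sup_le hRQ hBQ) (H1.isElementaryAbelian_sec nQ (s1 ▸ hZY) fun x hx => sq x ▸ hZY (hsq x hx))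
    have g4 : ∀ H ≤ R ⊔ B, H ≤ normalizer (Q : Set Γ) → (Nat.card H).Coprime (Nat.card ↥(Q ⊓ Y)) →
        Y.relIndex (Q ⊓ centralizer (H : Set Γ)) = 2 ^ finrank _ (fixS σ (H.subgroupOf (R ⊔ B))) := fun H hH hH' hc => by
      rw [← g2 H hH, ← H1.sec_inf_centralizer (hH.trans (sup_le nR nB)) nQ hH' hc (.inr (sQ inf_le_left)),
        H1.card_sec _ _ (inf_le_left.trans nQ)]
    have e2 := H1.card_subgroupOf (le_sup_left : R ≤ R ⊔ B)
    have e3 := H1.card_subgroupOf (le_sup_right : B ≤ R ⊔ B)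
    have w1 := wielandt_step σ (K := R.subgroupOf (R ⊔ B)) (R := B.subgroupOf (R ⊔ B)) (H8.subgroupOf_le_normalizer hBR)
      (by rw [e2, Ne, CharP.cast_eq_zero_iff _ 2]
          obtain ⟨k, hk⟩ := hR.exists_card_eq
          exact fun h => hr2 ((Nat.prime_dvd_prime_iff_eq Nat.prime_two hr.out).1 (Nat.prime_two.dvd_of_dvd_pow (hk ▸ h))).symm)
      fun x hx hx1 => by
        rw [H1.eq_of_le_of_card_prime (e3 ▸ hB) (zpowers_le.2 hx) (by simpa using hx1),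
          ← H8.subgroupOf_commutator le_sup_left le_sup_right, h1]
    have w2 : fixS σ ⁅R.subgroupOf (R ⊔ B), R.subgroupOf (R ⊔ B)⁆ = ⊤ := by
      rw [← H8.subgroupOf_commutator le_sup_left le_sup_left, fixS_eq_top_iff, g3 _ ((comm_self_le R).trans le_sup_left),
        commutator_eq_bot_iff_le_centralizer.2 (le_centralizer_iff.1 hR')]
      exact bot_le
    have w3 : fixS σ (R.subgroupOf (R ⊔ B)) = ⊥ := by
      have := g4 R le_sup_left hRQ (c2 inf_le_left)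
      rw [s3, relIndex_eq_one.2 hZY, eq_comm, Nat.pow_eq_one] at this
      exact Submodule.finrank_eq_zero.1 (this.resolve_left (by norm_num))
    rw [fixS_sup, fixS_sup, w2, w3, bot_inf_eq, top_inf_eq, finrank_bot, finrank_top, e3] at w1
    rw [g4 B le_sup_right hBQ (c1 inf_le_left)] at f2
    rw [hj, hn] at g1
    have g5 := Nat.pow_right_injective le_rfl g1
    generalize finrank (AlgebraicClosure (ZMod 2)) (fixS σ (B.subgroupOf (R ⊔ B))) = k at w1 f2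
    generalize Nat.card B = b at *
    obtain ⟨c, rfl⟩ : ∃ c, b = c + 1 := ⟨b - 1, by omega⟩
    have k2 : 2 ≤ k := by
      have ho := hB.odd_of_ne_two hBo
      rcases k with _ | _ | k
      · omega
      · exact absurd ho (by rw [Nat.odd_iff]; omega)
      · omega
    rw [show 2 * n = c * k + k by rw [g5]; linarith, pow_add, Nat.add_sub_cancel, pow_mul] at f2
    have := (Nat.pow_le_pow_right (Nat.two_pow_pos c) k2).trans (Nat.le_of_mul_le_mul_right f2 (Nat.two_pow_pos k))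
    exact absurd (lt_of_lt_of_le (Nat.pow_lt_pow_left Nat.lt_two_pow_self two_ne_zero) this) (lt_irrefl _)
  by_cases h3 : R ≤ centralizer (B : Set Γ)
  · rw [inf_eq_left.2 h3] at hyp
    have hC : Q ⊓ centralizer (B : Set Γ) ≤ Z := s3 ▸ le_inf inf_le_left (le_centralizer_iff.1 hyp)
    rw [relIndex_eq_one.2 (hC.trans hZY), mul_one, mul_comm, pow_mul] at f2
    have f3 := (Nat.pow_le_pow_iff_left two_ne_zero).1 f2
    have hS : ∀ {X : Subgroup Γ}, Z ≤ centralizer (X : Set Γ) → ∀ a ∈ X, ∀ x ∈ Q, x * x ∉ Z0 → a * x * a⁻¹ * (a * x * a⁻¹) ∉ Z0 :=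
      fun h a ha x hx hx' => by
        rwa [show a * x * a⁻¹ * (a * x * a⁻¹) = a * (x * x) * a⁻¹ by group, h (hsq x hx) a ha, mul_inv_cancel_right]
    have d1 := dvd_card_of_conj hR hRQ (fun x => x * x ∉ Z0) (hS hZR) fun x hx h h' =>
      h (by rw [hz2 _ (s3.le ⟨hx, h'⟩)]; exact Z0.one_mem)
    have d2 := dvd_card_of_conj hBp hBQ (fun x => x * x ∉ Z0) (hS hZB) fun x hx h h' =>
      h (by rw [hz2 _ (hC ⟨hx, h'⟩)]; exact Z0.one_mem)
    have d3 := Nat.Coprime.mul_dvd_of_dvd_of_dvd ((Nat.coprime_primes hr.out hB).2 hrb) d1 d2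
    have co : (r * Nat.card B).Coprime (2 ^ (i + n)) := Nat.Coprime.pow_right _ (Nat.Coprime.mul_left
      ((Nat.coprime_primes hr.out Nat.prime_two).2 hr2) ((Nat.coprime_primes hB Nat.prime_two).2 hBo))
    have hr3 := hr.out.two_le
    have hn2 : 2 ≤ 2 ^ n := Nat.le_self_pow hn0 2
    rw [hQc, hn, show i + 2 * n = i + n + n by ring, pow_add] at hT
    generalize Nat.card {x : Q // x.1 * x.1 ∉ Z0} = N at *
    generalize 2 ^ n = t at *
    generalize 2 ^ (i + n) = s at *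
    obtain ⟨t, rfl⟩ : ∃ t', t = t' + 1 := ⟨t - 1, by omega⟩
    have : 2 * N = s * t ∨ 2 * N = s * (t + 2) := by
      rw [mul_add] at hT; rw [mul_add]; omega
    rcases this with e | e
    · have := Nat.le_of_dvd (by omega) (co.dvd_of_dvd_mul_left (e ▸ d3.mul_left 2))
      have : 2 * Nat.card B ≤ r * Nat.card B := Nat.mul_le_mul_right _ hr3
      omega
    · have := Nat.le_of_dvd (by omega) (co.dvd_of_dvd_mul_left (e ▸ d3.mul_left 2))
      have : 2 * Nat.card B ≤ r * Nat.card B := Nat.mul_le_mul_right _ hr3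
      omega
  apply hne
  rw [commutator_eq_bot_iff_le_centralizer, le_centralizer_iff, ← H1.commutator_sup_centralizer hBR c3 (.inr sR)]
  exact sup_le (ihR' _ (lt_of_le_of_ne (H8.commutator_le_left_of_norm hBR) h1) (H1.le_normalizer_commutator hBR le_normalizer))
    (ihR' _ (lt_of_le_of_ne inf_le_left fun e => h3 (inf_eq_left.1 e)) H1.le_normalizer_inf_centralizer)

end Cfsg.Agent.C3.FP
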