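import Cfsg.Agent.C3.FP2
import Cfsg.Agent.BG.Sec

/-! Fixed-point-free operator groups: reduction to an operator of prime order. -/

set_option autoImplicit false

namespace Cfsg.Agent.C3.FP

open Subgroup Module H2 commutatorElement Pointwise

universe u

variable {F : Type*} {Γ : Type u} {W : Type*} [Field F] [Group Γ] [AddCommGroup W] [Module F W]

theorem pfix [Finite Γ] (ρ : Representation F Γ W) [Nontrivial W] {p : ℕ} [hp : Fact p.Prime] (h0 : (p : F) = 0)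
    {P : Subgroup Γ} (hP : IsPGroup p P) : fixS ρ P ≠ ⊥ := by
  obtain ⟨w, hw⟩ := exists_ne (0 : W)
  let M := AddSubgroup.closure (Set.range fun g : P => ρ g w)
  have hp0 : ∀ v : W, p • v = 0 := fun v => by rw [← Nat.cast_smul_eq_nsmul F, h0, zero_smul]
  haveI : AddGroup.FG M := AddGroup.closure_finite_fg _
  haveI : Finite M := AddCommGroup.finite_of_fg_torsion M fun v =>
    isOfFinAddOrder_iff_nsmul_eq_zero.2 ⟨p, hp.out.pos, Subtype.ext (hp0 v)⟩
  have hM : ∀ g : P, ∀ v ∈ M, ρ g v ∈ M := fun g v hv => by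
    induction hv using AddSubgroup.closure_induction with
    | mem _ h => obtain ⟨x, rfl⟩ := h; exact AddSubgroup.subset_closure ⟨g * x, rep_mul_apply ρ _ _ _⟩
    | zero => rw [map_zero]; exact M.zero_mem
    | add _ _ _ _ a b => rw [map_add]; exact M.add_mem a b
    | neg _ _ a => rw [map_neg]; exact M.neg_mem a
  letI : MulAction P M :=
    { smul := fun g v => ⟨ρ g v, hM g v v.2⟩
      one_smul := fun v => Subtype.ext (by change ρ 1 _ = _; simp)
      mul_smul := fun a b v => Subtype.ext (rep_mul_apply ρ _ _ _) }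
  have hw' : w ∈ M := AddSubgroup.subset_closure ⟨1, by simp⟩
  obtain ⟨b, hb, hb1⟩ := hP.exists_fixed_point_of_prime_dvd_card_of_fixed_point M
    ((addOrderOf_eq_prime (x := (⟨w, hw'⟩ : M)) (Subtype.ext (hp0 w)) fun h => hw (congrArg Subtype.val h)) ▸ addOrderOf_dvd_natCard _)
    (a := 0) (fun g => Subtype.ext (map_zero (ρ g)))
  exact (Submodule.ne_bot_iff _).2 ⟨b, fun g hg => congrArg Subtype.val (hb ⟨g, hg⟩), fun h => hb1 (Subtype.ext h.symm)⟩

theorem cast_ne_of_normal [Finite Γ] {ρ : Representation F Γ W} [Nontrivial W] (hρ : MonoidHom.ker ρ = ⊥) (hi : IrrOn ρ ⊤)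
    {p : ℕ} [hp : Fact p.Prime] {P : Subgroup Γ} [P.Normal] (hP : IsPGroup p P) : (Nat.card P : F) ≠ 0 := fun h => by
  obtain ⟨k, hk⟩ := hP.exists_card_eq
  have h0 : (p : F) = 0 := by rw [hk, Nat.cast_pow] at h; exact eq_zero_of_pow_eq_zero h
  have := (hi _ fun g _ w hw => rep_mem_fixS (le_normalizer_of_normal (K := ⊤) trivial) hw).resolve_left (pfix ρ h0 hP)
  rw [fixS_eq_top_iff, hρ, le_bot_iff] at this
  simp [this] at h

/-- The elements acting trivially on a subspace. -/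
def kerOn (ρ : Representation F Γ W) (U : Submodule F W) : Subgroup Γ := ⨅ u ∈ U, stabV ρ u

theorem mem_kerOn {ρ : Representation F Γ W} {U : Submodule F W} {g : Γ} : g ∈ kerOn ρ U ↔ ∀ u ∈ U, ρ g u = u := by
  simp only [kerOn, mem_iInf]; rfl

theorem exists_faithful [Finite Γ] (ρ : Representation F Γ W) (X : Subgroup Γ) (U : Submodule F W)
    (hU : ∀ g ∈ X, ∀ w ∈ U, ρ g w ∈ U) : ∃ (Δ : Type u) (_ : Group Δ) (_ : Finite Δ) (π : X →* Δ) (σ : Representation F Δ U),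
      Function.Surjective π ∧ MonoidHom.ker σ = ⊥ ∧ (∀ x u, (σ (π x) u : W) = ρ x u) ∧
      ∀ H ≤ X, (H.subgroupOf X).map π = ⊥ → H ≤ kerOn ρ U :=
  ⟨X ⧸ MonoidHom.ker (subRep ρ X U hU), inferInstance, inferInstance, QuotientGroup.mk' _,
    QuotientGroup.lift _ (subRep ρ X U hU) fun _ h => h, QuotientGroup.mk'_surjective _, eq_bot_iff.2 fun g hg => by
      obtain ⟨g, rfl⟩ := QuotientGroup.mk'_surjective _ g
      exact (QuotientGroup.eq_one_iff g).2 hg, fun _ _ => rfl, fun H hH h g hg => mem_kerOn.2 fun u hu => by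
      rw [Subgroup.map_eq_bot_iff, QuotientGroup.ker_mk'] at h
      exact congrArg Subtype.val (DFunLike.congr_fun (MonoidHom.mem_ker.1 (h (x := ⟨g, hH hg⟩) hg)) ⟨u, hu⟩)⟩

theorem comm_two [Finite Γ] {ρ : Representation F Γ W} {U : Submodule F W} {L B : Subgroup Γ} (hB : Nat.card B = 2)
    (hL : ∀ g ∈ L, ∀ w ∈ U, ρ g w ∈ U) (hBU : ∀ g ∈ B, ∀ w ∈ U, ρ g w ∈ U) (hfix : U ⊓ fixS ρ B = ⊥) :
    ⁅L, B⁆ ≤ kerOn ρ U := by
  refine commutator_le.2 fun x hx b hb => ?_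
  by_cases hb1 : b = 1
  · simpa [hb1] using one_mem _
  have hneg : ∀ u ∈ U, ρ b u = -u := fun u hu => by
    have hz : zpowers b = B := H1.eq_of_le_of_card_prime (hB ▸ Nat.prime_two) (zpowers_le.2 hb) (by simpa using hb1)
    have h2 : b * b = 1 := by
      rw [← sq, ← hB]; exact congrArg Subtype.val (pow_card_eq_one' (x := (⟨b, hb⟩ : B)))
    have : u + ρ b u ∈ U ⊓ fixS ρ B := ⟨U.add_mem hu (hBU b hb u hu), by
      rw [← hz]; refine mem_fixS_zpowers.2 ?_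
      rw [map_add, ← rep_mul_apply, h2, add_comm]; simp⟩
    rw [hfix, Submodule.mem_bot] at this
    exact eq_neg_of_add_eq_zero_right this
  refine mem_kerOn.2 fun u hu => ?_
  have h1 : ρ b⁻¹ u = -u := by
    have := rep_inv_apply ρ b u
    rw [hneg u hu, map_neg] at this
    exact neg_eq_iff_eq_neg.1 this
  rw [commutatorElement_def, rep_mul_apply, rep_mul_apply, rep_mul_apply, h1, map_neg, map_neg,
    hneg _ (hL _ (L.inv_mem hx) u hu), neg_neg, rep_apply_inv]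

variable [Finite Γ] [FiniteDimensional F W] [IsAlgClosed F]

theorem comm_odd {ρ : Representation F Γ W} {U : Submodule F W} {L B : Subgroup Γ} (hB : (Nat.card B).Prime)
    (hL : ∀ g ∈ L ⊔ B, ∀ w ∈ U, ρ g w ∈ U) (hfix : U ⊓ fixS ρ B = ⊥) (hs : Group.IsSolvable L)
    (hn : B ≤ normalizer (L : Set Γ)) (ho : Odd (Nat.card L)) (hc : (Nat.card B).Coprime (Nat.card L))
    (hL0 : (Nat.card L : F) ≠ 0) (hB0 : (Nat.card B : F) ≠ 0) : ⁅L, B⁆ ≤ kerOn ρ U := by
  by_cases h2 : Nat.card B = 2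
  · exact comm_two h2 (fun g hg => hL g (mem_sup_left hg)) (fun g hg => hL g (mem_sup_right hg)) hfix
  have e2 := H1.card_subgroupOf (le_sup_left : L ≤ L ⊔ B)
  have e3 := H1.card_subgroupOf (le_sup_right : B ≤ L ⊔ B)
  have := rep34 (subRep ρ _ U hL) (K := L.subgroupOf (L ⊔ B)) (R := B.subgroupOf (L ⊔ B)) (H1.isSolvable_subgroupOf hs)
    (H8.subgroupOf_le_normalizer hn) (by rwa [e3]) (by rw [e3]; exact hB.odd_of_ne_two h2) (by rwa [e2]) (by rwa [e2, e3])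
    (by rwa [e2]) (by rwa [e3]) (eq_bot_iff.2 fun u hu => Subtype.ext (hfix.le ⟨u.2, (mem_fixS_subRep le_sup_right hL).1 hu⟩))
  rw [← H8.subgroupOf_commutator le_sup_left le_sup_right] at this
  intro g hg
  have hg' : g ∈ L ⊔ B := mem_sup_left (H8.commutator_le_left_of_norm hn hg)
  exact mem_kerOn.2 fun u hu =>
    congrArg Subtype.val (LinearMap.congr_fun (MonoidHom.mem_ker.1 (this (x := ⟨g, hg'⟩) hg)) ⟨u, hu⟩)

theorem lemS_inj (ρ : Representation F Γ W) (hρ : MonoidHom.ker ρ = ⊥) {B Q R : Subgroup Γ} (hB : (Nat.card B).Prime)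
    (hB0 : (Nat.card B : F) ≠ 0) (hfix : fixS ρ B = ⊥) {q r : ℕ} [hq : Fact q.Prime] [hr : Fact r.Prime]
    (hqr : r ≠ q) (hQ0 : (Nat.card Q : F) ≠ 0) (hQ : IsPGroup q Q) (hR : IsPGroup r R)
    (cQ : (Nat.card B).Coprime (Nat.card Q)) (cR : (Nat.card B).Coprime (Nat.card R))
    (hBQ : B ≤ normalizer (Q : Set Γ)) (hBR : B ≤ normalizer (R : Set Γ)) (hRQ : R ≤ normalizer (Q : Set Γ))
    (hyp : R ⊓ centralizer (B : Set Γ) ≤ centralizer ((Q ⊓ centralizer (B : Set Γ) : Subgroup Γ) : Set Γ)) : ⁅Q, R⁆ = ⊥ := by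
  have sR : Group.IsSolvable R := haveI := hR.isNilpotent; inferInstance
  have sQ : Group.IsSolvable Q := haveI := hQ.isNilpotent; inferInstance
  have k : ⁅Q, B⁆ ≤ kerOn ρ ⊤ → ⁅Q, R⁆ = ⊥ := fun h => fin_cent sR hBR hRQ cR hyp
    (eq_bot_iff.2 fun g hg => hρ.le (LinearMap.ext fun w => mem_kerOn.1 (h hg) w trivial))
  by_cases h2 : Nat.card B = 2
  · exact k (comm_two h2 (fun _ _ _ _ => trivial) (fun _ _ _ _ => trivial) (by rw [hfix, inf_bot_eq]))
  by_cases ho : Odd (Nat.card Q)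
  · exact k (comm_odd hB (fun _ _ _ _ => trivial) (by rw [hfix, inf_bot_eq]) sQ hBQ ho cQ hQ0 hB0)
  by_cases hR0 : R = ⊥
  · rw [hR0, commutator_bot_right]
  have hd : 2 ∣ Nat.card Q := even_iff_two_dvd.1 (Nat.not_odd_iff_even.1 ho)
  obtain rfl : 2 = q := by
    obtain ⟨k, hk⟩ := hQ.exists_card_eq
    exact (Nat.prime_dvd_prime_iff_eq Nat.prime_two hq.out).1 (Nat.prime_two.dvd_of_dvd_pow (hk ▸ hd))
  refine key2 ρ hρ hB h2 (by exact_mod_cast natCast_ne_zero_of_dvd hd hQ0) hB0 hfix hqr (fun e => ?_) Q R hQ hR hBQ hBR hRQ hyp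
  exact hB.one_lt.ne' (Nat.Coprime.eq_one_of_dvd cR (e ▸ hR.card_eq_or_dvd.resolve_left fun h => hR0 (card_eq_one.1 h)))

theorem lemS {ρ : Representation F Γ W} {U : Submodule F W} {X B Q R : Subgroup Γ} (hU : ∀ g ∈ X, ∀ w ∈ U, ρ g w ∈ U)
    (hBX : B ≤ X) (hQX : Q ≤ X) (hRX : R ≤ X) (hB : (Nat.card B).Prime)
    (hB0 : (Nat.card B : F) ≠ 0) (hfix : U ⊓ fixS ρ B = ⊥) {q r : ℕ} [hq : Fact q.Prime] [hr : Fact r.Prime]
    (hqr : r ≠ q) (hQ0 : (Nat.card Q : F) ≠ 0) (hQ : IsPGroup q Q) (hR : IsPGroup r R)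
    (cQ : (Nat.card B).Coprime (Nat.card Q)) (cR : (Nat.card B).Coprime (Nat.card R))
    (hBQ : B ≤ normalizer (Q : Set Γ)) (hBR : B ≤ normalizer (R : Set Γ)) (hRQ : R ≤ normalizer (Q : Set Γ))
    (hyp : R ⊓ centralizer (B : Set Γ) ≤ centralizer ((Q ⊓ centralizer (B : Set Γ) : Subgroup Γ) : Set Γ)) :
    ⁅Q, R⁆ ≤ kerOn ρ U := by
  by_cases hU0 : U = ⊥
  · exact fun g _ => mem_kerOn.2 fun u hu => by rw [hU0, Submodule.mem_bot] at hu; rw [hu, map_zero]
  obtain ⟨Δ, _, _, π, σ, h1, h2, h3, h4⟩ := exists_faithful ρ X U hU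
  have cd : ∀ H ≤ X, Nat.card ((H.subgroupOf X).map π) ∣ Nat.card H := fun H h => H1.card_subgroupOf h ▸ card_map_dvd _ _
  have nm : ∀ {H K : Subgroup Γ}, H ≤ normalizer (K : Set Γ) →
      (H.subgroupOf X).map π ≤ normalizer ((K.subgroupOf X).map π : Set Δ) := fun h =>
    (map_mono (H8.subgroupOf_le_normalizer h)).trans (le_normalizer_map π)
  have hf : fixS σ ((B.subgroupOf X).map π) = ⊥ := eq_bot_iff.2 fun u hu => Subtype.ext
    (hfix.le ⟨u.2, fun b hb => (h3 ⟨b, hBX hb⟩ u).symm.trans (congrArg Subtype.val (hu _ ⟨⟨b, hBX hb⟩, hb, rfl⟩))⟩)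
  have eB : Nat.card ((B.subgroupOf X).map π) = Nat.card B := ((Nat.dvd_prime hB).1 (cd B hBX)).resolve_left fun h => by
    rw [card_eq_one.1 h, fixS_bot] at hf
    exact hU0 (eq_bot_iff.2 fun u hu => congrArg Subtype.val (hf.le (x := ⟨u, hu⟩) trivial))
  have ct : ∀ {H : Subgroup Γ}, H ≤ X → IsPGroup q H ∨ IsPGroup r H → B ≤ normalizer (H : Set Γ) → (Nat.card B).Coprime (Nat.card H) →
      ∀ y ∈ (H.subgroupOf X).map π ⊓ centralizer ((B.subgroupOf X).map π : Set Δ), ∃ x : X, x.1 ∈ H ⊓ centralizer (B : Set Γ) ∧ π x = y :=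
    fun {H} hH _ hn hc y hy => by
      rw [← H1.map_inf_centralizer' π (H8.subgroupOf_le_normalizer hn) (by rwa [H1.card_subgroupOf hBX, H1.card_subgroupOf hH])
        (.inl (H1.isSolvable_subgroupOf (BG.sol_of_card_prime hB)))] at hy
      obtain ⟨x, hx, rfl⟩ := hy
      exact ⟨x, ⟨hx.1, fun b hb => congrArg Subtype.val (hx.2 ⟨b, hBX hb⟩ hb)⟩, rfl⟩
  refine h4 _ ((H8.commutator_le_left_of_norm hRQ).trans hQX) ?_
  rw [H8.subgroupOf_commutator hQX hRX, map_commutator]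
  refine lemS_inj σ h2 (eB ▸ hB) (eB ▸ hB0) hf hqr (natCast_ne_zero_of_dvd (cd Q hQX) hQ0) (hQ.comap_subtype.map π)
    (hR.comap_subtype.map π) (eB ▸ cQ.coprime_dvd_right (cd Q hQX)) (eB ▸ cR.coprime_dvd_right (cd R hRX)) (nm hBQ) (nm hBR)
    (nm hRQ) fun y hy z hz => ?_
  obtain ⟨y, hy', rfl⟩ := ct hRX (.inr hR) hBR cR y hy
  obtain ⟨z, hz', rfl⟩ := ct hQX (.inl hQ) hBQ cQ z hz
  rw [← map_mul, ← map_mul, show z * y = y * z from Subtype.ext (hyp hy' _ hz')]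

/-- A `K`-submodule whose stabiliser in `A` has order `n` and no fixed vectors. -/
structure Good (ρ : Representation F Γ W) (K A : Subgroup Γ) (n : ℕ) (U : Submodule F W) (B : Subgroup Γ) : Prop where
  le : B ≤ A
  card : Nat.card B = n
  inv : ∀ g ∈ K ⊔ B, ∀ w ∈ U, ρ g w ∈ U
  fix : U ⊓ fixS ρ B = ⊥

theorem reduce {ρ : Representation F Γ W} [Nontrivial W] (hρ : MonoidHom.ker ρ = ⊥) (hi : IrrOn ρ ⊤) {K A : Subgroup Γ}
    [K.Normal] (hs : Group.IsSolvable K) (hK : K ≠ ⊥) (hKA : K ⊔ A = ⊤) (hc : (Nat.card A).Coprime (Nat.card K))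
    (hf : K ⊓ centralizer (A : Set Γ) = ⊥) (hA0 : (Nat.card A : F) ≠ 0) (hfix : fixS ρ A = ⊥) :
    ∃ B < A, B ≠ ⊥ ∧ ∀ x : Γ, (∀ U B', Good ρ K A (Nat.card B) U B' → x ∈ kerOn ρ U) → x = 1 := by
  classical
  have hmul : ∀ {B : Subgroup Γ} {g}, g ∈ K ⊔ B → ∃ k ∈ K, ∃ b ∈ B, k * b = g := fun h => mem_sup_of_normal_left.1 h
  suffices ∃ B < A, ∃ U ≠ ⊥, Good ρ K A (Nat.card B) U B by
    obtain ⟨B, hB, U, hU, hg⟩ := this
    refine ⟨B, hB, fun e => hU (by simpa [e, fixS_bot] using hg.fix), fun x hx => hρ.le (LinearMap.ext fun w => ?_)⟩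
    let S : Submodule F W := ⨆ p : {p : Submodule F W × Subgroup Γ // Good ρ K A (Nat.card B) p.1 p.2}, p.1.1
    have hS : S = ⊤ := (hi S fun g _ w hw => ?_).resolve_left fun e => hU (eq_bot_iff.2 (e ▸ le_iSup_of_le ⟨(U, B), hg⟩ le_rfl))
    · have : w ∈ S := hS ▸ trivial
      induction this using Submodule.iSup_induction' with
      | mem p v hv => exact mem_kerOn.1 (hx _ _ p.2) v hv
      | zero => simp
      | add _ _ _ _ a b => rw [map_add, map_add, a, b]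
    · obtain ⟨k, hk, a, ha, rfl⟩ := hmul (hKA.ge (mem_top g))
      induction hw using Submodule.iSup_induction' with
      | zero => rw [map_zero]; exact S.zero_mem
      | add _ _ _ _ a b => rw [map_add]; exact S.add_mem a b
      | mem p v hv =>
        obtain ⟨⟨U, B'⟩, h⟩ := p
        have : Good ρ K A (Nat.card B) (U.map (ρ a)) (MulAut.conj a • B') := by
          refine ⟨?_, by rw [← h.card, H1.card_conj_smul], ?_, eq_bot_iff.2 ?_⟩
          · rintro _ ⟨b, hb, rfl⟩; exact A.mul_mem (A.mul_mem ha (h.le hb)) (A.inv_mem ha)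
          · rintro g hg _ ⟨u, hu, rfl⟩
            obtain ⟨k, hk, _, ⟨b, hb, rfl⟩, rfl⟩ := hmul hg
            refine ⟨_, h.inv (a⁻¹ * k * a * b) (mul_mem (mem_sup_left (Normal.conj_mem' inferInstance k hk a)) (mem_sup_right hb)) u hu, ?_⟩
            rw [← rep_mul_apply, ← rep_mul_apply]; congr 2
            change _ = k * (a * b * a⁻¹) * a; group
          · rintro _ ⟨⟨u, hu, rfl⟩, hv⟩
            have : u = 0 := h.fix.le ⟨hu, fun b hb => rep_injective ρ a (by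
              rw [← hv (a * b * a⁻¹) ⟨b, hb, rfl⟩, ← rep_mul_apply, ← rep_mul_apply, inv_mul_cancel_right])⟩
            rw [this, map_zero]; exact zero_mem _
        rw [rep_mul_apply]
        exact Submodule.mem_iSup_of_mem (p := fun p : {p : Submodule F W × Subgroup Γ // Good ρ K A (Nat.card B) p.1 p.2} => p.1.1)
          ⟨(_, _), this⟩ (this.inv k (mem_sup_left hk) _ ⟨v, hv, rfl⟩)
  obtain ⟨N, r, hNn, hN0, hNK, hr, hE, -⟩ := H1.exists_minimal_normal_elementary K hK hs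
  haveI := Fact.mk hr
  haveI := hE.1
  have hN : (Nat.card N : F) ≠ 0 := cast_ne_of_normal hρ hi (H1.IsElementaryAbelian.isPGroup' hE)
  have hNN : fixS ρ ⁅N, N⁆ = ⊤ := by rw [commutator_eq_bot_iff_le_centralizer.2 (le_centralizer N), fixS_bot]
  obtain ⟨μ, hμ, w, hw, hw0⟩ := exists_wt_ne_bot (ρ := ρ) hN (by rwa [hNN, top_le_iff, fixS_eq_top_iff, hρ, le_bot_iff])
  have hn : ∀ g : Γ, g ∈ normalizer (N : Set Γ) := fun g => le_normalizer_of_normal (K := ⊤) trivial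
  letI : MulAction Γ (N →* Fˣ) :=
    { smul := fun g ν => cjw ⟨g, hn g⟩ ν
      one_smul := cjw_one
      mul_smul := fun a b => cjw_mul ⟨a, hn a⟩ ⟨b, hn b⟩ }
  have hpr : ∀ g (ν : N →* Fˣ) v, pr ρ N ν (ρ g v) = ρ g (pr ρ N (g⁻¹ • ν) v) := fun g ν v => by
    rw [← pr_conj ρ ⟨g, hn g⟩]; congr 2; exact (smul_inv_smul g ν).symm
  let S := K ⊔ MulAction.stabilizer Γ μ
  have hS : ∀ g ∈ S, ∀ k ∈ K, ∃ k' ∈ K, g • k • μ = k' • μ := fun g hg k hk => by
    obtain ⟨a, ha, b, hb, rfl⟩ := hmul hg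
    refine ⟨a * (b * k * b⁻¹), K.mul_mem ha (Normal.conj_mem inferInstance k hk b), ?_⟩
    simp only [mul_smul, (show b⁻¹ • μ = μ from inv_mem hb)]
  have hS' : ∀ g, ∀ k ∈ K, ∀ k' ∈ K, g • k • μ = k' • μ → g ∈ S := fun g k hk k' hk' h => by
    have : k'⁻¹ * g * k ∈ MulAction.stabilizer Γ μ := by
      change _ • μ = μ; rw [mul_smul, mul_smul, h, inv_smul_smul]
    rw [show g = k' * (k'⁻¹ * g * k) * k⁻¹ by group]
    exact mul_mem (mul_mem (mem_sup_left hk') (mem_sup_right this)) (mem_sup_left (K.inv_mem hk))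
  let U : Submodule F W := ⨅ ν ∈ {ν : N →* Fˣ | ¬ ∃ k ∈ K, ν = k • μ}, LinearMap.ker (pr ρ N ν)
  have hU : ∀ v, v ∈ U ↔ ∀ ν, (¬ ∃ k ∈ K, ν = k • μ) → pr ρ N ν v = 0 := fun v => by simp [U]
  refine ⟨A ⊓ S, lt_of_le_of_ne inf_le_left fun e => ?_, U, (Submodule.ne_bot_iff _).2 ⟨w, (hU w).2 fun ν hν =>
    pr_of_ne (fun e => hν ⟨1, K.one_mem, by rw [one_smul, e]⟩) hw, hw0⟩, inf_le_left, rfl, fun g hg v hv => ?_, eq_bot_iff.2 fun v hv => ?_⟩
  · obtain ⟨k, hk, h⟩ := H1.glauberman_exists le_normalizer_of_normal hc (.inr hs) μ fun a ha => by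
      simpa using hS a (inf_eq_left.1 e ha) 1 K.one_mem
    refine cjw_ne_one ⟨k, hn k⟩ hμ (eq_one_of_le_ker ?_)
    have h1 := H1.commutator_sup_centralizer (A := A) (K := N) le_normalizer_of_normal (hc.coprime_dvd_right (card_dvd_of_le hNK))
      (.inr (H1.isSolvable_of_le hNK hs))
    rw [eq_bot_iff.2 ((inf_le_inf_right _ hNK).trans hf.le), sup_bot_eq] at h1
    refine h1.ge.trans (commutator_le.2 fun x hx a ha => ?_)
    exact comm_le_ker_of_cjw_eq (g := ⟨a, hn a⟩) (h a ha) (commutator_mem_commutator hx (mem_zpowers a))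
  · have hg' : g ∈ S := (sup_le le_sup_left inf_le_right : K ⊔ A ⊓ S ≤ S) hg
    refine (hU _).2 fun ν hν => ?_
    rw [hpr, (hU v).1 hv, map_zero]
    rintro ⟨k, hk, e⟩
    obtain ⟨k', hk', e'⟩ := hS g hg' k hk
    exact hν ⟨k', hk', by rw [← e', ← e, smul_inv_smul]⟩
  · haveI := Fintype.ofFinite A
    haveI : Finite (N →* Fˣ) := Nat.finite_of_card_ne_zero fun e => by
      have := card_char (F := F) hN
      rw [e, zero_mul] at this; exact Nat.card_pos.ne this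
    haveI := Fintype.ofFinite (N →* Fˣ)
    rw [Submodule.mem_bot, ← sum_pr hN (hNN ▸ trivial : v ∈ fixS ρ ⁅N, N⁆)]
    refine Finset.sum_eq_zero fun ν _ => ?_
    by_cases hν : ∃ k ∈ K, ν = k • μ
    swap; · exact (hU v).1 hv.1 ν hν
    obtain ⟨k, hk, rfl⟩ := hν
    have h0 : ∑ a : A, ρ a v = 0 := hfix.le (norm_mem_fixS ρ A v)
    have h1 := congrArg (pr ρ N (k • μ)) h0
    rw [map_sum, map_zero, Finset.sum_congr rfl (g := fun a : A => if a.1 ∈ S then pr ρ N (k • μ) v else 0) fun a _ => ?_,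
      ← Finset.sum_filter, Finset.sum_const, ← Nat.cast_smul_eq_nsmul F, smul_eq_zero] at h1
    · refine h1.resolve_left (natCast_ne_zero_of_dvd ?_ hA0)
      rw [← Fintype.card_subtype, ← Nat.card_eq_fintype_card]
      exact card_subgroup_dvd_card (S.subgroupOf A)
    · split_ifs with h
      · rw [hv.2 a ⟨a.2, h⟩]
      · rw [hpr, (hU v).1 hv.1, map_zero]
        rintro ⟨k', hk', e⟩
        exact h (S.inv_mem_iff.1 (hS' _ k hk k' hk' e))

end Cfsg.Agent.C3.FP
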