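import Cfsg.Agent.C3.FP3
import Cfsg.Agent.H2.Hol

/-! Fixed-point-free operator groups of order `pq`: Fitting height two; the symmetric group of degree three. -/

set_option autoImplicit false

namespace Cfsg.Agent.C3.FP

open Subgroup Module H2 commutatorElement Pointwise

universe u

theorem pq_arith {p q n m : ℕ} (hp : p.Prime) (hq : q.Prime) (h : n * m ∣ p * q) (hn : n ≠ 1) (hm : m ≠ 1) :
    n.Prime ∧ m.Prime ∧ (n = m → p = q ∧ n = p) := by
  have k : ∀ {n m : ℕ}, n * m ∣ p * q → n ≠ 1 → m ≠ 1 → n = p ∨ n = q := fun {n m} h hn hm => by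
    obtain ⟨a, b, ha, hb, rfl⟩ := exists_dvd_and_dvd_of_dvd_mul (Dvd.dvd.trans (Dvd.intro _ rfl) h)
    rcases (Nat.dvd_prime hp).1 ha with rfl | rfl <;> rcases (Nat.dvd_prime hq).1 hb with rfl | rfl
    · simp at hn
    · simp
    · simp
    · exact absurd (Nat.dvd_one.1 (Nat.dvd_of_mul_dvd_mul_left (Nat.mul_pos hp.pos hq.pos) (by simpa using h))) hm
  have h1 := k h hn hm
  have h2 := k (mul_comm n m ▸ h) hm hn
  refine ⟨by rcases h1 with rfl | rfl <;> assumption, by rcases h2 with rfl | rfl <;> assumption, ?_⟩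
  rintro rfl
  rcases h1 with rfl | rfl
  · exact ⟨(Nat.prime_dvd_prime_iff_eq hp hq).1 (Nat.dvd_of_mul_dvd_mul_left hp.pos h), rfl⟩
  · have := (Nat.prime_dvd_prime_iff_eq hq hp).1 (Nat.dvd_of_mul_dvd_mul_right hq.pos h)
    exact ⟨this.symm, this⟩

theorem pq_cases {Γ : Type*} [Group Γ] [Finite Γ] {A B : Subgroup Γ} {p q : ℕ} (hp : p.Prime) (hq : q.Prime)
    (hA : Nat.card A ∣ p * q) (he : p ≠ q ∨ ∀ a ∈ A, a ^ p = 1) (hB : B < A) (hB0 : B ≠ ⊥) : (Nat.card B).Prime ∧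
    ((∀ B' ≤ A, Nat.card B' = Nat.card B → A ≤ normalizer (B' : Set Γ) ∧ ∃ T ≤ A, (Nat.card T).Prime ∧ T ⊔ B' = A) ∨
     ∃ T ≤ A, (Nat.card T).Prime ∧ A ≤ normalizer (T : Set Γ) ∧ ∀ B' ≤ A, Nat.card B' = Nat.card B → T ⊔ B' = A) := by
  have hi : ∀ X ≤ A, Nat.card X * X.relIndex A = Nat.card A := fun X h => by
    rw [← H1.card_subgroupOf h, relIndex, card_mul_index]
  obtain ⟨h1, h2, h3⟩ := pq_arith hp hq (hi B hB.le ▸ hA) (fun e => hB0 (card_eq_one.1 e)) fun e => hB.not_ge (relIndex_eq_one.1 e)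
  have e0 := hi B hB.le
  set n := Nat.card B
  set m := B.relIndex A
  have i1 : ∀ B' ≤ A, Nat.card B' = n → B'.relIndex A = m := fun X h e =>
    Nat.eq_of_mul_eq_mul_left h1.pos (by rw [e0, ← e, hi X h])
  have sp : ∀ B' ≤ A, Nat.card B' = n → ∀ T ≤ A, ¬ T ≤ B' → T ⊔ B' = A := fun X h e T hT hn => by
    have := H1.isCoatom_of_index_prime (M := X.subgroupOf A) (by rw [← relIndex, i1 X h e]; exact h2)
    refine le_antisymm (sup_le hT h) (subgroupOf_eq_top.1 (this.2 _ (lt_of_le_of_ne (comap_mono le_sup_right) fun e' => hn fun t ht => ?_)))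
    have : (⟨t, hT ht⟩ : A) ∈ (T ⊔ X).subgroupOf A := mem_sup_left (S := T) ht
    rwa [← e'] at this
  have nm : ∀ X ≤ A, X.relIndex A = (Nat.card A).minFac → A ≤ normalizer (X : Set Γ) := fun X h e =>
    haveI := normal_of_index_eq_minFac_card (H := X.subgroupOf A) e
    le_normalizer_of_normal_subgroupOf h
  have mf : ∀ {a b : ℕ}, a.Prime → b.Prime → b ≤ a → (a * b).minFac = b := fun {a b} ha hb h => by
    have g1 := Nat.minFac_le_of_dvd hb.two_le (Dvd.intro_left a rfl)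
    have g2 := Nat.minFac_prime (n := a * b) (fun e => hb.one_lt.ne' (Nat.eq_one_of_mul_eq_one_left e))
    rcases (g2.dvd_mul).1 (Nat.minFac_dvd _) with g | g
    · have := (Nat.prime_dvd_prime_iff_eq g2 ha).1 g; omega
    · exact (Nat.prime_dvd_prime_iff_eq g2 hb).1 g
  obtain ⟨t, ht⟩ : ∃ t : A, orderOf t = m := haveI := Fact.mk h2; exists_prime_orderOf_dvd_card' m (Dvd.intro_left _ e0)
  have hT : Nat.card (zpowers t.1) = m := by rw [Nat.card_zpowers, orderOf_coe, ht]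
  have hT' : zpowers t.1 ≤ A := zpowers_le.2 t.2
  have hn : n ≠ m → ∀ B' : Subgroup Γ, Nat.card B' = n → ¬ zpowers t.1 ≤ B' := fun hne X e h =>
    hne ((Nat.prime_dvd_prime_iff_eq h2 h1).1 (hT ▸ e ▸ card_dvd_of_le h)).symm
  refine ⟨h1, ?_⟩
  rcases le_or_gt m n with h | h
  · refine .inl fun X hX e => ⟨nm X hX (by rw [i1 X hX e, ← e0, mf h1 h2 h]), ?_⟩
    by_cases hne : n = m
    · obtain ⟨s, hs, hs'⟩ := SetLike.exists_of_lt (lt_of_le_of_ne hX fun e' => h2.one_lt.ne' (by rw [← i1 X hX e, e', relIndex_self]))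
      haveI := Fact.mk hp
      exact ⟨zpowers s, zpowers_le.2 hs, by
        rw [Nat.card_zpowers, orderOf_eq_prime (he.resolve_left (not_not.2 (h3 hne).1) s hs) fun e => hs' (e ▸ X.one_mem)]; exact hp,
        sp X hX e _ (zpowers_le.2 hs) fun h => hs' (h (mem_zpowers s))⟩
    · exact ⟨_, hT', hT ▸ h2, sp X hX e _ hT' (hn hne X e)⟩
  · refine .inr ⟨_, hT', hT ▸ h2, nm _ hT' ?_, fun X hX e => sp X hX e _ hT' (hn h.ne X e)⟩
    rw [← e0, mul_comm, mf h2 h1 h.le]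
    exact Nat.eq_of_mul_eq_mul_left h2.pos (by rw [← hT, hi _ hT', hT, ← e0, mul_comm])

variable {F : Type*} {Γ : Type u} {W : Type*} [Field F] [Group Γ] [AddCommGroup W] [Module F W]
  [Finite Γ] [FiniteDimensional F W] [IsAlgClosed F]

theorem frob_ker {ρ : Representation F Γ W} {U : Submodule F W} {L B : Subgroup Γ} (hB : (Nat.card B).Prime)
    (hL : ∀ g ∈ L ⊔ B, ∀ w ∈ U, ρ g w ∈ U) (hfix : U ⊓ fixS ρ B = ⊥) (hs : Group.IsSolvable L)
    (hn : B ≤ normalizer (L : Set Γ)) (hf : L ⊓ centralizer (B : Set Γ) = ⊥) (hL0 : (Nat.card L : F) ≠ 0) : L ≤ kerOn ρ U := by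
  have e2 := H1.card_subgroupOf (le_sup_left : L ≤ L ⊔ B)
  have e3 := H1.card_subgroupOf (le_sup_right : B ≤ L ⊔ B)
  have h0 : fixS (subRep ρ _ U hL) (B.subgroupOf (L ⊔ B)) = ⊥ :=
    eq_bot_iff.2 fun u hu => Subtype.ext (hfix.le ⟨u.2, (mem_fixS_subRep le_sup_right hL).1 hu⟩)
  have := wielandt_rep (subRep ρ _ U hL) (K := L.subgroupOf (L ⊔ B)) (R := B.subgroupOf (L ⊔ B)) (H1.isSolvable_subgroupOf hs)
    (H8.subgroupOf_le_normalizer hn) (by rwa [e2]) ((Cfsg.Agent.L.FPF.of_prime hB hf).subgroupOf _)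
  rw [fixS_sup, h0, inf_bot_eq, add_left_inj] at this
  have h1 := Submodule.eq_top_of_finrank_eq this.symm
  exact fun g hg => mem_kerOn.2 fun u hu => (mem_fixS_subRep le_sup_left hL).1 (h1.ge (Submodule.mem_top (x := ⟨u, hu⟩))) g hg

omit [FiniteDimensional F W] [IsAlgClosed F] in
theorem fit_cast {ρ : Representation F Γ W} [Nontrivial W] (hρ : MonoidHom.ker ρ = ⊥) (hi : IrrOn ρ ⊤) (K : Subgroup Γ)
    [K.Normal] : (Nat.card ((fittingSubgroup K).map K.subtype) : F) ≠ 0 := fun h => by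
  rw [card_subtype, ringChar.spec] at h
  rcases CharP.char_is_prime_or_zero F (ringChar F) with hp | h0
  · haveI := Fact.mk hp
    have h1 := (H1.isSylowIn_pCore_fittingSubgroup (G := K) (ringChar F)).ne_bot h
    refine cast_ne_of_normal hρ hi ((H1.isPGroup_pCore (ringChar F) K).map K.subtype) ?_
    rw [card_subtype, ringChar.spec]
    exact (H1.isPGroup_pCore (ringChar F) K).card_eq_or_dvd.resolve_left fun e => h1 (card_eq_one.1 e)
  · rw [h0, zero_dvd_iff] at h; exact Nat.card_pos.ne' h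

theorem rep_nil {ρ : Representation F Γ W} [Nontrivial W] (hρ : MonoidHom.ker ρ = ⊥) (hi : IrrOn ρ ⊤) {K A : Subgroup Γ}
    [K.Normal] (hs : Group.IsSolvable K) (hKA : K ⊔ A = ⊤) (hc : (Nat.card A).Coprime (Nat.card K))
    (hf : K ⊓ centralizer (A : Set Γ) = ⊥) (hA0 : (Nat.card A : F) ≠ 0) (hfix : fixS ρ A = ⊥) {p q : ℕ} (hp : p.Prime)
    (hq : q.Prime) (hA : Nat.card A ∣ p * q) (he : p ≠ q ∨ ∀ a ∈ A, a ^ p = 1) : Group.IsNilpotent K := by
  by_contra hne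
  obtain ⟨B, hB, hB0, hfam⟩ := reduce hρ hi hs (by rintro rfl; exact hne inferInstance) hKA hc hf hA0 hfix
  obtain ⟨hBp, hcase⟩ := pq_cases hp hq hA he hB hB0
  set F0 := (fittingSubgroup K).map K.subtype with hF0
  have hFK : F0 ≤ K := map_subtype_le _
  have hF : (Nat.card F0 : F) ≠ 0 := fit_cast hρ hi K
  haveI : (K.map (QuotientGroup.mk' F0)).Normal := Normal.map inferInstance _ (QuotientGroup.mk'_surjective _)
  obtain ⟨N, r, hNn, hN0, hNK, hr, hE, -⟩ := H1.exists_minimal_normal_elementary (K.map (QuotientGroup.mk' F0)) (fun e => by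
    rw [Subgroup.map_eq_bot_iff, QuotientGroup.ker_mk'] at e
    exact hne (le_antisymm hFK e ▸ H1.isNilpotent_map_fittingSubgroup K)) (H1.isSolvable_map _ hs)
  haveI := Fact.mk hr
  set M := N.comap (QuotientGroup.mk' F0) with hM
  haveI : M.Normal := Normal.comap hNn _
  have hMK : M ≤ K := (comap_mono hNK).trans (by rw [comap_map_eq, QuotientGroup.ker_mk', sup_eq_left.2 hFK])
  have hFM : F0 ≤ M := fun x hx => by
    change QuotientGroup.mk' F0 x ∈ N; rw [show QuotientGroup.mk' F0 x = 1 from (QuotientGroup.eq_one_iff x).2 hx]; exact N.one_mem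
  have cop : ∀ {X Y : Subgroup Γ}, X ≤ A → Y ≤ K → (Nat.card X).Coprime (Nat.card Y) := fun h1 h2 =>
    (hc.coprime_dvd_left (card_dvd_of_le h1)).coprime_dvd_right (card_dvd_of_le h2)
  have sol : ∀ {Y : Subgroup Γ}, Y ≤ K → Group.IsSolvable Y := fun h => H1.isSolvable_of_le h hs
  obtain ⟨R, hR, hAR⟩ := H1.exists_invariant_isSylowIn (A := A) (K := M) le_normalizer_of_normal (cop le_rfl hMK) (.inr (sol hMK)) r
  have hRK := hR.1.trans hMK
  have hmap : M.map (QuotientGroup.mk' F0) = N := map_comap_eq_self_of_surjective (QuotientGroup.mk'_surjective _) N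
  have hRN : R.map (QuotientGroup.mk' F0) = N := by
    have := hR.map (QuotientGroup.mk' F0)
    rw [hmap] at this
    exact (this.eq_of_le this.1 le_rfl (H1.IsElementaryAbelian.isPGroup' hE)).symm
  have hMR : M = R ⊔ F0 := by rw [hM, ← hRN, comap_map_eq, QuotientGroup.ker_mk']
  let O := fun s : ℕ => (pCore s K).map K.subtype
  have hO : ∀ s, IsPGroup s (O s) := fun s => (H1.isPGroup_pCore s K).map _
  have hOF : ∀ s [Fact s.Prime], O s ≤ F0 := fun s _ => map_mono (H1.pCore_le_fittingSubgroup s)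
  have nil : ∀ {L T : Subgroup Γ}, L ≤ K → (Nat.card T).Prime → T ≤ normalizer (L : Set Γ) → L ⊓ centralizer (T : Set Γ) = ⊥ →
      ∀ {X Y : Subgroup Γ}, X ≤ L → Y ≤ L → (Nat.card X).Coprime (Nat.card Y) → X ≤ centralizer (Y : Set Γ) :=
    fun h1 h2 h3 h4 _ _ h5 h6 h7 => H1.le_centralizer_of_isNilpotent_of_coprime (BG.nil_of_prime_reg h2 h3 (sol h1) h4) h5 h6 h7
  have cs : ∀ {T X : Subgroup Γ}, T ⊔ X = A → ∀ {L : Subgroup Γ}, L ≤ K → L ≤ centralizer (T : Set Γ) → L ⊓ centralizer (X : Set Γ) = ⊥ :=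
    fun {T X} h L h1 h2 => eq_bot_iff.2 (le_trans (le_inf (inf_le_left.trans h1) (le_centralizer_iff.1 (h ▸ sup_le (le_centralizer_iff.1
      (inf_le_left.trans h2)) (le_centralizer_iff.1 inf_le_right)))) hf.le)
  suffices G1 : ∀ s [Fact s.Prime], r ≠ s → R ≤ centralizer (O s : Set Γ) by
    have h1 : M ≤ normalizer (R : Set Γ) := by
      rw [hMR, hF0, H1.fittingSubgroup_eq_iSup, Subgroup.map_iSup]
      refine sup_le le_normalizer (iSup_le fun s => ?_)
      haveI := Fact.mk s.2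
      by_cases e : r = s
      · exact (hR.le_of_normal ((hOF s).trans hFM) (e ▸ hO s) le_normalizer_of_normal).trans le_normalizer
      · exact H1.le_normalizer_of_le_centralizer (le_centralizer_iff.1 (G1 s e))
    have h2 := (H1.le_map_fittingSubgroup hR.1 h1 hR.2.1.isNilpotent).trans (H1.map_fittingSubgroup_mono hMK le_normalizer_of_normal)
    apply hN0
    rw [← hRN, Subgroup.map_eq_bot_iff, QuotientGroup.ker_mk']; exact h2
  intro s _ hrs
  have crs : ∀ {X Y : Subgroup Γ}, X ≤ R → Y ≤ O s → (Nat.card X).Coprime (Nat.card Y) := fun h1 h2 =>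
    IsPGroup.coprime_card_of_ne r s hrs _ _ (hR.2.1.to_le h1) ((hO s).to_le h2)
  have hOK := (hOF s).trans hFK
  have red : (∀ B' ≤ A, Nat.card B' = Nat.card B →
      R ⊓ centralizer (B' : Set Γ) ≤ centralizer ((O s ⊓ centralizer (B' : Set Γ) : Subgroup Γ) : Set Γ)) → R ≤ centralizer (O s : Set Γ) :=
    fun h => le_centralizer_iff.1 (commutator_eq_bot_iff_le_centralizer.1 (eq_bot_iff.2 fun x hx => hfam x fun U B' g =>
      lemS g.inv le_sup_right (hOK.trans le_sup_left) (hRK.trans le_sup_left) (g.card ▸ hBp)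
        (natCast_ne_zero_of_dvd (card_dvd_of_le g.le) hA0) g.fix hrs (natCast_ne_zero_of_dvd (card_dvd_of_le (hOF s)) hF) (hO s) hR.2.1
        (cop g.le hOK) (cop g.le hRK) le_normalizer_of_normal (g.le.trans hAR) le_normalizer_of_normal (h B' g.le g.card) hx))
  rcases hcase with h | ⟨T, hT, hTp, hTn, h⟩
  · refine red fun B' hB' e => ?_
    obtain ⟨h1, T, hT, hTp, h2⟩ := h B' hB' e
    exact nil (L := K ⊓ centralizer (B' : Set Γ)) inf_le_left hTp (H1.le_normalizer_inf le_normalizer_of_normal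
      ((hT.trans h1).trans (H1.normalizer_le_normalizer_centralizer B'))) (cs (sup_comm T B' ▸ h2) inf_le_left inf_le_right)
      (inf_le_inf_right _ hRK) (inf_le_inf_right _ hOK) (crs inf_le_left inf_le_left)
  have E : ∀ (L : Subgroup Γ) [L.Normal], L ≤ K → (Nat.card L : F) ≠ 0 → L ⊓ centralizer (T : Set Γ) = ⊥ := fun L _ h1 h2 =>
    eq_bot_iff.2 fun x hx => hfam x fun U B' g => frob_ker (g.card ▸ hBp)
      (fun y hy => g.inv y (sup_le_sup_right (inf_le_left.trans h1) _ hy)) g.fix (sol (inf_le_left.trans h1))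
      (H1.le_normalizer_inf le_normalizer_of_normal ((g.le.trans hTn).trans (H1.normalizer_le_normalizer_centralizer T)))
      (cs (h B' g.le g.card) (inf_le_left.trans h1) inf_le_right) (natCast_ne_zero_of_dvd (card_dvd_of_le inf_le_left) h2) hx
  obtain ⟨k, hk⟩ := hR.2.1.exists_card_eq
  by_cases hr0 : (r : F) = 0
  swap
  · refine nil hMK hTp le_normalizer_of_normal (E M hMK ?_) hR.1 ((hOF s).trans hFM) (crs le_rfl le_rfl)
    rw [hMR]
    refine natCast_ne_zero_of_dvd (H1.card_sup_dvd le_normalizer_of_normal) ?_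
    rw [Nat.cast_mul, hk, Nat.cast_pow]
    exact mul_ne_zero (pow_ne_zero _ hr0) hF
  have cF : (Nat.card R).Coprime (Nat.card F0) := hk ▸ Nat.Coprime.pow_left _ (hr.coprime_iff_not_dvd.2 fun ⟨c, e⟩ =>
    hF (by rw [e, Nat.cast_mul, hr0, zero_mul]))
  have hRF : R ⊓ F0 = ⊥ := inf_eq_bot_of_coprime cF
  haveI : IsMulCommutative R := ⟨⟨fun a b => Subtype.ext (commutatorElement_eq_one_iff_mul_comm.1 (hRF.le
    ⟨R.mul_mem (R.mul_mem (R.mul_mem a.2 b.2) (R.inv_mem a.2)) (R.inv_mem b.2), (QuotientGroup.eq_one_iff _).1 (by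
      change QuotientGroup.mk' F0 ⁅a.1, b.1⁆ = 1
      rw [map_commutatorElement, commutatorElement_eq_one_iff_mul_comm]
      exact congrArg Subtype.val (hE.1.is_comm.comm ⟨_, hR.1 a.2⟩ ⟨_, hR.1 b.2⟩))⟩))⟩⟩
  have hTR := hT.trans hAR
  have h1 : ⁅R, T⁆ ≤ R := H8.commutator_le_left_of_norm hTR
  have nT := H1.le_normalizer_commutator hTR (le_normalizer (H := T))
  have h2 := nil (L := ⁅R, T⁆ ⊔ F0) (sup_le (h1.trans hRK) hFK) hTp (H1.le_normalizer_sup nT le_normalizer_of_normal) (by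
    rw [H1.sup_inf_centralizer nT le_normalizer_of_normal le_normalizer_of_normal (cop hT (inf_le_right.trans hFK))
      (.inr (sol (inf_le_right.trans hFK))), H1.commutator_inf_centralizer_eq_bot hTR (cop hT hRK), E F0 hFK hF, sup_bot_eq])
    le_sup_left le_sup_right (cF.coprime_dvd_left (card_dvd_of_le h1))
  have h3 : ⁅R, T⁆ = ⊥ := eq_bot_iff.2 (le_trans (le_inf h1 ((le_inf (h1.trans hRK) h2).trans
    (H1.inf_centralizer_map_fittingSubgroup_le hs))) hRF.le)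
  refine red fun B' hB' e => ?_
  rw [cs (h B' hB' e) hRK (commutator_eq_bot_iff_le_centralizer.1 h3)]
  exact bot_le

omit [Finite Γ] in
theorem mv_comm {K : Subgroup Γ} [K.Normal] (g : Γ) {s s' x : Γ} (hs : g * s * g⁻¹ = s') (hx : x ∈ ⁅K, zpowers s⁆) :
    g * x * g⁻¹ ∈ ⁅K, zpowers s'⁆ := by
  have := mem_map_of_mem (MulAut.conj g).toMonoidHom hx
  rw [map_commutator, MonoidHom.map_zpowers] at this
  refine commutator_mono ?_ (by rw [← hs]; exact le_rfl) this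
  rintro _ ⟨k, hk, rfl⟩; exact Normal.conj_mem inferInstance k hk g

theorem rep_comm {ρ : Representation F Γ W} [Nontrivial W] (hρ : MonoidHom.ker ρ = ⊥) (hi : IrrOn ρ ⊤) {K : Subgroup Γ}
    [K.Normal] (f : Equiv.Perm (Fin 3) →* Γ) (hs : Group.IsSolvable K) (hKA : K ⊔ f.range = ⊤) (hc : (Nat.card K).Coprime 6)
    (hf : K ⊓ centralizer (f.range : Set Γ) = ⊥) (hA0 : (Nat.card f.range : F) ≠ 0) (hfix : fixS ρ f.range = ⊥) :
    K ≤ centralizer (K : Set Γ) := by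
  by_cases hK : K = ⊥
  · rw [hK]; exact bot_le
  have hA : Nat.card f.range ∣ 2 * 3 := by
    have := card_range_dvd f
    rwa [Nat.card_eq_fintype_card (α := Equiv.Perm (Fin 3)), Fintype.card_perm, Fintype.card_fin] at this
  have hc' := hc.symm.coprime_dvd_left hA
  obtain ⟨B, hB, hB0, hfam⟩ := reduce hρ hi hs hK hKA hc' hf hA0 hfix
  have hBp := (pq_cases Nat.prime_two Nat.prime_three hA (.inl (by norm_num)) hB hB0).1
  have cop : ∀ {X Y : Subgroup Γ}, X ≤ f.range → Y ≤ K → (Nat.card X).Coprime (Nat.card Y) := fun h1 h2 =>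
    (hc'.coprime_dvd_left (card_dvd_of_le h1)).coprime_dvd_right (card_dvd_of_le h2)
  have gen : ∀ {B' : Subgroup Γ}, B' ≤ f.range → Nat.card B' = Nat.card B → ∃ g, f g ∈ B' ∧ f g ≠ 1 ∧ f g ^ Nat.card B = 1 :=
    fun {B'} h e => by
      obtain ⟨b, hb, hb1⟩ := (bot_or_exists_ne_one B').resolve_left fun e' => hBp.one_lt.ne' (by rw [← e, e', card_bot])
      obtain ⟨g, rfl⟩ := h hb
      exact ⟨g, hb, hb1, e ▸ congrArg Subtype.val (pow_card_eq_one' (x := (⟨_, hb⟩ : B')))⟩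
  have two : ∀ a b : Equiv.Perm (Fin 3), (∀ g, g = 1 ∨ g = a ∨ g = b ∨ g = a * b ∨ g = b * a ∨ g = a * b * a ∨ g = a * a) →
      zpowers (f a) ⊔ zpowers (f b) = f.range := fun a b h => le_antisymm
    (sup_le (zpowers_le.2 ⟨a, rfl⟩) (zpowers_le.2 ⟨b, rfl⟩)) (by
      have h1 := mem_sup_left (T := zpowers (f b)) (mem_zpowers (f a))
      have h2 := mem_sup_right (S := zpowers (f a)) (mem_zpowers (f b))
      rintro _ ⟨g, rfl⟩
      rcases h g with rfl | rfl | rfl | rfl | rfl | rfl | rfl <;> (try simp only [map_mul, map_one])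
      exacts [one_mem _, h1, h2, mul_mem h1 h2, mul_mem h2 h1, mul_mem (mul_mem h1 h2) h1, mul_mem h1 h1])
  obtain ⟨s0, s1, s2, c, z1, z2, z3, z4, z5, z6, z7, z8, z9, z10, z11, z12, z13⟩ : ∃ s0 s1 s2 c : Equiv.Perm (Fin 3),
      (∀ g, g ^ 2 = 1 ∨ g = c ∨ g * g = c) ∧ (∀ g, g ^ 3 = 1 ∨ g = s0 ∨ g = s1 ∨ g = s2) ∧ s0 * s0 = 1 ∧
      (∀ g, g = 1 ∨ g = c ∨ g = s0 ∨ g = c * s0 ∨ g = s0 * c ∨ g = c * s0 * c ∨ g = c * c) ∧
      (∀ a b : Equiv.Perm (Fin 3), a * a = 1 → b * b = 1 → a ≠ 1 → b ≠ 1 → a ≠ b →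
        ∀ g, g = 1 ∨ g = a ∨ g = b ∨ g = a * b ∨ g = b * a ∨ g = a * b * a ∨ g = a * a) ∧
      c * s0 * c⁻¹ = s1 ∧ c * s1 * c⁻¹ = s2 ∧ c * s2 * c⁻¹ = s0 ∧ s0 * s1 * s0⁻¹ = s2 ∧ s0 * s2 * s0⁻¹ = s1 ∧
      c * c * c = 1 ∧ s0 * c = c * c * s0 ∧ (s1 * s1 = 1 ∧ s2 * s2 = 1 ∧ s0 ≠ 1 ∧ s1 ≠ 1 ∧ s2 ≠ 1 ∧ s0 ≠ s1 ∧ s0 ≠ s2 ∧ s1 ≠ s2) :=
    ⟨Equiv.swap 0 1, Equiv.swap 1 2, Equiv.swap 0 2, Equiv.swap 0 1 * Equiv.swap 1 2, by decide, by decide, by decide,
      by decide, by decide, by decide, by decide, by decide, by decide, by decide, by decide, by decide, by decide⟩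
  have cen : ∀ x ∈ K, f c * x * (f c)⁻¹ = x → f s0 * x * (f s0)⁻¹ = x → x = 1 := fun x hx a b => hf.le ⟨hx, by
    have : f.range ≤ centralizer {x} := two _ _ z4 ▸ sup_le
      (zpowers_le.2 (mem_centralizer_singleton_iff.2 (mul_inv_eq_iff_eq_mul.1 a)))
      (zpowers_le.2 (mem_centralizer_singleton_iff.2 (mul_inv_eq_iff_eq_mul.1 b)))
    exact fun g hg => mem_centralizer_singleton_iff.1 (this hg)⟩
  rcases (hBp.dvd_mul.1 ((card_dvd_of_le hB.le).trans hA)) with h | h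
  · have h2 := (Nat.prime_dvd_prime_iff_eq hBp Nat.prime_two).1 h
    set L0 := ⁅K, zpowers (f s0)⁆
    set L1 := ⁅K, zpowers (f s1)⁆
    set L2 := ⁅K, zpowers (f s2)⁆
    have tri : ∀ x ∈ L0, x ∈ L1 → x ∈ L2 → x = 1 := fun x h0 h1 h2' => hfam x fun U B' g => by
      obtain ⟨a, ha, ha1, ha2⟩ := gen g.le g.card
      have k := comm_two (L := K) (g.card.trans h2) (fun y hy => g.inv y (mem_sup_left hy)) (fun y hy => g.inv y (mem_sup_right hy)) g.fix
      have k' := (commutator_mono (le_refl K) (zpowers_le.2 ha)).trans k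
      rcases z2 a with e | rfl | rfl | rfl
      · rw [h2] at ha2
        exact absurd (by have := congrArg f e; rwa [map_pow, pow_succ, ha2, one_mul, map_one] at this) ha1
      exacts [k' h0, k' h1, k' h2']
    have lK : ∀ s, ⁅K, zpowers (f s)⁆ ≤ K := fun s => commutator_le_left _ _
    have nK : ∀ s, K ≤ normalizer ((⁅K, zpowers (f s)⁆ : Subgroup Γ) : Set Γ) := fun s => Subgroup.normalizer_commutator_ge_left _ _
    have cm : ∀ s s', ∀ x ∈ ⁅K, zpowers (f s)⁆, ∀ y ∈ ⁅K, zpowers (f s')⁆, ⁅x, y⁆ ∈ ⁅K, zpowers (f s)⁆ ∧ ⁅x, y⁆ ∈ ⁅K, zpowers (f s')⁆ :=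
      fun s s' x hx y hy => ⟨H8.commutator_le_left_of_norm ((lK s').trans (nK s)) (commutator_mem_commutator hx hy),
        H8.commutator_le_right_of_norm ((lK s).trans (nK s')) (commutator_mem_commutator hx hy)⟩
    have mv : ∀ g {s s' x}, g * s * g⁻¹ = s' → x ∈ ⁅K, zpowers (f s)⁆ → f g * x * (f g)⁻¹ ∈ ⁅K, zpowers (f s')⁆ :=
      fun g _ _ _ e hx => mv_comm _ (by rw [← e, map_mul, map_mul, map_inv]) hx
    have d12 : ∀ d ∈ L1, d ∈ L2 → d = 1 := fun d h1 h2 => by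
      have hd := lK _ h1
      have a1 : f s0 * d * (f s0)⁻¹ = d := by
        have : d⁻¹ * (f s0 * d * (f s0)⁻¹) = 1 := tri _ (commutator_mem_commutator (K.inv_mem hd) (mem_zpowers (f s0)) |> fun h => by
          simpa only [commutatorElement_def, inv_inv, mul_assoc] using h)
          (mul_mem (inv_mem h1) (mv s0 z10 h2)) (mul_mem (inv_mem h2) (mv s0 z9 h1))
        exact (inv_mul_eq_one.1 this).symm
      set u := f c
      have u3 : u * u * u = 1 := by rw [← map_mul, ← map_mul, z11, map_one]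
      have tu : f s0 * u = u * u * f s0 := by rw [← map_mul, ← map_mul, ← map_mul, z12]
      have b2 : u * d * u⁻¹ ∈ L2 := mv c z7 h1
      have b0 : u * d * u⁻¹ ∈ L0 := mv c z8 h2
      have c0 : u * (u * d * u⁻¹) * u⁻¹ ∈ L0 := mv c z8 b2
      have c1 : u * (u * d * u⁻¹) * u⁻¹ ∈ L1 := mv c z6 b0
      have e3 : u * (u * (u * d * u⁻¹) * u⁻¹) * u⁻¹ = d := by
        calc _ = (u * u * u) * d * (u * u * u)⁻¹ := by group
          _ = _ := by rw [u3]; group
      have t1 : f s0 * (u * d * u⁻¹) * (f s0)⁻¹ = u * (u * d * u⁻¹) * u⁻¹ := by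
        calc _ = (f s0 * u) * d * (f s0 * u)⁻¹ := by group
          _ = u * u * (f s0 * d * (f s0)⁻¹) * (u * u)⁻¹ := by rw [tu]; group
          _ = _ := by rw [a1]; group
      have t2 : f s0 * (u * (u * d * u⁻¹) * u⁻¹) * (f s0)⁻¹ = u * d * u⁻¹ := by
        rw [← t1]
        calc _ = (f s0 * f s0) * (u * d * u⁻¹) * (f s0 * f s0)⁻¹ := by group
          _ = _ := by rw [← map_mul, z3, map_one]; group
      obtain ⟨d1, e1⟩ : ∃ d1, u * d * u⁻¹ = d1 := ⟨_, rfl⟩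
      rw [e1] at b2 b0 c0 c1 e3 t1 t2
      obtain ⟨d2, e2⟩ : ∃ d2, u * d1 * u⁻¹ = d2 := ⟨_, rfl⟩
      rw [e2] at c0 c1 e3 t1 t2
      have m1 : d * d1 = d1 * d := commutatorElement_eq_one_iff_mul_comm.1
        (tri _ (cm _ _ _ h1 _ b0).2 (cm _ _ _ h1 _ b0).1 (cm _ _ _ h2 _ b0).1)
      have m2 : d * d2 = d2 * d := commutatorElement_eq_one_iff_mul_comm.1
        (tri _ (cm _ _ _ h1 _ c0).2 (cm _ _ _ h1 _ c0).1 (cm _ _ _ h2 _ c0).1)
      have m3 : d1 * d2 = d2 * d1 := commutatorElement_eq_one_iff_mul_comm.1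
        (tri _ (cm _ _ _ b0 _ c0).1 (cm _ _ _ b0 _ c1).2 (cm _ _ _ b2 _ c0).1)
      have := cen (d * d1 * d2) (mul_mem (mul_mem hd (lK _ b0)) (lK _ c0)) (by
        calc _ = (u * d * u⁻¹) * (u * d1 * u⁻¹) * (u * d2 * u⁻¹) := by group
          _ = _ := by rw [e1, e2, e3, mul_assoc, ← m2, ← mul_assoc, m1]) (by
        calc _ = (f s0 * d * (f s0)⁻¹) * (f s0 * d1 * (f s0)⁻¹) * (f s0 * d2 * (f s0)⁻¹) := by group
          _ = _ := by rw [a1, t1, t2, mul_assoc, ← m3, mul_assoc])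
      rw [mul_assoc, mul_eq_one_iff_eq_inv] at this
      exact tri d (this ▸ inv_mem (mul_mem b0 c0)) h1 h2
    have d20 : ∀ d ∈ L2, d ∈ L0 → d = 1 := fun d h1 h2 => by
      simpa using d12 _ (mv c z6 (mv c z8 h1)) (mv c z7 (mv c z6 h2))
    have d01 : ∀ d ∈ L0, d ∈ L1 → d = 1 := fun d h1 h2 => by simpa using d12 _ (mv c z6 h1) (mv c z7 h2)
    have sp : ∀ a b, zpowers (f a) ⊔ zpowers (f b) = f.range → K ≤ ⁅K, zpowers (f a)⁆ ⊔ ⁅K, zpowers (f b)⁆ := fun a b e => by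
      have h1 := H1.commutator_sup_centralizer (A := f.range) (K := K) le_normalizer_of_normal hc' (.inr hs)
      rw [hf, sup_bot_eq] at h1
      have hM : ⁅K, zpowers (f a)⁆ ⊔ ⁅K, zpowers (f b)⁆ ≤ K := sup_le (lK a) (lK b)
      haveI : (⁅K, zpowers (f a)⁆ ⊔ ⁅K, zpowers (f b)⁆).Normal := normalizer_eq_top_iff.1 (top_le_iff.1 (by
        rw [← hKA, ← e]
        exact sup_le (H1.le_normalizer_sup (nK a) (nK b)) (sup_le
          (le_normalizer_iff_commutator_le_left.2 ((commutator_mono hM le_rfl).trans le_sup_left))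
          (le_normalizer_iff_commutator_le_left.2 ((commutator_mono hM le_rfl).trans le_sup_right)))))
      refine h1.ge.trans ?_
      rw [← QuotientGroup.ker_mk' (⁅K, zpowers (f a)⁆ ⊔ ⁅K, zpowers (f b)⁆), ← Subgroup.map_eq_bot_iff, map_commutator,
        commutator_eq_bot_iff_le_centralizer, le_centralizer_iff, ← e, Subgroup.map_sup, sup_le_iff]
      constructor <;> rw [← le_centralizer_iff, ← commutator_eq_bot_iff_le_centralizer, ← map_commutator, Subgroup.map_eq_bot_iff,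
        QuotientGroup.ker_mk']
      exacts [le_sup_left, le_sup_right]
    obtain ⟨y1, y2, y3, y4, y5, y6, y7, y8⟩ := z13
    have cc : ∀ {s s'}, (∀ d ∈ ⁅K, zpowers (f s)⁆, d ∈ ⁅K, zpowers (f s')⁆ → d = 1) →
        ⁅K, zpowers (f s)⁆ ≤ centralizer ((⁅K, zpowers (f s')⁆ : Subgroup Γ) : Set Γ) := fun h x hx y hy =>
      (commutatorElement_eq_one_iff_mul_comm.1 (h _ (cm _ _ x hx y hy).1 (cm _ _ x hx y hy).2)).symm
    refine (sp _ _ (two _ _ (z5 s1 s2 y1 y2 y4 y5 y8))).trans (sup_le (le_centralizer_iff.1 ?_) (le_centralizer_iff.1 ?_))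
    · exact (sp _ _ (two _ _ (z5 s0 s2 z3 y2 y3 y5 y7))).trans (sup_le (cc d01) (cc fun d a b => d12 d b a))
    · exact (sp _ _ (two _ _ (z5 s0 s1 z3 y1 y3 y4 y6))).trans (sup_le (cc fun d a b => d20 d b a) (cc d12))
  have h3 := (Nat.prime_dvd_prime_iff_eq hBp Nat.prime_three).1 h
  set F0 := (fittingSubgroup K).map K.subtype with hF0
  have hFK : F0 ≤ K := map_subtype_le _
  have hT : zpowers (f c) ≤ f.range := zpowers_le.2 ⟨c, rfl⟩
  have h1 : ⁅F0, zpowers (f c)⁆ = ⊥ := eq_bot_iff.2 fun x hx => hfam x fun U B' g => by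
    obtain ⟨a, ha, ha1, ha2⟩ := gen g.le g.card
    refine comm_odd (L := F0) (g.card ▸ hBp) (fun y hy => g.inv y (sup_le_sup_right hFK _ hy)) g.fix (H1.isSolvable_of_le hFK hs)
      le_normalizer_of_normal (Odd.of_dvd_nat (Nat.coprime_two_right.1 (hc.coprime_dvd_right (by norm_num))) (card_dvd_of_le hFK))
      (cop g.le hFK) (fit_cast hρ hi K) (natCast_ne_zero_of_dvd (card_dvd_of_le g.le) hA0) (commutator_mono le_rfl (zpowers_le.2 ?_) hx)
    rcases z1 a with e | rfl | rfl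
    · rw [h3, pow_succ, ← map_pow, e, map_one, one_mul] at ha2; exact absurd ha2 ha1
    · exact ha
    · rw [map_mul]; exact mul_mem ha ha
  have h2 : ⁅K, zpowers (f c)⁆ ≤ F0 := (le_inf (commutator_le_left _ _) (comm_le_right_of_le
    (le_centralizer_iff.1 (commutator_eq_bot_iff_le_centralizer.1 h1)) le_normalizer_of_normal)).trans
    (H1.inf_centralizer_map_fittingSubgroup_le hs)
  have h4 := commutator_eq_bot_iff_le_centralizer.1 (H1.commutator_eq_bot_of_commutator_commutator le_normalizer_of_normal (cop hT le_rfl)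
    (eq_bot_iff.2 ((commutator_mono h2 le_rfl).trans h1.le)))
  have h5 : MonoidHom.FixedPointFree (MulAut.conjNormal (H := K) (f s0)) := fun g hg => Subtype.ext
    (cen _ g.2 (mul_inv_eq_iff_eq_mul.2 (h4 g.2 _ (mem_zpowers _))) (congrArg Subtype.val hg))
  intro x hx y hy
  exact congrArg Subtype.val (h5.commute_all_of_involutive (fun g => by
    rw [← MulAut.mul_apply, ← map_mul, ← map_mul, z3, map_one, map_one, MulAut.one_apply]) ⟨y, hy⟩ ⟨x, hx⟩).eq

theorem of_rep {Γ : Type u} [Group Γ] [Finite Γ] {A V : Subgroup Γ} [V.Normal] {p : ℕ} (hp : p.Prime) (hV : V ≠ ⊥)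
    (hE : IsElementaryAbelian p V) (hmin : ∀ M : Subgroup Γ, M.Normal → M ≤ V → M = ⊥ ∨ M = V)
    (hc : (Nat.card A).Coprime (Nat.card V)) (hf : V ⊓ centralizer (A : Set Γ) = ⊥) :
    ∃ (Δ : Type u) (_ : Group Δ) (_ : Finite Δ) (π : Γ →* Δ) (F : Type) (_ : Field F) (_ : IsAlgClosed F) (W : Type u)
      (_ : AddCommGroup W) (_ : Module F W) (_ : FiniteDimensional F W) (_ : Nontrivial W) (σ : Representation F Δ W),
      Function.Surjective π ∧ MonoidHom.ker σ = ⊥ ∧ IrrOn σ ⊤ ∧ (Nat.card (A.map π) : F) ≠ 0 ∧ fixS σ (A.map π) = ⊥ ∧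
      ∀ D : Subgroup Γ, D.Normal → D.map π = ⊥ → D ≤ centralizer (V : Set Γ) := by
  haveI := Fact.mk hp
  obtain ⟨W, _, _, _, ρ0, h1, -⟩ := exists_rep (AlgebraicClosure (ZMod p)) (X := ⊤) hE le_normalizer_of_normal
  let ρ : Representation (AlgebraicClosure (ZMod p)) Γ W := ρ0.comp topEquiv.symm.toMonoidHom
  have h2 : ∀ H : Subgroup Γ, fixS ρ H = ⊥ ↔ V ⊓ centralizer (H : Set Γ) = ⊥ := fun H => by
    have : fixS ρ0 (H.subgroupOf ⊤) = fixS ρ H := Submodule.ext fun w => ⟨fun h g hg => h ⟨g, trivial⟩ hg, fun h g hg => h g hg⟩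
    rw [← card_eq_one, h1 H le_top, this, Nat.pow_eq_one, Submodule.finrank_eq_zero, or_iff_right hp.one_lt.ne']
  obtain ⟨U, -, hU0, hU, hm⟩ := exists_min_inv ρ ⊤ (U := ⊤) (fun e => hV (by
    have := (h2 ⊥).1 (by rw [fixS_bot, e])
    rwa [centralizer_bot_eq, inf_top_eq] at this)) fun _ _ _ _ => trivial
  obtain ⟨Δ, _, _, π, σ, g1, g2, g3, -⟩ := exists_faithful ρ ⊤ U hU
  refine ⟨Δ, inferInstance, inferInstance, π.comp (topEquiv (G := Γ)).symm.toMonoidHom, _, inferInstance, inferInstance, U, inferInstance,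
    inferInstance, inferInstance, Submodule.nontrivial_iff_ne_bot.2 hU0, σ, fun y => (g1 y).elim fun x e => ⟨x, e⟩, g2,
    fun U' h => irrOn_subRep hU hm U' fun g _ w hw => ?_, ?_, eq_bot_iff.2 fun u hu => Subtype.ext (((h2 A).2 hf).le fun a ha => ?_),
    fun D _ hD => ?_⟩
  · have : subRep ρ ⊤ U hU g w = σ (π g) w := Subtype.ext (g3 g w).symm
    exact this ▸ h _ trivial w hw
  · rw [Ne, CharP.cast_eq_zero_iff _ p]
    exact fun e => hp.one_lt.ne' (Nat.eq_one_of_dvd_coprimes hc (e.trans (card_map_dvd _ _))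
      ((H1.IsElementaryAbelian.isPGroup' hE).card_eq_or_dvd.resolve_left fun e => hV (card_eq_one.1 e)))
  · exact (g3 ⟨a, trivial⟩ u).symm.trans (congrArg Subtype.val (hu _ ⟨a, ha, rfl⟩))
  · refine le_centralizer_iff.1 (inf_eq_left.1 ((hmin _ inferInstance inf_le_left).resolve_left fun e => hU0 (eq_bot_iff.2 fun u hu =>
      ((h2 D).2 e).le fun d hd => ?_)))
    have : π ⟨d, trivial⟩ = 1 := hD.le ⟨d, hd, rfl⟩
    rw [← g3 ⟨d, trivial⟩ ⟨u, hu⟩, this, map_one]; rfl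

theorem fpf_map {Γ Δ : Type*} [Group Γ] [Finite Γ] [Group Δ] (π : Γ →* Δ) (h : Function.Surjective π) {K A : Subgroup Γ} [K.Normal]
    (hs : Group.IsSolvable K) (h1 : K ⊔ A = ⊤) (h2 : (Nat.card A).Coprime (Nat.card K)) (h3 : K ⊓ centralizer (A : Set Γ) = ⊥) :
    K.map π ⊔ A.map π = ⊤ ∧ (Nat.card (A.map π)).Coprime (Nat.card (K.map π)) ∧
      K.map π ⊓ centralizer ((A.map π : Subgroup Δ) : Set Δ) = ⊥ :=
  ⟨by rw [← Subgroup.map_sup, h1, map_top_of_surjective _ h], (h2.coprime_dvd_left (card_map_dvd _ _)).coprime_dvd_right (card_map_dvd _ _),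
    by rw [← H1.map_inf_centralizer' π le_normalizer_of_normal h2 (.inr hs), h3, Subgroup.map_bot]⟩

theorem s3_nil {Γ : Type u} [Group Γ] [Finite Γ] (K : Subgroup Γ) [K.Normal] (f : Equiv.Perm (Fin 3) →* Γ)
    (hs : Group.IsSolvable K) (h1 : K ⊔ f.range = ⊤) (h2 : (Nat.card K).Coprime 6) (h3 : K ⊓ centralizer (f.range : Set Γ) = ⊥) :
    Group.IsNilpotent ↥⁅K, K⁆ := by
  have co : ∀ {Γ : Type u} [Group Γ] (f : Equiv.Perm (Fin 3) →* Γ) {n : ℕ}, n.Coprime 6 → (Nat.card f.range).Coprime n := fun f n h => by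
    have := card_range_dvd f
    rw [Nat.card_eq_fintype_card (α := Equiv.Perm (Fin 3)), Fintype.card_perm, Fintype.card_fin] at this
    exact h.symm.coprime_dvd_left this
  refine der_nil (ι := Equiv.Perm (Fin 3)) (fun Γ _ K a => ∃ f : Equiv.Perm (Fin 3) →* Γ, K ⊔ f.range = ⊤ ∧
    (Nat.card K).Coprime 6 ∧ K ⊓ centralizer (f.range : Set Γ) = ⊥) ?_ ?_ _ Γ K f rfl hs ⟨f, h1, h2, h3⟩
  · rintro Γ _ _ K _ - V _ hs - ⟨f, h1, h2, h3⟩
    obtain ⟨g1, -, g3⟩ := fpf_map _ (QuotientGroup.mk'_surjective V) hs h1 (co f h2) h3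
    rw [MonoidHom.map_range] at g1 g3
    exact ⟨_, g1, h2.coprime_dvd_left (card_map_dvd _ _), g3⟩
  · rintro Γ _ _ K _ - V _ p hp hs hV hVK hE hmin ⟨f, h1, h2, h3⟩
    obtain ⟨Δ, _, _, π, F, _, _, W, _, _, _, _, σ, e1, e2, e3, e4, e5, e6⟩ := of_rep (A := f.range) hp hV hE hmin
      ((co f h2).coprime_dvd_right (card_dvd_of_le hVK)) (eq_bot_iff.2 ((inf_le_inf_right _ hVK).trans h3.le))
    obtain ⟨g1, -, g3⟩ := fpf_map _ e1 hs h1 (co f h2) h3
    rw [MonoidHom.map_range] at g1 g3 e4 e5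
    haveI : (K.map π).Normal := Normal.map inferInstance _ e1
    refine e6 _ inferInstance ?_
    rw [map_commutator, commutator_eq_bot_iff_le_centralizer]
    exact rep_comm e2 e3 _ (H1.isSolvable_map _ hs) g1 (h2.coprime_dvd_left (card_map_dvd _ _)) g3 e4 e5

theorem lcs_normal {Γ : Type*} [Group Γ] (K : Subgroup Γ) [K.Normal] (n : ℕ) : (K.lowerCentralSeries n).Normal := by
  induction n with
  | zero => assumption
  | succ n ih => rw [Subgroup.lowerCentralSeries_succ]; infer_instance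

theorem pq_nil {p q : ℕ} (hp : p.Prime) (hq : q.Prime) (n : ℕ) : ∀ (Γ : Type u) [Group Γ] [Finite Γ] (K A : Subgroup Γ) [K.Normal],
    Nat.card Γ = n → Group.IsSolvable K → K ⊔ A = ⊤ → (Nat.card A).Coprime (Nat.card K) → K ⊓ centralizer (A : Set Γ) = ⊥ →
    Nat.card A ∣ p * q → (p ≠ q ∨ ∀ a ∈ A, a ^ p = 1) → ∃ m, Group.IsNilpotent (K.lowerCentralSeries m) := by
  induction n using Nat.strong_induction_on with
  | _ n ih =>
  intro Γ _ _ K A _ hn hs h1 h2 h3 h4 h5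
  by_cases hK : K = ⊥
  · subst hK; exact ⟨0, inferInstanceAs (Group.IsNilpotent (⊥ : Subgroup Γ))⟩
  have h6 : ∀ {Δ : Type u} [Group Δ] (π : Γ →* Δ), p ≠ q ∨ ∀ a ∈ A.map π, a ^ p = 1 := fun π => h5.imp_right fun h => by
    rintro _ ⟨a, ha, rfl⟩; rw [← map_pow, h a ha, map_one]
  obtain ⟨V, r, hVn, hV, hVK, hr, hE, hmin⟩ := H1.exists_minimal_normal_elementary K hK hs
  obtain ⟨Δ, _, _, π, F, _, _, W, _, _, _, _, σ, e1, e2, e3, e4, e5, e6⟩ := of_rep (A := A) hr hV hE hmin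
    (h2.coprime_dvd_right (card_dvd_of_le hVK)) (eq_bot_iff.2 ((inf_le_inf_right _ hVK).trans h3.le))
  obtain ⟨g1, g2, g3⟩ := fpf_map _ e1 hs h1 h2 h3
  haveI : (K.map π).Normal := Normal.map inferInstance _ e1
  obtain ⟨m1, hm1⟩ := (isNilpotent_iff_lowerCentralSeries _).1
    (rep_nil e2 e3 (H1.isSolvable_map _ hs) g1 g2 g3 e4 e5 hp hq ((card_map_dvd _ _).trans h4) (h6 π))
  have hc := e6 _ (lcs_normal K m1) (by rw [map_lowerCentralSeries, hm1])
  have hlt : Nat.card (Γ ⧸ V) < n := by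
    rw [← hn, ← V.card_mul_index, ← index_eq_card]
    exact lt_mul_of_one_lt_left (Nat.pos_of_ne_zero V.index_ne_zero_of_finite) ((one_lt_card_iff_ne_bot V).2 hV)
  haveI : (K.map (QuotientGroup.mk' V)).Normal := Normal.map inferInstance _ (QuotientGroup.mk'_surjective V)
  obtain ⟨k1, k2, k3⟩ := fpf_map _ (QuotientGroup.mk'_surjective V) hs h1 h2 h3
  obtain ⟨m2, hm2⟩ := ih _ hlt (Γ ⧸ V) _ _ rfl (H1.isSolvable_map _ hs) k1 k2 k3 ((card_map_dvd _ _).trans h4) (h6 _)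
  refine ⟨max m1 m2, ?_⟩
  haveI : Group.IsNilpotent ((K.lowerCentralSeries (max m1 m2)).map (QuotientGroup.mk' V)) := by
    rw [map_lowerCentralSeries]
    exact H1.isNilpotent_of_le (Subgroup.lowerCentralSeries_antitone _ (le_max_right _ _)) hm2
  refine Subgroup.isNilpotent_of_ker_le_center ((QuotientGroup.mk' V).subgroupMap _) fun x hx => ?_
  have hx' : (x : Γ) ∈ V := (QuotientGroup.eq_one_iff _).1 (congrArg Subtype.val hx)
  exact mem_center_iff.2 fun y => Subtype.ext (hc (Subgroup.lowerCentralSeries_antitone _ (le_max_left _ _) y.2) _ hx').symm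

theorem pq_nil' {G A : Type*} [Group G] [Finite G] [Group A] [Finite A] (φ : A →* MulAut G) {p q : ℕ} (hp : p.Prime)
    (hq : q.Prime) (hs : Group.IsSolvable G) (hc : (Nat.card A).Coprime (Nat.card G)) (hf : ∀ g, (∀ a, φ a g = g) → g = 1)
    (hA : Nat.card A ∣ p * q) (he : p ≠ q ∨ ∀ a : A, a ^ p = 1) :
    ∃ m, Group.IsNilpotent ((⊤ : Subgroup G).lowerCentralSeries m) := by
  obtain ⟨m, hm⟩ := pq_nil hp hq _ _ (sl φ ⊤) (sr φ ⊤) rfl (isSolvable_sl_top hs) sl_sup_sr (by rwa [card_sr_top, card_sl_top])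
    (eq_bot_iff.2 (by
      rintro _ ⟨⟨g, -, rfl⟩, h⟩
      rw [hf g fun a => inl_mem_centralizer_sr.1 h a trivial, map_one]; exact one_mem _)) (by rwa [card_sr_top])
    (he.imp_right fun h => by rintro _ ⟨a, -, rfl⟩; rw [← map_pow, h, map_one])
  rw [← map_lowerCentralSeries] at hm
  exact ⟨m, nilpotent_of_mulEquiv (equivMapOfInjective _ (SemidirectProduct.inl : G →* G ⋊[φ] A) SemidirectProduct.inl_injective).symm⟩

end Cfsg.Agent.C3.FP
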