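import Cfsg.Agent.H1.Misc

/-! Fixed spaces in primitive soluble linear groups. -/

namespace Cfsg.Agent.C3.PS

open Subgroup Module
open scoped Pointwise commutatorElement

variable {G : Type*} [Group G] [Finite G]

theorem four [Group.IsSolvable G] {g : G} (hg : g ≠ 1) :
    ∃ A : Subgroup G, A.Normal ∧ (∀ x ∈ A, ∀ y ∈ A, x * y = y * x) ∧ ∃ y ∈ A, y ≠ 1 ∧
      ∃ a b c : G, ∀ K : Subgroup G, g ∈ K → a * g * a⁻¹ ∈ K → b * g * b⁻¹ ∈ K →
        c * g * c⁻¹ ∈ K → y ∈ K := by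
  by_cases hz : g ∈ center G
  · exact ⟨center G, inferInstance, fun x hx y _ => (mem_center_iff.1 hx y).symm, g, hz, hg, 1, 1, 1,
      fun K h _ _ _ => h⟩
  obtain ⟨E, ⟨hE, hgE⟩, hmin⟩ := exists_minimal_of_wellFoundedLT
    (fun E : Subgroup G => E.Normal ∧ g ∉ centralizer (E : Set G)) ⟨⊤, inferInstance, by
      rwa [coe_top, centralizer_univ]⟩
  have hE0 : E ≠ ⊥ := by
    rintro rfl
    exact hgE fun x hx => by rw [mem_bot.1 hx]; simp
  have hlt : ⁅E, E⁆ < E := Group.IsSolvable.commutator_lt_of_ne_bot hE0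
  have hc : g ∈ centralizer ((⁅E, E⁆ : Subgroup G) : Set G) := by
    by_contra h
    exact hlt.not_ge (hmin ⟨inferInstance, h⟩ hlt.le)
  obtain ⟨e, he, hne⟩ : ∃ e ∈ E, e * g ≠ g * e := by
    by_contra h
    push Not at h
    exact hgE h
  have hx1 : ⁅e, g⁆ ≠ 1 := fun h => hne (commutatorElement_eq_one_iff_mul_comm.1 h)
  have hxE : ⁅e, g⁆ ∈ E := by
    have := E.mul_mem he (hE.conj_mem _ (E.inv_mem he) g)
    simpa [commutatorElement_def, mul_assoc] using this
  by_cases h : ⁅e, g⁆ ∈ centralizer (E : Set G)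
  · refine ⟨E ⊓ centralizer (E : Set G), inferInstance, fun x hx y hy => hy.2 x hx.1, _, ⟨hxE, h⟩,
      hx1, e, 1, 1, fun K h1 h2 _ _ => K.mul_mem h2 (K.inv_mem h1)⟩
  obtain ⟨f, hf, hnf⟩ : ∃ f ∈ E, f * ⁅e, g⁆ ≠ ⁅e, g⁆ * f := by
    by_contra h'
    push Not at h'
    exact h h'
  have hn : (centralizer ((⁅E, E⁆ : Subgroup G) : Set G)).Normal := inferInstance
  have hxc : ⁅e, g⁆ ∈ centralizer ((⁅E, E⁆ : Subgroup G) : Set G) :=
    mul_mem (hn.conj_mem _ hc e) (inv_mem hc)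
  refine ⟨⁅E, E⁆ ⊓ centralizer ((⁅E, E⁆ : Subgroup G) : Set G), inferInstance,
    fun x hx y hy => hy.2 x hx.1, ⁅f, ⁅e, g⁆⁆, ⟨commutator_mem_commutator hf hxE,
      Subgroup.mul_mem _ (hn.conj_mem _ hxc f) (Subgroup.inv_mem _ hxc)⟩,
    fun h => hnf (commutatorElement_eq_one_iff_mul_comm.1 h), e, f, f * e, fun K h1 h2 h3 h4 => ?_⟩
  have : ⁅f, ⁅e, g⁆⁆ = f * e * g * (f * e)⁻¹ * (f * g * f⁻¹)⁻¹ * (e * g * e⁻¹ * g⁻¹)⁻¹ := by
    simp only [commutatorElement_def]; group
  rw [this]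
  exact mul_mem (mul_mem h4 (inv_mem h3)) (inv_mem (mul_mem h2 (inv_mem h1)))

variable {F V : Type*} [Field F] [AddCommGroup V] [Module F V] (ρ : G →* (V →ₗ[F] V))

/-- fixed space of a subgroup -/
def W (B : Subgroup G) : Submodule F V where
  carrier := {v | ∀ b ∈ B, ρ b v = v}
  add_mem' := fun hu hv b hb => by rw [map_add, hu b hb, hv b hb]
  zero_mem' := fun b _ => map_zero _
  smul_mem' := fun c v hv b hb => by rw [map_smul, hv b hb]

theorem mem_W {B : Subgroup G} {v : V} : v ∈ W ρ B ↔ ∀ b ∈ B, ρ b v = v := Iff.rfl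

/-- stabilizer of a vector -/
def St (v : V) : Subgroup G where
  carrier := {g | ρ g v = v}
  mul_mem' := fun {a b} ha hb => by
    change ρ (a * b) v = v
    rw [map_mul, Module.End.mul_apply, hb, ha]
  one_mem' := by simp
  inv_mem' := fun {a} ha => by
    change ρ a⁻¹ v = v
    conv_lhs => rw [← show ρ a v = v from ha]
    rw [← Module.End.mul_apply, ← map_mul, inv_mul_cancel, map_one, Module.End.one_apply]

theorem mem_W' {B : Subgroup G} {v : V} : v ∈ W ρ B ↔ B ≤ St ρ v := Iff.rfl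

theorem app_app (a b : G) (v : V) : ρ a (ρ b v) = ρ (a * b) v := by
  rw [map_mul, Module.End.mul_apply]

theorem map_W (B : Subgroup G) (g : G) : (W ρ B).map (ρ g) = W ρ (MulAut.conj g • B) := by
  ext v
  constructor
  · rintro ⟨u, hu, rfl⟩ b hb
    have := hu _ (H1.mem_conj_smul.1 hb)
    rw [app_app]
    conv_rhs => rw [← this, app_app]
    congr 2; group
  · intro h
    refine ⟨ρ g⁻¹ v, fun b hb => ?_, by rw [app_app]; simp⟩
    have := h _ (H1.conj_mem_conj_smul (g := g).2 hb)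
    conv_rhs => rw [← this, app_app]
    rw [app_app]
    congr 2; group

theorem ρ_inj (g : G) : Function.Injective (ρ g) := fun u v h => by
  have := congrArg (ρ g⁻¹) h
  simpa [app_app] using this

theorem fpf [FiniteDimensional F V] (hρ : Function.Injective ρ)
    (hirr : ∀ U : Submodule F V, (∀ g, U.map (ρ g) ≤ U) → U = ⊥ ∨ U = ⊤)
    (hprim : ∀ (m t : ℕ) (D : Fin t → Submodule F V), 2 ≤ t → 0 < m → (∀ i, finrank F (D i) = m) →
      iSupIndep D → iSup D = ⊤ → ¬ ∀ g, ∃ σ : Equiv.Perm (Fin t), ∀ i, (D i).map (ρ g) = D (σ i))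
    {A : Subgroup G} [hA : A.Normal] (hc : ∀ x ∈ A, ∀ y ∈ A, x * y = y * x) {a : G} (ha : a ∈ A)
    {v : V} (hv : ρ a v = v) (hv0 : v ≠ 0) : a = 1 := by
  classical
  obtain ⟨B, hB, hmax⟩ := (Set.toFinite {B : Subgroup G | B ≤ A ∧ W ρ B ≠ ⊥}).exists_le_maximal
    (a := zpowers a) ⟨zpowers_le.2 ha, fun h => hv0 (by
      have : v ∈ W ρ (zpowers a) := (mem_W' ρ).2 (zpowers_le.2 hv)
      rwa [h] at this)⟩
  have hconj : ∀ (C : Subgroup G) (g : G), C ≤ A ∧ W ρ C ≠ ⊥ →
      MulAut.conj g • C ≤ A ∧ W ρ (MulAut.conj g • C) ≠ ⊥ := fun C g h => by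
    refine ⟨fun x hx => ?_, ?_⟩
    · have := hA.conj_mem _ (h.1 (H1.mem_conj_smul.1 hx)) g
      simpa [mul_assoc] using this
    · rw [← map_W]
      refine fun h' => h.2 (eq_bot_iff.2 fun u hu => ?_)
      have : ρ g u ∈ (⊥ : Submodule F V) := h' ▸ Submodule.mem_map_of_mem hu
      exact ρ_inj ρ g (by simpa using this)
  have hmax' : ∀ g : G, Maximal (fun B : Subgroup G => B ≤ A ∧ W ρ B ≠ ⊥) (MulAut.conj g • B) := by
    intro g
    refine ⟨hconj B g hmax.1, fun C hC hle => ?_⟩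
    have h1 : B ≤ MulAut.conj g⁻¹ • C := by
      intro x hx
      rw [H1.mem_conj_smul]
      simpa using hle (H1.conj_mem_conj_smul.2 hx)
    have h2 := hmax.2 (hconj C g⁻¹ hC) h1
    intro x hx
    rw [H1.mem_conj_smul]
    refine h2 ?_
    rw [H1.mem_conj_smul]
    simpa [mul_assoc] using hx
  let S := {C : Subgroup G // ∃ g : G, C = MulAut.conj g • B}
  have hS : ∀ C : S, Maximal (fun B : Subgroup G => B ≤ A ∧ W ρ B ≠ ⊥) C.1 := by
    rintro ⟨C, g, rfl⟩; exact hmax' g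
  have hind : iSupIndep fun C : S => W ρ C.1 := by
    rw [iSupIndep_iff_finsetSum_eq_zero_imp_eq_zero]
    intro s
    induction s using Finset.induction_on with
    | empty => simp
    | insert C s hC ih =>
      intro w hw h0
      rw [Finset.sum_insert hC] at h0
      have h1 : ∀ D ∈ s, w D = 0 := by
        intro D hD
        have hwD := hw D (Finset.mem_insert_of_mem hD)
        have h2 : w D ∈ W ρ C.1 := by
          intro b hb
          refine sub_eq_zero.1 (ih (fun D => ρ b (w D) - w D) (fun E hE d hd => ?_) ?_ D hD)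
          · have := hw E (Finset.mem_insert_of_mem hE) d hd
            rw [map_sub, app_app, hc d ((hS E).1.1 hd) b ((hS C).1.1 hb), ← app_app, this]
          · rw [Finset.sum_sub_distrib, ← map_sum, ← neg_eq_of_add_eq_zero_right h0, map_neg,
              hw C (Finset.mem_insert_self _ _) b hb, sub_self]
        by_contra hne
        have h3 : W ρ (C.1 ⊔ D.1) ≠ ⊥ := fun h => hne (by
          have : w D ∈ W ρ (C.1 ⊔ D.1) := (mem_W' ρ).2 (sup_le h2 hwD)
          rwa [h] at this)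
        have h4 := sup_le (hS C).1.1 (hS D).1.1
        have h5 : C = D := Subtype.ext (le_antisymm
          (le_sup_left.trans ((hS D).2 ⟨h4, h3⟩ le_sup_right))
          (le_sup_right.trans ((hS C).2 ⟨h4, h3⟩ le_sup_left)))
        exact hC (h5 ▸ hD)
      intro D hD
      rcases Finset.mem_insert.1 hD with rfl | hD
      · rwa [Finset.sum_eq_zero h1, add_zero] at h0
      · exact h1 D hD
  let τ : G → S → S := fun g C => ⟨MulAut.conj g • C.1, by
    obtain ⟨C, h, rfl⟩ := C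
    exact ⟨g * h, H1.conj_smul_conj_smul _ _ _⟩⟩
  have hτ : ∀ g, Function.Injective (τ g) := fun g C D h =>
    Subtype.ext (MulAction.injective (MulAut.conj g) (congrArg Subtype.val h))
  let B₀ : S := ⟨B, 1, by simp⟩
  have htop : (⨆ C : S, W ρ C.1) = ⊤ := by
    refine (hirr _ fun g => ?_).resolve_left fun h => hmax.1.2 ?_
    · rw [Submodule.map_iSup]
      refine iSup_le fun C => ?_
      rw [map_W]
      exact le_iSup (fun C : S => W ρ C.1) (τ g C)
    · exact eq_bot_iff.2 (h ▸ le_iSup (fun C : S => W ρ C.1) B₀)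
  by_cases hsub : Subsingleton S
  · have h1 : W ρ B = ⊤ := by
      refine eq_top_iff.2 (htop ▸ iSup_le fun C => ?_)
      rw [Subsingleton.elim C B₀]
    refine hρ ?_
    ext u
    rw [map_one]
    exact (show u ∈ W ρ B from h1 ▸ Submodule.mem_top) a (hB (mem_zpowers a))
  · exfalso
    have : Nontrivial S := not_subsingleton_iff_nontrivial.1 hsub
    let e := (Finite.equivFin S).symm
    refine hprim (finrank F (W ρ B)) (Nat.card S) (fun i => W ρ (e i).1) Finite.one_lt_card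
      (Nat.pos_of_ne_zero fun h => hmax.1.2 (Submodule.finrank_eq_zero.1 h)) (fun i => ?_)
      (hind.comp e.injective) ((e.iSup_comp (g := fun C : S => W ρ C.1)).trans htop) fun g => ?_
    · obtain ⟨g, hg⟩ := (e i).2
      rw [hg, ← map_W]
      exact (Submodule.equivMapOfInjective _ (ρ_inj ρ g) _).finrank_eq.symm
    · refine ⟨e.trans ((Equiv.ofBijective (τ g) (Finite.injective_iff_bijective.1 (hτ g))).trans
        e.symm), fun i => ?_⟩
      simp [map_W, τ]

theorem dim_inf [FiniteDimensional F V] (U U' : Submodule F V) :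
    finrank F U + finrank F U' ≤ finrank F ↥(U ⊓ U') + finrank F V := by
  have := Submodule.finrank_sup_add_finrank_inf_eq U U'
  have := Submodule.finrank_le (U ⊔ U')
  omega

theorem main [FiniteDimensional F V] [Group.IsSolvable G] (hρ : Function.Injective ρ)
    (hirr : ∀ U : Submodule F V, (∀ g, U.map (ρ g) ≤ U) → U = ⊥ ∨ U = ⊤)
    (hprim : ∀ (m t : ℕ) (D : Fin t → Submodule F V), 2 ≤ t → 0 < m → (∀ i, finrank F (D i) = m) →
      iSupIndep D → iSup D = ⊤ → ¬ ∀ g, ∃ σ : Equiv.Perm (Fin t), ∀ i, (D i).map (ρ g) = D (σ i))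
    {g : G} (hg : g ≠ 1) : 4 * finrank F (W ρ (zpowers g)) ≤ 3 * finrank F V := by
  obtain ⟨A, hA, hc, y, hy, hy1, a, b, c, h⟩ := four hg
  have hd : ∀ a : G, finrank F (W ρ (MulAut.conj a • zpowers g)) = finrank F (W ρ (zpowers g)) :=
    fun a => by
      rw [← map_W]
      exact (Submodule.equivMapOfInjective _ (ρ_inj ρ a) _).finrank_eq.symm
  have h0 : (W ρ (zpowers g) ⊓ W ρ (MulAut.conj a • zpowers g)) ⊓
      (W ρ (MulAut.conj b • zpowers g) ⊓ W ρ (MulAut.conj c • zpowers g)) = ⊥ := by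
    refine eq_bot_iff.2 fun v hv => ?_
    by_contra hv0
    have hm : ∀ a : G, a * g * a⁻¹ ∈ MulAut.conj a • zpowers g := fun a =>
      H1.conj_mem_conj_smul.2 (mem_zpowers g)
    exact hy1 (fpf ρ hρ hirr hprim hc hy (h (St ρ v) (hv.1.1 _ (mem_zpowers g)) (hv.1.2 _ (hm a))
      (hv.2.1 _ (hm b)) (hv.2.2 _ (hm c))) hv0)
  have h1 := dim_inf (W ρ (zpowers g)) (W ρ (MulAut.conj a • zpowers g))
  have h2 := dim_inf (W ρ (MulAut.conj b • zpowers g)) (W ρ (MulAut.conj c • zpowers g))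
  have h3 := dim_inf (W ρ (zpowers g) ⊓ W ρ (MulAut.conj a • zpowers g))
    (W ρ (MulAut.conj b • zpowers g) ⊓ W ρ (MulAut.conj c • zpowers g))
  rw [h0, finrank_bot] at h3
  rw [hd] at h1
  rw [hd, hd] at h2
  omega

end Cfsg.Agent.C3.PS
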