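import Cfsg.Agent.C3.FP4

/-! Fixed-point-free automorphisms of odd prime power order: the theorem of Shult and Gross. -/

set_option autoImplicit false

namespace Cfsg.Agent.C3.FP

open Subgroup Module H2 commutatorElement Pointwise

universe u

theorem arith5 {p q j i m e : ℕ} (hp : p.Prime) (ho : Odd p) (hq : 2 ≤ q) (hj : j ≠ 0) (hm : m ≠ 0) (he : e ≠ 0)
    (h1 : (q ^ m) ^ 2 ≤ (p ^ j - 1) ^ 2) (h2 : p ^ j ∣ (q ^ m) ^ 2 - 1) (h3 : q ^ e ≤ ((p ^ j - 1) ^ 2) ^ (p ^ i - 1))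
    (h4 : p ^ j * p ^ i ∣ q ^ e - 1) : False := by
  haveI := Fact.mk hp
  have a1 := (Nat.pow_le_pow_iff_left two_ne_zero).1 h1
  have a2 : 2 ≤ q ^ m := hq.trans (Nat.le_self_pow hm q)
  have a0 : 0 < p ^ j := pow_pos hp.pos j
  obtain ⟨t, ht⟩ : ∃ t, q ^ m = t + 1 := ⟨q ^ m - 1, by omega⟩
  have a3 : (q ^ m) ^ 2 - 1 = (t + 2) * t := by rw [ht]; apply Nat.sub_eq_of_eq_add; ring
  have nd : ¬ (p ∣ t + 2 ∧ p ∣ t) := fun ⟨x, y⟩ => by
    have := (Nat.prime_dvd_prime_iff_eq hp Nat.prime_two).1 ((Nat.dvd_add_right y).1 x)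
    subst this; exact absurd ho (by decide)
  have a4 : p ^ j = t + 2 := by
    rw [a3] at h2
    by_cases h : p ∣ t + 2
    · have := Nat.le_of_dvd (by omega) ((Nat.Coprime.pow_left j (hp.coprime_iff_not_dvd.2 fun y => nd ⟨h, y⟩)).dvd_of_dvd_mul_right h2)
      omega
    · have := Nat.le_of_dvd (by omega) ((Nat.Coprime.pow_left j (hp.coprime_iff_not_dvd.2 h)).dvd_of_dvd_mul_left h2)
      omega
  have pt : ¬ p ∣ t := fun y => nd ⟨a4 ▸ dvd_pow_self p hj, y⟩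
  have b1 : 2 * m ∣ e := by
    have c1 : q ^ (2 * m) ≡ 1 [MOD p ^ j] := by
      rw [mul_comm, pow_mul]; exact ((Nat.modEq_iff_dvd' (Nat.one_le_pow _ _ (by omega))).2 h2).symm
    have c2 : q ^ e ≡ 1 [MOD p ^ j] := ((Nat.modEq_iff_dvd' (Nat.one_le_pow _ _ (by omega))).2 (Dvd.dvd.trans (Dvd.intro _ rfl) h4)).symm
    have c3 : q ^ Nat.gcd (2 * m) e ≡ 1 [MOD p ^ j] := by
      rw [← ZMod.natCast_eq_natCast_iff, Nat.cast_pow, Nat.cast_one] at c1 c2 ⊢
      exact pow_gcd_eq_one.2 ⟨c1, c2⟩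
    obtain ⟨c, hc⟩ := Nat.gcd_dvd_left (2 * m) e
    have g0 : 0 < Nat.gcd (2 * m) e := Nat.gcd_pos_of_pos_left _ (by omega)
    have c4 := Nat.le_of_dvd (Nat.sub_pos_of_lt (Nat.one_lt_pow g0.ne' (by omega)))
      ((Nat.modEq_iff_dvd' (Nat.one_le_pow _ _ (by omega))).1 c3.symm)
    have c5 : m < Nat.gcd (2 * m) e := (Nat.pow_lt_pow_iff_right (by omega : 1 < q)).1 (by omega)
    have : c = 1 := by
      rcases c with _ | _ | c
      · omega
      · rfl
      · nlinarith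
    rw [this, mul_one] at hc
    exact hc ▸ Nat.gcd_dvd_right _ _
  obtain ⟨s, rfl⟩ := b1
  have s0 : s ≠ 0 := by rintro rfl; simp at he
  have b2 := padicValNat.pow_sub_pow ho (x := (q ^ m) ^ 2) (y := 1) (by nlinarith) ((dvd_pow_self p hj).trans h2) (fun h => by
    have := (Nat.dvd_sub h ((dvd_pow_self p hj).trans h2))
    rw [Nat.sub_sub_self (by nlinarith)] at this
    exact hp.one_lt.ne' (Nat.dvd_one.1 this)) s0
  rw [one_pow, a3, ← a4, padicValNat.mul a0.ne' (by omega), padicValNat.prime_pow, padicValNat.eq_zero_of_not_dvd pt,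
    ← pow_mul, ← pow_mul, ← mul_assoc, mul_comm m 2] at b2
  rw [← pow_add, padicValNat_dvd_iff_le (Nat.sub_ne_zero_of_lt (Nat.one_lt_pow he (by omega))), b2] at h4
  have b3 := Nat.le_of_dvd (Nat.pos_of_ne_zero s0) ((padicValNat_dvd_iff_le s0).2 (by omega : i ≤ padicValNat p s))
  rw [a4, show t + 2 - 1 = q ^ m by omega, ← pow_mul, ← pow_mul, Nat.pow_le_pow_iff_right (by omega)] at h3
  have : 0 < p ^ i := pow_pos hp.pos i
  obtain ⟨k, hk⟩ : ∃ k, p ^ i = k + 1 := ⟨p ^ i - 1, by omega⟩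
  rw [hk, Nat.add_sub_cancel] at h3
  have : 0 < m := Nat.pos_of_ne_zero hm
  nlinarith

variable {F : Type*} {Γ : Type u} {W : Type*} [Field F] [Group Γ] [AddCommGroup W] [Module F W]

/-- The radical of the commutator form modulo `Z0`. -/
def rad (Q Z0 : Subgroup Γ) (h : ⁅Q, Q⁆ ≤ centralizer (Q : Set Γ)) : Subgroup Γ where
  carrier := {x | x ∈ Q ∧ ∀ y ∈ Q, ⁅x, y⁆ ∈ Z0}
  one_mem' := ⟨Q.one_mem, fun y _ => by simpa using Z0.one_mem⟩
  mul_mem' := fun {a b} ha hb => ⟨Q.mul_mem ha.1 hb.1, fun y hy => by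
    have : ⁅a * b, y⁆ = ⁅b, y⁆ * ⁅a, y⁆ := by
      calc _ = a * ⁅b, y⁆ * a⁻¹ * ⁅a, y⁆ := by simp only [commutatorElement_def]; group
        _ = _ := by rw [h (commutator_mem_commutator hb.1 hy) _ ha.1]; group
    exact this ▸ Z0.mul_mem (hb.2 y hy) (ha.2 y hy)⟩
  inv_mem' := fun {a} ha => ⟨Q.inv_mem ha.1, fun y hy => by
    have : ⁅a⁻¹, y⁆ = ⁅a, y⁆⁻¹ := by
      calc _ = a⁻¹ * ⁅a, y⁆⁻¹ * a := by simp only [commutatorElement_def]; group
        _ = _ := by rw [inv_mem (h (commutator_mem_commutator ha.1 hy)) _ (Q.inv_mem ha.1)]; group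
    exact this ▸ Z0.inv_mem (ha.2 y hy)⟩

variable [Finite Γ] [FiniteDimensional F W] [IsAlgClosed F]

theorem proj_bound [Nontrivial W] (ρ : Representation F Γ W) {K R : Subgroup Γ} (hn : R ≤ normalizer (K : Set Γ))
    (hRR : ⁅R, R⁆ = ⊥) (hf : ∀ x ∈ R, x ≠ 1 → K ≤ ⁅K, zpowers x⁆) (hd : fixS (ρ.linHom ρ) ⁅K, K⁆ = ⊤)
    (hK0 : (Nat.card K : F) ≠ 0) (hR0 : (Nat.card R : F) ≠ 0) (hfix : fixS ρ R = ⊥) :
    Nat.card (projW ρ K) ≤ (Nat.card R - 1) ^ 2 := by
  classical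
  letI := Fintype.ofFinite (K →* Fˣ)
  letI := Fintype.ofFinite (R →* Fˣ)
  set σ := ρ.linHom ρ
  have hcR : Nat.card (R →* Fˣ) = Nat.card R := by
    have := card_char hR0
    rwa [hRR, card_bot, mul_one] at this
  have h4 := wielandt_step σ hn hK0 hf
  rw [hd, finrank_top, Module.finrank_linearMap, ← sq, fixS_sup σ ⁅K, K⁆, hd, top_inf_eq] at h4
  have h5 := finrank_fixS_der ρ hR0
  rw [hRR, fixS_bot, finrank_top, ← Finset.add_sum_erase _ _ (Finset.mem_univ 1), wt_one, hfix, finrank_bot, zero_add] at h5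
  have h6 : finrank F W ^ 2 ≤ (Nat.card R - 1) * finrank F (fixS σ R) := by
    rw [h5]
    refine sq_sum_le_card_mul_sum_sq.trans ?_
    rw [Finset.card_erase_of_mem (Finset.mem_univ _), Finset.card_univ, ← Nat.card_eq_fintype_card, hcR]
    exact Nat.mul_le_mul_left _ ((Finset.sum_le_sum_of_subset (Finset.erase_subset _ _)).trans (sum_sq_le_finrank ρ hR0))
  have h7 : finrank F (fixS σ (K ⊔ R)) ≠ 0 := fun e => one_ne_zero (α := Module.End F W)
    ((Submodule.finrank_eq_zero.1 e).le (mem_fixS_linHom.2 fun _ _ _ => rfl))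
  have h8 : Nat.card (projW ρ K) * finrank F (fixS σ K) ≤ finrank F W ^ 2 := by
    have h1 := finrank_fixS_der σ hK0
    rw [hd, finrank_top, Module.finrank_linearMap, ← sq] at h1
    rw [h1, H1.card_eq_sum_ite, Finset.sum_mul]
    refine Finset.sum_le_sum fun μ _ => ?_
    split_ifs with hμ
    · obtain ⟨T, hT⟩ := hμ
      rw [one_mul]
      refine LinearMap.finrank_le_finrank_of_injective (f := ((LinearMap.mulRight F T.1).domRestrict _).codRestrict _ fun S => ?_)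
        fun S S' h => Subtype.ext (T.mul_left_inj.1 (congrArg Subtype.val h))
      have := mul_mem_wt_linHom (μ := 1) (by rw [wt_one]; exact S.2) hT
      rwa [show 1 * μ = μ by ext; simp] at this
    · simp
  have h9 : finrank F (fixS σ (K ⊔ R)) ≤ finrank F (fixS σ K) := Submodule.finrank_mono (fixS_anti σ le_sup_left)
  obtain ⟨g, hg⟩ : ∃ g, Nat.card R = g + 1 := ⟨Nat.card R - 1, by have := Nat.card_pos (α := R); omega⟩
  rw [hg] at h4
  rw [hg, Nat.add_sub_cancel] at h6 ⊢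
  refine Nat.le_of_mul_le_mul_right (h8.trans ?_) (by omega : 0 < finrank F (fixS σ K))
  have h10 := Nat.mul_le_mul_left (g + 1) h6
  have h11 : g * _ = g * _ := congrArg (g * ·) h4
  have h12 := Nat.mul_le_mul_left (g * (g + 1)) h9
  nlinarith

omit [FiniteDimensional F W] [IsAlgClosed F] in
theorem rad_le_proj {ρ : Representation F Γ W} {Q Z X : Subgroup Γ} (hQZ : ⁅Q, Q⁆ ≤ Z) (hZ : Z ≤ centralizer (Q : Set Γ))
    {μ : Z →* Fˣ} {U : Submodule F W} (hU1 : U ≤ wt ρ Z μ) (hU3 : ∀ g ∈ X, ∀ w ∈ U, ρ g w ∈ U) (hX : Q ≤ X) :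
    (rad Q (μ.ker.map Z.subtype) (hQZ.trans hZ)).relIndex Q ≤ Nat.card (projW (subRep ρ X U hU3) (Q.subgroupOf X)) ∧
      fixS ((subRep ρ X U hU3).linHom (subRep ρ X U hU3)) ⁅Q.subgroupOf X, Q.subgroupOf X⁆ = ⊤ := by
  have hm : ∀ a ∈ Q, ∀ x ∈ Q, ⁅a, x⁆ ∈ Z := fun a ha x hx => hQZ (commutator_mem_commutator ha hx)
  have hcn : ∀ a ∈ Q, ∀ z ∈ Z, a * z * a⁻¹ = z := fun a ha z hz => by rw [hZ hz a ha, mul_inv_cancel_right]
  let m : Q → (Q.subgroupOf X →* Fˣ) := fun x => MonoidHom.mk' (fun a => μ ⟨⁅a.1.1, x.1⁆, hm _ a.2 _ x.2⟩) fun a b => by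
    rw [mul_comm, ← map_mul]
    congr 1
    refine Subtype.ext ?_
    change ⁅a.1.1 * b.1.1, x.1⁆ = ⁅b.1.1, x.1⁆ * ⁅a.1.1, x.1⁆
    rw [← hcn a.1.1 a.2 _ (hm b.1.1 b.2 _ x.2)]
    simp only [commutatorElement_def]; group
  have hmem : ∀ x, m x ∈ projW (subRep ρ _ U hU3) (Q.subgroupOf X) := fun x =>
    ⟨(subRep ρ _ U hU3).asGroupHom ⟨x, hX x.2⟩, mem_wt_linHom.2 fun a u => Subtype.ext (by
      change ρ a.1.1 (ρ x.1 u) = (μ ⟨⁅a.1.1, x.1⁆, hm _ a.2 _ x.2⟩ : F) • ρ x.1 (ρ a.1.1 u)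
      rw [← hU1 (hU3 _ (hX x.2) _ (hU3 _ a.1.2 _ u.2)) ⟨_, hm a.1.1 a.2 _ x.2⟩, ← rep_mul_apply, ← rep_mul_apply,
        ← rep_mul_apply]
      congr 2
      simp only [commutatorElement_def]; group)⟩
  refine ⟨Nat.card_le_card_of_injective (fun q : Q ⧸ Subgroup.subgroupOf _ Q => (⟨m q.out, hmem _⟩ : projW _ _)) fun q q' h => ?_,
    eq_top_iff.2 fun T _ => mem_fixS_linHom.2 fun z hz w => ?_⟩
  · rw [← q.out_eq, ← q'.out_eq]
    refine Quotient.sound (QuotientGroup.leftRel_apply.2 ⟨(q.out⁻¹ * q'.out).2, fun y hy => ?_⟩)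
    have e := DFunLike.congr_fun (congrArg Subtype.val h) ⟨⟨y, hX hy⟩, hy⟩
    have hd := hm _ hy _ (q.out⁻¹ * q'.out).2
    have e' : μ ⟨_, hd⟩ = 1 := by
      have : (⟨⁅y, q'.out.1⁆, hm _ hy _ q'.out.2⟩ : Z) = ⟨⁅y, q.out.1⁆, hm _ hy _ q.out.2⟩ * ⟨_, hd⟩ := Subtype.ext (by
        change ⁅y, q'.out.1⁆ = ⁅y, q.out.1⁆ * ⁅y, (q.out⁻¹ * q'.out).1⁆
        rw [← hcn _ q.out.2 _ hd]
        simp only [commutatorElement_def, Subgroup.coe_mul, Subgroup.coe_inv]; group)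
      change μ ⟨⁅y, q.out.1⁆, _⟩ = μ ⟨⁅y, q'.out.1⁆, _⟩ at e
      rw [this, map_mul] at e
      exact (left_eq_mul.1 e)
    rw [← commutatorElement_inv]
    exact inv_mem ⟨⟨_, hd⟩, e', rfl⟩
  · rw [← H8.subgroupOf_commutator hX hX] at hz
    have : ∀ u : U, subRep ρ X U hU3 z u = (μ ⟨z, hQZ hz⟩ : F) • u := fun u => Subtype.ext (hU1 u.2 ⟨z, hQZ hz⟩)
    rw [this, this, map_smul]

theorem rad_sq {ρ : Representation F Γ W} {Q Z : Subgroup Γ} (hQZ : ⁅Q, Q⁆ ≤ Z) (hZ : Z ≤ centralizer (Q : Set Γ))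
    (hQ0 : (Nat.card Q : F) ≠ 0) {μ : Z →* Fˣ} (hμ : wt ρ Z μ ≠ ⊥) :
    ∃ d, (rad Q (μ.ker.map Z.subtype) (hQZ.trans hZ)).relIndex Q = d ^ 2 := by
  obtain ⟨U, hU1, hU2, hU3, hU4⟩ := exists_min_inv ρ Q hμ fun g hg v hv => by
    have hc : g ∈ centralizer (Z : Set Γ) := le_centralizer_iff.1 hZ hg
    have := rep_mem_wt ⟨g, BG.cent_le_norm _ hc⟩ hv
    rwa [cjw_eq_of_cent _ hc] at this
  haveI : Nontrivial U := Submodule.nontrivial_iff_ne_bot.2 hU2
  obtain ⟨h1, h2⟩ := rad_le_proj hQZ hZ hU1 hU3 le_rfl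
  have hi : IrrOn (subRep ρ Q U hU3) (Q.subgroupOf Q) := by rw [subgroupOf_self]; exact irrOn_subRep hU3 hU4
  refine ⟨_, le_antisymm (h1.trans (hi.finrank_sq (by rwa [H1.card_subgroupOf le_rfl]) h2).ge) ?_⟩
  rw [hi.finrank_sq (by rwa [H1.card_subgroupOf le_rfl]) h2]
  set Y := rad Q (μ.ker.map Z.subtype) (hQZ.trans hZ)
  haveI : (Y.subgroupOf Q).Normal := Normal.of_commutator_le _ (commutator_le.2 fun a _ b _ => ⟨⁅a, b⁆.2, fun y hy => by
    have : ⁅(⁅a.1, b.1⁆ : Γ), y⁆ = 1 := commutatorElement_eq_one_iff_mul_comm.2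
      (hZ (hQZ (commutator_mem_commutator a.2 b.2)) y hy).symm
    exact (show ⁅(⁅a.1, b.1⁆ : Γ), y⁆ ∈ _ from this ▸ one_mem _)⟩)
  let ι : Q →* Q.subgroupOf Q := (MonoidHom.id Q).codRestrict _ fun x => x.2
  have hk : ∀ ν : projW (subRep ρ Q U hU3) (Q.subgroupOf Q), ∀ a ∈ Y.subgroupOf Q, (ν.1.comp ι) a = 1 := fun ⟨ν, T, hT⟩ a ha => by
    obtain ⟨c, hc⟩ := hi.schur (T := subRep ρ Q U hU3 a) (mem_fixS_linHom.2 fun x _ u => Subtype.ext (by
      obtain ⟨z, hz, e⟩ := ha.2 x x.2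
      have := hU1 (hU3 _ x.2 _ (hU3 _ a.2 _ u.2)) z
      rw [show μ z = 1 from hz, Units.val_one, one_smul] at this
      change ρ x (ρ a u) = ρ a (ρ x u)
      rw [← this, show (z : Γ) = ⁅a.1, x.1⁆ from e, ← rep_mul_apply, ← rep_mul_apply, ← rep_mul_apply]
      congr 2
      simp only [commutatorElement_def]; group))
    obtain ⟨u, hu⟩ := exists_ne (0 : U)
    have h3 := mem_wt_linHom.1 hT (ι a) u
    change subRep ρ Q U hU3 a _ = _ • T.1 (subRep ρ Q U hU3 a u) at h3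
    have h4 : T.1 (subRep ρ Q U hU3 a u) ≠ 0 := fun e => hu (rep_injective _ a
      (((Module.End.isUnit_iff _).1 T.isUnit).1 (by rw [e, map_zero, map_zero])))
    rw [hc, ← map_smul, ← hc] at h3
    exact Units.ext (smul_left_injective F h4 (h3.symm.trans (one_smul F _).symm))
  have h5 := card_char (F := F) (A := (⊤ : Subgroup (Q ⧸ Y.subgroupOf Q))) (by
    rw [card_top]; exact natCast_ne_zero_of_dvd (card_quotient_dvd_card _) hQ0)
  refine le_trans (Nat.card_le_card_of_injective (fun ν => (QuotientGroup.lift _ _ (hk ν)).comp (Subgroup.subtype ⊤)) fun a b h =>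
    Subtype.ext (MonoidHom.ext fun x => DFunLike.congr_fun h ⟨(x.1 : Q ⧸ Y.subgroupOf Q), trivial⟩)) ?_
  rw [card_top] at h5
  exact Nat.le_of_dvd Nat.card_pos (Dvd.intro _ h5)

theorem hh_cyc (ρ : Representation F Γ W) (hρ : MonoidHom.ker ρ = ⊥) {A D : Subgroup Γ} [IsMulCommutative A] {p q : ℕ}
    [hp : Fact p.Prime] [hq : Fact q.Prime] (ho : Odd p) (hpq : p ≠ q) (hA : IsPGroup p A) (hDA : D ≤ A) (hD0 : D ≠ ⊥)
    (hD : ∀ x ∈ A, x ≠ 1 → D ≤ zpowers x) (hA0 : (Nat.card A : F) ≠ 0) (hfix : fixS ρ A = ⊥) (Q : Subgroup Γ) :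
    IsPGroup q Q → (Nat.card Q : F) ≠ 0 → A ≤ normalizer (Q : Set Γ) → Q ⊓ centralizer (A : Set Γ) = ⊥ → ⁅Q, D⁆ = ⊥ := by
  classical
  induction Q using WellFoundedLT.induction with
  | _ Q ih =>
  intro hQ hQ0 hAQ hf
  have co : ∀ {X Y : Subgroup Γ}, X ≤ A → Y ≤ Q → (Nat.card X).Coprime (Nat.card Y) := fun h h' =>
    IsPGroup.coprime_card_of_ne _ _ hpq _ _ (hA.to_le h) (hQ.to_le h')
  have sQ : ∀ {X : Subgroup Γ}, X ≤ Q → Group.IsSolvable X := fun h => haveI := (hQ.to_le h).isNilpotent; inferInstance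
  have c0 : ∀ {X : Subgroup Γ}, X ≤ Q → (Nat.card X : F) ≠ 0 := fun h => natCast_ne_zero_of_dvd (card_dvd_of_le h) hQ0
  have ih' : ∀ X < Q, A ≤ normalizer (X : Set Γ) → ⁅X, D⁆ = ⊥ := fun X hX h =>
    ih X hX (hQ.to_le hX.le) (c0 hX.le) h (eq_bot_iff.2 ((inf_le_inf_right _ hX.le).trans hf.le))
  have hDQ := hDA.trans hAQ
  by_contra hne
  have hQD : ⁅Q, D⁆ = Q := by
    by_contra h
    exact hne (H1.commutator_eq_bot_of_commutator_commutator hDQ (co hDA le_rfl) (ih' _ (lt_of_le_of_ne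
      (H8.commutator_le_left_of_norm hDQ) h) (H1.le_normalizer_commutator hAQ (H1.le_normalizer_of_isMulCommutative hDA))))
  have hsr : ∀ x ∈ A, x ≠ 1 → Q ≤ ⁅Q, zpowers x⁆ := fun x hx h1 => hQD.ge.trans (commutator_mono le_rfl (hD x hx h1))
  have hna : ¬ IsMulCommutative Q := fun h => hne (by
    have := wielandt_step ρ hAQ hQ0 hsr
    rw [fixS_sup, fixS_sup, hfix, inf_bot_eq, inf_bot_eq, add_left_inj, commutator_eq_bot_iff_le_centralizer.2 (le_centralizer Q),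
      fixS_bot, finrank_top] at this
    rw [hQD, ← le_bot_iff, ← hρ, ← fixS_eq_top_iff]
    exact Submodule.eq_top_of_finrank_eq this.symm)
  obtain ⟨s1, -, s3⟩ := special_of_cent_abelian hQ hDQ
    ((hA.to_le hDA).exists_card_eq.choose_spec.symm ▸ Nat.Coprime.pow_left _ ((Nat.coprime_primes hp.out hq.out).2 hpq)) hQD
    fun X hX hXa hXn => le_centralizer_iff.1 (commutator_eq_bot_iff_le_centralizer.1
      (ih' X (lt_of_le_of_ne hX fun e => hna (e ▸ hXa)) (hAQ.trans hXn)))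
  set Z := Zc Q with hZ
  have hZQ : Z ≤ Q := inf_le_left
  have hZc : Z ≤ centralizer (Q : Set Γ) := inf_le_right
  haveI hZa : IsMulCommutative Z := ⟨⟨fun a b => Subtype.ext (b.2.2 _ a.2.1)⟩⟩
  have nZ : A ≤ normalizer (Z : Set Γ) := s1 ▸ H1.le_normalizer_commutator hAQ hAQ
  have hZ0 : Z ≠ ⊥ := fun e => hna ⟨⟨fun a b => Subtype.ext (commutatorElement_eq_one_iff_mul_comm.1
    (mem_bot.1 (e ▸ s1 ▸ commutator_mem_commutator a.2 b.2)))⟩⟩
  obtain ⟨μ, hμ, w, hw, hw0⟩ := exists_wt_ne_bot (ρ := ρ) (c0 hZQ) (by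
    rw [commutator_eq_bot_iff_le_centralizer.2 (le_centralizer Z), fixS_bot, top_le_iff, fixS_eq_top_iff, hρ, le_bot_iff]
    exact hZ0)
  letI : MulAction A (Z →* Fˣ) :=
    { smul := fun g ν => cjw ⟨g, nZ g.2⟩ ν
      one_smul := cjw_one
      mul_smul := fun a b => cjw_mul ⟨a.1, nZ a.2⟩ ⟨b.1, nZ b.2⟩ }
  have sm : ∀ (a : A) (ν : Z →* Fˣ), a • ν = cjw ⟨a.1, nZ a.2⟩ ν := fun _ _ => rfl
  have h2 : ⁅Q, Q⁆ ≤ centralizer (Q : Set Γ) := s1.le.trans hZc
  let Y := fun ν : Z →* Fˣ => rad Q (ν.ker.map Z.subtype) h2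
  have hYQ : ∀ ν, Y ν ≤ Q := fun ν x hx => hx.1
  have hZY : ∀ ν, Z ≤ Y ν := fun ν z hz => ⟨hZQ hz, fun y hy => by
    rw [commutatorElement_eq_one_iff_mul_comm.2 (hZc hz y hy).symm]; exact one_mem _⟩
  have cY : ∀ (a : A) ν, ∀ x ∈ Y ν, a * x * a.1⁻¹ ∈ Y (a • ν) := fun a ν x hx =>
    ⟨(mem_normalizer_iff.1 (hAQ a.2) x).1 hx.1, fun y hy => by
      have hy' := (mem_normalizer_iff''.1 (hAQ a.2) y).1 hy
      obtain ⟨z, hz, e⟩ := hx.2 _ hy'
      refine ⟨⟨a * z * a.1⁻¹, (mem_normalizer_iff.1 (nZ a.2) _).1 z.2⟩, ?_, ?_⟩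
      · change (a • ν) _ = 1
        rw [sm, cjw_apply, ← show ν z = 1 from hz]
        congr 1
        exact Subtype.ext (by rw [coe_nmh]; simp [mul_assoc])
      · change a * z.1 * a.1⁻¹ = _
        rw [show z.1 = _ from e]; simp only [commutatorElement_def]; group⟩
  have nQ : ∀ {X : Subgroup Γ}, Z ≤ X → Q ≤ normalizer (X : Set Γ) ∨ ¬ X ≤ Q := fun {X} h => or_iff_not_imp_right.2 fun h' =>
    le_normalizer_iff_commutator_le_left.2 ((commutator_mono (not_not.1 h') le_rfl).trans (s1.le.trans h))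
  -- semiregularity on sections above `Z`
  have sem : ∀ {X R : Subgroup Γ}, Z ≤ X → X ≤ Q → R ≤ A → R ≤ normalizer (X : Set Γ) → D ≤ R ∨ R = ⊥ →
      Nat.card R ∣ X.relIndex Q - 1 := fun {X R} h1 h3 h4 h5 h6 => by
    have n1 := (nQ h1).resolve_right (not_not.2 h3)
    rcases h6 with h6 | rfl
    swap; · simp
    have e1 : Nat.card (H1.sec X R) = Nat.card R := by
      rw [H1.card_sec _ _ h5, ← inf_relIndex_right, inf_comm, inf_eq_bot_of_coprime (co h4 h3), relIndex_bot_left]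
    rw [← H1.card_sec _ _ n1, ← e1]
    refine L.FPF.card_dvd (fun y hy hy1 => ?_) (H1.sec_le_normalizer (h4.trans hAQ))
    obtain ⟨x, hx', hx, rfl⟩ := H1.mem_sec_iff.1 hy
    have := H1.sec_inf_centralizer (M := X) (h6.trans h5) n1 hDQ (co hDA inf_le_left) (.inr (sQ inf_le_left))
    rw [s3, (H1.sec_eq_bot_iff (hZQ.trans n1)).2 h1] at this
    refine eq_bot_iff.2 (le_trans (inf_le_inf_left _ ?_) this.ge)
    rw [← H1.centralizer_zpowers, ← H1.sec_zpowers]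
    exact centralizer_le (H1.sec_mono (hD x (h4 hx) fun e => hy1 (by subst e; exact map_one _)))
  let S := (MulAction.stabilizer A μ).map A.subtype
  have hSA : S ≤ A := map_subtype_le _
  have bound : ∀ a : A, (Y (a • μ)).relIndex Q ≤ (Nat.card S - 1) ^ 2 := fun a => by
    have hst : ∀ s ∈ S, ∀ h, (⟨s, h⟩ : A) • a • μ = a • μ := by
      rintro _ ⟨s, hs, rfl⟩ h
      rw [← mul_smul, IsMulCommutative.is_comm.comm _ a, mul_smul]; exact congrArg (a • ·) hs
    have hU : ∀ g ∈ Q ⊔ S, ∀ v ∈ wt ρ Z (a • μ), ρ g v ∈ wt ρ Z (a • μ) := fun g hg v hv =>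
      apply_mem_of_stabS ((sup_le (fun k hk => mem_stabS_of_le fun v hv => by
        have hc : k ∈ centralizer (Z : Set Γ) := le_centralizer_iff.1 hZc hk
        have := rep_mem_wt ⟨k, BG.cent_le_norm _ hc⟩ hv
        rwa [cjw_eq_of_cent _ hc] at this) (fun s hs => mem_stabS_of_le fun v hv => by
        have := rep_mem_wt ⟨s, nZ (hSA hs)⟩ hv
        rwa [← sm ⟨s, hSA hs⟩, hst s hs] at this) : Q ⊔ S ≤ stabS ρ _) hg) hv
    obtain ⟨g1, g2⟩ := rad_le_proj s1.le hZc le_rfl hU le_sup_left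
    haveI : Nontrivial (wt ρ Z (a • μ)) := Submodule.nontrivial_iff_ne_bot.2 ((Submodule.ne_bot_iff _).2
      ⟨_, rep_mem_wt ⟨a.1, nZ a.2⟩ hw, fun e => hw0 (rep_injective ρ a (e.trans (map_zero _).symm))⟩)
    have e3 := H1.card_subgroupOf (le_sup_right : S ≤ Q ⊔ S)
    refine g1.trans (e3 ▸ proj_bound _ (H8.subgroupOf_le_normalizer (hSA.trans hAQ)) ?_ (fun x hx hx1 => ?_) g2
      (by rwa [H1.card_subgroupOf le_sup_left]) (by rw [e3]; exact natCast_ne_zero_of_dvd (card_dvd_of_le hSA) hA0)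
      (eq_bot_iff.2 fun u hu => Subtype.ext ?_))
    · rw [← H8.subgroupOf_commutator le_sup_right le_sup_right, eq_bot_iff.2 ((commutator_mono hSA hSA).trans
        (commutator_eq_bot_iff_le_centralizer.2 (le_centralizer A)).le), bot_subgroupOf]
    · have : zpowers x = (zpowers x.1).subgroupOf (Q ⊔ S) := by
        rw [← map_subtype_inj, MonoidHom.map_zpowers, map_subgroupOf_eq_of_le (zpowers_le.2 x.2)]; rfl
      rw [this, ← H8.subgroupOf_commutator le_sup_left (zpowers_le.2 x.2)]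
      exact comap_mono (hsr x (hSA hx) fun e => hx1 (Subtype.ext e))
    · have hv := (mem_fixS_subRep le_sup_right hU).1 hu
      haveI := Fintype.ofFinite A
      have h0 : ∑ b : A, ρ b u = 0 := hfix.le (norm_mem_fixS ρ A u.1)
      have h1 := congrArg (pr ρ Z (a • μ)) h0
      rw [map_sum, map_zero, Finset.sum_congr rfl (g := fun b : A => if b ∈ MulAction.stabilizer A μ then u.1 else 0) fun b _ => ?_,
        ← Finset.sum_filter, Finset.sum_const, ← Nat.cast_smul_eq_nsmul F, smul_eq_zero] at h1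
      · refine h1.resolve_left (natCast_ne_zero_of_dvd ?_ hA0)
        rw [← Fintype.card_subtype, ← Nat.card_eq_fintype_card]
        exact card_subgroup_dvd_card _
      · split_ifs with h
        · rw [hv b ⟨b, h, rfl⟩, pr_of_mem (c0 hZQ) u.2]
        · refine pr_of_ne (fun e => h ?_) (rep_mem_wt ⟨b.1, nZ b.2⟩ u.2)
          rw [← sm, ← mul_smul, IsMulCommutative.is_comm.comm b a, mul_smul] at e
          exact (MulAction.injective a e).symm
  have hYne : ¬ Q ≤ Y μ := fun h => hμ (eq_one_of_le_ker (s1.ge.trans (commutator_le.2 fun x hx y hy => (h hx).2 y hy)))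
  have pw : ∀ X : Subgroup Γ, ¬ Q ≤ X → ∃ e ≠ 0, X.relIndex Q = q ^ e := fun X h => by
    obtain ⟨k, hk⟩ := hQ.exists_card_eq
    obtain ⟨j, -, hj⟩ := (Nat.dvd_prime_pow hq.out).1 (hk ▸ relIndex_dvd_card X Q)
    exact ⟨j, fun e => h (relIndex_eq_one.1 (by rw [hj, e, pow_zero])), hj⟩
  obtain ⟨d, hd⟩ := rad_sq s1.le hZc hQ0 ((Submodule.ne_bot_iff _).2 ⟨w, hw, hw0⟩)
  obtain ⟨e, he, he'⟩ := pw _ hYne
  obtain ⟨m, -, rfl⟩ := (Nat.dvd_prime_pow hq.out).1 (he'.symm.trans hd ▸ dvd_pow_self d two_ne_zero)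
  have hm : m ≠ 0 := by rintro rfl; exact hYne (relIndex_eq_one.1 hd)
  have b1 := bound 1
  rw [one_smul] at b1
  have hDS : D ≤ S ∨ S = ⊥ := (bot_or_exists_ne_one S).symm.imp_left fun ⟨x, hx, hx1⟩ => (hD x (hSA hx) hx1).trans (zpowers_le.2 hx)
  have b2 := sem (hZY μ) (hYQ μ) hSA (by
    rintro _ ⟨s, hs, rfl⟩
    exact H1.mem_normalizer_of_conj_mem fun x hx => (show s • μ = μ from hs) ▸ cY s μ x hx) hDS
  obtain ⟨j, hj⟩ := (hA.to_le hSA).exists_card_eq
  obtain ⟨i, hi⟩ := hA.index (MulAction.stabilizer A μ)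
  have hij : Nat.card A = p ^ j * p ^ i := by rw [← hj, ← hi, card_subtype, card_mul_index]
  let Y0 := Q ⊓ ⨅ a : A, Y (a • μ)
  have hY0 : ¬ Q ≤ Y0 := fun h => hYne (h.trans (inf_le_right.trans (iInf_le_of_le 1 (by rw [one_smul]))))
  obtain ⟨e', he1, he2⟩ := pw _ hY0
  have b4 := sem (X := Y0) (le_inf hZQ (le_iInf fun a => hZY _)) inf_le_left le_rfl (fun a ha => H1.mem_normalizer_of_conj_mem fun x hx =>
    ⟨(mem_normalizer_iff.1 (hAQ ha) x).1 hx.1, mem_iInf.2 fun b => by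
      have := cY ⟨a, ha⟩ _ x (mem_iInf.1 hx.2 ((⟨a, ha⟩ : A)⁻¹ * b))
      rwa [← mul_smul, mul_inv_cancel_left] at this⟩) (.inl hDA)
  haveI := Fintype.ofFinite A
  have prod1 : ∀ z : Z, ∏ a : A, (a • μ) z = 1 := fun z => by
    have h1 := H1.commutator_sup_centralizer nZ (co le_rfl hZQ) (.inr (sQ hZQ))
    rw [eq_bot_iff.2 ((inf_le_inf_right _ hZQ).trans hf.le), sup_bot_eq] at h1
    have : (∏ a : A, a • μ) = 1 := eq_one_of_le_ker (h1.ge.trans (commutator_le.2 fun x hx a ha =>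
      comm_le_ker_of_cjw_eq (g := ⟨a, nZ ha⟩) (MonoidHom.ext fun y => by
        rw [cjw_apply, MonoidHom.finset_prod_apply, MonoidHom.finset_prod_apply]
        rw [← (Group.mulLeft_bijective (⟨a, ha⟩ : A)).prod_comp fun b => (b • μ) y]
        exact Finset.prod_congr rfl fun b _ => by rw [mul_smul, sm ⟨a, ha⟩, cjw_apply])
        (commutator_mem_commutator hx (mem_zpowers a))))
    rw [← MonoidHom.finset_prod_apply, this, MonoidHom.one_apply]
  let O := {ν : MulAction.orbit A μ // ν.1 ≠ μ}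
  haveI := Fintype.ofFinite (MulAction.orbit A μ)
  have b3 : Y0.relIndex Q ≤ ((Nat.card S - 1) ^ 2) ^ (p ^ i - 1) := by
    have l1 : Q ⊓ ⨅ ν : O, Y ν.1.1 ≤ Y0 := fun x hx => by
      have k1 : ∀ a : A, a • μ ≠ μ → x ∈ Y (a • μ) := fun a h => mem_iInf.1 hx.2 ⟨⟨_, a, rfl⟩, h⟩
      have k2 : x ∈ Y μ := ⟨hx.1, fun y hy => by
        have hz : ⁅x, y⁆ ∈ Z := s1 ▸ commutator_mem_commutator hx.1 hy
        refine ⟨⟨_, hz⟩, ?_, rfl⟩
        have := prod1 ⟨_, hz⟩
        rw [Finset.prod_congr rfl (g := fun a : A => if a • μ = μ then μ ⟨_, hz⟩ else 1) fun a _ => ?_,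
          ← Finset.prod_filter, Finset.prod_const] at this
        · refine orderOf_eq_one_iff.1 (Nat.eq_one_of_dvd_coprimes (co le_rfl hZQ) ((orderOf_dvd_of_pow_eq_one this).trans ?_)
            ((orderOf_map_dvd μ _).trans (orderOf_dvd_natCard _)))
          rw [← Fintype.card_subtype, ← Nat.card_eq_fintype_card]
          exact card_subgroup_dvd_card (MulAction.stabilizer A μ)
        · split_ifs with h
          · rw [h]
          · obtain ⟨z, hz', e⟩ := (k1 a h).2 y hy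
            exact (show z = ⟨_, hz⟩ from Subtype.ext e) ▸ hz'⟩
      exact ⟨hx.1, mem_iInf.2 fun a => if h : a • μ = μ then h.symm ▸ k2 else k1 a h⟩
    refine (relIndex_le_of_le_left l1 index_ne_zero_of_finite).trans ?_
    rw [inf_comm, inf_relIndex_right]
    refine (relIndex_iInf_le _).trans ((Finset.prod_le_pow_card _ _ ((Nat.card S - 1) ^ 2) fun ν _ => ?_).trans (le_of_eq ?_))
    · obtain ⟨⟨_, a, rfl⟩, -⟩ := ν; exact bound a
    · rw [← hi, MulAction.index_stabilizer, Finset.card_univ, ← Nat.card_coe_set_eq, Nat.card_eq_fintype_card (α := MulAction.orbit A μ)]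
      congr 1
      have : ∀ ν : MulAction.orbit A μ, ν.1 ≠ μ ↔ ν ≠ ⟨μ, MulAction.mem_orbit_self μ⟩ := fun ν => ⟨fun h e => h (congrArg Subtype.val e), fun h e => h (Subtype.ext e)⟩
      simp only [O, this, Fintype.card_subtype_compl, Fintype.card_subtype_eq]
  change (Y μ).relIndex Q = _ at hd
  rw [hd, hj] at b1 b2
  rw [he2, hj] at b3
  rw [he2, hij] at b4
  refine arith5 hp.out ho hq.out.two_le ?_ hm he1 b1 b2 b3 b4
  rintro rfl
  have : 0 < (q ^ m) ^ 2 := pow_pos (pow_pos hq.out.pos _) _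
  rw [pow_zero, Nat.sub_self, zero_pow two_ne_zero] at b1; omega

/-- Iterated terms of lower central series. -/
def itL {G : Type*} [Group G] (m n : ℕ) (K : Subgroup G) : Subgroup G := (fun L : Subgroup G => L.lowerCentralSeries m)^[n] K

section
variable {G G' : Type*} [Group G] [Group G']

theorem itL_succ (m n : ℕ) (K : Subgroup G) : itL m (n + 1) K = (itL m n K).lowerCentralSeries m :=
  Function.iterate_succ_apply' _ _ _

theorem itL_map (f : G →* G') (m n : ℕ) (K : Subgroup G) : (itL m n K).map f = itL m n (K.map f) := by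
  induction n with
  | zero => rfl
  | succ n ih => rw [itL_succ, itL_succ, map_lowerCentralSeries, ih]

theorem itL_anti {m m' : ℕ} (h : m ≤ m') (n : ℕ) (K : Subgroup G) : itL m' n K ≤ itL m n K := by
  induction n with
  | zero => exact le_rfl
  | succ n ih =>
    rw [itL_succ, itL_succ]
    exact (Subgroup.lowerCentralSeries_mono _ ih).trans (Subgroup.lowerCentralSeries_antitone _ h)

theorem itL_normal (m n : ℕ) (K : Subgroup G) [K.Normal] : (itL m n K).Normal := by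
  induction n with
  | zero => assumption
  | succ n ih => rw [itL_succ]; exact lcs_normal _ _

theorem itL_le (m n : ℕ) (K : Subgroup G) : itL m n K ≤ K := by
  induction n with
  | zero => exact le_rfl
  | succ n ih => rw [itL_succ]; exact (Subgroup.lowerCentralSeries_le_self _ _).trans ih

end

theorem sg_aux {p : ℕ} [hp : Fact p.Prime] (ho : Odd p) (n : ℕ) : ∀ (Γ : Type u) [Group Γ] [Finite Γ] (K : Subgroup Γ) [K.Normal]
    (a : Γ), Group.IsSolvable K → K ⊔ zpowers a = ⊤ → (Nat.card K).Coprime p → K ⊓ centralizer (zpowers a : Set Γ) = ⊥ →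
    a ^ p ^ n = 1 → ∃ m, itL m n K = ⊥ := by
  have pg : ∀ {Γ : Type u} [Group Γ] {a : Γ} {n}, a ^ p ^ n = 1 → IsPGroup p (zpowers a) := fun {Γ} _ a n h => by
    rintro ⟨_, k, rfl⟩
    exact ⟨n, Subtype.ext (by change (a ^ k) ^ p ^ n = 1; rw [← zpow_natCast, ← zpow_mul, mul_comm, zpow_mul, zpow_natCast, h, one_zpow])⟩
  have co : ∀ {Γ : Type u} [Group Γ] [Finite Γ] {a : Γ} {n m}, a ^ p ^ n = 1 → m.Coprime p → (Nat.card (zpowers a)).Coprime m :=
    fun h h' => (pg h).exists_card_eq.choose_spec.symm ▸ Nat.Coprime.pow_left _ h'.symm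
  induction n with
  | zero =>
    intro Γ _ _ K _ a _ _ _ h3 h4
    rw [pow_zero, pow_one] at h4
    rw [h4, zpowers_one_eq_bot, centralizer_bot_eq, inf_top_eq] at h3
    exact ⟨0, h3⟩
  | succ n ihn =>
  suffices ∀ (c : ℕ) (Γ : Type u) [Group Γ] [Finite Γ] (K : Subgroup Γ) [K.Normal] (a : Γ), Nat.card Γ = c → Group.IsSolvable K →
      K ⊔ zpowers a = ⊤ → (Nat.card K).Coprime p → K ⊓ centralizer (zpowers a : Set Γ) = ⊥ → a ^ p ^ (n + 1) = 1 →
      ∃ m, Group.IsNilpotent (itL m n K) by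
    intro Γ _ _ K _ a hs h1 h2 h3 h4
    obtain ⟨m, hm⟩ := this _ Γ K a rfl hs h1 h2 h3 h4
    obtain ⟨m', hm'⟩ := (isNilpotent_iff_lowerCentralSeries _).1 hm
    refine ⟨max m m', eq_bot_iff.2 ?_⟩
    rw [itL_succ, ← hm']
    exact (Subgroup.lowerCentralSeries_mono _ (itL_anti (le_max_left _ _) _ _)).trans
      (Subgroup.lowerCentralSeries_antitone _ (le_max_right _ _))
  intro c
  induction c using Nat.strong_induction_on with
  | _ c ih =>
  intro Γ _ _ K _ a hn hs h1 h2 h3 h4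
  by_cases hK : K = ⊥
  · subst hK; exact ⟨0, H1.isNilpotent_of_le (itL_le _ _ _) inferInstance⟩
  obtain ⟨V, r, hVn, hV, hVK, hr, hE, hmin⟩ := H1.exists_minimal_normal_elementary K hK hs
  obtain ⟨Δ, _, _, π, F, _, _, W, _, _, _, _, σ, e1, e2, e3, e4, e5, e6⟩ := of_rep (A := zpowers a) hr hV hE hmin
    ((co h4 h2).coprime_dvd_right (card_dvd_of_le hVK)) (eq_bot_iff.2 ((inf_le_inf_right _ hVK).trans h3.le))
  obtain ⟨g1, g2, g3⟩ := fpf_map _ e1 hs h1 (co h4 h2) h3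
  haveI : (K.map π).Normal := Normal.map inferInstance _ e1
  rw [MonoidHom.map_zpowers] at g1 g2 g3 e4 e5
  have g4 : π a ^ p ^ (n + 1) = 1 := by rw [← map_pow, h4, map_one]
  have g5 := h2.coprime_dvd_left (card_map_dvd K π)
  have g6 := H1.isSolvable_map π hs
  obtain ⟨m1, hm1⟩ : ∃ m, itL m n (K.map π) = ⊥ := by
    generalize π a = b at *
    generalize K.map π = L at *
    by_cases hb : b ^ p ^ n = 1
    · exact ihn Δ L b g6 g1 g5 g3 hb
    have ob : orderOf b = p ^ (n + 1) := orderOf_eq_prime_pow hb g4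
    have hDA : zpowers (b ^ p ^ n) ≤ zpowers b := zpowers_le.2 (npow_mem_zpowers _ _)
    have hDc : Nat.card (zpowers (b ^ p ^ n)) = p := by
      rw [Nat.card_zpowers, orderOf_eq_prime (by rw [← pow_mul, ← pow_succ, g4]) hb]
    have hD : ∀ x ∈ zpowers b, x ≠ 1 → zpowers (b ^ p ^ n) ≤ zpowers x := fun x hx hx1 => by
      obtain ⟨y, hy⟩ := exists_prime_orderOf_dvd_card' (G := zpowers x) p
        (((pg g4).to_le (zpowers_le.2 hx)).card_eq_or_dvd.resolve_left fun e => hx1 (zpowers_eq_bot.1 (card_eq_one.1 e)))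
      obtain ⟨k, hk⟩ := (mem_powers_iff_mem_zpowers.2 (zpowers_le.2 hx y.2))
      have y1 : y.1 ^ p = 1 := by rw [← hy]; exact congrArg Subtype.val (pow_orderOf_eq_one y)
      rw [← hk, ← pow_mul, ← orderOf_dvd_iff_pow_eq_one, ob, pow_succ] at y1
      obtain ⟨c, rfl⟩ := Nat.dvd_of_mul_dvd_mul_right hp.out.pos y1
      have : zpowers y.1 = zpowers (b ^ p ^ n) := H1.eq_of_le_of_card_prime (by rw [hDc]; exact hp.out)
        (zpowers_le.2 (by rw [← hk]; simp only [pow_mul]; exact npow_mem_zpowers _ _)) fun e => hp.out.one_lt.ne' (by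
          rw [← hy, ← orderOf_coe, zpowers_eq_bot.1 e, orderOf_one])
      exact this ▸ zpowers_le.2 y.2
    set D := zpowers (b ^ p ^ n)
    have cD := g2.coprime_dvd_left (card_dvd_of_le hDA)
    have k1 : (fittingSubgroup L).map L.subtype ≤ centralizer (D : Set Δ) := by
      rw [H1.fittingSubgroup_eq_iSup, Subgroup.map_iSup]
      refine iSup_le fun s => ?_
      haveI := Fact.mk s.2
      by_cases e : p = s
      · have := (H1.isPGroup_pCore p L).card_eq_or_dvd.resolve_right fun h =>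
          hp.out.one_lt.ne' (Nat.eq_one_of_dvd_coprimes g5 (h.trans (card_subgroup_dvd_card _)) dvd_rfl)
        rw [← e, card_eq_one.1 this, Subgroup.map_bot]; exact bot_le
      refine commutator_eq_bot_iff_le_centralizer.1 (hh_cyc σ e2 ho e (pg g4) hDA (fun e => hb (zpowers_eq_bot.1 e)) hD e4 e5 _
        ((H1.isPGroup_pCore s L).map _) (cast_ne_of_normal e2 e3 ((H1.isPGroup_pCore s L).map _)) le_normalizer_of_normal
        (eq_bot_iff.2 ((inf_le_inf_right _ (map_subtype_le _)).trans g3.le)))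
    have k2 : ⁅L, D⁆ ≤ (fittingSubgroup L).map L.subtype := (le_inf (commutator_le_left _ _) (comm_le_right_of_le
      (le_centralizer_iff.1 k1) le_normalizer_of_normal)).trans (H1.inf_centralizer_map_fittingSubgroup_le g6)
    have k3 := H1.le_centralizer_of_commutator_le_centralizer le_normalizer_of_normal cD (k2.trans k1)
    haveI : D.Normal := normalizer_eq_top_iff.1 (top_le_iff.1 (g1 ▸ sup_le (k3.trans (centralizer_le_normalizer _))
      (H1.le_normalizer_of_isMulCommutative hDA)))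
    obtain ⟨q1, -, q3⟩ := fpf_map _ (QuotientGroup.mk'_surjective D) g6 g1 g2 g3
    rw [MonoidHom.map_zpowers] at q1 q3
    haveI : (L.map (QuotientGroup.mk' D)).Normal := Normal.map inferInstance _ (QuotientGroup.mk'_surjective D)
    obtain ⟨m, hm⟩ := ihn _ _ _ (H1.isSolvable_map _ g6) q1 (g5.coprime_dvd_left (card_map_dvd _ _)) q3
      (by rw [← map_pow]; exact (QuotientGroup.eq_one_iff _).2 (mem_zpowers _))
    rw [← itL_map, Subgroup.map_eq_bot_iff, QuotientGroup.ker_mk'] at hm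
    exact ⟨m, eq_bot_iff.2 ((le_inf hm (itL_le _ _ _)).trans (inf_eq_bot_of_coprime cD).le)⟩
  have hc := e6 _ (itL_normal m1 n K) (by rw [itL_map, hm1])
  have hlt : Nat.card (Γ ⧸ V) < c := by
    rw [← hn, ← V.card_mul_index, ← index_eq_card]
    exact lt_mul_of_one_lt_left (Nat.pos_of_ne_zero V.index_ne_zero_of_finite) ((one_lt_card_iff_ne_bot V).2 hV)
  haveI : (K.map (QuotientGroup.mk' V)).Normal := Normal.map inferInstance _ (QuotientGroup.mk'_surjective V)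
  obtain ⟨k1, -, k3⟩ := fpf_map _ (QuotientGroup.mk'_surjective V) hs h1 (co h4 h2) h3
  rw [MonoidHom.map_zpowers] at k1 k3
  obtain ⟨m2, hm2⟩ := ih _ hlt (Γ ⧸ V) _ _ rfl (H1.isSolvable_map _ hs) k1 (h2.coprime_dvd_left (card_map_dvd _ _)) k3
    (by rw [← map_pow, h4, map_one])
  refine ⟨max m1 m2, ?_⟩
  haveI : Group.IsNilpotent ((itL (max m1 m2) n K).map (QuotientGroup.mk' V)) := by
    rw [itL_map]
    exact H1.isNilpotent_of_le (itL_anti (le_max_right _ _) _ _) hm2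
  refine Subgroup.isNilpotent_of_ker_le_center ((QuotientGroup.mk' V).subgroupMap _) fun x hx => ?_
  have hx' : (x : Γ) ∈ V := (QuotientGroup.eq_one_iff _).1 (congrArg Subtype.val hx)
  exact mem_center_iff.2 fun y => Subtype.ext (hc (itL_anti (le_max_left _ _) _ _ y.2) _ hx').symm

end Cfsg.Agent.C3.FP
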