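import Cfsg.Agent.H9.Small
import Cfsg.Agent.H9.PSolv
import Cfsg.Agent.H2.BG1
import Cfsg.Agent.H2.PNil
import Cfsg.Agent.H1.Hall
import Cfsg.Agent.H1.Misc
import Cfsg.Agent.H1.Cocycle

/-! The Gaschütz–Yen theorem. -/

namespace Cfsg.Agent.C3.GY

open Subgroup
open scoped Pointwise

variable {G : Type*} [Group G] [Finite G] {p : ℕ} [hp : Fact p.Prime]

/-- a characteristic subgroup with one element of order `p` has them all -/
def T (p : ℕ) (G : Type*) [Group G] : Prop :=
  ∀ K : Subgroup G, K.Characteristic → ∀ x ∈ K, orderOf x = p → ∀ y : G, orderOf y = p → y ∈ K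

theorem lift (N : Subgroup G) [N.Normal] (hN : (Nat.card N).Coprime p) (y : G ⧸ N)
    (hy : orderOf y = p) : ∃ x : G, (x : G ⧸ N) = y ∧ orderOf x = p := by
  obtain ⟨g, rfl⟩ := QuotientGroup.mk'_surjective N y
  obtain ⟨n, h1, k, h2⟩ := H2.exists_lift_ppow (p := p) (QuotientGroup.mk' N) g (j := 1)
    (by rw [pow_one, ← hy, pow_orderOf_eq_one])
  refine ⟨g ^ n, h1, ?_⟩
  have h3 : (g ^ n) ^ p ∈ N := by
    rw [← QuotientGroup.eq_one_iff]
    change QuotientGroup.mk' N _ = 1
    rw [map_pow, h1, ← hy, pow_orderOf_eq_one]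
  have h4 : (g ^ n) ^ p = 1 := by
    rw [← orderOf_eq_one_iff]
    refine Nat.eq_one_of_dvd_coprimes (Nat.Coprime.pow_right k hN) (N.orderOf_dvd_natCard h3) ?_
    refine orderOf_dvd_of_pow_eq_one ?_
    rw [← pow_mul, mul_comm, pow_mul, h2, one_pow]
  refine orderOf_eq_prime h4 fun h => ?_
  rw [h, map_one] at h1
  rw [← h1, orderOf_one] at hy
  exact hp.1.one_lt.ne hy

theorem T.quot (h : T p G) (N : Subgroup G) [N.Characteristic] (hN : (Nat.card N).Coprime p) :
    T p (G ⧸ N) := by
  intro K hK x hx hxo y hy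
  obtain ⟨a, rfl, ha⟩ := lift N hN x hxo
  obtain ⟨b, rfl, hb⟩ := lift N hN y hy
  exact h (K.comap (QuotientGroup.mk' N)) (Characteristic.comap_quotient_mk hK) a hx ha b hb

theorem exists_order {K : Subgroup G} (h : p ∣ Nat.card K) : ∃ x ∈ K, orderOf x = p := by
  obtain ⟨x, hx⟩ := exists_prime_orderOf_dvd_card' p h
  exact ⟨x, x.2, by rw [← hx, orderOf_coe]⟩

theorem exists_order' {K : Subgroup G} (hK : IsPGroup p K) (h : K ≠ ⊥) : ∃ x ∈ K, orderOf x = p := by
  refine exists_order ?_
  obtain ⟨n, hn⟩ := IsPGroup.iff_card.1 hK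
  rcases n with _ | n
  · exact absurd (card_eq_one.1 (by simpa using hn)) h
  · rw [hn]; exact dvd_pow_self _ (by omega)

theorem core (hp2 : p ≠ 2) (hG : IsPSolvable p G) (hO : pPrimeCore p G = ⊥) (hT : T p G) :
    ¬ p ∣ (pCore p G).index := by
  intro hd
  set P := pCore p G with hPd
  have hP : IsPGroup p P := L.pCore_isPGroup p G
  have hPtop : P ≠ ⊤ := fun h => by
    rw [h, index_top] at hd; exact hp.1.one_lt.ne' (Nat.dvd_one.1 hd)
  let Q : Subgroup G := (pPrimeCore p (G ⧸ P)).comap (QuotientGroup.mk' P)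
  have hQc : Q.Characteristic := Characteristic.comap_quotient_mk inferInstance
  have hPQ : P ≤ Q := fun x hx => by
    change QuotientGroup.mk' P x ∈ pPrimeCore p (G ⧸ P)
    rw [show QuotientGroup.mk' P x = 1 from (QuotientGroup.eq_one_iff x).2 hx]
    exact one_mem _
  have hidx : ∀ M : Subgroup G, P ≤ M → P.relIndex M = Nat.card (M.map (QuotientGroup.mk' P)) := by
    intro M hM
    have := relIndex_ker M (QuotientGroup.mk' P)
    rwa [QuotientGroup.ker_mk'] at this
  have hQi : (P.relIndex Q).Coprime p := by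
    rw [hidx Q hPQ, map_comap_eq_self_of_surjective (QuotientGroup.mk'_surjective P)]
    exact L.pPrimeCore_coprime p
  have hne : Q ≠ P := fun hQP => by
    obtain ⟨M, hM, hlt, h⟩ := H1.IsPSolvable.exists_step hp.1 hG P hPtop
    rcases h with ⟨k, hk⟩ | h
    · obtain ⟨n, hn⟩ := IsPGroup.iff_card.1 hP
      have : IsPGroup p M := by
        refine IsPGroup.of_card (n := n + k) ?_
        rw [← L.card_mul_relIndex hlt.le, hn, hk, pow_add]
      exact hlt.not_ge (L.le_pCore this)
    · refine hlt.not_ge (hQP ▸ ?_)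
      rw [hidx M hlt.le] at h
      have := hM.map _ (QuotientGroup.mk'_surjective P)
      exact map_le_iff_le_comap.1 (L.le_pPrimeCore h)
  have hP0 : P ≠ ⊥ := fun h => hne (by
    refine le_antisymm ?_ hPQ
    rw [h, relIndex_bot_left] at hQi
    rw [h, ← hO]
    exact L.le_pPrimeCore hQi)
  have hcop : (Nat.card P).Coprime (P.relIndex Q) := by
    obtain ⟨n, hn⟩ := IsPGroup.iff_card.1 hP
    rw [hn]; exact (hQi.symm).pow_left n
  obtain ⟨B, hBQ, hBP, hBs, hBc⟩ := H1.exists_complement_of_coprime hPQ le_normalizer_of_normal hcop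
  have hBp : (Nat.card B).Coprime p := hBc ▸ hQi
  have hsol : Group.IsSolvable P := by
    have := hP.isNilpotent
    infer_instance
  have hfr : ∀ g : G, ∃ c ∈ P, c * g ∈ normalizer (B : Set G) := fun g => by
    obtain ⟨c, hc, e⟩ := H1.exists_conj_eq_of_coprime (A := B) (B := MulAut.conj g • B) (K := P)
      le_normalizer_of_normal (hBc ▸ hcop.symm) (by
        rw [hBs]
        intro x hx
        have := (inferInstance : Q.Normal).conj_mem _ (hBQ (H1.mem_conj_smul.1 hx)) g
        simpa [mul_assoc] using this) (H1.card_conj_smul _ _) (Or.inr hsol)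
    rw [H1.conj_smul_conj_smul, H1.conj_smul_eq_self_iff] at e
    exact ⟨c, hc, e⟩
  -- all elements of order `p` are central in `P`
  have hZ : ∀ y : G, orderOf y = p → y ∈ P ⊓ centralizer (P : Set G) := by
    have h1 : P ⊓ centralizer (P : Set G) ≠ ⊥ := by
      have : Nontrivial P := (nontrivial_iff_ne_bot P).2 hP0
      obtain ⟨⟨z, hz⟩, h1⟩ := (nontrivial_iff_exists_ne (1 : center P)).1 hP.center_nontrivial
      intro h
      refine h1 (Subtype.ext (Subtype.ext ?_))
      refine mem_bot.1 (h ▸ ⟨z.2, fun y hy => ?_⟩)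
      exact congrArg Subtype.val (mem_center_iff.1 hz ⟨y, hy⟩)
    obtain ⟨x, hx, hxo⟩ := exists_order' (hP.to_inf_left) h1
    exact hT _ inferInstance x hx hxo
  by_cases hN : normalizer (B : Set G) ⊓ P = ⊥
  · have h1 : normalizer (B : Set G) ⊔ P = ⊤ := by
      refine eq_top_iff.2 fun g _ => ?_
      obtain ⟨c, hc, e⟩ := hfr g
      have : g = c⁻¹ * (c * g) := by group
      rw [this]
      exact mul_mem (mem_sup_right (inv_mem hc)) (mem_sup_left e)
    have h2 : P.relIndex (normalizer (B : Set G)) = P.index := by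
      rw [← relIndex_sup_right, h1, relIndex_top_right]
    obtain ⟨x, hx, hxo⟩ := exists_order (K := normalizer (B : Set G))
      (hd.trans (h2 ▸ relIndex_dvd_card _ _))
    have : x = 1 := mem_bot.1 (hN ▸ ⟨hx, (hZ x hxo).1⟩)
    rw [this, orderOf_one] at hxo
    exact hp.1.one_lt.ne hxo
  · obtain ⟨x, hx, hxo⟩ := exists_order' (hP.to_inf_right) hN
    have h1 : x ∈ centralizer (Q : Set G) := by
      rw [← hBs]
      have : B ⊔ P ≤ centralizer ({x} : Set G) := by
        refine sup_le (fun b hb => ?_) fun y hy => ?_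
        · rw [mem_centralizer_singleton_iff]
          have h1 : x * b * x⁻¹ * b⁻¹ ∈ B ⊓ P := by
            refine ⟨B.mul_mem ((mem_normalizer_iff.1 hx.1 b).1 hb) (B.inv_mem hb), ?_⟩
            have := P.mul_mem hx.2 ((inferInstance : P.Normal).conj_mem _ (P.inv_mem hx.2) b)
            simpa [mul_assoc] using this
          rw [hBP, mem_bot] at h1
          calc b * x = (x * b * x⁻¹ * b⁻¹) * b * x := by rw [h1, one_mul]
            _ = _ := by group
        · rw [mem_centralizer_singleton_iff]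
          exact (hZ x hxo).2 y hy
      intro y hy
      exact mem_centralizer_singleton_iff.1 (this hy)
    have h2 := hT _ inferInstance x h1 hxo
    obtain ⟨D, hD, -, -, hS, hc⟩ := H9.exists_thD_amb hP
    have h3 : ∀ b ∈ B, ∀ y ∈ P, y * b = b * y := fun b hb =>
      hc b (le_normalizer_of_normal (mem_top b)) (hBp.coprime_dvd_left (B.orderOf_dvd_natCard hb))
        fun y hy => by
          by_cases h : y = 1
          · simp [h]
          · exact (h2 y (orderOf_eq_prime ((hS y hy).1 hp2) h) b (hBQ hb)).symm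
    have h4 : B.Normal := by
      refine ⟨fun b hb g => ?_⟩
      obtain ⟨c, hc, e⟩ := hfr g
      have h5 := (mem_normalizer_iff.1 e b).1 hb
      have h6 := h3 _ h5 c⁻¹ (inv_mem hc)
      have : g * b * g⁻¹ = c * g * b * (c * g)⁻¹ := by
        calc g * b * g⁻¹ = c⁻¹ * (c * g * b * (c * g)⁻¹) * c := by group
          _ = _ := by rw [h6]; group
      rwa [this]
    have h5 : B = ⊥ := eq_bot_iff.2 (hO ▸ L.le_pPrimeCore hBp)
    rw [h5, bot_sup_eq] at hBs
    exact hne hBs.symm

theorem main (hp2 : p ≠ 2) (hG : IsPSolvable p G) (hT : T p G) : PLengthLE p 1 G := by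
  rw [H2.plength1_iff', pPrimePCore, index_comap_of_surjective _ (QuotientGroup.mk'_surjective _)]
  exact core hp2 (H9.pSolv_map _ (QuotientGroup.mk'_surjective _) hG)
    (L.pPrimeCore_quotient_eq_bot p G) (hT.quot _ (L.pPrimeCore_coprime p))

end Cfsg.Agent.C3.GY
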