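import Cfsg.Agent.C3.Deg
import Mathlib.Analysis.CStarAlgebra.Spectrum
import Mathlib.Analysis.CStarAlgebra.ContinuousLinearMap
import Mathlib.Analysis.InnerProductSpace.PiL2

/-! Jordan's theorem on finite linear groups: the abelian normal subgroup. -/

set_option autoImplicit false

namespace Cfsg.Agent.C3

open Cfsg H3 Subgroup Finset Module
open scoped ComplexConjugate

theorem exists_diag {H : Type*} [Group H] [Finite H] [IsMulCommutative H] {W : Type*} [AddCommGroup W]
    [Module ℂ W] [FiniteDimensional ℂ W] (ρ : Representation ℂ H W) :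
    ∃ (lam : Fin (finrank ℂ W) → H →* ℂˣ) (e : W ≃ₗ[ℂ] (Fin (finrank ℂ W) → ℂ)),
      ∀ h v i, e (ρ h v) i = lam i h * e v i := by
  obtain ⟨n, lam, a, b⟩ := (isCharacter_character ρ).exists_sum_linear
  obtain rfl : finrank ℂ W = n := by simpa using a
  let σ : Representation ℂ H (Fin (finrank ℂ W) → ℂ) :=
    { toFun := fun h => Matrix.toLin' (Matrix.diagonal fun i => (lam i h : ℂ))
      map_one' := by simp; rfl
      map_mul' := fun x y => by
        rw [Module.End.mul_eq_comp, ← Matrix.toLin'_mul, Matrix.diagonal_mul_diagonal]; simp }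
  obtain ⟨e⟩ := nonempty_equiv_of_char_eq ρ σ (funext fun g => by
    rw [b]; simp [σ, Representation.character, Matrix.trace_toLin'_eq])
  refine ⟨lam, e.toLinearEquiv, fun h v i => ?_⟩
  have := congrFun (LinearMap.congr_fun (e.isIntertwining' h) v) i
  simpa [σ, Matrix.mulVec_diagonal] using this

section unitary

variable {G : Type*} [Group G] [Finite G] {W : Type*} [NormedAddCommGroup W] [InnerProductSpace ℂ W]
  [FiniteDimensional ℂ W] [CompleteSpace W] {ρ : Representation ℂ G W}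

/-- The representation as bounded operators. -/
noncomputable def cU (ρ : Representation ℂ G W) : G →* (W →L[ℂ] W) where
  toFun g := LinearMap.toContinuousLinearMap (ρ g)
  map_one' := by ext; simp
  map_mul' a b := by ext; simp

omit [Finite G] [CompleteSpace W] in
theorem cU_apply (g : G) (v : W) : cU ρ g v = ρ g v := rfl

omit [Finite G] in
theorem cU_mem (hρ : ∀ g v, ‖ρ g v‖ = ‖v‖) (g : G) : cU ρ g ∈ unitary (W →L[ℂ] W) := by
  have a : star (cU ρ g) * cU ρ g = 1 := (ContinuousLinearMap.norm_map_iff_adjoint_comp_self _).1 (hρ g)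
  refine ⟨a, ?_⟩
  have : star (cU ρ g) = cU ρ g⁻¹ := by
    rw [← mul_one (star _), ← map_one (cU ρ), ← mul_inv_cancel g, map_mul, ← mul_assoc, a, one_mul]
  rw [this, ← map_mul, mul_inv_cancel, map_one]

omit [CompleteSpace W] in
theorem comm_of_conj_comm (hρ : ∀ g v, ‖ρ g v‖ = ‖v‖) (hf : Function.Injective ρ) {a b : G}
    (hb : ‖cU ρ b - 1‖ < 1) (h : Commute a (b * a * b⁻¹)) : Commute a b := by
  have : IsMulCommutative (closure {a, b * a * b⁻¹}) := isMulCommutative_closure (by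
    rintro x (rfl | rfl) y (rfl | rfl)
    exacts [rfl, h, h.symm, rfl])
  obtain ⟨lam, e, c⟩ := exists_diag (ρ.comp (closure {a, b * a * b⁻¹}).subtype)
  let x : closure {a, b * a * b⁻¹} := ⟨a, subset_closure (by simp)⟩
  let y : closure {a, b * a * b⁻¹} := ⟨_, subset_closure (Set.mem_insert_of_mem _ rfl)⟩
  have d : ∀ z i, ρ (z : closure {a, b * a * b⁻¹}) (e.symm (Pi.single i 1)) =
      (lam i z : ℂ) • e.symm (Pi.single i 1) := fun z i => e.injective (funext fun j => by
    have := c z (e.symm (Pi.single i 1)) j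
    by_cases f : j = i <;> simp_all)
  have f : ∀ i, (lam i x : ℂ) = lam i y := fun i => by_contra fun f => by
    set w := e.symm (Pi.single i 1)
    have j : ρ a w = (lam i x : ℂ) • w := d x i
    have k : ρ a (ρ b⁻¹ w) = (lam i y : ℂ) • ρ b⁻¹ w := by
      rw [← map_smul, ← d y i, ← Module.End.mul_apply, ← Module.End.mul_apply, ← map_mul, ← map_mul]
      simp [y, w, mul_assoc]
    have l := (LinearMap.norm_map_iff_inner_map_map (ρ a)).1 (hρ a) w (ρ b⁻¹ w)
    rw [j, k, inner_smul_left, inner_smul_right, conj_linear] at l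
    have m : inner ℂ w (ρ b⁻¹ w) = 0 := by_contra fun m => f (by
      have := (lam i x).ne_zero
      field_simp at l; exact l.symm)
    have n := (cU ρ b - 1).le_opNorm (ρ b⁻¹ w)
    rw [ContinuousLinearMap.sub_apply, cU_apply, ← Module.End.mul_apply, ← map_mul, mul_inv_cancel, map_one,
      hρ] at n
    have o := @norm_sub_sq ℂ _ _ _ _ w (ρ b⁻¹ w)
    rw [m, hρ] at o
    have r : 0 < ‖w‖ := norm_pos_iff.2 (by simp [w])
    simp only [Module.End.one_apply, ContinuousLinearMap.one_apply, map_zero] at n o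
    nlinarith [norm_nonneg (w - ρ b⁻¹ w), mul_lt_mul_of_pos_right hb r]
  have : a = b * a * b⁻¹ := hf (LinearMap.ext fun v => e.injective (funext fun i =>
    (c x v i).trans ((f i ▸ c y v i :).symm)))
  exact (eq_mul_inv_iff_mul_eq.1 this :)

theorem comm_of_norm (hρ : ∀ g v, ‖ρ g v‖ = ‖v‖) (hf : Function.Injective ρ) {a : G} {c : ℂ}
    (ha : ‖cU ρ a - algebraMap ℂ _ c‖ < 1 / 2) (b : G) (hb : ‖cU ρ b - 1‖ < 1) : Commute a b := by
  have key : ∀ b : G, ‖cU ρ (a * b * a⁻¹ * b⁻¹) - 1‖ ≤ 2 * ‖cU ρ a - algebraMap ℂ _ c‖ * ‖cU ρ b - 1‖ := fun b => by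
    rw [← CStarRing.norm_mul_mem_unitary _ (cU_mem hρ (b * a)), sub_mul, ← map_mul, one_mul,
      show a * b * a⁻¹ * b⁻¹ * (b * a) = a * b by group, map_mul, map_mul,
      show cU ρ a * cU ρ b - cU ρ b * cU ρ a = (cU ρ a - algebraMap ℂ _ c) * (cU ρ b - 1) -
        (cU ρ b - 1) * (cU ρ a - algebraMap ℂ _ c) by
        simp only [sub_mul, mul_sub, Algebra.commutes c, mul_one, one_mul]; abel]
    refine (norm_sub_le _ _).trans ?_
    nlinarith [norm_mul_le (cU ρ a - algebraMap ℂ _ c) (cU ρ b - 1),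
      norm_mul_le (cU ρ b - 1) (cU ρ a - algebraMap ℂ _ c)]
  by_contra h
  obtain ⟨b, ⟨hb, h⟩, m⟩ := Set.exists_min_image {b : G | ‖cU ρ b - 1‖ < 1 ∧ ¬ Commute a b}
    (fun b => ‖cU ρ b - 1‖) (Set.toFinite _) ⟨b, hb, h⟩
  have p : 0 < ‖cU ρ b - 1‖ := norm_pos_iff.2 fun p => h (by
    rw [show b = 1 from hf (LinearMap.ext fun v => by
      simpa [cU_apply] using ContinuousLinearMap.ext_iff.1 (sub_eq_zero.1 p) v)]
    exact Commute.one_right a)
  have q : ‖cU ρ (a * b * a⁻¹ * b⁻¹) - 1‖ < ‖cU ρ b - 1‖ := (key b).trans_lt (by nlinarith)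
  refine (m _ ⟨q.trans hb, fun r => h (comm_of_conj_comm hρ hf hb ?_)⟩).not_gt q
  have := ((Commute.refl a).inv_right.mul_right r).inv_right
  simpa [mul_assoc] using this

theorem norm_lt_of_eigen (hρ : ∀ g v, ‖ρ g v‖ = ‖v‖) {g : G} {c : ℂ} {r : ℝ} (hr : 0 < r)
    (h : ∀ (ε : ℂ) (v : W), v ≠ 0 → ρ g v = ε • v → ‖ε - c‖ < r) : ‖cU ρ g - algebraMap ℂ _ c‖ < r := by
  rcases subsingleton_or_nontrivial (W →L[ℂ] W) with _ | _
  · rwa [Subsingleton.elim (_ - _) 0, norm_zero]
  have : IsStarNormal (cU ρ g - algebraMap ℂ _ c) := ⟨by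
    have := cU_mem hρ g
    simp only [Commute, SemiconjBy, star_sub, sub_mul, mul_sub, this.1, this.2, Algebra.algebraMap_eq_smul_one,
      star_smul, star_one, smul_mul_assoc, mul_smul_comm, one_mul, mul_one, smul_sub, smul_smul, mul_comm c]
    abel⟩
  obtain ⟨z, a, b⟩ := spectrum.exists_nnnorm_eq_spectralRadius (cU ρ g - algebraMap ℂ _ c)
  rw [IsStarNormal.spectralRadius_eq_nnnorm, ENNReal.coe_inj] at b
  rw [ContinuousLinearMap.spectrum_eq] at a
  obtain ⟨v, d⟩ := (Module.End.HasEigenvalue.of_mem_spectrum a).exists_hasEigenvector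
  have := h (z + c) v d.2 (by
    have := d.apply_eq_smul
    rw [add_smul, ← this]; simp [cU_apply])
  rw [← coe_nnnorm, ← b]; simpa using this

theorem norm_sub_lt_of_arg {a b : ℂ} (ha : ‖a‖ = 1) (hb : ‖b‖ = 1)
    (h : ⌈6 * a.arg / Real.pi⌉ = ⌈6 * b.arg / Real.pi⌉) : ‖a⁻¹ * b - (√3 / 2 : ℝ)‖ < 1 / 2 := by
  have p := Real.pi_pos
  have c : |b.arg - a.arg| < Real.pi / 6 := by
    have : |6 * b.arg / Real.pi - 6 * a.arg / Real.pi| < 1 := by
      have := Int.le_ceil (6 * a.arg / Real.pi)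
      have := Int.le_ceil (6 * b.arg / Real.pi)
      have := Int.ceil_lt_add_one (6 * a.arg / Real.pi)
      have := Int.ceil_lt_add_one (6 * b.arg / Real.pi)
      rw [h] at *
      rw [abs_lt]; constructor <;> linarith
    rw [← sub_div, ← mul_sub, abs_div, abs_mul, abs_of_pos p, div_lt_one p] at this
    norm_num at this; linarith
  have d : √3 / 2 < Real.cos (b.arg - a.arg) := by
    rw [← Real.cos_pi_div_six, ← Real.cos_abs (_ - _)]
    exact Real.cos_lt_cos_of_nonneg_of_le_pi (abs_nonneg _) (by linarith) c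
  have e : a⁻¹ * b = Complex.exp ((b.arg - a.arg : ℝ) * Complex.I) := by
    nth_rw 1 [← Complex.norm_mul_exp_arg_mul_I a, ← Complex.norm_mul_exp_arg_mul_I b]
    rw [ha, hb]; simp [sub_mul, Complex.exp_sub, div_eq_inv_mul]
  refine lt_of_pow_lt_pow_left₀ 2 (by norm_num) ?_
  rw [e, ← Complex.normSq_eq_norm_sq, Complex.normSq_apply]
  simp only [Complex.sub_re, Complex.sub_im, Complex.exp_ofReal_mul_I_re, Complex.exp_ofReal_mul_I_im,
    Complex.ofReal_re, Complex.ofReal_im]
  have := Real.sin_sq_add_cos_sq (b.arg - a.arg)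
  have f : √3 * √3 = 3 := Real.mul_self_sqrt (by norm_num)
  nlinarith [Real.sqrt_pos.2 (by norm_num : (0 : ℝ) < 3)]

theorem jordan_unitary (hρ : ∀ g v, ‖ρ g v‖ = ‖v‖) (hf : Function.Injective ρ) :
    ∃ A : Subgroup G, A.Normal ∧ (∀ x ∈ A, ∀ y ∈ A, x * y = y * x) ∧ ∀ H : Subgroup G,
      (∀ x ∈ H, ∀ y ∈ H, x * y = y * x) → (A.subgroupOf H).index ≤ 12 ^ finrank ℂ W := by
  classical
  let S : Set G := {g | ‖cU ρ g - algebraMap ℂ _ ((√3 / 2 : ℝ) : ℂ)‖ < 1 / 2}
  have f : √3 * √3 = 3 := Real.mul_self_sqrt (by norm_num)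
  have hc : IsMulCommutative (closure S) := isMulCommutative_closure fun x a y b => comm_of_norm hρ hf a y (by
    rw [← sub_add_sub_cancel _ (algebraMap ℂ _ ((√3 / 2 : ℝ) : ℂ))]
    refine (norm_add_le _ _).trans_lt ?_
    have : ‖algebraMap ℂ (W →L[ℂ] W) ((√3 / 2 : ℝ) : ℂ) - 1‖ ≤ 1 / 2 :=
      ContinuousLinearMap.opNorm_le_bound _ (by norm_num) fun v => by
        rw [show (algebraMap ℂ (W →L[ℂ] W) ((√3 / 2 : ℝ) : ℂ) - 1) v = ((√3 / 2 - 1 : ℝ) : ℂ) • v by
          simp [sub_smul], norm_smul, Complex.norm_real, Real.norm_eq_abs]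
        gcongr
        rw [abs_le]; constructor <;> nlinarith [Real.sqrt_nonneg 3]
    simp only [S, Set.mem_setOf_eq] at b
    linarith)
  refine ⟨closure S, ?_, fun x a y b => congrArg Subtype.val (hc.1.1 ⟨x, a⟩ ⟨y, b⟩), fun H hH => ?_⟩
  · refine ⟨fun x a g => (closure_le (K := (closure S).comap (MulAut.conj g).toMonoidHom)).2
      (fun y b => subset_closure ?_) a⟩
    change ‖cU ρ (g * y * g⁻¹) - _‖ < _
    rwa [← CStarRing.norm_mul_mem_unitary _ (cU_mem hρ g), sub_mul, ← map_mul, inv_mul_cancel_right, map_mul,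
      Algebra.commutes, ← mul_sub, CStarRing.norm_mem_unitary_mul _ (cU_mem hρ g)]
  have : IsMulCommutative H := ⟨⟨fun x y => Subtype.ext (hH _ x.2 _ y.2)⟩⟩
  obtain ⟨lam, e, c⟩ := exists_diag (ρ.comp H.subtype)
  let F : H ⧸ (closure S).subgroupOf H → Fin (finrank ℂ W) → Icc (-5 : ℤ) 6 := fun q i =>
    ⟨⌈6 * (lam i q.out : ℂ).arg / Real.pi⌉, by
      have := Complex.neg_pi_lt_arg (lam i q.out : ℂ)
      have := Complex.arg_le_pi (lam i q.out : ℂ)
      have p := Real.pi_pos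
      refine mem_Icc.2 ⟨(by omega : ∀ z : ℤ, -6 < z → -5 ≤ z) _ (Int.lt_ceil.2 ?_), Int.ceil_le.2 ?_⟩
      · rw [lt_div_iff₀ p]; push_cast; linarith
      · rw [div_le_iff₀ p]; push_cast; linarith⟩
  have d : Function.Injective F := fun x y d => by
    rw [← x.out_eq', ← y.out_eq', QuotientGroup.eq]
    refine subset_closure (norm_lt_of_eigen hρ (by norm_num) fun ε v i j => ?_)
    obtain ⟨k, l⟩ := Function.ne_iff.1 ((map_ne_zero_iff e e.injective).2 i)
    have := c (x.out⁻¹ * y.out) v k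
    change e (ρ _ v) k = _ at this
    rw [j, map_smul, Pi.smul_apply, smul_eq_mul] at this
    rw [mul_right_cancel₀ l this]
    simpa using norm_sub_lt_of_arg (norm_linear _ _) (norm_linear _ _) (congrArg Subtype.val (congrFun d k))
  have := Nat.card_le_card_of_injective F d
  rwa [Nat.card_fun, Nat.card_eq_fintype_card (α := Icc _ _), Fintype.card_coe, Int.card_Icc,
    Nat.card_eq_fintype_card (α := Fin _), Fintype.card_fin] at this

end unitary

theorem exists_unitary {G : Type*} [Group G] [Fintype G] {n : ℕ} (ρ : Representation ℂ G (Fin n → ℂ)) :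
    ∃ (W : Submodule ℂ (EuclideanSpace ℂ (G × Fin n))) (e : (Fin n → ℂ) ≃ₗ[ℂ] W),
      ∀ g v, ‖repConj ρ e g v‖ = ‖v‖ := by
  let φ : (Fin n → ℂ) →ₗ[ℂ] EuclideanSpace ℂ (G × Fin n) :=
    { toFun := fun v => WithLp.toLp 2 fun x => ρ x.1 v x.2
      map_add' := fun _ _ => by ext; simp
      map_smul' := fun _ _ => by ext; simp }
  have a : Function.Injective φ := fun v w a => funext fun i => by
    simpa [φ] using congrArg (fun x => x (1, i)) a
  refine ⟨_, LinearEquiv.ofInjective φ a, fun g v => ?_⟩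
  obtain ⟨v, rfl⟩ := (LinearEquiv.ofInjective φ a).surjective v
  rw [repConj_apply, LinearEquiv.symm_apply_apply]
  change ‖φ _‖ = ‖φ _‖
  simp only [EuclideanSpace.norm_eq, φ, LinearMap.coe_mk, AddHom.coe_mk, Fintype.sum_prod_type]
  rw [← Equiv.sum_comp (Equiv.mulRight g) fun x => ∑ i, ‖ρ x v i‖ ^ 2]
  simp

theorem jordan_aux {G : Type*} [Group G] [Finite G] {χ : G → ℂ} (hχ : IsCharacter G χ)
    (hf : ∀ g, χ g = χ 1 → g = 1) :
    ∃ A : Subgroup G, A.Normal ∧ (∀ x ∈ A, ∀ y ∈ A, x * y = y * x) ∧ ∀ H : Subgroup G,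
      (∀ x ∈ H, ∀ y ∈ H, x * y = y * x) → (A.subgroupOf H).index ≤ 12 ^ charDegree χ := by
  have := Fintype.ofFinite G
  obtain ⟨n, ρ, rfl⟩ := hχ
  obtain ⟨W, e, a⟩ := exists_unitary ρ
  have := FiniteDimensional.complete ℂ W
  have c : Function.Injective (repConj ρ e) := (injective_iff_map_eq_one _).2 fun g b => hf g (by
    have : ρ g = 1 := LinearMap.ext fun v => e.injective (by
      simpa [repConj_apply] using LinearMap.congr_fun b (e v))
    simp [Representation.character, this])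
  have d : finrank ℂ W = charDegree ρ.character := by
    rw [← e.finrank_eq, finrank_fin_fun, charDegree_eq (χ := ρ.character) (n := n) (by simp)]
  rw [← d]
  exact @jordan_unitary G _ _ W _ _ _ this (repConj ρ e) a c

end Cfsg.Agent.C3
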