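import Mathlib

/-! `ℤ/p`-graded Lie rings with trivial zero component: theorems of Kreknin, Higman and
Kostrikin. -/

namespace Cfsg.Agent.C3.LI

open scoped Pointwise

variable {K : Type*} [LieRing K] {p : ℕ}

/-- bracket of graded families -/
def br (U V : ZMod p → AddSubgroup K) (k : ZMod p) : AddSubgroup K :=
  AddSubgroup.closure {z | ∃ i j, i + j = k ∧ ∃ x ∈ U i, ∃ y ∈ V j, z = ⁅x, y⁆}

variable {U V W : ZMod p → AddSubgroup K}

theorem mem_br {i j k : ZMod p} (h : i + j = k) {x y : K} (hx : x ∈ U i) (hy : y ∈ V j) :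
    ⁅x, y⁆ ∈ br U V k := AddSubgroup.subset_closure ⟨i, j, h, x, hx, y, hy, rfl⟩

theorem br_le {k : ZMod p} {S : AddSubgroup K} :
    br U V k ≤ S ↔ ∀ i j, i + j = k → ∀ x ∈ U i, ∀ y ∈ V j, ⁅x, y⁆ ∈ S := by
  rw [br, AddSubgroup.closure_le]
  exact ⟨fun h i j e x hx y hy => h ⟨i, j, e, x, hx, y, hy, rfl⟩,
    by rintro h _ ⟨i, j, e, x, hx, y, hy, rfl⟩; exact h i j e x hx y hy⟩

theorem br_mono {U' V' : ZMod p → AddSubgroup K} (h : U ≤ U') (h' : V ≤ V') : br U V ≤ br U' V' :=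
  fun _ => br_le.2 fun i j e _ hx _ hy => mem_br e (h i hx) (h' j hy)

/-- derived series -/
def D (U : ZMod p → AddSubgroup K) : ℕ → ZMod p → AddSubgroup K
  | 0 => U
  | s + 1 => br (D U s) (D U s)

/-- lower central series -/
def C (U : ZMod p → AddSubgroup K) : ℕ → ZMod p → AddSubgroup K
  | 0 => U
  | s + 1 => br (C U s) U

theorem D_D (U : ZMod p → AddSubgroup K) (s t : ℕ) : D (D U s) t = D U (s + t) := by
  induction t with
  | zero => rfl
  | succ t ih => rw [D, ih]; rfl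

theorem D_le (h : br U U ≤ U) (s : ℕ) : D U s ≤ U ∧ br (D U s) (D U s) ≤ D U s := by
  induction s with
  | zero => exact ⟨le_rfl, h⟩
  | succ s ih => exact ⟨ih.2.trans ih.1, br_mono ih.2 ih.2⟩

theorem C_le (h : br U U ≤ U) (s : ℕ) : C U s ≤ U := by
  induction s with
  | zero => exact le_rfl
  | succ s ih => exact (br_mono ih le_rfl).trans h

/-- graded subring generated by the components of degree `> k` -/
inductive Gen (U : ZMod p → AddSubgroup K) (k : ℕ) : ZMod p → K → Prop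
  | base {i x} : k < i.val → x ∈ U i → Gen U k i x
  | zero {i} : Gen U k i 0
  | sub {i x y} : Gen U k i x → Gen U k i y → Gen U k i (x - y)
  | lie {i j l x y} : i + j = l → Gen U k i x → Gen U k j y → Gen U k l ⁅x, y⁆

/-- `Gen` as a family -/
def gen (U : ZMod p → AddSubgroup K) (k : ℕ) (i : ZMod p) : AddSubgroup K where
  carrier := {x | Gen U k i x}
  zero_mem' := .zero
  add_mem' := fun {a b} ha hb => by simpa using ha.sub (Gen.zero.sub hb)
  neg_mem' := fun {a} ha => by simpa using Gen.zero.sub ha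

theorem Gen.mem (h : br U U ≤ U) {k : ℕ} {i : ZMod p} {x : K} (hx : Gen U k i x) : x ∈ U i := by
  induction hx with
  | base _ h => exact h
  | zero => exact zero_mem _
  | sub _ _ h1 h2 => exact sub_mem h1 h2
  | lie e _ _ h1 h2 => exact h _ (mem_br e h1 h2)

theorem Gen.key [NeZero p] (h : br U U ≤ U) (h0 : U 0 = ⊥) {k : ℕ} {m : ZMod p} (hm : m.val = k + 1)
    {j : ZMod p} {y : K} (hy : Gen U k j y) : ∀ i, ∀ x ∈ U i, i + j = m → Gen U (k + 1) m ⁅x, y⁆ := by
  induction hy with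
  | @base j y h1 h2 =>
    intro i x hx e
    by_cases hi : i = 0
    · rw [hi, h0, AddSubgroup.mem_bot] at hx
      rw [hx, zero_lie]; exact .zero
    have h3 := congrArg ZMod.val e
    have h4 := ZMod.val_lt i
    have h5 := ZMod.val_lt j
    have h6 : i.val ≠ 0 := by simpa using hi
    rw [ZMod.val_add, hm] at h3
    have h7 : p ≤ i.val + j.val := by
      by_contra h7
      rw [Nat.mod_eq_of_lt (by omega)] at h3; omega
    rw [Nat.mod_eq_sub_mod h7, Nat.mod_eq_of_lt (by omega)] at h3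
    exact .lie e (.base (by omega) hx) (.base (by omega) h2)
  | zero => intro i x _ _; rw [lie_zero]; exact .zero
  | sub _ _ h1 h2 => intro i x hx e; rw [lie_sub]; exact (h1 i x hx e).sub (h2 i x hx e)
  | @lie j j' l a b e ha hb h1 h2 =>
    intro i x hx e'
    rw [show ⁅x, ⁅a, b⁆⁆ = ⁅⁅x, a⁆, b⁆ - ⁅⁅x, b⁆, a⁆ by
      rw [leibniz_lie, ← lie_skew a, sub_eq_add_neg]]
    exact (h2 _ _ (h _ (mem_br rfl hx (ha.mem h))) (by rw [← e', ← e]; ring)).sub
      (h1 _ _ (h _ (mem_br rfl hx (hb.mem h))) (by rw [← e', ← e]; ring))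

theorem kreknin_aux [NeZero p] (k : ℕ) (hk : k < p) : ∀ U : ZMod p → AddSubgroup K, br U U ≤ U →
    U 0 = ⊥ → D U (2 ^ k - 1) ≤ gen U k := by
  induction k with
  | zero =>
    intro U h h0 i x hx
    by_cases hi : i = 0
    · rw [pow_zero, Nat.sub_self, D, hi, h0, AddSubgroup.mem_bot] at hx
      rw [hx]; exact .zero
    · exact .base (by simpa [Nat.pos_iff_ne_zero] using hi) hx
  | succ k ih =>
    intro U h h0
    have h1 := Nat.one_le_two_pow (n := k)
    have h2 := D_le h (2 ^ k)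
    have h3 := ih (by omega) (D U (2 ^ k)) h2.2 (eq_bot_iff.2 (h0 ▸ h2.1 0))
    rw [D_D, show 2 ^ k + (2 ^ k - 1) = 2 ^ (k + 1) - 1 by omega] at h3
    refine h3.trans fun i x hx => ?_
    change Gen _ _ _ _ at hx ⊢
    induction hx with
    | @base i x h4 h5 =>
      by_cases h6 : i.val = k + 1
      · rw [show 2 ^ k = 2 ^ k - 1 + 1 by omega, D] at h5
        exact (br_le (S := gen U (k + 1) i)).2 (fun a b e x hx y hy =>
          Gen.key h h0 h6 (ih (by omega) U h h0 b hy) a x ((D_le h _).1 a hx) e) h5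
      · exact .base (by omega) (h2.1 i h5)
    | zero => exact .zero
    | sub _ _ h1 h2 => exact h1.sub h2
    | lie e _ _ h1 h2 => exact .lie e h1 h2

/-- Kreknin's theorem -/
theorem kreknin [NeZero p] (h : br U U ≤ U) (h0 : U 0 = ⊥) : D U (2 ^ (p - 1) - 1) = ⊥ := by
  have hp := NeZero.pos p
  refine eq_bot_iff.2 ((kreknin_aux (p - 1) (by omega) U h h0).trans fun i x hx => ?_)
  change Gen _ _ _ _ at hx
  change x = 0
  induction hx with
  | @base i _ h4 _ => have := ZMod.val_lt i; omega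
  | zero => rfl
  | sub _ _ h1 h2 => simp [h1, h2]
  | lie _ _ _ h1 h2 => simp [h1]

theorem hat_br {x y : K} (hx : x ∈ ⨆ i, U i) (hy : y ∈ ⨆ i, V i) : ⁅x, y⁆ ∈ ⨆ i, br U V i := by
  induction hx using AddSubgroup.iSup_induction' with
  | hp i x hx =>
    induction hy using AddSubgroup.iSup_induction' with
    | hp j y hy => exact AddSubgroup.mem_iSup_of_mem _ (mem_br rfl hx hy)
    | h1 => simp
    | hadd a b _ _ h1 h2 => rw [lie_add]; exact add_mem h1 h2
  | h1 => simp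
  | hadd a b _ _ h1 h2 => rw [add_lie]; exact add_mem h1 h2

/-- the additive map `x ↦ [x, y]` -/
def ad (y : K) : K →+ K := AddMonoidHom.mk' (fun x => ⁅x, y⁆) fun a b => add_lie a b y

theorem hat_inv (h : br U U ≤ U) (m : ℕ) {j : ZMod p} {y : K} (hy : y ∈ U j) :
    ∀ x ∈ ⨆ i, C (br U U) m i, ⁅x, y⁆ ∈ ⨆ i, C (br U U) m i := by
  have h1 : ∀ i, ∀ x ∈ br U U i, ⁅x, y⁆ ∈ ⨆ i, br U U i := fun i x hx =>
    AddSubgroup.mem_iSup_of_mem _ (mem_br rfl (h i hx) hy)
  suffices H : (⨆ i, C (br U U) m i) ≤ AddSubgroup.comap (ad y) (⨆ i, C (br U U) m i) from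
    fun x hx => H hx
  induction m with
  | zero => exact iSup_le h1
  | succ m ih =>
    refine iSup_le fun k => br_le.2 fun a b _ x hx z hz => ?_
    change ⁅⁅x, z⁆, y⁆ ∈ ⨆ i, C (br U U) (m + 1) i
    rw [show ⁅⁅x, z⁆, y⁆ = ⁅⁅x, y⁆, z⁆ + ⁅x, ⁅z, y⁆⁆ by
      rw [leibniz_lie x z y, ← lie_skew z]; abel]
    exact add_mem (hat_br (ih (AddSubgroup.mem_iSup_of_mem _ hx)) (AddSubgroup.mem_iSup_of_mem _ hz))
      (hat_br (AddSubgroup.mem_iSup_of_mem _ hx) (h1 _ _ hz))

/-- left normed commutators -/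
def R : List (ZMod p × K) → K →+ K
  | [] => AddMonoidHom.id K
  | a :: l => (R l).comp (ad a.2)

theorem R_cons (a : ZMod p × K) (l : List (ZMod p × K)) (x : K) : R (a :: l) x = R l ⁅x, a.2⁆ := rfl

theorem R_append (l l' : List (ZMod p × K)) (x : K) : R (l ++ l') x = R l' (R l x) := by
  induction l generalizing x with
  | nil => rfl
  | cons a l ih => exact ih _

theorem R_mem {S : AddSubgroup K} (hS : ∀ j, ∀ y ∈ U j, ∀ x ∈ S, ⁅x, y⁆ ∈ S)
    {l : List (ZMod p × K)} (hl : ∀ a ∈ l, a.2 ∈ U a.1) {x : K} (hx : x ∈ S) : R l x ∈ S := by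
  induction l generalizing x with
  | nil => exact hx
  | cons a l ih => exact ih (fun b hb => hl b (by simp [hb])) (hS _ _ (hl a (by simp)) _ hx)

theorem R_deg (h : br U U ≤ U) {l : List (ZMod p × K)} (hl : ∀ a ∈ l, a.2 ∈ U a.1) {i : ZMod p}
    {x : K} (hx : x ∈ U i) : R l x ∈ U (i + (l.map Prod.fst).sum) := by
  induction l generalizing x i with
  | nil => simpa [R] using hx
  | cons a l ih =>
    rw [R_cons, List.map_cons, List.sum_cons, ← add_assoc]
    exact ih (fun b hb => hl b (by simp [hb])) (h _ (mem_br rfl hx (hl a (by simp))))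

theorem R_perm (h : br U U ≤ U) (m : ℕ) {l l' : List (ZMod p × K)} (hp : l.Perm l')
    (hl : ∀ a ∈ l, a.2 ∈ U a.1) : ∀ x ∈ ⨆ i, C (br U U) m i,
      R l x - R l' x ∈ ⨆ i, C (br U U) (m + 1) i := by
  induction hp with
  | nil => simp
  | cons a _ ih =>
    exact fun x hx => ih (fun b hb => hl b (by simp [hb])) _ (hat_inv h m (hl a (by simp)) x hx)
  | swap a b l =>
    intro x hx
    rw [R_cons, R_cons, R_cons, R_cons, ← map_sub,
      show ⁅⁅x, b.2⁆, a.2⁆ - ⁅⁅x, a.2⁆, b.2⁆ = ⁅x, ⁅b.2, a.2⁆⁆ by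
        rw [leibniz_lie, ← lie_skew b.2, sub_eq_add_neg]]
    exact R_mem (U := U) (fun j y hy => hat_inv h (m + 1) hy) (fun c hc => hl c (by simp [hc]))
      (hat_br hx (AddSubgroup.mem_iSup_of_mem _ (mem_br rfl (hl b (by simp)) (hl a (by simp)))))
  | trans h1 _ ih1 ih2 =>
    intro x hx
    simpa using add_mem (ih1 hl x hx) (ih2 (fun a ha => hl a (h1.symm.subset ha)) x hx)

theorem subset_sums {α : Type*} (hp : p.Prime) (l : List (ZMod p × α)) (hl : ∀ a ∈ l, a.1 ≠ 0) :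
    ∃ S : Finset (ZMod p), min p (l.length + 1) ≤ S.card ∧
      ∀ c ∈ S, ∃ l' : List (ZMod p × α), l'.Sublist l ∧ (l'.map Prod.fst).sum = c := by
  induction l with
  | nil => exact ⟨{0}, by simp, by simp⟩
  | cons a l ih =>
    obtain ⟨S, h1, h2⟩ := ih fun b hb => hl b (by simp [hb])
    have h3 : S.Nonempty := Finset.card_pos.1 (by have := hp.pos; omega)
    have h4 := ZMod.cauchy_davenport hp h3 (t := {0, a.1}) (by simp)
    rw [Finset.card_pair (hl a (by simp)).symm] at h4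
    refine ⟨S + {0, a.1}, by rw [List.length_cons]; omega, fun c hc => ?_⟩
    obtain ⟨s, hs, t, ht, rfl⟩ := Finset.mem_add.1 hc
    obtain ⟨l', h5, rfl⟩ := h2 s hs
    rcases Finset.mem_insert.1 ht with rfl | ht
    · exact ⟨l', h5.cons _, by simp⟩
    · exact ⟨a :: l', h5.cons_cons _, by simp [Finset.mem_singleton.1 ht, add_comm]⟩

theorem R_long (hp : p.Prime) (h : br U U ≤ U) (h0 : U 0 = ⊥) (m : ℕ) {l : List (ZMod p × K)}
    (hl : ∀ a ∈ l, a.2 ∈ U a.1) (hlen : l.length = p - 1) :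
    ∀ x ∈ ⨆ i, C (br U U) m i, R l x ∈ ⨆ i, C (br U U) (m + 1) i := by
  suffices H : (⨆ i, C (br U U) m i) ≤ AddSubgroup.comap (R l) (⨆ i, C (br U U) (m + 1) i) from
    fun x hx => H hx
  refine iSup_le fun i x hx => ?_
  change R l x ∈ ⨆ i, C (br U U) (m + 1) i
  by_cases hz : ∀ a ∈ l, a.1 ≠ 0
  · obtain ⟨S, h1, h2⟩ := subset_sums hp l hz
    have := Fact.mk hp
    have h3 : S = Finset.univ := Finset.eq_univ_of_card _ (le_antisymm (Finset.card_le_univ _)
      (by rw [ZMod.card]; have := hp.pos; omega))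
    obtain ⟨l', h4, h5⟩ := h2 (-i) (by simp [h3])
    obtain ⟨l'', h6⟩ := h4.exists_perm_append
    have h7 := R_deg h (fun a ha => hl a (h4.subset ha)) (h i (C_le (br_mono h h) m i hx))
    rw [h5, add_neg_cancel, h0, AddSubgroup.mem_bot] at h7
    simpa [R_append, h7] using R_perm h m h6 hl x (AddSubgroup.mem_iSup_of_mem _ hx)
  · push Not at hz
    obtain ⟨a, ha, h1⟩ := hz
    obtain ⟨s, t, rfl⟩ := List.append_of_mem ha
    have h2 := hl a ha
    rw [h1, h0, AddSubgroup.mem_bot] at h2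
    simp [R_append, R_cons, h2]

theorem C_step (hp : p.Prime) (h : br U U ≤ U) (h0 : U 0 = ⊥) (m : ℕ) :
    (⨆ i, C U (1 + (p - 1) * m) i) ≤ ⨆ i, C (br U U) m i := by
  induction m with
  | zero => exact le_rfl
  | succ m ih =>
    have key : ∀ r s, r + s = p - 1 → ∀ l : List (ZMod p × K), (∀ a ∈ l, a.2 ∈ U a.1) →
        l.length = s → (⨆ i, C U (1 + (p - 1) * m + r) i) ≤
          (⨆ i, C (br U U) (m + 1) i).comap (R l) := by
      intro r
      induction r with
      | zero => exact fun s e l hl hs x hx => R_long hp h h0 m hl (by omega) x (ih hx)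
      | succ r ihr =>
        refine fun s e l hl hs => iSup_le fun k => br_le.2 fun a b _ x hx y hy => ?_
        exact ihr (s + 1) (by omega) ((b, y) :: l) (by simpa [hy] using hl) (by simp [hs])
          (AddSubgroup.mem_iSup_of_mem _ hx)
    rw [Nat.mul_succ, ← add_assoc]
    exact key (p - 1) 0 rfl [] (by simp) rfl

theorem class_of_derived (hp : p.Prime) (s : ℕ) : ∀ U : ZMod p → AddSubgroup K, br U U ≤ U →
    U 0 = ⊥ → D U s = ⊥ → C U (∑ i ∈ Finset.range s, (p - 1) ^ i) = ⊥ := by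
  induction s with
  | zero => exact fun U _ _ h => h
  | succ s ih =>
    intro U h h0 hs
    have h1 := ih (br U U) (br_mono h h) (eq_bot_iff.2 (h0 ▸ h 0))
      (by rw [← hs, add_comm, ← D_D]; rfl)
    have h2 := C_step hp h h0 (∑ i ∈ Finset.range s, (p - 1) ^ i)
    rw [h1] at h2
    rw [Finset.sum_range_succ', add_comm]
    simp only [pow_succ', ← Finset.mul_sum, pow_zero]
    exact eq_bot_iff.2 fun i => (le_iSup _ i).trans (h2.trans (by simp))

/-- the Higman-Kreknin-Kostrikin bound -/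
theorem hkk (hp : p.Prime) (h : br U U ≤ U) (h0 : U 0 = ⊥) :
    C U (∑ i ∈ Finset.range (2 ^ (p - 1) - 1), (p - 1) ^ i) = ⊥ :=
  haveI := NeZero.mk hp.ne_zero
  class_of_derived hp _ U h h0 (kreknin h h0)

theorem three {U : ZMod 3 → AddSubgroup K} (h : br U U ≤ U) (h0 : U 0 = ⊥) : C U 2 = ⊥ := by
  have z : ∀ {i x}, x ∈ U i → i = 0 → x = 0 := fun hx e => by
    rwa [e, h0, AddSubgroup.mem_bot] at hx
  refine eq_bot_iff.2 fun n => br_le.2 fun k l e w hw c hc => ?_
  refine (br_le (S := (⊥ : AddSubgroup K).comap (ad c))).2 (fun i j e' a ha b hb => ?_) hw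
  change ⁅⁅a, b⁆, c⁆ = 0
  have h1 : ∀ i j l : ZMod 3, i = 0 ∨ j = 0 ∨ l = 0 ∨ i + j = 0 ∨ i + j + l = 0 ∨
      (j + l = 0 ∧ i + l = 0) := by decide
  rcases h1 i j l with h2 | h2 | h2 | h2 | h2 | ⟨h2, h3⟩
  · simp [z ha h2]
  · simp [z hb h2]
  · simp [z hc h2]
  · simp [z (h _ (mem_br rfl ha hb)) h2]
  · exact z (h _ (mem_br rfl (h _ (mem_br rfl ha hb)) hc)) h2
  · rw [lie_lie, z (h _ (mem_br rfl hb hc)) h2, z (h _ (mem_br rfl ha hc)) h3]; simp

theorem C_add {n : ℕ} (h : C U n = ⊥) (k : ℕ) : C U (n + k) = ⊥ := by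
  induction k with
  | zero => exact h
  | succ k ih =>
    refine eq_bot_iff.2 fun i => br_le.2 fun a b _ x hx y _ => ?_
    change x ∈ C U (n + k) a at hx
    rw [ih] at hx
    simp [AddSubgroup.mem_bot.1 hx]

end Cfsg.Agent.C3.LI
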