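import Cfsg.Agent.C3.LI1
import Cfsg.Agent.H1.Frattini

/-! The Lie ring associated with the lower central series of a group. -/

namespace Cfsg.Agent.C3.LI

open Subgroup
open scoped commutatorElement DirectSum

universe u
variable {G : Type u} [Group G]

/-- lower central series of the whole group -/
abbrev Γ (G : Type u) [Group G] (n : ℕ) : Subgroup G := (⊤ : Subgroup G).lowerCentralSeries n

theorem Γ_comm (i j : ℕ) : ⁅Γ G i, Γ G j⁆ ≤ Γ G (i + j + 1) := by
  induction j generalizing i with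
  | zero => exact le_rfl
  | succ j ih =>
    rw [commutator_comm, Γ, Subgroup.lowerCentralSeries_succ _ j]
    refine H1.three_subgroups_normal ?_ ?_
    · rw [commutator_comm ⊤, ← Subgroup.lowerCentralSeries_succ]
      exact (ih (i + 1)).trans (by rw [show i + 1 + j + 1 = i + (j + 1) + 1 by ring])
    · exact commutator_mono (ih i) le_rfl

theorem Γ_mem {i j : ℕ} {x y : G} (hx : x ∈ Γ G i) (hy : y ∈ Γ G j) : ⁅x, y⁆ ∈ Γ G (i + j + 1) :=
  Γ_comm i j (commutator_mem_commutator hx hy)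

theorem Γ_top {i : ℕ} {x : G} (hx : x ∈ Γ G i) (y : G) : ⁅x, y⁆ ∈ Γ G (i + 1) :=
  commutator_mem_commutator hx (mem_top y)

theorem Γ_succ {n : ℕ} {x : G} (hx : x ∈ Γ G (n + 1)) : x ∈ Γ G n :=
  Subgroup.lowerCentralSeries_antitone _ (Nat.le_succ n) hx

theorem Γ_conj {n : ℕ} {x : G} (hx : x ∈ Γ G n) (g : G) : g * x * g⁻¹ ∈ Γ G n :=
  Normal.conj_mem inferInstance x hx g

/-- the sections -/
def Q (G : Type u) [Group G] (n : ℕ) : Type u :=
  Additive (Γ G n ⧸ (Γ G (n + 1)).subgroupOf (Γ G n))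

instance instQ (n : ℕ) : AddCommGroup (Q G n) :=
  { (inferInstance : AddGroup (Additive (Γ G n ⧸ (Γ G (n + 1)).subgroupOf (Γ G n)))) with
    add_comm := by
      rintro ⟨x⟩ ⟨y⟩
      refine QuotientGroup.eq.2 (mem_subgroupOf.2 ?_)
      have := Γ_top (inv_mem y.2) x⁻¹.1
      simpa [commutatorElement_def, mul_assoc] using this }

/-- the Lie ring -/
def L (G : Type u) [Group G] : Type u := ⨁ n, Q G n

noncomputable instance instL : AddCommGroup (L G) := inferInstanceAs (AddCommGroup (⨁ n, Q G n))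

open Classical in
/-- the class of a group element -/
noncomputable def ι (n : ℕ) (x : G) : L G :=
  if h : x ∈ Γ G n then DirectSum.of (Q G) n (Additive.ofMul (QuotientGroup.mk ⟨x, h⟩)) else 0

theorem ι_def {n : ℕ} {x : G} (h : x ∈ Γ G n) :
    ι n x = DirectSum.of (Q G) n (Additive.ofMul (QuotientGroup.mk ⟨x, h⟩)) := dif_pos h

theorem ι_mul {n : ℕ} {x y : G} (hx : x ∈ Γ G n) (hy : y ∈ Γ G n) : ι n (x * y) = ι n x + ι n y := by
  rw [ι_def hx, ι_def hy, ι_def (mul_mem hx hy)]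
  exact (DirectSum.of (Q G) n).map_add (Additive.ofMul (QuotientGroup.mk ⟨x, hx⟩))
    (Additive.ofMul (QuotientGroup.mk ⟨y, hy⟩))

theorem ι_eq_zero {n : ℕ} {x : G} (hx : x ∈ Γ G n) : ι n x = 0 ↔ x ∈ Γ G (n + 1) := by
  rw [ι_def hx]
  refine (map_eq_zero_iff (DirectSum.of (Q G) n) (DirectSum.of_injective n)).trans ?_
  exact (QuotientGroup.eq_one_iff _).trans mem_subgroupOf

theorem ι_zero {n : ℕ} {x : G} (hx : x ∈ Γ G (n + 1)) : ι n x = 0 := (ι_eq_zero (Γ_succ hx)).2 hx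

theorem ι_pow {n : ℕ} {x : G} (hx : x ∈ Γ G n) (k : ℕ) : ι n (x ^ k) = k • ι n x := by
  induction k with
  | zero => rw [pow_zero, zero_smul]; exact ι_zero (one_mem _)
  | succ k ih => rw [pow_succ, ι_mul (pow_mem hx k) hx, ih, succ_nsmul]

theorem ι_inv {n : ℕ} {x : G} (hx : x ∈ Γ G n) : ι n x⁻¹ = -ι n x := by
  rw [eq_neg_iff_add_eq_zero, ← ι_mul (inv_mem hx) hx, inv_mul_cancel]; exact ι_zero (one_mem _)

theorem ι_conj {n : ℕ} {x : G} (hx : x ∈ Γ G n) (g : G) : ι n (g * x * g⁻¹) = ι n x := by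
  have h : ⁅x⁻¹, g⁆ ∈ Γ G (n + 1) := Γ_top (inv_mem hx) g
  rw [show g * x * g⁻¹ = x * ⁅x⁻¹, g⁆ by group, ι_mul hx (Γ_succ h), ι_zero h, add_zero]

@[elab_as_elim]
theorem L_ind {P : L G → Prop} (v : L G) (h0 : P 0) (h1 : ∀ n, ∀ x ∈ Γ G n, P (ι n x))
    (h2 : ∀ v w, P v → P w → P (v + w)) : P v := by
  refine DirectSum.induction_on (motive := P) v h0 ?_ h2
  rintro n ⟨x, hx⟩
  have := h1 n x hx
  rwa [ι_def hx] at this

theorem L_ext {M : Type*} [AddCommGroup M] {f g : L G →+ M}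
    (h : ∀ n, ∀ x ∈ Γ G n, f (ι n x) = g (ι n x)) : f = g :=
  AddMonoidHom.ext fun v => L_ind v (by simp) h fun a b h1 h2 => by simp [h1, h2]

theorem L_lift {M : Type*} [AddCommGroup M] (f : ∀ n, Γ G n → M)
    (h1 : ∀ n x y, f n (x * y) = f n x + f n y) (h2 : ∀ n x, x.1 ∈ Γ G (n + 1) → f n x = 0) :
    ∃ g : L G →+ M, ∀ n x (hx : x ∈ Γ G n), g (ι n x) = f n ⟨x, hx⟩ := by
  refine ⟨DirectSum.toAddMonoid (β := Q G) fun n => MonoidHom.toAdditiveLeft
    (QuotientGroup.lift _ (MonoidHom.mk' (fun x => Multiplicative.ofAdd (f n x)) (h1 n))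
      fun x hx => h2 n x hx), fun n x hx => ?_⟩
  rw [ι_def hx]
  exact DirectSum.toAddMonoid_of _ _ _

theorem exists_br : ∃ B : L G →+ L G →+ L G, ∀ i j x y, x ∈ Γ G i → y ∈ Γ G j →
    B (ι i x) (ι j y) = ι (i + j + 1) ⁅x, y⁆ := by
  have h1 : ∀ i (x : Γ G i), ∃ b : L G →+ L G, ∀ j y, y ∈ Γ G j →
      b (ι j y) = ι (i + j + 1) ⁅x.1, y⁆ := fun i x =>
    L_lift (fun j y => ι (i + j + 1) ⁅x.1, y.1⁆) (fun j y z => by
      rw [← ι_conj (Γ_mem x.2 z.2) y.1, ← ι_mul (Γ_mem x.2 y.2) (Γ_conj (Γ_mem x.2 z.2) _)]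
      congr 1; simp only [coe_mul]; group) fun j y hy => ι_zero (n := i + j + 1) (Γ_mem (j := j + 1) x.2 hy)
  choose b hb using h1
  obtain ⟨B, hB⟩ := L_lift b (fun i x y => L_ext fun j z hz => by
      rw [AddMonoidHom.add_apply, hb _ _ _ _ hz, hb _ _ _ _ hz, hb _ _ _ _ hz, add_comm (ι _ _),
        ← ι_conj (Γ_mem y.2 hz) x.1, ← ι_mul (Γ_conj (Γ_mem y.2 hz) _) (Γ_mem x.2 hz)]
      congr 1; simp only [coe_mul]; group)
    fun i x hx => L_ext fun j z hz => by
      rw [hb _ _ _ _ hz]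
      exact ι_zero (by rw [show i + j + 1 + 1 = i + 1 + j + 1 by ring]; exact Γ_mem hx hz)
  exact ⟨B, fun i j x y hx hy => by rw [hB i x hx, hb _ _ _ _ hy]⟩

/-- the bracket -/
noncomputable def B : L G →+ L G →+ L G := exists_br.choose

theorem B_ι {i j : ℕ} {x y : G} (hx : x ∈ Γ G i) (hy : y ∈ Γ G j) :
    B (ι i x) (ι j y) = ι (i + j + 1) ⁅x, y⁆ := exists_br.choose_spec i j x y hx hy

theorem B_skew (v w : L G) : B v w = -B w v := by
  have : (B : L G →+ L G →+ L G) = -B.flip := L_ext fun i x hx => L_ext fun j y hy => by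
    change _ = -B (ι j y) (ι i x)
    rw [B_ι hx hy, B_ι hy hx, ← ι_inv (Γ_mem hy hx), commutatorElement_inv, add_comm j]
  exact DFunLike.congr_fun (DFunLike.congr_fun this v) w

theorem B_jac (u v w : L G) : B (B u v) w + B (B v w) u + B (B w u) v = 0 := by
  induction u using L_ind with
  | h0 => simp
  | h2 a b h1 h2 => simp only [map_add, AddMonoidHom.add_apply]; linear_combination (norm := skip) h1 + h2; abel
  | h1 i a ha =>
  induction v using L_ind with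
  | h0 => simp
  | h2 a b h1 h2 => simp only [map_add, AddMonoidHom.add_apply]; linear_combination (norm := skip) h1 + h2; abel
  | h1 j b hb =>
  induction w using L_ind with
  | h0 => simp
  | h2 a b h1 h2 => simp only [map_add, AddMonoidHom.add_apply]; linear_combination (norm := skip) h1 + h2; abel
  | h1 k c hc =>
    rw [B_ι ha hb, B_ι hb hc, B_ι hc ha, ← ι_conj hc b, ← ι_conj ha c, ← ι_conj hb a]
    have h1 := Γ_mem (Γ_mem ha hb) (Γ_conj hc b)
    have h2 := Γ_mem (Γ_mem hb hc) (Γ_conj ha c)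
    have h3 := Γ_mem (Γ_mem hc ha) (Γ_conj hb a)
    rw [B_ι (Γ_mem ha hb) (Γ_conj hc b), B_ι (Γ_mem hb hc) (Γ_conj ha c),
      B_ι (Γ_mem hc ha) (Γ_conj hb a)]
    rw [show j + k + 1 + i + 1 = i + j + 1 + k + 1 by ring] at h2 ⊢
    rw [show k + i + 1 + j + 1 = i + j + 1 + k + 1 by ring] at h3 ⊢
    rw [← ι_mul h1 h2, ← ι_mul (mul_mem h1 h2) h3, commutatorElement_commutatorElement_conj_mul]
    exact ι_zero (one_mem _)

noncomputable instance instLie : LieRing (L G) where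
  bracket v w := B v w
  add_lie u v w := by simp
  lie_add u v w := by simp
  lie_self v := by
    induction v using L_ind with
    | h0 => simp
    | h1 n x hx => rw [B_ι hx hx, commutatorElement_self]; exact ι_zero (one_mem _)
    | h2 a b h1 h2 => simp [h1, h2, B_skew a b]
  leibniz_lie u v w := by
    have := B_jac u v w
    rw [B_skew (B v w), B_skew (B w u), B_skew w u, map_neg] at this
    rw [← sub_eq_zero, ← neg_eq_zero, ← this]; abel

theorem lie_ι {i j : ℕ} {x y : G} (hx : x ∈ Γ G i) (hy : y ∈ Γ G j) :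
    ⁅ι i x, ι j y⁆ = ι (i + j + 1) ⁅x, y⁆ := B_ι hx hy

theorem Γ_aut (α : MulAut G) {n : ℕ} {x : G} (hx : x ∈ Γ G n) : α x ∈ Γ G n :=
  (characteristic_iff_le_comap.1 inferInstance α) hx

theorem exists_aut (α : MulAut G) : ∃ a : L G →+ L G, (∀ n, ∀ x ∈ Γ G n, a (ι n x) = ι n (α x)) ∧
    ∀ v w, a ⁅v, w⁆ = ⁅a v, a w⁆ := by
  obtain ⟨a, ha⟩ := L_lift (fun n (x : Γ G n) => ι n (α x))
    (fun n x y => by rw [coe_mul, map_mul, ι_mul (Γ_aut α x.2) (Γ_aut α y.2)])
    fun n x hx => ι_zero (Γ_aut α hx)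
  refine ⟨a, ha, fun v w => ?_⟩
  induction v using L_ind with
  | h0 => simp
  | h2 a b h1 h2 => simp [h1, h2]
  | h1 i x hx =>
  induction w using L_ind with
  | h0 => simp
  | h2 a b h1 h2 => simp [h1, h2]
  | h1 j y hy =>
    rw [lie_ι hx hy, ha _ _ (Γ_mem hx hy), ha _ _ hx, ha _ _ hy, lie_ι (Γ_aut α hx) (Γ_aut α hy),
      map_commutatorElement]

end Cfsg.Agent.C3.LI
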