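import Cfsg.Agent.C3.LI2

/-! Automorphisms of prime order: extension of scalars and the group theoretic consequence. -/

namespace Cfsg.Agent.C3.LI

open Subgroup Polynomial
open scoped commutatorElement TensorProduct

universe u

theorem exists_ring {p : ℕ} [hp : Fact p.Prime] : ∃ (A : Type) (_ : CommRing A)
    (χ : AddChar (ZMod p) A) (r : A →ₗ[ℤ] ℤ), r 1 = 1 ∧ ∑ i, χ i = 0 := by
  have hm := cyclotomic.monic p ℤ
  have h1 : ∑ i ∈ Finset.range p, AdjoinRoot.root (cyclotomic p ℤ) ^ i = 0 := by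
    have := congrArg (AdjoinRoot.mk (cyclotomic p ℤ)) (cyclotomic_prime ℤ p)
    rw [AdjoinRoot.mk_self] at this
    simpa using this.symm
  have h2 : AdjoinRoot.root (cyclotomic p ℤ) ^ p = 1 := by
    rw [← sub_eq_zero, ← geom_sum_mul, h1, zero_mul]
  refine ⟨AdjoinRoot (cyclotomic p ℤ), inferInstance, AddChar.zmodChar p h2,
    (lcoeff ℤ 0).comp (AdjoinRoot.modByMonicHom hm), ?_, ?_⟩
  · rw [← map_one (AdjoinRoot.mk _), LinearMap.comp_apply, AdjoinRoot.modByMonicHom_mk,
      (modByMonic_eq_self_iff hm).2 (by rw [degree_one]; exact degree_cyclotomic_pos p ℤ hp.1.pos)]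
    simp
  · rw [← h1]
    simp only [AddChar.zmodChar_apply]
    exact Finset.sum_bij (fun i _ => i.val) (fun i _ => Finset.mem_range.2 (ZMod.val_lt i))
      (fun i _ j _ h => ZMod.val_injective p h)
      (fun j hj => ⟨j, by simp, ZMod.val_cast_of_lt (Finset.mem_range.1 hj)⟩) fun _ _ => rfl

theorem exists_graded {R A : Type} [CommRing R] [CommRing A] [Algebra R A] {L : Type u} [LieRing L]
    [LieAlgebra R L] {p : ℕ} [hp : Fact p.Prime] (χ : AddChar (ZMod p) A) (r : A →ₗ[R] R)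
    (hr : r 1 = 1) (hχ : ∑ i, χ i = 0) (a : Module.End R L)
    (ha : ∀ v w, a ⁅v, w⁆ = ⁅a v, a w⁆) (h1 : a ^ p = 1) {N : ℕ}
    (hN : N • ∑ j ∈ Finset.range p, a ^ j = 0) :
    ∃ (K : Type u) (_ : LieRing K) (U : ZMod p → AddSubgroup K) (f : L →+ K), br U U ≤ U ∧ U 0 = ⊥ ∧
      (∀ v w, f ⁅v, w⁆ = ⁅f v, f w⁆) ∧ (∀ v, p • f v ∈ ⨆ i, U i) ∧ ∀ v, f v = 0 → (N * p) • v = 0 := by
  set b := Module.End.baseChangeHom R A L a with hb
  have hb1 : b ^ p = 1 := by rw [hb, ← map_pow, h1, map_one]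
  have hb2 : N • ∑ j ∈ Finset.range p, b ^ j = 0 := by
    simpa only [map_nsmul, map_sum, map_pow, map_zero] using
      congrArg (Module.End.baseChangeHom R A L) hN
  have hb3 : ∀ v w, b ⁅v, w⁆ = ⁅b v, b w⁆ := by
    intro v w
    induction v using TensorProduct.induction_on with
    | zero => simp
    | add x y h1 h2 => simp [h1, h2]
    | tmul s x =>
    induction w using TensorProduct.induction_on with
    | zero => simp
    | add x y h1 h2 => simp only [lie_add, map_add, h1, h2]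
    | tmul t y =>
      have e : ∀ s x, b (s ⊗ₜ x) = s ⊗ₜ a x := fun _ _ => rfl
      simp [e, ha]
  let E : ZMod p → AddSubgroup (A ⊗[R] L) := fun i => (LinearMap.ker (b - χ i • 1)).toAddSubgroup
  have hE : ∀ i v, v ∈ E i ↔ b v = χ i • v := fun i v => by simp [E, sub_eq_zero]
  let T : LieIdeal R (A ⊗[R] L) :=
    { carrier := {z | (N * p) • z = 0}
      add_mem' := fun h1 h2 => by simp_all
      zero_mem' := by simp
      smul_mem' := fun c x h => by rw [Set.mem_setOf_eq, smul_comm, h, smul_zero]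
      lie_mem := fun h => by rw [Set.mem_setOf_eq, ← lie_nsmul, h, lie_zero] }
  let π : A ⊗[R] L →+ (A ⊗[R] L) ⧸ T := (LieSubmodule.Quotient.mk' T).toLinearMap.toAddMonoidHom
  have hπ : ∀ v w, π ⁅v, w⁆ = ⁅π v, π w⁆ := fun v w => LieSubmodule.Quotient.mk_bracket T v w
  have hπ0 : ∀ v, π v = 0 ↔ (N * p) • v = 0 := fun v => LieSubmodule.Quotient.mk_eq_zero T
  refine ⟨(A ⊗[R] L) ⧸ T, inferInstance, fun i => (E i).map π,
    π.comp (TensorProduct.mk R A L 1).toAddMonoidHom, fun k => br_le.2 ?_, ?_, fun v w => ?_,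
    fun v => ?_, fun v hv => ?_⟩
  · rintro i j rfl _ ⟨x, hx, rfl⟩ _ ⟨y, hy, rfl⟩
    refine ⟨⁅x, y⁆, (hE _ _).2 ?_, hπ x y⟩
    rw [hb3, (hE _ _).1 hx, (hE _ _).1 hy, smul_lie, lie_smul, smul_smul, AddChar.map_add_eq_mul]
  · refine eq_bot_iff.2 ?_
    rintro _ ⟨x, hx, rfl⟩
    have h2 : b x = x := by simpa using (hE _ _).1 hx
    have h3 : ∀ j, (b ^ j) x = x := fun j => by
      induction j with
      | zero => rfl
      | succ j ih => rw [pow_succ, Module.End.mul_apply, h2, ih]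
    have h4 := LinearMap.congr_fun hb2 x
    simp only [LinearMap.smul_apply, LinearMap.sum_apply, h3, Finset.sum_const, Finset.card_range,
      LinearMap.zero_apply] at h4
    exact (hπ0 x).2 (by rw [mul_smul, h4])
  · rw [AddMonoidHom.comp_apply, AddMonoidHom.comp_apply, AddMonoidHom.comp_apply, ← hπ]
    simp
  · rw [AddMonoidHom.comp_apply, ← map_nsmul]
    generalize (TensorProduct.mk R A L 1).toAddMonoidHom v = w
    have h2 : ∀ j : ZMod p, b ^ (j + 1).val = b * b ^ j.val := fun j => by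
      rw [← pow_succ', pow_eq_pow_mod (j.val + 1) hb1, ZMod.val_add, ZMod.val_one]
    have h3 : p • w = ∑ i : ZMod p, ∑ j : ZMod p, χ (-(i * j)) • (b ^ j.val) w := by
      rw [Finset.sum_comm, Finset.sum_eq_single 0]
      · simp
      · intro j _ hj
        rw [← Finset.sum_smul, (Fintype.sum_equiv ((Equiv.mulRight₀ j hj).trans (Equiv.neg _))
          (fun i => χ (-(i * j))) χ fun _ => rfl).trans hχ, zero_smul]
      · simp
    rw [h3, map_sum]
    refine sum_mem fun i _ => AddSubgroup.mem_iSup_of_mem i ⟨_, (hE _ _).2 ?_, rfl⟩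
    rw [map_sum, Finset.smul_sum]
    refine Fintype.sum_equiv (Equiv.addRight 1) _ _ fun j => ?_
    rw [Equiv.coe_addRight, h2, map_smul, smul_smul, ← AddChar.map_add_eq_mul, Module.End.mul_apply]
    congr 2; ring
  · have h2 := congrArg (fun z => TensorProduct.lid R L (r.rTensor L z)) ((hπ0 _).1 hv)
    simpa [hr] using h2

variable {G : Type u} [Group G]

theorem pow_mem_Γ {p : ℕ} (hp : p.Prime) {h : ℕ}
    (hk : ∀ (K : Type u) [LieRing K] (U : ZMod p → AddSubgroup K), br U U ≤ U → U 0 = ⊥ → C U h = ⊥)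
    (α : MulAut G) (hα : α ^ p = 1) {N : ℕ}
    (hN : ∀ n, ∀ x ∈ Γ G n, α x * x⁻¹ ∈ Γ G (n + 1) → x ^ N ∈ Γ G (n + 1)) {n : ℕ} (hn : h ≤ n) :
    ∀ x ∈ Γ G n, x ^ (N * p ^ (n + 2)) ∈ Γ G (n + 1) := by
  have := Fact.mk hp
  obtain ⟨a, ha, ha'⟩ := exists_aut α
  have h1 : ∀ j n, ∀ x ∈ Γ G n, (a.toIntLinearMap ^ j) (ι n x) = ι n ((α ^ j) x) := by
    intro j n x hx
    induction j with
    | zero => rfl
    | succ j ih =>
      rw [pow_succ', pow_succ', Module.End.mul_apply, ih]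
      exact ha _ _ (Γ_aut _ hx)
  have h2 : a.toIntLinearMap ^ p = 1 := LinearMap.toAddMonoidHom_injective (L_ext fun n x hx => by
    simp [h1 p n x hx, hα])
  have h3 : ∀ n, ∀ x ∈ Γ G n, ∀ k, ∃ y ∈ Γ G n,
      ι n y = ∑ j ∈ Finset.range k, (a.toIntLinearMap ^ j) (ι n x) := by
    intro n x hx k
    induction k with
    | zero => exact ⟨1, one_mem _, ι_zero (one_mem _)⟩
    | succ k ih =>
      obtain ⟨y, hy, e⟩ := ih
      exact ⟨y * (α ^ k) x, mul_mem hy (Γ_aut _ hx), by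
        rw [ι_mul hy (Γ_aut _ hx), e, Finset.sum_range_succ, h1 _ _ _ hx]⟩
  obtain ⟨A, _, χ, r, hr, hχ⟩ := exists_ring (p := p)
  obtain ⟨K, _, U, f, h4, h5, h6, h7, h8⟩ := exists_graded χ r hr hχ a.toIntLinearMap ha' h2 (N := N)
    (LinearMap.toAddMonoidHom_injective (L_ext fun n x hx => by
      obtain ⟨y, hy, e⟩ := h3 n x hx p
      have h4 : a (ι n y) = ι n y := by
        have := LinearMap.congr_fun (mul_geom_sum a.toIntLinearMap p) (ι n x)
        rw [h2, sub_self, Module.End.mul_apply, LinearMap.sum_apply, ← e] at this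
        simpa [sub_eq_zero] using this
      have h5 := hN n y hy ((ι_eq_zero (mul_mem (Γ_aut _ hy) (inv_mem hy))).1 (by
        rw [ι_mul (Γ_aut _ hy) (inv_mem hy), ι_inv hy, ← ha _ _ hy, h4, add_neg_cancel]))
      have h6 := ι_zero h5
      rw [ι_pow hy, e] at h6
      simpa [Finset.smul_sum] using h6))
  have h9 : ∀ n, ∀ x ∈ Γ G n, p ^ (n + 1) • f (ι n x) ∈ ⨆ i, C U n i := by
    intro n
    induction n with
    | zero => intro x _; rw [zero_add, pow_one]; exact h7 _
    | succ n ih =>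
      intro x hx
      induction hx using closure_induction with
      | mem z hz =>
        obtain ⟨x, hx, y, hy, rfl⟩ := hz
        rw [← lie_ι (j := 0) hx hy, h6, pow_succ, mul_smul, ← lie_nsmul, ← nsmul_lie]
        exact hat_br (ih x hx) (h7 _)
      | one => rw [ι_zero (one_mem _), map_zero, smul_zero]; exact zero_mem _
      | mul x y hx hy h1 h2 => rw [ι_mul hx hy, map_add, smul_add]; exact add_mem h1 h2
      | inv x hx h1 => rw [ι_inv hx, map_neg, smul_neg]; exact neg_mem h1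
  intro x hx
  have h10 := h9 n x hx
  obtain ⟨k, rfl⟩ := Nat.exists_eq_add_of_le hn
  rw [C_add (hk K U h4 h5), ← map_nsmul] at h10
  have h11 := h8 _ (by simpa only [Pi.bot_apply, iSup_bot, AddSubgroup.mem_bot] using h10)
  rw [← ι_eq_zero (pow_mem hx _), ι_pow hx, ← h11, smul_smul]
  congr 1; ring

end Cfsg.Agent.C3.LI
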