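import Cfsg.Agent.C3.LI3
import Cfsg.Agent.H1.Coprime
import Cfsg.Agent.S3779

/-! Automorphisms of prime order with few fixed points (Alperin's theorem). -/

namespace Cfsg.Agent.C3.LI

open Subgroup
open scoped commutatorElement

universe u
variable {G : Type u} [Group G]

/-- induced automorphism on a quotient -/
def qa (K : Subgroup G) [K.Characteristic] : MulAut G →* MulAut (G ⧸ K) where
  toFun α := QuotientGroup.congr K K α (characteristic_iff_map_eq.1 inferInstance α)
  map_one' := by ext ⟨x⟩; rfl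
  map_mul' _ _ := by ext ⟨x⟩; rfl

theorem qa_mk (K : Subgroup G) [K.Characteristic] (α : MulAut G) (x : G) :
    qa K α (x : G ⧸ K) = (α x : G) := rfl

/-- fixed subgroup -/
def fx (α : MulAut G) : Subgroup G := α.toMonoidHom.eqLocus (MonoidHom.id G)

theorem mem_fx {α : MulAut G} {x : G} : x ∈ fx α ↔ α x = x := Iff.rfl

theorem card_le_ker_mul [Finite G] {H : Type*} [Group H] (f : G →* H) (S : Subgroup G) :
    Nat.card S ≤ Nat.card f.ker * Nat.card (S.map f) := by
  rw [← relIndex_ker, relIndex, ← card_mul_index (f.ker.subgroupOf S)]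
  exact Nat.mul_le_mul_right _ (Nat.card_le_card_of_injective
    (fun x => (⟨x.1.1, x.2⟩ : f.ker)) fun x y h => Subtype.ext (Subtype.ext (congrArg Subtype.val h :)))

theorem fx_sub [Finite G] (α : MulAut G) (K : Subgroup G) [K.Characteristic] :
    Nat.card (fx (MulAut.characteristic K α)) ≤ Nat.card (fx α) :=
  Nat.card_le_card_of_injective (fun x => (⟨x.1.1, congrArg Subtype.val x.2⟩ : fx α))
    fun x y h => Subtype.ext (Subtype.ext (congrArg Subtype.val h :))

theorem fx_quot [Finite G] (α : MulAut G) (K : Subgroup G) [K.Characteristic] :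
    Nat.card (fx (qa K α)) ≤ Nat.card (fx α) := by
  have h1 := QuotientGroup.card_preimage_mk K (fx (qa K α) : Set (G ⧸ K))
  let d : G → G := fun x => (α x)⁻¹ * x
  let r : G → G := fun x => Function.invFun d (d x)
  have hr : ∀ x, d (r x) = d x := fun x => Function.invFun_eq ⟨x, rfl⟩
  have h2 := Nat.card_le_card_of_injective
    (fun x : QuotientGroup.mk ⁻¹' (fx (qa K α) : Set (G ⧸ K)) =>
      ((⟨d x, QuotientGroup.eq.1 x.2⟩, ⟨x * (r x)⁻¹, mem_fx.2 (by
        have := hr x
        simp only [d] at this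
        rw [map_mul, map_inv, eq_mul_inv_iff_mul_eq, mul_assoc, this, mul_inv_cancel_left])⟩) :
          K × fx α))
    fun x y h => by
      simp only [Prod.mk.injEq, Subtype.mk.injEq, r] at h
      obtain ⟨h3, h4⟩ := h
      rw [h3, mul_left_inj] at h4
      exact Subtype.ext h4
  rw [h1, Nat.card_prod] at h2
  exact Nat.le_of_mul_le_mul_left h2 Nat.card_pos

theorem ring_aux {R : Type*} [Ring R] {a : R} {p e : ℕ} (hp : p.Prime) (h2 : a ^ p = 1)
    (he : ((p ^ e : ℕ) : R) = 0) : (a - 1) ^ (p * e) = 0 := by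
  obtain ⟨r, hr⟩ := (Commute.one_right (a - 1)).exists_add_pow_prime_eq hp
  rw [sub_add_cancel, h2, one_pow, mul_one, add_right_comm, right_eq_add, add_eq_zero_iff_eq_neg,
    mul_assoc, neg_mul_eq_mul_neg] at hr
  rw [pow_mul, hr, (Nat.cast_commute _ _).mul_pow, ← Nat.cast_pow, he, zero_mul]

theorem card_comm_le {A : Type u} [Group A] [Finite A] (hc : ∀ x y : A, x * y = y * x) {p e : ℕ}
    (hp : p.Prime) (α : MulAut A) (hα : α ^ p = 1) (he : ∀ x : A, x ^ p ^ e = 1) :
    Nat.card A ≤ Nat.card (fx α) ^ (p * e) := by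
  letI : AddCommGroup (Additive A) := { (inferInstance : AddGroup (Additive A)) with add_comm := hc }
  let a : AddMonoid.End (Additive A) := MonoidHom.toAdditive α.toMonoidHom
  have h1 : ∀ j x, (a ^ j) x = Additive.ofMul ((α ^ j) x.toMul) := fun j x => by
    induction j with
    | zero => rfl
    | succ j ih => rw [pow_succ', pow_succ', AddMonoid.End.coe_mul, Function.comp_apply, ih]; rfl
  have h2 : a ^ p = 1 := AddMonoidHom.ext fun x => (h1 p x).trans (by rw [hα]; rfl)
  have h3 : (a - 1) ^ (p * e) = 0 := ring_aux hp h2 (AddMonoidHom.ext fun x => he x.toMul)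
  let δ : A →* A := MonoidHom.mk' (fun x => α x / x) fun x y =>
    map_add (a - 1) (Additive.ofMul x) (Additive.ofMul y)
  have h4 : δ.ker = fx α := Subgroup.ext fun x => div_eq_one
  have h5 : ∀ j, Nat.card A ≤ Nat.card (fx α) ^ j * Nat.card ((map δ)^[j] ⊤ : Subgroup A) := by
    intro j
    induction j with
    | zero => simp
    | succ j ih =>
      refine ih.trans ?_
      rw [pow_succ, mul_assoc, ← h4, Function.iterate_succ_apply']
      exact Nat.mul_le_mul_left _ (card_le_ker_mul δ _)
  have h7 : ∀ j, ∀ y ∈ ((map δ)^[j] ⊤ : Subgroup A), ∃ x, y = (((a - 1) ^ j) x).toMul := by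
    intro j
    induction j with
    | zero => exact fun y _ => ⟨Additive.ofMul y, rfl⟩
    | succ j ih =>
      rw [Function.iterate_succ_apply']
      rintro _ ⟨y, hy, rfl⟩
      obtain ⟨x, rfl⟩ := ih y hy
      exact ⟨x, by rw [pow_succ']; rfl⟩
  have h6 := h5 (p * e)
  rwa [(eq_bot_iff (a := (map δ)^[p * e] ⊤)).2 fun y hy => by
    obtain ⟨x, rfl⟩ := h7 _ y hy
    rw [h3]; rfl, card_bot, mul_one] at h6

/-- the class bound -/
abbrev hb (p : ℕ) : ℕ := ∑ i ∈ Finset.range (2 ^ (p - 1) - 1), (p - 1) ^ i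

theorem card_Γ_le [Finite G] {p B : ℕ} (hp : p.Prime) (hG : IsPGroup p G) (α : MulAut G)
    (hα : α ^ p = 1) (hB : Nat.card (fx α) ≤ B) :
    Nat.card (Γ G (hb p)) ≤ Nat.card (Γ G (hb p + 1)) * B ^ (p * (B + (hb p + 2))) := by
  have := Fact.mk hp
  have h1 := pow_mem_Γ hp (fun K _ U h h0 => hkk hp h h0) α hα (N := p ^ B) (fun n x _ h => by
    have h2 : ((x⁻¹ : G) : G ⧸ Γ G (n + 1)) ∈ fx (qa _ α) :=
      mem_fx.2 ((qa_mk _ _ _).trans (QuotientGroup.eq.2 (by simpa using h)))
    have h3 := (_root_.orderOf_le_card (x := (⟨_, h2⟩ : fx _))).trans ((fx_quot α _).trans hB)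
    obtain ⟨k, hk⟩ := IsPGroup.iff_orderOf.1 (hG.to_quotient (Γ G (n + 1))) x
    rw [← orderOf_coe, coe_mk, QuotientGroup.mk_inv, orderOf_inv, hk] at h3
    rw [← QuotientGroup.eq_one_iff, QuotientGroup.mk_pow, ← orderOf_dvd_iff_pow_eq_one, hk]
    exact pow_dvd_pow _ ((Nat.lt_pow_self hp.one_lt).le.trans h3)) le_rfl
  change ∀ x ∈ Γ G (hb p), x ^ (p ^ B * p ^ (hb p + 2)) ∈ Γ G (hb p + 1) at h1
  generalize hb p = h at h1 ⊢
  have h2 := card_le_ker_mul (QuotientGroup.mk' (Γ G (h + 1))) (Γ G h)
  have h3 : ∀ n, (Γ G n).map (QuotientGroup.mk' (Γ G (h + 1))) = Γ _ n := fun n => by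
    rw [map_lowerCentralSeries, map_top_of_surjective _ (QuotientGroup.mk'_surjective _)]
  rw [QuotientGroup.ker_mk', h3] at h2
  refine h2.trans (Nat.mul_le_mul_left _ ?_)
  refine (card_comm_le (fun x y => Subtype.ext (commutatorElement_eq_one_iff_mul_comm.1 (by
        have := Γ_top x.2 y.1
        rwa [← h3, (Subgroup.map_eq_bot_iff _).2 (QuotientGroup.ker_mk' _).ge, mem_bot] at this)))
    (e := B + (h + 2)) hp (MulAut.characteristic _ (qa _ α))
    (by rw [← map_pow, ← map_pow, hα, map_one, map_one]) ?_).trans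
    (Nat.pow_le_pow_left ((fx_sub _ _).trans ((fx_quot _ _).trans hB)) _)
  rintro ⟨x, hx⟩
  rw [← h3] at hx
  obtain ⟨y, hy, rfl⟩ := hx
  exact Subtype.ext ((QuotientGroup.eq_one_iff (y ^ _)).2 (pow_add p B _ ▸ h1 y hy))

theorem hall_comm (k : ℕ) : ∀ (M : Subgroup G) [M.Normal],
    ⁅M, Γ G k⁆ ≤ (fun S => ⁅S, (⊤ : Subgroup G)⁆)^[k + 1] M := by
  have h0 : ∀ k (M : Subgroup G) [M.Normal], ((fun S => ⁅S, (⊤ : Subgroup G)⁆)^[k] M).Normal := by
    intro k
    induction k with
    | zero => exact fun M h => h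
    | succ k ih => exact fun M h => ih ⁅M, ⊤⁆
  induction k with
  | zero => exact fun M _ => le_rfl
  | succ k ih =>
    intro M _
    have := h0 (k + 1 + 1) M
    rw [commutator_comm, Γ, Subgroup.lowerCentralSeries_succ]
    refine H1.three_subgroups_normal ?_ ?_
    · rw [commutator_comm ⊤]; exact ih _
    · rw [Function.iterate_succ_apply']; exact commutator_mono (ih M) le_rfl

theorem derived_add {K : Subgroup G} {a b : ℕ} (h1 : derivedSeries G a ≤ K)
    (h2 : derivedSeries K b = ⊥) : derivedSeries G (a + b) = ⊥ := by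
  have : ∀ i, derivedSeries G (a + i) ≤ (derivedSeries K i).map K.subtype := by
    intro i
    induction i with
    | zero => simpa [← MonoidHom.range_eq_map] using h1
    | succ i ih => rw [derivedSeries_succ K, map_commutator]; exact commutator_mono ih ih
  simpa [h2] using this b

theorem derived_le_ker {H : Type*} [Group H] (f : G →* H) (hf : Function.Surjective f) {a : ℕ}
    (h : derivedSeries H a = ⊥) : derivedSeries G a ≤ f.ker := by
  rw [← Subgroup.map_eq_bot_iff, map_derivedSeries_eq hf, h]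

theorem chain_bot [Finite G] (S : ℕ → Subgroup G) (hm : ∀ j, S (j + 1) ≤ S j)
    (h : ∀ j, S j ≠ ⊥ → S (j + 1) < S j) (j : ℕ) (hj : S j ≠ ⊥) :
    (j + 1) * Nat.card (S j) ≤ Nat.card (S 0) := by
  induction j with
  | zero => simp
  | succ j ih =>
    have h1 : S j ≠ ⊥ := fun e => hj (eq_bot_iff.2 (e ▸ hm j))
    refine le_trans ?_ (ih h1)
    obtain ⟨k, hk⟩ := card_dvd_of_le (hm j)
    have h2 : 2 ≤ k := by
      by_contra h2
      refine (h j h1).ne (eq_of_le_of_card_ge (hm j) ?_)
      rw [hk]; exact mul_le_of_le_one_right' (by omega)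
    rw [hk]
    calc _ ≤ (j + 1) * 2 * Nat.card (S (j + 1)) := Nat.mul_le_mul_right _ (by omega)
      _ ≤ (j + 1) * k * Nat.card (S (j + 1)) := by gcongr
      _ = _ := by ring

theorem derived_card [Finite G] [Group.IsSolvable G] {m : ℕ} (h : Nat.card G ≤ m) :
    derivedSeries G m = ⊥ := by
  by_contra hc
  have h1 := chain_bot (derivedSeries G) (fun j => derivedSeries_antitone G j.le_succ)
    (fun j hj => Group.IsSolvable.commutator_lt_of_ne_bot hj) m hc
  rw [derivedSeries_zero, card_top] at h1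
  have := Nat.card_pos (α := derivedSeries G m)
  nlinarith

theorem derived_pgroup [Finite G] {p B : ℕ} (hp : p.Prime) (hG : IsPGroup p G) (α : MulAut G)
    (hα : α ^ p = 1) (hB : Nat.card (fx α) ≤ B) :
    derivedSeries G (B ^ (p * (B + (hb p + 2))) + (hb p + 1)) = ⊥ := by
  have := Fact.mk hp
  have h1 := card_Γ_le hp (hG.to_subgroup (Γ G (B ^ (p * (B + (hb p + 2))))))
    (MulAut.characteristic _ α) (by rw [← map_pow, hα, map_one]) ((fx_sub α _).trans hB)
  generalize B ^ (p * (B + (hb p + 2))) = b at h1 ⊢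
  generalize hb p = h at h1 ⊢
  refine derived_add (Subgroup.derived_le_lower_central b) (eq_bot_iff.2 ((Subgroup.derived_le_lower_central _).trans ?_))
  rw [← card_map_of_injective (Γ G b).subtype_injective, ← card_map_of_injective (K := Γ _ (h + 1))
    (Γ G b).subtype_injective, top_subtype_lowerCentralSeries, top_subtype_lowerCentralSeries] at h1
  rw [← map_le_map_iff_of_injective (Γ G b).subtype_injective, top_subtype_lowerCentralSeries,
    Subgroup.map_bot]
  have h2 := hall_comm b ((Γ G b).lowerCentralSeries h)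
  rw [← Subgroup.lowerCentralSeries_succ] at h2
  generalize (Γ G b).lowerCentralSeries (h + 1) = T at h1 h2 ⊢
  have h5 : ((Γ G b).lowerCentralSeries h).Normal := inferInstance
  generalize (Γ G b).lowerCentralSeries h = M at h1 h2 h5 ⊢
  have hn : ∀ j, ((fun S => ⁅S, (⊤ : Subgroup G)⁆)^[j] M).Normal := fun j => by
    induction j with
    | zero => exact h5
    | succ j ih => rw [Function.iterate_succ_apply']; infer_instance
  by_contra hc
  have h3 := chain_bot (fun j => (fun S => ⁅S, (⊤ : Subgroup G)⁆)^[j] M)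
    (fun j => by
      have := hn j
      simp only [Function.iterate_succ_apply']; exact commutator_le_left _ _)
    (fun j hj => by
      have := hn j
      simp only [Function.iterate_succ_apply']
      exact H1.commutator_lt_of_isPGroup (hG.to_subgroup _) (hG.to_subgroup _)
        le_normalizer_of_normal hj) (b + 1) fun e => hc (h2.trans e.le)
  have h4 := card_le_of_le h2
  have := Nat.card_pos (α := T)
  simp only [Function.iterate_zero, id] at h3
  nlinarith

theorem derived_pcore [Finite G] [hs : Group.IsSolvable G] {p B : ℕ} (hp : p.Prime)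
    (hO : pPrimeCore p G = ⊥) (α : MulAut G) (hα : α ^ p = 1) (hB : Nat.card (fx α) ≤ B) :
    derivedSeries G ((B ^ (p * 1)).factorial + (B ^ (p * (B + (hb p + 2))) + (hb p + 1))) = ⊥ := by
  have := Fact.mk hp
  have hP := H1.isPGroup_pCore p G
  have h0 : MulAut.characteristic (pCore p G) α ^ p = 1 := by rw [← map_pow, hα, map_one]
  refine derived_add ?_ (derived_pgroup hp hP _ h0 ((fx_sub α _).trans hB))
  let f := (qa (frattini (pCore p G))).comp (MulAut.conjNormal (H := pCore p G))
  have h1 : Nat.card (pCore p G ⧸ frattini (pCore p G)) ≤ B ^ (p * 1) := by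
    refine (card_comm_le (Normal.quotient_commutative_iff_commutator_le.2
          (H1.commutator_le_frattini hP)).is_comm.comm (e := 1) hp (qa _ (MulAut.characteristic _ α))
      (by rw [← map_pow, h0, map_one]) ?_).trans
      (Nat.pow_le_pow_left ((fx_quot _ _).trans ((fx_sub _ _).trans hB)) _)
    rintro ⟨x⟩
    exact (QuotientGroup.eq_one_iff (x ^ p ^ 1)).2 (by rw [pow_one]; exact H1.pow_mem_frattini hP x)
  have h2 : Nat.card f.range ≤ (B ^ (p * 1)).factorial := by
    refine (card_le_card_group _).trans ((Nat.card_le_card_of_injective (MulAut.toPerm _)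
      MulEquiv.toEquiv_injective).trans ?_)
    rw [Nat.card_perm]
    exact Nat.factorial_le h1
  have := Group.isSolvable_of_surjective f.rangeRestrict_surjective
  refine (derived_le_ker _ f.rangeRestrict_surjective (derived_card h2)).trans ?_
  rw [MonoidHom.ker_rangeRestrict]
  refine H1.le_pCore inferInstance fun g => ?_
  obtain ⟨k, r, h3, h4⟩ := Nat.exists_eq_pow_mul_and_not_dvd (orderOf_pos g.1).ne' p hp.ne_one
  have h5 : zpowers (g.1 ^ p ^ k) ≤ centralizer (pCore p G : Set G) := by
    refine H1.le_centralizer_of_commutator_le_frattini le_normalizer_of_normal ?_ ?_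
    · obtain ⟨j, hj⟩ := IsPGroup.iff_card.1 (hP.to_subgroup (frattini (pCore p G)))
      rw [hj, Nat.card_zpowers]
      refine Nat.Coprime.pow_right _ (Nat.Coprime.coprime_dvd_left ?_
        (hp.coprime_iff_not_dvd.2 h3).symm)
      rw [orderOf_dvd_iff_pow_eq_one, ← pow_mul, ← h4, pow_orderOf_eq_one]
    · rw [commutator_comm]
      refine commutator_le.2 fun a ha x hx => ?_
      have h6 : f a = 1 := (zpowers_le.2 (pow_mem g.2 _)) ha
      exact ⟨_, QuotientGroup.eq_iff_div_mem.1 (DFunLike.congr_fun h6 ((⟨x, hx⟩ : pCore p G) : _ ⧸ _)),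
        by simp [commutatorElement_def, div_eq_mul_inv]⟩
  obtain ⟨j, hj⟩ := hP ⟨_, H1.centralizer_pCore_le hs hO (h5 (mem_zpowers _))⟩
  exact ⟨k + j, Subtype.ext (by rw [pow_add, pow_mul]; exact (congrArg Subtype.val hj :))⟩

theorem alperin {p : ℕ} (hp : p.Prime) (n : ℕ) : ∃ l : ℕ, ∀ (G : Type u) [Group G] [Finite G],
    Group.IsSolvable G → ∀ α : MulAut G, α ^ p = 1 → Nat.card (fx α) = p ^ n →
      derivedSeries G l = ⊥ := by
  have := Fact.mk hp
  refine ⟨_, fun G _ _ hs α hα hB => derived_add (b := hb p) ((derived_le_ker _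
    (QuotientGroup.mk'_surjective (pPrimeCore p G)) (derived_pcore hp
      (H1.pPrimeCore_quotient_eq_bot _ rfl) (qa _ α) (by rw [← map_pow, hα, map_one])
        ((fx_quot α _).trans hB.le))).trans (QuotientGroup.ker_mk' _).le) ?_⟩
  have h1 : ∀ g, MulAut.characteristic (pPrimeCore p G) α g = g → g = 1 := fun g hg => by
    have h2 : orderOf g ∣ p ^ n := by
      rw [← hB, ← orderOf_coe]
      exact orderOf_dvd_natCard (fx α) (congrArg Subtype.val hg)
    exact orderOf_eq_one_iff.1 (Nat.eq_one_of_dvd_coprimes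
      ((H1.coprime_pPrimeCore p G).pow_right n) (orderOf_dvd_natCard g) h2)
  by_cases h2 : MulAut.characteristic (pPrimeCore p G) α = 1
  · exact eq_bot_iff.2 fun g _ => h1 g (by rw [h2]; rfl)
  · exact eq_bot_iff.2 ((Subgroup.derived_le_lower_central _).trans (S3779.result hp _
      (orderOf_eq_prime (by rw [← map_pow, hα, map_one]) h2) h1).2.2.le)

end Cfsg.Agent.C3.LI
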