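/-
Quadratic pairs: opposite root subgroups.
-/
import Cfsg.Agent.C3.QP4

set_option autoImplicit false

namespace Cfsg.Agent.C3.QP

open Matrix Subgroup Module LinearMap Cfsg.Agent.H2 Cfsg.Agent.BG
open scoped MatrixGroups commutatorElement

universe u v

variable {k : Type u} [Field k] {M : Type v} [AddCommGroup M] [Module k M]
  {G H A B D U : Subgroup (LinearMap.GeneralLinearGroup k M)} {a a' b b' c n n' m r : End k M}
  {g x σ : LinearMap.GeneralLinearGroup k M}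

theorem Th.psi {K : Type*} [Field K] [Algebra k K] (T : Th K a b) (ha : a * a = 0) (hb : b * b = 0) (hz : T.z ≠ 0)
    (e : b * T.θ T.z⁻¹ * b = b) : ∃ ψ : SL(2, K) →* LinearMap.GeneralLinearGroup k M, Function.Injective ψ ∧
      (∀ t, (ψ (xx (t * T.z)) : End k M) = 1 + T.θ t) ∧ (∀ c : k, (ψ (yy (algebraMap k K c)) : End k M) = 1 + c • b) ∧
      (ψ (-1) : End k M) = 1 - 2 * (T.θ T.z⁻¹ * b + b * T.θ T.z⁻¹) := by
  let Θ : Matrix (Fin 2) (Fin 2) K → End k M := fun g => T.N4 (T.z⁻¹ * g 0 1) (-(T.z⁻¹ * g 1 0)) (T.z⁻¹ * g 1 1) (-(T.z⁻¹ * g 0 0))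
  have h1 : ∀ g h, Θ g * Θ h = Θ (g * h) := fun g h => by
    simp only [Θ, T.N4_mul ha hb, Matrix.mul_apply, Fin.sum_univ_two]
    congr 1 <;> field_simp <;> ring
  let φ : Matrix (Fin 2) (Fin 2) K →* End k M := ⟨⟨fun g => 1 - Θ 1 + Θ g, sub_add_cancel _ _⟩, fun g h => by
    simp only [mul_add, add_mul, mul_sub, sub_mul, one_mul, mul_one, h1]; abel⟩
  refine ⟨(φ.comp SpecialLinearGroup.coeMonoidHom).toHomUnits, (injective_iff_map_eq_one _).2 fun g hg => ?_, fun t => ?_, fun c => ?_, ?_⟩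
  · have h2 : Θ g = Θ 1 := by
      have : 1 - Θ 1 + Θ g = 1 := congrArg Units.val hg
      linear_combination (norm := abel) this
    refine Subtype.ext (Matrix.ext fun i j => ?_)
    have h3 : Θ (Matrix.single 0 i 1 * g.1 * Matrix.single j 1 1) = Θ (Matrix.single 0 i 1 * 1 * Matrix.single j 1 1) := by
      rw [← h1, ← h1, h2, h1, h1]
    rw [single_mul_mul_single, single_mul_mul_single] at h3
    simp only [Θ, single_apply_same, one_mul, mul_one] at h3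
    simp only [Matrix.single_apply, zero_ne_one, one_ne_zero, and_false, false_and, if_false, mul_zero, neg_zero, T.N4_zero] at h3
    exact mul_left_cancel₀ (inv_ne_zero hz) (sub_eq_zero.1 (T.inj _ (by rw [map_sub, h3]; exact sub_self _)))
  · change 1 - Θ 1 + Θ (xx (t * T.z)) = _
    simp [Θ, Th.N4, mul_comm t, hz]
    abel
  · change 1 - Θ 1 + Θ (yy (algebraMap k K c)) = _
    simp [Θ, Th.N4, mul_comm _ (algebraMap k K c), ← Algebra.smul_def, e]
    abel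
  · change 1 - Θ 1 + Θ (-1) = _
    simp [Θ, Th.N4, two_mul]
    abel

theorem psi_norm (ha : a * a = 0) (hb : b * b = 0) (e : a * b * a = a) (e' : b * a * b = b) (h0 : a ≠ 0) :
    ∃ ψ : SL(2, k) →* LinearMap.GeneralLinearGroup k M, Function.Injective ψ ∧
      (∀ t, (ψ (xx t) : End k M) = 1 + t • a) ∧ (∀ t, (ψ (yy t) : End k M) = 1 + t • b) ∧
      (ψ (-1) : End k M) = 1 - 2 * (a * b + b * a) := by
  let T : Th k a b := ⟨1, toSpanSingleton k _ a, isIntegral_one, Subsingleton.elim _ _, one_smul _ _,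
    fun p h => (smul_eq_zero.1 h).resolve_right h0, fun _ => range_smul_le_range _ _, fun _ => ker_le_ker_smul _ _,
    fun p q => by simp [e, smul_smul, mul_comm], fun p h => Ne.isUnit fun e => h0 (range_eq_bot.1 (by simpa [e] using h.symm))⟩
  simpa [T] using T.psi ha hb one_ne_zero (by simpa [T])

theorem psl2_of {X : Type*} [Group X] (ψ : SL(2, k) →* X) (h : Function.Injective ψ) {A B : Subgroup X} (hA : ∀ t, ψ (xx t) ∈ A)
    (hB : ∀ t, ψ (yy t) ∈ B) : ∃ A₀ B₀, A₀ ≤ A ∧ B₀ ≤ B ∧ IsPSL2PairOver k A₀ B₀ := by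
  refine ⟨_, _, map_le_iff_le_comap.2 ((closure_le _).2 fun g e => ?_), map_le_iff_le_comap.2 ((closure_le _).2 fun g e => ?_), ψ, ?_,
    ((MonoidHom.ker_eq_bot_iff _).2 h).trans_le bot_le, rfl, rfl⟩
  · exact (show xx (g 0 1) = g from extE e.2.1.symm rfl e.1.symm e.2.2.symm) ▸ hA _
  · exact (show yy (g 1 0) = g from extE e.2.1.symm e.1.symm rfl e.2.2.symm) ▸ hB _
  · rw [← Subgroup.map_sup, MonoidHom.range_eq_map]
    exact congrArg _ (H4.SL2_eq_top (fun c => mem_sup_left (Subgroup.subset_closure (by exact ⟨rfl, rfl, rfl⟩)))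
      fun c => mem_sup_right (Subgroup.subset_closure (by exact ⟨rfl, rfl, rfl⟩))).symm

theorem range_le_of {X : Type*} [Group X] (ψ : SL(2, k) →* X) {A : Subgroup X} (hA : ∀ t, ψ (xx t) ∈ A)
    (hB : ∀ t, ψ (yy t) ∈ A) (g : SL(2, k)) : ψ g ∈ A := (H4.SL2_eq_top (H := A.comap ψ) hA hB).ge (mem_top g)

theorem three_lt (h2 : ringChar k ≠ 2) (h3 : Nat.card k ≠ 3) : 3 < ENat.card k := by
  obtain ⟨c, c0, c1⟩ := exists_c h2 h3
  have h4 : (1 : k) ≠ -1 := fun e => Ring.neg_one_ne_one_of_char_ne_two h2 e.symm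
  have h5 : c ≠ 1 ∧ c ≠ -1 := not_or.1 (mt (fun e => (sq c).trans (mul_self_eq_one_iff.2 e)) c1)
  refine lt_of_lt_of_le ?_ ((Set.encard_le_encard (Set.subset_univ {c, 0, 1, -1})).trans_eq (Set.encard_univ k))
  rw [Set.encard_insert_of_notMem (by simp [c0, h5]), Set.encard_insert_of_notMem (by simp), Set.encard_pair h4]
  decide

theorem zero_of_compl (h : Codisjoint (range a) (ker b)) (e : r * a = 0) (e' : ker b ≤ ker r) : r = 0 :=
  ker_eq_top.1 (h.mono (range_le_ker_iff.2 e) e').eq_top_of_self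

theorem ne_of_compl (h0 : a ≠ 0) (h : Disjoint (range a) (ker b)) (h' : Disjoint (range b) (ker a)) : a * b * a ≠ 0 := fun e =>
  h0 (LinearMap.ext fun v => Submodule.disjoint_def.1 h _ ⟨v, rfl⟩ (Submodule.disjoint_def.1 h' _ ⟨_, rfl⟩ (LinearMap.congr_fun e v)))

/-- Opposite root subgroups. -/
def Op (A B : Subgroup (LinearMap.GeneralLinearGroup k M)) : Prop := ∃ a ∈ aug A, ∃ b ∈ aug B, a * b * a ≠ 0

theorem Op.cj (h : Op A B) (g : LinearMap.GeneralLinearGroup k M) : Op (g ⋆ A) (g ⋆ B) :=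
  let ⟨a, ha, b, hb, e⟩ := h
  ⟨g * a * ↑g⁻¹, mem_aug_cj ha (by simp), g * b * ↑g⁻¹, mem_aug_cj hb (by simp), fun e' => e (by
    simp only [← mul_assoc, Units.inv_mul_cancel_right, Units.mul_left_eq_zero] at e'
    simpa [mul_assoc] using e')⟩

variable [FiniteDimensional k M] (h2 : ringChar k ≠ 2) (h3 : Nat.card k ≠ 3)
include h2 h3

theorem Min.compl (ha : Min G a) (hb : Min G b) (e : a * b * a ≠ 0) : IsCompl (range a) (ker b) ∧ IsCompl (range b) (ker a) := by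
  have h1 : ∀ v ∈ range a, a (b v) = 0 → v = 0 := fun v hv e' => by_contra fun h0 => by
    obtain ⟨f, hf⟩ := Projective.exists_dual_eq_one k h0
    simpa [hf, h0] using LinearMap.congr_fun ((ha.stepA h2 h3 hb.q).resolve_left e (f.smulRight v)
      (fun _ ⟨y, hy⟩ => hy ▸ (range a).smul_mem _ hv) (LinearMap.ext fun y => by simp [e'])) v
  have h4 : Disjoint (range a) (ker b) := Submodule.disjoint_def.2 fun v hv e' => h1 v hv (by rw [e', map_zero])
  have h5 := ha.rk_eq hb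
  have h6 := rk_mul b a
  rw [h4.eq_bot, finrank_bot] at h6
  have h7 : range (b * a) = range b := Submodule.eq_of_le_of_finrank_le (range_comp_le_range a b) (h5.ge.trans h6.ge)
  exact ⟨(Submodule.isCompl_iff_disjoint _ _ ((rk_ker b).ge.trans_eq (by rw [← h5]))).2 h4,
    (Submodule.isCompl_iff_disjoint _ _ ((rk_ker a).ge.trans_eq (by rw [h5]))).2 (Submodule.disjoint_def.2 fun v hv e' => by
      obtain ⟨w, rfl⟩ := h7.ge hv
      rw [End.mul_apply, h1 _ ⟨w, rfl⟩ e', map_zero])⟩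

theorem Min.symm (ha : Min G a) (hb : Min G b) (e : a * b * a = 0) : b * a * b = 0 := by_contra fun e' =>
  ne_of_compl ha.ne (hb.compl h2 h3 ha e').2.1 (hb.compl h2 h3 ha e').1.1 e

theorem NU.partner (h : NU G) (ha : Min G a) : ∃ b, Min G b ∧ a * b * a ≠ 0 := by
  by_contra! e
  exact ha.ne (h.zero (P := {s | Min G s ∧ ∀ b, Min G b → s * b * s = 0}) (fun _ h => h.1.q) (fun s hs g hg =>
    ⟨hs.1.conj hg (by simp), fun b hb => by
      simpa only [mul_assoc, mul_zero, zero_mul] using congrArg (fun y => (g : End k M) * y * (↑g⁻¹ : End k M))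
        (hs.2 _ (hb.conj (inv_mem hg) (m := (↑g⁻¹ : End k M) * b * (g : End k M)) (by simp)))⟩) (fun s hs t ht => hs.2 t ht.1) ⟨ha, e⟩)

namespace Rt

variable (hA : Rt G A) (hB : Rt G B)
include hA hB

theorem compl (h : Op A B) (ha : a ∈ aug A) (h0 : a ≠ 0) (hb : b ∈ aug B) (h1 : b ≠ 0) :
    IsCompl (range a) (ker b) ∧ IsCompl (range b) (ker a) := by
  obtain ⟨a', ha', b', hb', e⟩ := h
  have h4 := hA.min ha' (left_ne_zero_of_mul (left_ne_zero_of_mul e))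
  have h5 := hB.min hb' (right_ne_zero_of_mul (left_ne_zero_of_mul e))
  obtain ⟨-, e1, e2⟩ := ((hA.aug_iff ha' h4.ne).1 ha).min h4 h0
  obtain ⟨-, e3, e4⟩ := ((hB.aug_iff hb' h5.ne).1 hb).min h5 h1
  rw [e1, e2, e3, e4]
  exact h4.compl h2 h3 h5 e

theorem op_ne (h : Op A B) (ha : a ∈ aug A) (h0 : a ≠ 0) (hb : b ∈ aug B) (h1 : b ≠ 0) : a * b * a ≠ 0 :=
  ne_of_compl h0 (hA.compl h2 h3 hB h ha h0 hb h1).1.1 (hA.compl h2 h3 hB h ha h0 hb h1).2.1

theorem op_symm (h : Op A B) : Op B A :=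
  let ⟨a, ha, h0⟩ := hA.ex; let ⟨b, hb, h1⟩ := hB.ex
  ⟨b, hb, a, ha, ne_of_compl h1 (hA.compl h2 h3 hB h ha h0 hb h1).2.1 (hA.compl h2 h3 hB h ha h0 hb h1).1.1⟩

theorem norm (h : Op A B) (ha : a ∈ aug A) (h0 : a ≠ 0) : ∃ b ∈ aug B, b ≠ 0 ∧ a * b * a = a ∧ b * a * b = b := by
  obtain ⟨b, hb, h1⟩ := hB.ex
  obtain ⟨n, n1, n2, n3, n4, -, n5⟩ := (hB.min hb h1).st h2 h3 le_rfl (hB.qn hb) (hA.qn ha)
    (hB.op_ne h2 h3 hA (hA.op_symm h2 h3 hB h) hb h1 ha h0)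
  have h4 := (hB.aug_iff hb h1).2 ⟨n1, n2, n3⟩
  have h5 : n ≠ 0 := fun e => h1 (by rw [← n4, e, mul_zero])
  exact ⟨n, h4, h5, sub_eq_zero.1 (zero_of_compl (hA.compl h2 h3 hB h ha h0 h4 h5).2.2 (by
    rw [sub_mul, mul_assoc, mul_assoc, ← mul_assoc n, n5, sub_self]) fun v hv => by simp [mem_ker.1 hv]), n5⟩

theorem cond (h : Op A B) : RankOneCondition A B := fun g hg h1 => by
  have ha := mem_aug hg
  have h0 := sub_ne_iff.2 h1
  obtain ⟨b, hb, h4, e, e'⟩ := hA.norm h2 h3 hB h ha h0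
  have h5 := hB.mem hb (un_val (hB.qn hb).1)
  have h6 := (hA.qn ha).1
  have h7 := inv_val h6
  generalize (g : End k M) - 1 = a at *
  refine ⟨_, h5, sub_ne_iff.1 (by rwa [un_sub]), (hA.cj (inv_mem (hB.le h5))).ext (hB.cj (inv_mem (hA.le hg)))
    (a := a + a * b - b * a - b) (mem_aug_cj ha ?_) (mem_aug_cj ((aug B).neg_mem hb) ?_) fun e1 => h0 ?_⟩
  · rw [un_inv]
    linear_combination (norm := noncomm_ring) -e' + (1 - a - b) * 0 + (a - 1) * (hB.qn hb).1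
  · rw [h7]
    linear_combination (norm := noncomm_ring) e + (1 - b) * h6
  · linear_combination (norm := noncomm_ring) -(a * e1 * a) - e + h6 * a + h6 * b * a - a * b * h6

theorem ro (h : Op A B) : IsRankOnePair A B :=
  ⟨fun e => let ⟨_, ha, _, hb, e'⟩ := h; e' (by rw [hA.mul0 ha (e ▸ hb), zero_mul]), (isNilpotent_iff_lowerCentralSeries A).2 ⟨1, hA.ab⟩,
    (isNilpotent_iff_lowerCentralSeries B).2 ⟨1, hB.ab⟩, hA.cond h2 h3 hB h,
    hB.cond h2 h3 hA (hA.op_symm h2 h3 hB h)⟩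

theorem special (h : Op A B) : IsSpecialRankOnePair A B := by
  obtain ⟨a, ha, h0⟩ := hA.ex
  obtain ⟨b, hb, h1, e, -⟩ := hA.norm h2 h3 hB h ha h0
  obtain ⟨v, hv⟩ : ∃ v, a v ≠ 0 := by simpa [LinearMap.ext_iff] using h0
  refine (hA.ro h2 h3 hB h).quad_special (V := M) (fun x hx y hy v => sub_eq_zero.1
    (LinearMap.congr_fun (hA.mul0 (mem_aug hy) (mem_aug hx)) v)) (w := b (a v))
    (fun y hy => sub_eq_zero.1 (LinearMap.congr_fun (hB.mul0 (mem_aug hy) hb) _)) fun e' => hv ?_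
  have := e' _ (hA.mem ha (un_val (hA.qn ha).1))
  rw [← e]
  exact add_eq_left.1 this

theorem psl2 (h : Op A B) : ∃ A₀ B₀, A₀ ≤ A ∧ B₀ ≤ B ∧ ∃ (k₁ : Type u) (_ : Field k₁), 3 < ENat.card k₁ ∧ IsPSL2PairOver k₁ A₀ B₀ := by
  obtain ⟨a, ha, h0⟩ := hA.ex
  obtain ⟨b, hb, -, e, e'⟩ := hA.norm h2 h3 hB h ha h0
  obtain ⟨ψ, h4, h5, h6, -⟩ := psi_norm (hA.qn ha).1 (hB.qn hb).1 e e' h0
  obtain ⟨A₀, B₀, h7, h8, h9⟩ := psl2_of ψ h4 (fun t => hA.mem ((aug A).smul_mem t ha) (h5 t)) fun t => hB.mem ((aug B).smul_mem t hb) (h6 t)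
  exact ⟨A₀, B₀, h7, h8, k, inferInstance, three_lt h2 h3, h9⟩

theorem le_comm (h : Op A B) : A ≤ ⁅A ⊔ B, A ⊔ B⁆ := fun g hg => by
  obtain rfl | h1 := eq_or_ne g 1
  · exact one_mem _
  have ha := mem_aug hg
  obtain ⟨b, hb, -, e, e'⟩ := hA.norm h2 h3 hB h ha (sub_ne_iff.2 h1)
  obtain ⟨ψ, -, h5, h6, -⟩ := psi_norm (hA.qn ha).1 (hB.qn hb).1 e e' (sub_ne_iff.2 h1)
  have h7 := range_le_of ψ (A := A ⊔ B) (fun t => mem_sup_left (hA.mem ((aug A).smul_mem t ha) (h5 t)))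
    fun t => mem_sup_right (hB.mem ((aug B).smul_mem t hb) (h6 t))
  obtain ⟨c, c0, c1⟩ := exists_c h2 h3
  have h8 := commutator_mem_commutator (h7 (H4.sm c 0 0 c⁻¹ (by simp [c0]))) (h7 (xx (c ^ 2 - 1)⁻¹))
  rwa [← map_commutatorElement, commutatorElement_def, cj_xx rfl, mul_inv_eq_of_eq_mul (c := xx 1) (by
    rw [← xx_add]; congr 1; change c ^ 2 * _ = _; field_simp [sub_ne_zero.2 c1]; ring),
    show ψ (xx 1) = g from Units.ext (by simp [h5])] at h8

theorem not_unip (h : Op A B) : ¬ IsUnipotentOn (A ⊔ B) := fun e => by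
  obtain ⟨a, ha, h0⟩ := hA.ex
  obtain ⟨b, hb, -, e1, -⟩ := hA.norm h2 h3 hB h ha h0
  exact h0 (unip_not e (aug_mono le_sup_right hb) (aug_mono le_sup_left ha) e1)

theorem invol (h : Op A B) : (∃! i : LinearMap.GeneralLinearGroup k M, i ∈ A ⊔ B ∧ i ≠ 1 ∧ i * i = 1 ∧ (∀ x ∈ A ⊔ B, i * x = x * i) ∧
    (∀ m ∈ commutatorSubmodule (A ⊔ B), (i : M →ₗ[k] M) m = -m) ∧ (∀ m ∈ fixedSubmodule (A ⊔ B), (i : M →ₗ[k] M) m = m)) ∧
    IsCompl (fixedSubmodule (A ⊔ B)) (commutatorSubmodule (A ⊔ B)) := by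
  obtain ⟨a, ha, h0⟩ := hA.ex
  obtain ⟨b, hb, h1, e, e'⟩ := hA.norm h2 h3 hB h ha h0
  have a0 := (hA.qn ha).1
  have b0 := (hB.qn hb).1
  obtain ⟨ψ, -, h5, h6, h8⟩ := psi_norm a0 b0 e e' h0
  have h7 := range_le_of ψ (A := A ⊔ B) (fun t => mem_sup_left (hA.mem ((aug A).smul_mem t ha) (h5 t)))
    fun t => mem_sup_right (hB.mem ((aug B).smul_mem t hb) (h6 t))
  have p1 : (1 - (a * b + b * a)) * a = 0 := by linear_combination (norm := noncomm_ring) -e - b * a0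
  have p2 : a * (1 - (a * b + b * a)) = 0 := by linear_combination (norm := noncomm_ring) -e - a0 * b
  have p3 : (1 - (a * b + b * a)) * b = 0 := by linear_combination (norm := noncomm_ring) -e' - a * b0
  have p4 : b * (1 - (a * b + b * a)) = 0 := by linear_combination (norm := noncomm_ring) -e' - b0 * a
  have p5 : fixedSubmodule (A ⊔ B) ≤ ker (a * b + b * a) := fun v hv => by
    have : ∀ C ≤ A ⊔ B, v ∈ fixedSubmodule C := fun C hC => (biInf_mono hC : fixedSubmodule _ ≤ fixedSubmodule C) hv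
    simp [mem_ker.1 ((hA.fixed ha h0).1.le (this A le_sup_left)), mem_ker.1 ((hB.fixed hb h1).1.le (this B le_sup_right))]
  have p6 : range (a * b + b * a) ≤ commutatorSubmodule (A ⊔ B) := (range_add_le _ _).trans (sup_le
    ((range_comp_le_range _ _).trans ((hA.fixed ha h0).2.ge.trans (biSup_mono (le_sup_left (a := A)))))
    ((range_comp_le_range _ _).trans ((hB.fixed hb h1).2.ge.trans (biSup_mono (le_sup_right (a := A))))))
  have p7 : IsIdempotentElem (a * b + b * a) := by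
    rw [IsIdempotentElem]; linear_combination (norm := noncomm_ring) -(p1 * b) - p3 * a
  generalize a * b + b * a = f at *
  have p8 : ∀ x ∈ A ⊔ B, (1 - f) * ((x : End k M) - 1) = 0 ∧ ((x : End k M) - 1) * (1 - f) = 0 := fun x hx =>
    sup_ind (P := fun x : LinearMap.GeneralLinearGroup k M => (1 - f) * ((x : End k M) - 1) = 0 ∧ ((x : End k M) - 1) * (1 - f) = 0) hx
      (fun y hy => ⟨hA.left ha h0 (mem_aug hy) p1, hA.right ha h0 (mem_aug hy) p2⟩)
      (fun y hy => ⟨hB.left hb h1 (mem_aug hy) p3, hB.right hb h1 (mem_aug hy) p4⟩) fun y z hy hz => by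
        rw [Units.val_mul]
        exact ⟨by linear_combination (norm := noncomm_ring) hy.1 * z + hz.1, by linear_combination (norm := noncomm_ring) y * hz.2 + hy.2⟩
  have q1 : fixedSubmodule (A ⊔ B) = ker f := p5.antisymm (le_iInf₂ fun x hx v hv => by
    simpa [mem_ker.1 hv] using LinearMap.congr_fun (p8 x hx).2 v)
  have q2 : commutatorSubmodule (A ⊔ B) = range f := (iSup₂_le fun x hx => p7.range_eq_ker_one_sub ▸ range_le_ker_iff.2 (p8 x hx).1).antisymm p6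
  have q3 : ∀ v ∈ range f, (ψ (-1) : End k M) v = -v := fun v hv => by
    simp [h8, two_mul, p7.mem_range_iff.1 hv]
  have q4 : ∀ v ∈ ker f, (ψ (-1) : End k M) v = v := fun v hv => by simp [h8, mem_ker.1 hv]
  rw [q1, q2]
  refine ⟨⟨ψ (-1), ⟨h7 _, fun e => h0 ?_, by rw [← map_mul]; simp, fun x hx => Units.ext ?_, q3, q4⟩, fun i hi => Units.ext
    (sub_eq_zero.1 (zero_of_compl p7.isCompl.2 (LinearMap.ext fun v => ?_) fun v hv => ?_))⟩, p7.isCompl.symm⟩
  · rw [e, Units.val_one, eq_comm, sub_eq_self, ← map_ofNat (algebraMap k (End k M)), ← Algebra.smul_def,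
      smul_eq_zero_iff_right (Ring.two_ne_zero h2)] at h8
    simpa [h8] using p1
  · rw [Units.val_mul, Units.val_mul, h8]
    linear_combination (norm := noncomm_ring) 2 * (p8 x hx).1 - 2 * (p8 x hx).2
  · exact sub_eq_zero.2 ((hi.2.2.2.2.1 _ ⟨v, rfl⟩).trans (q3 _ ⟨v, rfl⟩).symm)
  · exact sub_eq_zero.2 ((hi.2.2.2.2.2 _ hv).trans (q4 _ hv).symm)

end Rt

end Cfsg.Agent.C3.QP
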