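/-
Quadratic pairs: root subgroups generating a unipotent group.
-/
import Cfsg.Agent.C3.QP5

set_option autoImplicit false

namespace Cfsg.Agent.C3.QP

open Matrix Subgroup Module LinearMap Cfsg.Agent.H2 Cfsg.Agent.BG
open scoped MatrixGroups commutatorElement

universe u v

variable {k : Type u} [Field k] {M : Type v} [AddCommGroup M] [Module k M]
  {G H A B D U : Subgroup (LinearMap.GeneralLinearGroup k M)} {a a' b b' c n n' m r : End k M}
  {g x σ : LinearMap.GeneralLinearGroup k M}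

theorem comm_val (hg : (g : End k M) = 1 + a) (hx : (x : End k M) = 1 + b) (ha : a * a = 0) (hb : b * b = 0) (e : a * b * a = 0)
    (e' : b * a * b = 0) : ((⁅g, x⁆ :) : End k M) = 1 + (a * b - b * a) := by
  obtain rfl : g = un ha := Units.ext hg
  obtain rfl : x = un hb := Units.ext hx
  simp only [commutatorElement_def, Units.val_mul, un_val, un_inv]
  linear_combination (norm := noncomm_ring) -ha + ha * b - (1 + a) * hb - e * (1 - b) + e'

theorem QN.br (ha : QN G a) (hb : QN G b) (e : a * b * a = 0) (e' : b * a * b = 0) : QN G (a * b - b * a) :=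
  ⟨by linear_combination (norm := noncomm_ring) e * b - a * hb.1 * a - b * ha.1 * b + e' * a, fun c =>
    ⟨_, commutator_le_sup G G |>.trans (sup_idem G).le <| commutator_mem_commutator ((ha.smul c).mem (un_val (ha.smul c).1))
      (hb.mem (un_val hb.1)), (comm_val rfl rfl (ha.smul c).1 hb.1 (by simp [e]) (by simp [e'])).trans (by simp [smul_sub])⟩⟩

theorem comm_of (h : ∀ a ∈ aug A, ∀ b ∈ aug B, a * b = b * a) : ⁅A, B⁆ = ⊥ :=
  H8.commutator_eq_bot_iff_forall.2 fun x hx y hy => Units.ext (by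
    simp only [Units.val_mul]
    linear_combination (norm := noncomm_ring) h _ (mem_aug hx) _ (mem_aug hy))

theorem QN.cm (ha : QN A a) (hb : QN B b) (h : ⁅A, B⁆ = ⊥) : a * b = b * a := by
  have := congrArg Units.val (C3.cm h (ha.mem (un_val ha.1)) (hb.mem (un_val hb.1)))
  simp only [Units.val_mul, un_val] at this
  linear_combination (norm := noncomm_ring) this

theorem br_range (e : a * b * a = 0) (e' : b * a * b = 0) : range (a * b - b * a) ≤ (range a ⊓ ker b) ⊔ (range b ⊓ ker a) := by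
  rintro _ ⟨v, rfl⟩
  exact Submodule.sub_mem_sup ⟨⟨_, rfl⟩, LinearMap.congr_fun e' v⟩ ⟨⟨_, rfl⟩, LinearMap.congr_fun e v⟩

theorem mul_ker (e : a * b * a = 0) : range a ⊔ ker b ≤ ker (a * b) := sup_le (range_le_ker_iff.2 e) (ker_le_ker_comp _ _)

theorem br_ker (e : a * b * a = 0) (e' : b * a * b = 0) : (range a ⊔ ker b) ⊓ (range b ⊔ ker a) ≤ ker (a * b - b * a) := fun v hv => by
  rw [mem_ker, LinearMap.sub_apply, mul_ker e hv.1, mul_ker e' hv.2, sub_zero]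

variable [FiniteDimensional k M]

theorem Min.br (ha : Min G a) (hb : Min G b) (e : a * b * a = 0) (e' : b * a * b = 0) (h0 : a * b - b * a ≠ 0) :
    Min G (a * b - b * a) ∧ range (a * b - b * a) = (range a ⊓ ker b) ⊔ (range b ⊓ ker a) ∧
    ker (a * b - b * a) = (range a ⊔ ker b) ⊓ (range b ⊔ ker a) ∧ finrank k ↥(range a ⊓ ker b) + finrank k ↥(range b ⊓ ker a) = rk a := by
  have h1 := ha.q.br hb.q e e'
  have d0 := ha.rk_eq hb
  have d1 := rk_mul a b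
  have d2 := rk_mul b a
  have d3 := ha.le _ h1 h0
  have d4 : rk (a * b) ≤ finrank k ↥(range a ⊓ ker b) := Submodule.finrank_mono (le_inf (range_comp_le_range _ _) (range_le_ker_iff.2 e'))
  have d5 : rk (b * a) ≤ finrank k ↥(range b ⊓ ker a) := Submodule.finrank_mono (le_inf (range_comp_le_range _ _) (range_le_ker_iff.2 e))
  have d6 : rk (a * b - b * a) ≤ rk (a * b) + rk (b * a) := (Submodule.finrank_mono (by
    rintro _ ⟨v, rfl⟩
    exact Submodule.sub_mem_sup ⟨v, rfl⟩ ⟨v, rfl⟩)).trans (Submodule.finrank_add_le_finrank_add_finrank _ _)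
  have d7 := Submodule.finrank_add_le_finrank_add_finrank (range a ⊓ ker b) (range b ⊓ ker a)
  have d8 := Submodule.finrank_sup_add_finrank_inf_eq (range a) (ker b)
  have d9 := Submodule.finrank_sup_add_finrank_inf_eq (range b) (ker a)
  have d10 := Submodule.finrank_sup_add_finrank_inf_eq (range a ⊔ ker b) (range b ⊔ ker a)
  have d11 := Submodule.finrank_le (range a ⊔ ker b ⊔ (range b ⊔ ker a))
  have := rk_ker a
  have := rk_ker b
  have := rk_ker (a * b - b * a)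
  simp only [rk] at *
  exact ⟨ha.of_le h1 h0 (by simp only [rk]; omega), Submodule.eq_of_le_of_finrank_le (br_range e e') (by omega),
    (Submodule.eq_of_le_of_finrank_le (br_ker e e') (by omega)).symm, by omega⟩

theorem Rt.tr (hA : Rt G A) (h : ¬ Op A B) (ha : a ∈ aug A) (hb : b ∈ aug B) (ha' : a' ∈ aug A) : a * b * a' = 0 := by
  obtain rfl | h0 := eq_or_ne a 0
  · simp
  · exact hA.left ha h0 ha' (by_contra fun e => h ⟨a, ha, b, hb, e⟩)

theorem Rt.nop (hA : Rt G A) (hB : Rt G B) (h : ⁅A, B⁆ = ⊥) : ¬ Op A B := fun ⟨a, ha, b, hb, e⟩ =>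
  e (by rw [(hA.qn' ha).cm (hB.qn' hb) h, mul_assoc, hA.mul0 ha ha, mul_zero])

/-- The commutator case. -/
structure PsQ (G A B : Subgroup (LinearMap.GeneralLinearGroup k M)) : Prop where
  l : Rt G A
  r : Rt G B
  o : ¬ Op A B
  o' : ¬ Op B A
  ne : ⁅A, B⁆ ≠ ⊥

theorem unip_of (hA : Rt G A) (hB : Rt G B) (h : ¬ Op A B) (h' : ¬ Op B A) : IsUnipotentOn (A ⊔ B) := by
  refine unip_triple (S := aug A ∪ aug B) ?_ (fun _ h => Submodule.subset_span (.inl h)) fun _ h => Submodule.subset_span (.inr h)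
  rintro x (hx | hx) y (hy | hy) z (hz | hz) <;> first
    | exact hA.tr h hx hy hz | exact hB.tr h' hx hy hz | rw [hA.mul0 hx hy, zero_mul] | rw [hB.mul0 hx hy, zero_mul]
    | rw [mul_assoc, hA.mul0 hy hz, mul_zero] | rw [mul_assoc, hB.mul0 hy hz, mul_zero]

namespace PsQ

variable (h : PsQ G A B)
include h

theorem symm : PsQ G B A := ⟨h.r, h.l, h.o', h.o, mt cs h.ne⟩

theorem ex : ∃ a ∈ aug A, ∃ b ∈ aug B, a ≠ 0 ∧ b ≠ 0 ∧ a * b - b * a ≠ 0 := by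
  by_contra! e
  refine h.ne (comm_of fun a ha b hb => by_contra fun e' => e' (sub_eq_zero.1 (e a ha b hb ?_ ?_))) <;> rintro rfl <;> simp at e'

theorem br_ne (ha : a ∈ aug A) (h0 : a ≠ 0) (hb : b ∈ aug B) (h1 : b ≠ 0) : a * b - b * a ≠ 0 := fun e => by
  obtain ⟨a', ha', b', hb', a0, b0, e'⟩ := h.ex
  obtain ⟨h4, h5, -, h6⟩ := (h.l.min ha' a0).br (h.r.min hb' b0) (h.l.tr h.o ha' hb' ha') (h.r.tr h.o' hb' ha' hb') e'
  obtain ⟨e0, e1, e2⟩ := ((h.l.aug_iff ha' a0).1 ha).min (h.l.min ha' a0) h0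
  obtain ⟨-, e3, e4⟩ := ((h.r.aug_iff hb' b0).1 hb).min (h.r.min hb' b0) h1
  have d0 := e0.rk_eq (h.r.min hb h1)
  have d1 := rk_mul a b
  have d2 := rk_mul b a
  have d3 := h4.rk_eq e0
  have d4 := rk_pos h0
  have d5 := Submodule.finrank_sup_add_finrank_inf_eq (range a ⊓ ker b) (range b ⊓ ker a)
  rw [sub_eq_zero] at e
  have d6 : rk (a * b) ≤ finrank k ↥((range a ⊓ ker b) ⊓ (range b ⊓ ker a)) := Submodule.finrank_mono (le_inf (le_inf
    (range_comp_le_range _ _) (range_le_ker_iff.2 (h.r.tr h.o' hb ha hb))) (e ▸ le_inf (range_comp_le_range _ _)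
    (range_le_ker_iff.2 (h.l.tr h.o ha hb ha))))
  simp only [rk] at *
  rw [← e] at d2
  rw [h5] at d3
  rw [← e1, ← e2, ← e3, ← e4] at h6 d3
  omega

theorem br (ha : a ∈ aug A) (h0 : a ≠ 0) (hb : b ∈ aug B) (h1 : b ≠ 0) : Min G (a * b - b * a) ∧
    range (a * b - b * a) = (range a ⊓ ker b) ⊔ (range b ⊓ ker a) ∧ ker (a * b - b * a) = (range a ⊔ ker b) ⊓ (range b ⊔ ker a) :=
  have := (h.l.min ha h0).br (h.r.min hb h1) (h.l.tr h.o ha hb ha) (h.r.tr h.o' hb ha hb) (h.br_ne ha h0 hb h1)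
  ⟨this.1, this.2.1, this.2.2.1⟩

theorem exD : ∃ D, Rt G D ∧ ∀ a ∈ aug A, ∀ b ∈ aug B, a * b - b * a ∈ aug D := by
  obtain ⟨a', ha', b', hb', a0, b0, e'⟩ := h.ex
  obtain ⟨h4, h5, h6⟩ := h.br ha' a0 hb' b0
  obtain ⟨D, hD, hc⟩ := h4.rt
  refine ⟨D, hD, fun a ha b hb => by_contra fun e => ?_⟩
  have h0 : a ≠ 0 := fun e' => e (by simp [e'])
  have h1 : b ≠ 0 := fun e' => e (by simp [e'])
  obtain ⟨-, e1, e2⟩ := ((h.l.aug_iff ha' a0).1 ha).min (h.l.min ha' a0) h0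
  obtain ⟨-, e3, e4⟩ := ((h.r.aug_iff hb' b0).1 hb).min (h.r.min hb' b0) h1
  obtain ⟨h7, h8, h9⟩ := h.br ha h0 hb h1
  exact e ((hD.aug_iff hc e').2 ⟨h7.q, by rw [h5, h8, e1, e2, e3, e4], by rw [h6, h9, e1, e2, e3, e4]⟩)

theorem val (hg : g ∈ A) (hx : x ∈ B) :
    ((⁅g, x⁆ :) : End k M) = 1 + (((g : End k M) - 1) * (x - 1) - ((x : End k M) - 1) * (g - 1)) :=
  comm_val (by simp) (by simp) (h.l.qn (mem_aug hg)).1 (h.r.qn (mem_aug hx)).1 (h.l.tr h.o (mem_aug hg) (mem_aug hx) (mem_aug hg))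
    (h.r.tr h.o' (mem_aug hx) (mem_aug hg) (mem_aug hx))

section D

variable (hD : Rt G D) (hd : ∀ a ∈ aug A, ∀ b ∈ aug B, a * b - b * a ∈ aug D)
include hD hd

theorem mulD (ha : a ∈ aug A) (hc : c ∈ aug D) : a * c = 0 ∧ c * a = 0 := by
  obtain ⟨a', ha', b', hb', -, -, e'⟩ := h.ex
  exact ⟨hD.left (hd _ ha' _ hb') e' hc (by rw [mul_sub, ← mul_assoc, ← mul_assoc, h.l.mul0 ha ha', h.l.tr h.o ha hb' ha']; simp),
    hD.right (hd _ ha' _ hb') e' hc (by rw [sub_mul, mul_assoc b', h.l.mul0 ha' ha, h.l.tr h.o ha' hb' ha]; simp)⟩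

theorem commD : ⁅A, D⁆ = ⊥ := comm_of fun _ ha _ hc => (h.mulD hD hd ha hc).1.trans (h.mulD hD hd ha hc).2.symm

omit h hD in
theorem hd_symm : ∀ a ∈ aug B, ∀ b ∈ aug A, a * b - b * a ∈ aug D := fun a ha b hb => neg_sub (b * a) _ ▸ (aug D).neg_mem (hd b hb a ha)

variable (h2 : ringChar k ≠ 2) (h3 : Nat.card k ≠ 3) (hn : NU G)
include h2 h3 hn

theorem link : ∃ C, Rt G C ∧ Op D C ∧ Op C B := by
  obtain ⟨a, ha, b, hb, a0, b0, e⟩ := h.ex
  have hc := hd a ha b hb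
  obtain ⟨β, h4, h5⟩ := hn.partner h2 h3 (hD.min hc e)
  obtain ⟨C, hC, h6⟩ := h4.rt
  have h7 : Op D C := ⟨_, hc, _, h6, h5⟩
  by_cases h8 : Op C B
  · exact ⟨C, hC, h7, h8⟩
  have h9 := inv_mem (h.l.mem ha (un_val (h.l.qn ha).1))
  have h10 := h7.cj (un (h.l.qn ha).1)⁻¹
  rw [cj_of_comm (h.commD hD hd) h9] at h10
  suffices e' : Op C (un (h.l.qn ha).1 ⋆ B) from ⟨_, hC.cj (h.l.le h9), h10, by simpa only [cj_inv_cj] using e'.cj (un (h.l.qn ha).1)⁻¹⟩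
  refine ⟨β, h6, b + (a * b - b * a), mem_aug_cj hb ?_, fun e' => h5 (h4.symm h2 h3 (hD.min hc e) ?_)⟩
  · rw [un_val]
    linear_combination (norm := noncomm_ring) -h.l.tr h.o ha hb ha + b * h.l.mul0 ha ha
  · simpa [mul_add, add_mul, hC.tr h8 h6 hb h6] using e'

theorem surj (ha : a ∈ aug A) (h0 : a ≠ 0) (hc : c ∈ aug D) : ∃ b ∈ aug B, a * b - b * a = c := by
  obtain ⟨C, hC, h4, h5⟩ := h.link hD hd h2 h3 hn
  have l : ∀ {A B}, Rt G A → Rt G B → Op A B → finrank k (aug A) ≤ finrank k (aug B) := fun hA hB e =>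
    let ⟨w, _, _, e'⟩ := (hA.ro h2 h3 hB e).exists_swap; e' ▸ finrank_aug_cj w _
  have h6 : (aug B).map (mulLeft k a - mulRight k a) = aug D := Submodule.eq_of_le_of_finrank_le (by
    rintro _ ⟨b, hb, rfl⟩
    exact hd a ha b hb) (((l hD hC h4).trans (l hC h.r h5)).trans_eq (by
      rw [← range_domRestrict, finrank_range_of_inj ((injective_iff_map_eq_zero _).2 fun b e =>
        Subtype.ext (by_contra fun e' => h.br_ne ha h0 b.2 e' e))]))
  exact h6.ge hc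

theorem closure_eq (hg : g ∈ A) (h1 : g ≠ 1) :
    Subgroup.closure ((fun x => g * x * g⁻¹ * x⁻¹) '' (B : Set (LinearMap.GeneralLinearGroup k M))) = D ∧ ⁅A, B⁆ = D := by
  have h4 : ⁅A, B⁆ ≤ D := commutator_le.2 fun g hg x hx => hD.mem (hd _ (mem_aug hg) _ (mem_aug hx)) (h.val hg hx)
  have h5 : Subgroup.closure ((fun x => g * x * g⁻¹ * x⁻¹) '' (B : Set (LinearMap.GeneralLinearGroup k M))) ≤ ⁅A, B⁆ :=
    (closure_le _).2 fun _ ⟨x, hx, e⟩ => e ▸ commutator_mem_commutator hg hx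
  have h6 : D ≤ Subgroup.closure ((fun x => g * x * g⁻¹ * x⁻¹) '' (B : Set (LinearMap.GeneralLinearGroup k M))) := fun d hd' => by
    obtain ⟨b, hb, e⟩ := h.surj hD hd h2 h3 hn (mem_aug hg) (sub_ne_iff.2 h1) (mem_aug hd')
    have h7 := h.r.mem hb (un_val (h.r.qn hb).1)
    exact Subgroup.subset_closure ⟨_, h7, Units.ext ((h.val hg h7).trans (by rw [un_sub, e, add_sub_cancel]))⟩
  exact ⟨(h5.trans h4).antisymm h6, h4.antisymm (h6.trans h5)⟩

end D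

variable (h2 : ringChar k ≠ 2) (h3 : Nat.card k ≠ 3) (hn : NU G)
include h2 h3 hn

theorem rt : Rt G ⁅A, B⁆ ∧ ∀ a ∈ aug A, ∀ b ∈ aug B, a * b - b * a ∈ aug ⁅A, B⁆ := by
  obtain ⟨D, hD, hd⟩ := h.exD
  obtain ⟨g, hg, h1⟩ := h.l.exists_ne
  rw [(h.closure_eq hD hd h2 h3 hn hg h1).2]
  exact ⟨hD, hd⟩

theorem cent : ⁅⁅A, B⁆, A ⊔ B⁆ = ⊥ :=
  let ⟨h4, h5⟩ := h.rt h2 h3 hn
  csup' (cs (h.commD h4 h5)) (cs (h.symm.commD h4 (hd_symm h5)))

theorem rcc {S : Set (Subgroup (LinearMap.GeneralLinearGroup k M))} (hS : ⁅A, B⁆ ∈ S) : RootCommutatorCase S A B := by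
  obtain ⟨h4, h5⟩ := h.rt h2 h3 hn
  refine ⟨hS, fun c hc x hx => cm (h.cent h2 h3 hn) hc hx, fun g hg h1 => (h.closure_eq h4 h5 h2 h3 hn hg h1).1, fun g hg h1 => ?_⟩
  rw [← (h.symm.closure_eq h4 (hd_symm h5) h2 h3 hn hg h1).1, ← Subgroup.closure_inv, ← Set.image_inv_eq_inv, Set.image_image]
  simp [mul_assoc]

theorem cls : ⁅A ⊔ B, A ⊔ B⁆ ≠ ⊥ ∧ ⁅⁅A ⊔ B, A ⊔ B⁆, A ⊔ B⁆ = ⊥ := by
  have e1 := h.cent h2 h3 hn
  have e2 := H8.le_normalizer_of_commutator_eq_bot (cs e1)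
  have e3 : ∀ {X Y : Subgroup (LinearMap.GeneralLinearGroup k M)}, ⁅X, Y⁆ ≤ ⁅A, B⁆ → ⁅Y, X⁆ ≤ ⁅A, B⁆ :=
    fun l => (commutator_comm_le _ _).trans l
  exact ⟨fun e => h.ne (cmono e le_sup_left le_sup_right), cmono e1 (H8.commutator_sup_le_of_norm (e3 (H8.commutator_sup_le_of_norm
    (h.l.ab.trans_le bot_le) (e3 le_rfl) e2)) (e3 (H8.commutator_sup_le_of_norm le_rfl (h.r.ab.trans_le bot_le) e2)) e2) le_rfl⟩

theorem core : ((A ⊔ B :) : Set (LinearMap.GeneralLinearGroup k M)) ⊆ quadraticUnipotentCore G ⁅A, B⁆ := fun x hx => by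
  obtain ⟨h4, h5⟩ := h.rt h2 h3 hn
  obtain ⟨a, ha, b, hb, a0, b0, e⟩ := h.ex
  have hc := h5 a ha b hb
  obtain ⟨-, h6, h7⟩ := h.br ha a0 hb b0
  have l : ∀ {A B a b}, PsQ G A B → a ∈ aug A → b ∈ aug B → a ≠ 0 → b ≠ 0 → ∀ y ∈ A, ∀ v ∈ range b ⊔ ker a,
      ((y : End k M) - 1) v ∈ range a ⊓ ker b := fun {A B a b} h ha hb a0 b0 y hy => by
    have h8 := (h.l.aug_iff ha a0).1 (mem_aug hy)
    refine fun v hv => ⟨h8.ran ⟨v, rfl⟩, (sup_le (range_le_ker_iff.2 (h.r.tr h.o' hb (mem_aug hy) hb))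
      (h8.ker.trans (ker_le_ker_comp _ b)) :) hv⟩
  obtain ⟨h8, h9, h10⟩ := sup_ind (P := fun x : LinearMap.GeneralLinearGroup k M => (a * b - b * a) * ((x : End k M) - 1) = 0 ∧
    ((x : End k M) - 1) * (a * b - b * a) = 0 ∧ ∀ v ∈ ker (a * b - b * a), ((x : End k M) - 1) v ∈ range (a * b - b * a)) hx
    (fun y hy => ⟨(h.mulD h4 h5 (mem_aug hy) hc).2, (h.mulD h4 h5 (mem_aug hy) hc).1, fun v hv =>
      h6.ge (Submodule.mem_sup_left (l h ha hb a0 b0 y hy v (h7.le hv).2))⟩)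
    (fun y hy => ⟨(h.symm.mulD h4 (hd_symm h5) (mem_aug hy) hc).2, (h.symm.mulD h4 (hd_symm h5) (mem_aug hy) hc).1, fun v hv =>
      h6.ge (Submodule.mem_sup_right (l h.symm hb ha b0 a0 y hy v (h7.le hv).1))⟩) fun y z hy hz => by
    rw [Units.val_mul]
    refine ⟨by linear_combination (norm := noncomm_ring) hy.1 * z + hz.1,
      by linear_combination (norm := noncomm_ring) y * hz.2.1 + hy.2.1, fun v hv => ?_⟩
    have := range_le_ker_iff.2 hy.2.1 (hz.2.2 v hv)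
    convert (range _).add_mem (hy.2.2 v hv) (hz.2.2 v hv) using 1
    simp only [mem_ker, LinearMap.sub_apply, End.mul_apply, End.one_apply, map_sub] at this ⊢
    linear_combination (norm := abel) this
  obtain ⟨f1, f2⟩ := h4.fixed hc e
  refine ⟨sup_le h.l.le h.r.le hx, H8.le_normalizer_of_commutator_eq_bot (cs (h.cent h2 h3 hn)) hx, ?_⟩
  rw [f1, f2]
  exact ⟨fun v => LinearMap.congr_fun h8 v, h10, fun v hv => sub_eq_zero.1 (range_le_ker_iff.2 h9 hv)⟩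

end PsQ

variable (h2 : ringChar k ≠ 2) (h3 : Nat.card k ≠ 3)
include h2 h3

theorem Rt.tri (hA : Rt G A) (hB : Rt G B) : ⁅A, B⁆ = ⊥ ∨ Op A B ∨ PsQ G A B := by
  by_contra! e
  exact e.2.2 ⟨hA, hB, e.2.1, mt (hB.op_symm h2 h3 hA) e.2.1, e.1⟩

theorem Rt.unip (hA : Rt G A) (hB : Rt G B) (h : ¬ Op A B) : IsUnipotentOn (A ⊔ B) := unip_of hA hB h (mt (hB.op_symm h2 h3 hA) h)

theorem Rt.op_of (hn : NU G) (hA : Rt G A) (hB : Rt G B) (h : IsRankOnePair A B) : Op A B := by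
  obtain e | e | e := hA.tri h2 h3 hB
  exacts [absurd e h.not_comm, e, absurd ((isNilpotent_iff_lowerCentralSeries _).2 ⟨2, (e.cls h2 h3 hn).2⟩) h.not_nilp]

theorem Rt.partner (hn : NU G) (hA : Rt G A) : ∃ B, Rt G B ∧ Op A B :=
  let ⟨a, ha, h0⟩ := hA.ex; let ⟨b, hb, e⟩ := hn.partner h2 h3 (hA.min ha h0); let ⟨B, hB, h⟩ := hb.rt
  ⟨B, hB, a, ha, b, h, e⟩

end Cfsg.Agent.C3.QP
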