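/-
Sets of abstract root subgroups, continued: lines and their stabilizers, connectivity, special rank one pairs.
-/
import Cfsg.Agent.C3.RS

set_option autoImplicit false

namespace Cfsg.Agent.C3

open Subgroup Cfsg.Agent.H2 Cfsg.Agent.BG
open scoped commutatorElement

variable {G : Type*} [Group G] {S : Set (Subgroup G)} {A B C D E F P Q : Subgroup G} {a b c d e f g x z : G}

theorem Om.K0 (h : Om S A D) (hAB : ⁅A, B⁆ = ⊥) (hp : Ps S B D) (hd : d ∈ D) (h1 : d ≠ 1) (ha : a ∈ A) (e : a ⋆ D = d ⋆ A) :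
    d ⋆ ⁅⁅B, D⁆, A⁆ = a ⋆ ⁅B, D⁆ := by
  have h2 := hp.sup_cj (inv_mem hd) (inv_ne_one.2 h1)
  have h3 := h.rs.comm_cj hp.r hp.l hp.symm.not_om (inv_mem hd)
  rw [cj_commutator a, cj_of_comm hAB ha, e, le_antisymm (comm_le_of_sup (cs hAB) (cs h3) (le_sup_right.trans_eq h2.symm))
    (comm_le_of_sup (cs hAB) hp.cl (le_sup_right.trans_eq h2)), cj_commutator, cj_cj_inv]

theorem Om.K1 (h : Om S A D) (hAB : ⁅A, B⁆ = ⊥) (hp : Ps S B D) : Ps S ⁅B, D⁆ A ∧ ⁅⁅⁅B, D⁆, A⁆, D⁆ = ⁅B, D⁆ := by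
  obtain ⟨a, ha, h1⟩ := h.o.exists_ne
  obtain ⟨d, hd, h2, e⟩ := h.o.left ha h1
  have h3 := h.K0 hAB hp hd h2 ha e
  have h4 : Ps S ⁅B, D⁆ A := ⟨h.rs, hp.m, h.l, cj_eq_iff.1 h3 ▸ h.rs.cj (h.rs.cj hp.m a) _⟩
  exact ⟨h4, cj_inj.1 ((h.symm.K0 hp.cr h4 ha h1 hd e.symm).trans h3)⟩

theorem Om.K2 (h : Om S A D) (hAB : ⁅A, B⁆ = ⊥) (hp : Ps S B D) (hr : ∀ x ∈ A ⊔ B, x ≠ 1 → ∃ P ∈ S, x ∈ P) :
    ⁅⁅B, D⁆, A⁆ = B := by
  obtain ⟨h1, h2⟩ := h.K1 hAB hp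
  have h3 : Ps S ⁅⁅B, D⁆, A⁆ D := ⟨h.rs, h1.m, h.r, by rw [h2]; exact hp.m⟩
  refine (h3.eq_of_le h.symm.ni hp.l fun b hb => ?_).symm
  obtain ⟨d, hd, h4⟩ := h.rs.exists_ne h.r
  obtain ⟨a, ha, h5⟩ := h.rs.exists_ne h.l
  obtain ⟨f, hf, h6⟩ := h3.right hd h4 (h2.ge (commutator_mem_commutator hb hd))
  have h7 : f⁻¹ * b ∈ 𝒞 A := mul_mem (inv_mem (comm_iff'.1 h1.cr hf)) (comm_iff'.1 hAB hb)
  have h8 : f⁻¹ * b ∈ 𝒞 (A ⊔ D) := by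
    rw [sup_comm, ← (h.o.symm.sup_cj hd h4).2]
    exact cent_sup.2 ⟨h7, cent_cj h7 (Ps.comm_eq h6).symm⟩
  have h9 := ccomm hp.cl (cs hAB)
  have hf' := commutator_comm_le _ _ hf
  obtain k | ⟨e, he, k⟩ := h1.symm.mem_cj (mul_mem (mem_sup_right hf') (mem_sup_left ha))
  · exact absurd (h1.symm.eq_one ha ((mul_mem_cancel_left hf').1 k)) h5
  obtain rfl | h10 := eq_or_ne b 1
  · exact one_mem _
  obtain ⟨P, hP, h11⟩ := hr (b * a) (mul_mem (mem_sup_right hb) (mem_sup_left ha)) fun k' =>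
    hp.not_om (by rw [h.ni.eq hp.l ((mul_mem_cancel_right ha).1 (k' ▸ one_mem A)) hb h10]; exact h.o)
  have h12 := (h.cj e).eq_one (z := f⁻¹ * b) hP (by
    rw [← cj_sup]
    exact cent_cj h8 (mul_mem (inv_mem (comm_iff'.1 h1.cl hf)) (comm_iff.1 hp.cl hb) e he)) k (fun k' =>
      h5 (h1.symm.eq_one ha ((mul_mem_cancel_left hf').1 (by rw [k']; exact one_mem _)))) (by
    rwa [← mul_assoc, mul_assoc _ b, cm h9 hb hf, inv_mul_cancel_left])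
  rwa [← inv_mul_eq_one.1 h12]

theorem Ln.exists_ps (h : Ln S A B) (hD : Om S A D) : ∃ C, Ps S C D ∧ ⁅⁅C, D⁆, A⁆ = C ∧ A ⊔ C = A ⊔ B := by
  obtain ⟨C, hC, h1, h2⟩ : ∃ C ∈ S, C ≤ A ⊔ B ∧ ¬ IsRankOnePair C D := by
    by_cases hB : IsRankOnePair B D
    swap
    · exact ⟨B, h.r, le_sup_right, hB⟩
    obtain ⟨d, hd, h1⟩ := h.rs.exists_ne hD.r
    obtain ⟨a, ha, h2, e⟩ := hD.o.symm.left hd h1
    obtain ⟨b, hb, -, e'⟩ := hB.symm.left hd h1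
    have h3 : b⁻¹ * a ≠ 1 := fun k => h.ne (h.eq h.l h.r le_sup_left le_sup_right ha (inv_mul_eq_one.1 k ▸ hb) h2)
    obtain ⟨C, hC, h4, h5⟩ := h.point (mul_mem (mem_sup_right (inv_mem hb)) (mem_sup_left ha)) h3
    refine ⟨C, hC, h4, fun k => (k.sup_cj h5 h3).1.not_comm ?_⟩
    simpa only [e, e', ← cj_mul, inv_mul_cancel, cj_one] using cj_comm (cj_comm (cs h.comm) d) b⁻¹
  have h3 : ∀ x ∈ C, x ∈ A → x = 1 := fun x hx hx' => by_contra fun k => h2 (hD.ni.eq hC hx' hx k ▸ hD.o)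
  have h4 := h.ab le_sup_left h1
  have h5 := sup_le le_sup_left h1
  obtain ⟨c, hc, h6⟩ := h.rs.exists_ne hC
  have h7 : Ps S C D := ((h.rs.tri hC hD.r).resolve_left fun k => by
    obtain ⟨a, ha, h7⟩ := h.rs.exists_ne h.l
    obtain ⟨P, hP, -, h8⟩ := h.point (mul_mem (h1 hc) (mem_sup_left ha)) fun k' =>
      h6 (h3 c hc (eq_inv_of_mul_eq_one_left k' ▸ inv_mem ha))
    exact h6 (hD.eq_one hP (comm_iff.1 (csup' (cs h4) k) hc) ha h7 h8)).resolve_left fun k => h2 k.o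
  have h8 := hD.K2 h4 h7 fun x hx k => let ⟨P, hP, _, k'⟩ := h.point (h5 hx) k; ⟨P, hP, k'⟩
  refine ⟨C, h7, h8, h5.antisymm (sup_le le_sup_left ?_)⟩
  obtain ⟨a, ha, b, hb, rfl⟩ := mem_sup_comm h.comm (h1 hc)
  have h9 : b ≠ 1 := fun k => h6 (h3 _ hc (by rwa [k, mul_one]))
  have h10 := (hD.K1 h4 h7).1.symm
  have h11 := commutator_comm _ A ▸ h8
  obtain k | ⟨e, he, k⟩ := h10.mem_cj (x := b) (by
    rw [h11]; exact (mul_mem_cancel_left (mem_sup_left ha)).1 (mem_sup_right hc))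
  · exact (h.eq h.r hC le_sup_right h1 hb (h11 ▸ k) h9).trans_le le_sup_right
  · have h12 := (h10.cj_le he).trans_eq (congrArg _ h11)
    exact (h.eq h.r (h.rs.cj h.l e) le_sup_right (h12.trans h5) hb k h9).trans_le h12

/-- The points of a line through a non-isolated point. -/
theorem Ln.exists_line (h : Ln S A B) (hD : Om S A D) : ∃ C E, Ps S C D ∧ E = ⁅C, D⁆ ∧ Ps S A E ∧ ⁅A, E⁆ = C ∧ A ⊔ C = A ⊔ B ∧
    ∀ P ∈ S, P ≤ A ⊔ B → P = C ∨ ∃ e ∈ E, P = e ⋆ A := by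
  obtain ⟨C, h1, h2, h3⟩ := h.exists_ps hD
  have h4 := (hD.K1 (h.ab le_sup_left (le_sup_right.trans_eq h3)) h1).1.symm
  rw [commutator_comm] at h2
  exact ⟨C, _, h1, rfl, h4, h2, h3, fun P hP k => (h4.line hD.ni hP (by rwa [h2, h3])).imp_left (·.trans h2)⟩

/-- Reachability in the graph of rank one pairs. -/
abbrev Re (S : Set (Subgroup G)) : Subgroup G → Subgroup G → Prop := Relation.ReflTransGen (FAdj S)

theorem Om.re (h : Om S A B) : Re S A B := .single ⟨h.l, h.r, h.o⟩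

theorem Re.symm (h : Re S A B) : Re S B A := by
  induction h with
  | refl => exact .refl
  | tail _ k ih => exact .head ⟨k.2.1, k.1, k.2.2.symm⟩ ih

theorem Ln.re (h : Ln S A B) (hA : NI S A) (hB : NI S B) : Re S A B := by
  have k : ∀ {A B}, Ln S A B → NI S A → ∃ C, ∀ P ∈ S, P ≤ A ⊔ B → P ≠ C → Re S A P := by
    rintro A B h ⟨D, hD⟩
    obtain ⟨C, E, h1, rfl, -, -, -, h2⟩ := h.exists_line hD
    refine ⟨C, fun P hP h3 h4 => ?_⟩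
    obtain ⟨e, he, rfl⟩ := (h2 P hP h3).resolve_left h4
    exact hD.re.trans (by simpa only [cj_of_comm (cs h1.cr) he] using (hD.cj e).symm.re)
  obtain ⟨C, h1⟩ := k h hA
  obtain ⟨C', h2⟩ := k h.symm hB
  obtain ⟨P, hP, h3, h4, h5⟩ := h.third
  by_cases e : B = C
  · by_cases e' : A = C'
    · exact (h1 P hP h3 (e ▸ h5)).trans (h2 P hP (sup_comm A B ▸ h3) (e' ▸ h4)).symm
    · exact (h2 A h.l le_sup_right e').symm
  · exact h1 B h.r le_sup_right e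

theorem Ps.ln_cj (h : Ps S A B) (hA : NI S A) (hb : b ∈ B) : A = b ⋆ A ∨ Ln S A (b ⋆ A) :=
  or_iff_not_imp_left.2 fun k => (h.ln hA).of_eq h.l (h.rs.cj h.l b) k (h.sup_cj hb fun e => k (by rw [e, cj_one]))

section Conn

variable (hS : IsRootSubgroupSet S) (hn : ∀ A ∈ S, NI S A)
include hS hn

theorem re_cj (g : G) : ∀ A ∈ S, Re S A (g ⋆ A) := by
  refine hS.ind (p := fun g => ∀ A ∈ S, Re S A (g ⋆ A)) (fun D hD d hd A hA => ?_) (fun A _ => by rw [cj_one])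
    (fun x y hx hy A hA => by rw [cj_mul]; exact (hy A hA).trans (hx _ (hS.cj hA y))) g
  obtain k | k | k := hS.tri hD hA
  · rw [cj_of_comm k hd]
  · exact k.symm.re.trans (by simpa only [cj_eq_of_mem hd] using (k.cj d).re)
  · obtain k | k := k.symm.ln_cj (hn A hA) hd
    exacts [k ▸ .refl, k.re (hn A hA) (hn _ k.r)]

omit hS in
/-- The stabilizer of a line acts doubly transitively on its points. -/
theorem Ln.two (h : Ln S A B) {P' Q' : Subgroup G} (hP : P ∈ membersIn S (A ⊔ B)) (hQ : Q ∈ membersIn S (A ⊔ B))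
    (hP' : P' ∈ membersIn S (A ⊔ B)) (hQ' : Q' ∈ membersIn S (A ⊔ B)) (h1 : P ≠ Q) (h2 : P' ≠ Q') :
    (∃ x ∈ ⨆ E ∈ normalizingMembers S (A ⊔ B), E, x ⋆ P = P' ∧ x ⋆ Q = Q') ∧ ∃ F ∈ S, ⁅P, F⁆ = Q ∧ P ⊔ Q = A ⊔ B := by
  generalize hH : ⨆ E ∈ normalizingMembers S (A ⊔ B), E = H
  have k : ∀ {A' B'}, Ln S A' B' → A' ⊔ B' = A ⊔ B → ∃ C ∈ S, ∃ E ∈ S, E ≤ H ∧ ⁅E, C⁆ = ⊥ ∧ ⁅A', E⁆ = C ∧ A' ⊔ C = A ⊔ B ∧ A' ≠ C ∧
      ∀ P ∈ membersIn S (A ⊔ B), P ≠ C → ∃ e ∈ E, P = e ⋆ A' := fun {A' B'} h' e => by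
    obtain ⟨D, hD⟩ := hn A' h'.l
    obtain ⟨C, E, k1, -, k2, rfl, k3, k4⟩ := h'.exists_line hD
    exact ⟨_, k1.l, E, k2.r, hH ▸ le_biSup (fun E => E) (show E ∈ normalizingMembers S _ from ⟨k2.r, e ▸ k3 ▸ k2.norm⟩), k2.cr, rfl,
      k3.trans e, k2.ne, fun P hP k => (k4 P hP.1 (e ▸ hP.2)).resolve_left k⟩
  obtain ⟨C, hC, E, hE, e1, e2, e3, e4, e5, e6⟩ := k h rfl
  have hl := h.of_eq hC h.l e5.symm ((sup_comm _ _).trans e4)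
  obtain ⟨C', hC', E', -, e1', -, -, e4', e5', e6'⟩ := k hl ((sup_comm _ _).trans e4)
  have hN : ∀ x ∈ H, ∀ P ∈ membersIn S (A ⊔ B), x ⋆ P ∈ membersIn S (A ⊔ B) := fun x hx P hP => ⟨h.rs.cj hP.1 x,
    H8.cj_le_of_mem hP.2 ((iSup₂_le fun _ k => k.2 : ⨆ E ∈ normalizingMembers S (A ⊔ B), E ≤ 𝒩 (A ⊔ B)) (hH ▸ hx))⟩
  have k1 : ∀ P ∈ membersIn S (A ⊔ B), P ≠ C' → ∃ x ∈ H, x ⋆ P = C := fun P hP k => by
    obtain ⟨e, he, rfl⟩ := e6' P hP k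
    exact ⟨e⁻¹, e1' (inv_mem he), cj_inv_cj _ _⟩
  have k2 : ∀ P ∈ membersIn S (A ⊔ B), ∃ x ∈ H, x ⋆ P = C := fun P hP => by
    obtain rfl | k := eq_or_ne P C'
    swap
    · exact k1 P hP k
    obtain ⟨R, hR, r1, r2, r3⟩ := (h.of_eq hC hC' e5' e4').third
    obtain ⟨e, he, r4⟩ := e6 P hP e5'.symm
    obtain ⟨e', he', rfl⟩ := e6 R ⟨hR, e4' ▸ r1⟩ r2
    obtain ⟨x, hx, r5⟩ := k1 _ ⟨hR, e4' ▸ r1⟩ r3
    exact ⟨x * (e' * e⁻¹), mul_mem hx (e1 (mul_mem he' (inv_mem he))), by rw [cj_mul, cj_mul, r4, cj_inv_cj, r5]⟩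
  have k3 : ∀ P ∈ membersIn S (A ⊔ B), ∀ Q ∈ membersIn S (A ⊔ B), P ≠ Q → ∃ x ∈ H, P = x ⋆ A ∧ Q = x ⋆ C := fun P hP Q hQ k => by
    obtain ⟨x, hx, r1⟩ := k2 Q hQ
    obtain ⟨e, he, r2⟩ := e6 _ (hN x hx P hP) (r1 ▸ mt cj_inj.1 k)
    exact ⟨x⁻¹ * e, mul_mem (inv_mem hx) (e1 he), by rw [cj_mul, ← r2, cj_inv_cj], by rw [cj_mul, cj_of_comm e2 he, ← r1, cj_inv_cj]⟩
  obtain ⟨x, hx, rfl, rfl⟩ := k3 P hP Q hQ h1
  obtain ⟨y, hy, rfl, rfl⟩ := k3 P' hP' Q' hQ' h2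
  exact ⟨⟨y * x⁻¹, mul_mem hy (inv_mem hx), by rw [cj_mul, cj_inv_cj], by rw [cj_mul, cj_inv_cj]⟩, _, h.rs.cj hE x,
    by rw [← cj_commutator, e3], by
      rw [← cj_sup, e4]
      exact cj_eq_of_mem_normalizer ((iSup₂_le fun _ k => k.2 : ⨆ E ∈ normalizingMembers S (A ⊔ B), E ≤ 𝒩 (A ⊔ B)) (hH ▸ hx))⟩

omit hS in
theorem Ln.exists_comm (h : Ln S A B) : ∃ F, Ps S A F ∧ ⁅A, F⁆ = B :=
  let ⟨F, hF, e, _⟩ := (h.two hn ⟨h.l, le_sup_left⟩ ⟨h.r, le_sup_right⟩ ⟨h.l, le_sup_left⟩ ⟨h.r, le_sup_right⟩ h.ne h.ne).2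
  ⟨F, ⟨h.rs, h.l, hF, e ▸ h.r⟩, e⟩

omit hS in
theorem Ln.of_le (h : Ln S A B) (hP : P ∈ S) (hQ : Q ∈ S) (h1 : P ≤ A ⊔ B) (h2 : Q ≤ A ⊔ B) (h3 : P ≠ Q) : Ln S P Q :=
  let ⟨_, _, _, e⟩ := (h.two hn ⟨hP, h1⟩ ⟨hQ, h2⟩ ⟨hP, h1⟩ ⟨hQ, h2⟩ h3 h3).2
  h.of_eq hP hQ h3 e

end Conn

theorem Re.conj (h : Re S A B) : ∃ g : G, B = g ⋆ A := by
  induction h with
  | refl => exact ⟨1, (cj_one _).symm⟩
  | tail _ k ih =>
    obtain ⟨g, rfl⟩ := ih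
    obtain ⟨w, -, e, -⟩ := k.2.2.exists_swap
    exact ⟨w * g, by rw [cj_mul, e]⟩

theorem Re.ni (hS : IsRootSubgroupSet S) (h : Re S A B) (h1 : A ≠ B) : NI S A := by
  obtain rfl | ⟨C, k, -⟩ := h.cases_head
  exacts [absurd rfl h1, ⟨C, hS, k.1, k.2.1, k.2.2⟩]

theorem ni_all (hc : IsConjClassOfSubgroups S) (h : NI S A) : ∀ B ∈ S, NI S B := fun B hB =>
  let ⟨g, e⟩ := hc.2 A h.mem B hB; e ▸ h.cj g

theorem conn (hS : IsRootSubgroupClass S) (h : NI S A) : IsConnectedFamily (FAdj S) S := fun B hB C hC =>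
  let ⟨g, e⟩ := hS.2.2 B hB C hC; e ▸ re_cj hS.1 (ni_all hS.2 h) g B hB

section Dual

variable (h : Ps S A B) (hC : ⁅A, B⁆ = C) (h' : Ps S D C) (hA : ⁅D, C⁆ = A)
include h hC h' hA

theorem Ps.norm_dual : B ⊔ D ≤ 𝒩 (A ⊔ C) := sup_le (hC ▸ h.norm) (by
  have := h'.symm.norm
  rwa [commutator_comm, hA, sup_comm] at this)

theorem Ps.om : Om S B D := by
  refine ⟨h.rs, h.r, h'.l, by_contra fun k => ?_⟩
  obtain ⟨b, hb, h1⟩ := h.rs.exists_ne h.r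
  obtain ⟨d, hd, h2⟩ := h.rs.exists_ne h'.l
  have h3 := conj_mem_cj b hd
  have h4 : ⁅A, D⁆ = ⊥ := by rw [← hA]; exact cs h'.cl
  have h5 : (b * d * b⁻¹) ⋆ A ≤ A := by
    have h6 := h.norm_dual hC h' hA
    conv_lhs => rw [← hA, cj_commutator, cj_of_comm (h.rs.comm_cj h.r h'.l k hb) h3, commutator_comm]
    refine (comm_le_of_sup h4 (hC ▸ h.cl) (H8.cj_le_of_mem le_sup_right (h6 ?_))).trans_eq ((commutator_comm _ _).trans hA)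
    exact mul_mem (mul_mem (mem_sup_left hb) (mem_sup_right hd)) (mem_sup_left (inv_mem hb))
  refine h1 (h.symm.not_cent hb fun a ha => (commutatorElement_eq_one_iff_mul_comm.1 (h.eq_one ?_
    (commutator_comm_le _ _ (commutator_mem_commutator hb ha)))).symm)
  obtain ⟨c, hc, rfl⟩ := h'.left hd h2 (hA.ge ha)
  obtain ⟨a', ha', rfl⟩ := h.symm.left (inv_mem hb) (inv_ne_one.2 h1) (commutator_comm_le _ _ (hC.ge hc))
  refine mul_mem ?_ (inv_mem ha)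
  convert mul_mem (h5 (conj_mem_cj _ ha')) (inv_mem ha') using 1
  simp only [commutatorElement_def, mul_inv_rev, inv_inv, mul_assoc, mul_left_inj, mul_right_inj]
  rw [← mul_assoc a'⁻¹, cm h4 (inv_mem ha') (inv_mem hd)]
  group

omit h' hA in
theorem Ps.pt (hx : x ∈ 𝒩 (A ⊔ C)) : x ⋆ C = (A ⊔ C) ⊓ 𝒞 (x ⋆ B) := by
  rw [← cj_centralizer, ← cj_eq_of_mem_normalizer hx, ← cj_inf, cj_inj]
  subst hC
  refine le_antisymm (le_inf le_sup_right (comm_iff'.1 h.cr)) fun y hy => ?_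
  obtain ⟨a, ha, c, hc, rfl⟩ := mem_sup_comm h.cl hy.1
  rwa [h.not_cent ha ((mul_mem_cancel_right (comm_iff'.1 h.cr hc)).1 hy.2), one_mul]

end Dual

section Triangle

variable (h : Om S A B) (h' : Om S C B) (hAC : ⁅A, C⁆ = ⊥)
include h h' hAC

theorem tri_inv {b' : G} (ha : a ∈ A) (h1 : a ≠ 1) (hc : c ∈ C) (e1 : b ⋆ A = a ⋆ B) (e2 : b ⋆ C = c ⋆ B) (hb' : b' ∈ B)
    (e3 : b' ⋆ A = a⁻¹ ⋆ B) : b' ⋆ C = c⁻¹ ⋆ B := by
  by_contra k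
  have h2 := cj_comm (cj_comm hAC b) (a * c)⁻¹
  rw [e1, e2, ← cj_mul, ← cj_mul, mul_inv_rev, inv_mul_cancel_right, ← cm hAC (inv_mem ha) (inv_mem hc), inv_mul_cancel_right] at h2
  have h3 := (h'.o.of_un (un_cj un_left (mem_sup_right hb')) (un_cj h'.o.un_right (mem_sup_left (inv_mem hc))) k).2
  exact (h.o.sup_cj (inv_mem ha) (inv_ne_one.2 h1)).1.not_comm (cmono (csup (cs (e3 ▸ cj_comm hAC b')) h2)
    (le_sup_right.trans_eq h3.symm) le_rfl)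

theorem tri_swap : ∃ g : G, g ⋆ A = C ∧ g ⋆ C = A := by
  obtain ⟨a, ha, h1⟩ := h.o.exists_ne
  obtain ⟨b, hb, h2, e1⟩ := h.o.left ha h1
  obtain ⟨c, hc, -, e2⟩ := h'.o.symm.left hb h2
  obtain ⟨b', hb', -, e3⟩ := h.o.left (inv_mem ha) (inv_ne_one.2 h1)
  refine ⟨b⁻¹ * (a * c) * b', ?_, ?_⟩
  · rw [cj_mul, ← e3, cm hAC ha hc, cj_mul, cj_mul, cj_cj_inv, ← e2, cj_inv_cj]
  · rw [cj_mul, tri_inv h h' hAC ha h1 hc e1.symm e2 hb' e3.symm, cj_mul, cj_mul, cj_cj_inv, e1, cj_inv_cj]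

omit h' hAC in
theorem tri_inj {t : G} (h1 : ⁅t ⋆ B, B⁆ = ⊥) (h2 : t ⋆ B ≠ B) (hb : b ∈ B) (e : (t * b * t⁻¹) ⋆ A = b ⋆ A) : b = 1 :=
  by_contra fun k => h2 (h.o.symm.eq_of_comm (h.symm.mem_of_cj (h.rs.cj h.r t) (conj_mem_cj t hb) hb k e) un_left h1)

theorem tri_special (hne : A ≠ C) : IsSpecialRankOnePair A B := by
  refine h.o.special fun a ha b hb h2 e1 => ?_
  have h1 : a ≠ 1 := fun k => h.o.ne (by rw [← cj_inv_cj b A, e1, k, cj_one, cj_eq_of_mem (inv_mem hb)])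
  obtain ⟨c, hc, -, e2⟩ := h'.o.symm.left hb h2
  obtain ⟨b', hb', -, e3⟩ := h.o.left (inv_mem ha) (inv_ne_one.2 h1)
  have e4 := tri_inv h h' hAC ha h1 hc e1 e2 hb' e3.symm
  have h3 : ⁅(a⁻¹ * c) ⋆ B, B⁆ = ⊥ := by simpa only [e1, e2, cj_inv_cj, ← cj_mul a⁻¹ c] using cj_comm (cj_comm (cs hAC) b) a⁻¹
  have h4 : (a⁻¹ * c)⁻¹ ⋆ A = A :=
    (cj_eq_iff.1 (by rw [cj_mul, cj_of_comm (cs hAC) hc, cj_eq_of_mem (inv_mem ha)])).symm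
  have h5 : (a⁻¹ * c)⁻¹ ⋆ C = C := (cj_eq_iff.1 (by rw [cj_mul, cj_eq_of_mem hc, cj_of_comm hAC (inv_mem ha)])).symm
  have h6 : (a⁻¹ * c * b * (a⁻¹ * c)⁻¹) ⋆ A = b ⋆ C := by
    rw [cj_mul, h4, cj_mul, e1, e2, ← cj_mul, cm hAC (inv_mem ha) hc, inv_mul_cancel_right]
  have h7 : (a⁻¹ * c * b' * (a⁻¹ * c)⁻¹) ⋆ C = b' ⋆ A := by rw [cj_mul, h5, cj_mul, e4, ← e3, ← cj_mul, mul_inv_cancel_right]
  rw [e3, inv_eq_of_mul_eq_one_left (tri_inj h h3 (fun k => hne ((cj_inj (g := b)).1 (by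
    rw [cj_mul, cj_eq_iff, inv_inv] at k
    rw [e1, e2, k]))) (mul_mem hb' hb) (by
    rw [← conj_mul, cj_mul, h6, ← cj_mul, cm h3 (conj_mem_cj _ hb') hb, cj_mul, h7, ← cj_mul, cm (h.rs.ab h.r) hb hb']))]

end Triangle

theorem Ln.special (h : Ln S A C) (hB : Om S A B) : IsSpecialRankOnePair A B := by
  obtain ⟨C', E, h1, rfl, h2, h3, h4, h5⟩ := h.exists_line hB
  obtain ⟨P, hP, k1, k2, k3⟩ := (h.of_eq h.l h1.l (h2.ne.trans_eq h3) h4).third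
  obtain ⟨e, he, rfl⟩ := (h5 P hP (h4 ▸ k1)).resolve_left k3
  exact tri_special hB (by simpa only [cj_of_comm (cs h1.cr) he] using hB.cj e) (h.ab le_sup_left (h4 ▸ k1)) k2.symm

section Nondeg

variable (hS : IsRootSubgroupClass S) (hn : ∀ A ∈ S, NI S A) (hp : Ps S P Q)
include hS hn hp

theorem exists_ln (hA : A ∈ S) : ∃ B, Ln S A B :=
  let ⟨g, e⟩ := hS.2.2 P hp.l A hA
  ⟨_, by rw [e]; exact (hp.cj g).ln ((hn P hp.l).cj g)⟩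

theorem Om.exists_ln_ps (h : Om S A B) : ∃ C, Ln S A C ∧ Ps S C B := by
  obtain ⟨C, hC⟩ := exists_ln hS hn hp h.l
  obtain ⟨C', E, h1, -, h2, h3, h4, -⟩ := hC.exists_line h
  exact ⟨C', hC.of_eq h.l h1.l (h2.ne.trans_eq h3) h4, h1⟩

theorem econn : IsConnectedFamily (EAdj S S) S := by
  have k : ∀ {A B}, Ln S A B → Relation.ReflTransGen (EAdj S S) A B := fun h => .single ⟨h.l, h.r, h.m⟩
  have k' : ∀ {A B d}, Ps S A B → d ∈ B → Relation.ReflTransGen (EAdj S S) A (d ⋆ A) := fun h hd => by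
    obtain e | e := h.ln_cj (hn _ h.l) hd
    exacts [e ▸ .refl, k e]
  intro A hA B hB
  obtain ⟨g, rfl⟩ := hS.2.2 A hA B hB
  refine hS.1.ind (p := fun g => ∀ A ∈ S, Relation.ReflTransGen (EAdj S S) A (g ⋆ A)) (fun D hD d hd A hA => ?_)
    (fun A _ => by rw [cj_one]) (fun x y hx hy A hA => by rw [cj_mul]; exact (hy A hA).trans (hx _ (hS.1.cj hA y))) g A hA
  obtain h | h | h := hS.1.tri hA hD
  · rw [cj_of_comm (cs h) hd]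
  · obtain ⟨C, h1, h2⟩ := h.exists_ln_ps hS hn hp
    obtain ⟨F, h3, rfl⟩ := h1.symm.exists_comm hn
    exact (k h1).trans ((k' h2 hd).trans (k (cj_commutator d C F ▸ (h3.cj d).ln ((hn C h3.l).cj d))))
  · exact k' h hd

theorem Om.gen (h : Om S A B) : (⨆ C ∈ linePartners S A, C) ⊔ B = ⊤ := by
  generalize hH : (⨆ C ∈ linePartners S A, C) ⊔ B = H
  have h1 : ∀ {C}, Ln S A C → C ≤ H := fun k => hH ▸ le_sup_of_le_left (le_biSup (fun C => C) k.m)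
  have h2 : ∀ {C}, Ln S A C → ∃ x ∈ H, C = x ⋆ A := fun {C} k => by
    obtain ⟨C', E, k1, rfl, k2, k3, k4, k5⟩ := k.exists_line h
    have k6 := k.of_eq h.l k1.l (k2.ne.trans_eq k3) k4
    have k7 : ⁅C', B⁆ ≤ H := (commutator_le_sup _ _).trans (sup_le (h1 k6) (hH ▸ le_sup_right))
    obtain rfl | ⟨e, he, rfl⟩ := k5 C k.r le_sup_right
    swap
    · exact ⟨e, k7 he, rfl⟩
    obtain ⟨F, l1, l2⟩ := k.symm.exists_comm hn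
    have l3 : F ≤ H := h1 (by simpa only [commutator_comm F, l2] using (l1.symm.ln (hn F l1.r)).symm)
    obtain ⟨R, hR, r1, r2, r3⟩ := k.third
    obtain ⟨e, he, r4⟩ := (k5 R hR r1).resolve_left r3
    obtain ⟨f, hf, r5⟩ := (l1.line (hn C l1.l) hR (by rwa [l2, sup_comm])).resolve_left (by rwa [l2])
    exact ⟨f⁻¹ * e, mul_mem (inv_mem (l3 hf)) (k7 he), by rw [cj_mul, ← r4, r5, cj_inv_cj]⟩
  have h3 : A ≤ H := fun a ha => by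
    obtain ⟨C, k⟩ := exists_ln hS hn hp h.l
    obtain ⟨R, hR, r1, r2, r3⟩ := k.third
    obtain ⟨-, F, -, -, e⟩ := k.two hn ⟨k.r, le_sup_right⟩ ⟨hR, r1⟩ ⟨k.r, le_sup_right⟩ ⟨hR, r1⟩ r3.symm r3.symm
    exact sup_le (h1 k) (h1 (k.of_le hn h.l hR le_sup_left r1 r2.symm)) (e.ge (mem_sup_left ha))
  refine hS.1.eq_top fun D hD => ?_
  suffices k : ∃ x ∈ H, D = x ⋆ A by
    obtain ⟨x, hx, rfl⟩ := k
    exact cj_le_of_le h3 hx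
  have k := econn hS hn hp A h.l D hD
  clear hD
  induction k with
  | refl => exact ⟨1, one_mem _, (cj_one _).symm⟩
  | tail _ k ih =>
    obtain ⟨x, hx, rfl⟩ := ih
    obtain ⟨F, l1, rfl⟩ := Ln.exists_comm hn ⟨hS.1, k.1, k.2.2⟩
    obtain ⟨y, hy, e⟩ := h2 (by simpa only [cj_inv_cj] using (l1.cj x⁻¹).ln ((hn _ l1.l).cj x⁻¹))
    exact ⟨x * y, mul_mem hx hy, by rw [cj_mul, ← e, cj_commutator, cj_cj_inv]⟩

end Nondeg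

theorem nd_setup (hS : IsRootSubgroupClass S) (h : IsNondegenerateRootSet S) : (∀ A ∈ S, NI S A) ∧ ∃ P Q, Ps S P Q :=
  let ⟨_, ⟨_, hA, B, hB, k⟩, P, hP, Q, hQ, k'⟩ := h
  ⟨ni_all hS.2 ⟨B, hS.1, hA, hB, k⟩, P, Q, hS.1, hP, hQ, k'.1⟩

theorem deg_tri (hS : IsRootSubgroupSet S) (h : IsDegenerateRootSet S) (hA : A ∈ S) (hB : B ∈ S) : ⁅A, B⁆ = ⊥ ∨ Om S A B :=
  (hS.tri hA hB).imp_right fun k => k.resolve_right fun k => h A hA B hB k.rcc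

/-- In a degenerate class with two different commuting members every rank one pair is special. -/
theorem deg_special (hS : IsRootSubgroupClass S) (hd : IsDegenerateRootSet S) (hPQ : P ≠ Q) (hP : P ∈ S) (hQ : Q ∈ S)
    (hc : ⁅P, Q⁆ = ⊥) (h : Om S A B) : IsSpecialRankOnePair A B := by
  by_cases h1 : ∃ C, C ≠ A ∧ ⁅A, C⁆ = ⊥ ∧ Om S C B
  · obtain ⟨C, h1, h2, h3⟩ := h1
    exact tri_special h h3 h2 h1.symm
  have h2 : ∀ C ∈ S, C ≠ A → ⁅A, C⁆ = ⊥ → ⁅C, B⁆ = ⊥ := fun C hC k k' =>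
    (deg_tri hS.1 hd hC h.r).resolve_right fun k'' => h1 ⟨C, k, k', k''⟩
  obtain ⟨C, D, h3, h4, h5, h6⟩ : ∃ C D, C ≠ A ∧ ⁅A, C⁆ = ⊥ ∧ Om S C D ∧ Om S A D := by
    by_contra! k
    obtain ⟨g, rfl⟩ := hS.2.2 P hP A h.l
    have k1 : ∀ E, Re S (g ⋆ Q) E → E ≠ g ⋆ P ∧ ⁅g ⋆ P, E⁆ = ⊥ := fun E k1 => by
      induction k1 with
      | refl => exact ⟨mt cj_inj.1 hPQ.symm, cj_comm hc g⟩
      | tail _ k1 ih => exact ⟨fun e => k1.2.2.not_comm (cs (e ▸ ih.2)), (deg_tri hS.1 hd h.l k1.2.1).resolve_right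
          (k _ _ ih.1 ih.2 ⟨hS.1, k1.1, k1.2.1, k1.2.2⟩)⟩
    exact (k1 _ (conn hS h.ni _ (hS.1.cj hQ g) _ h.l)).1 rfl
  have h7 : ∀ d ∈ D, ∀ d' ∈ D, ∀ d'' ∈ D, d ≠ 1 → d' ≠ 1 → d'' ≠ 1 → d' ≠ d → d'' ≠ d → d'' = d' := by
    intro d hd d' hd' d'' hd'' k1 k2 k3 k4 k5
    by_contra k6
    obtain ⟨a, ha, -, e1⟩ := h6.o.symm.left hd k1
    obtain ⟨c, hc, -, e2⟩ := h5.o.symm.left hd k1
    obtain ⟨a', ha', -, e3⟩ := h6.o.symm.left hd' k2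
    have l1 : ⁅(a⁻¹ * c) ⋆ D, D⁆ = ⊥ := by simpa only [e1, e2, cj_inv_cj, ← cj_mul a⁻¹ c] using cj_comm (cj_comm (cs h4) d) a⁻¹
    have l2 : (a⁻¹ * c) ⋆ D ≠ D := fun k => h3 ((cj_inj (g := d)).1 (by
      rw [cj_mul, cj_eq_iff, inv_inv] at k
      rw [e1, e2, k]))
    have l3 : a⁻¹ * c ∈ 𝒞 A := mul_mem (inv_mem (comm_iff.1 (hS.1.ab h.l) ha)) (comm_iff'.1 h4 hc)
    have l4 : a⁻¹ * c ∈ A ⊔ C := mul_mem (mem_sup_left (inv_mem ha)) (mem_sup_right hc)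
    have l5 : (d⁻¹ * (a⁻¹ * c * d * (a⁻¹ * c)⁻¹)) ⋆ A = C := by
      rw [cj_mul, cj_mul, cj_of_cent (inv_mem l3), cj_mul, e1, ← cj_mul _ a, cm h4 (inv_mem ha) hc, inv_mul_cancel_right, ← e2,
        cj_inv_cj]
    have l6 : a' ≠ a := fun k => k4 (h6.o.symm.eq_of_cj hd' hd (by rw [e1, e3, k]))
    have l7 : (a⁻¹ * c * a') ⋆ B = (a⁻¹ * a') ⋆ B := by
      rw [mul_assoc, ← cm h4 ha' hc, ← mul_assoc, cj_mul, cj_of_comm (h2 C h5.l h3 h4) hc]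
    have l8 : a⁻¹ * c * a' ∈ 𝒞 (A ⊔ C) := comm_iff.1 (csup (csup' (hS.1.ab h.l) h4) (csup' (cs h4) (hS.1.ab h5.l)))
      (mul_mem l4 (mem_sup_left ha'))
    generalize a⁻¹ * c = t at l1 l2 l3 l4 l5 l7 l8
    obtain ⟨u, hu⟩ : ∃ u : G → G, ∀ x, u x = x⁻¹ * (t * x * t⁻¹) := ⟨_, fun _ => rfl⟩
    rw [← hu] at l5
    have u1 : ∀ x ∈ D, u x ∈ 𝒞 D := fun x hx =>
      hu x ▸ mul_mem (inv_mem (comm_iff.1 (hS.1.ab h5.r) hx)) (comm_iff.1 l1 (conj_mem_cj t hx))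
    have u2 : ∀ x ∈ D, ∀ y ∈ D, u y = u x * u (x⁻¹ * y) := fun x hx y hy => by
      simp only [hu]
      rw [Commute.mul_mul_mul_comm (cm l1 (conj_mem_cj t hx) (inv_mem (mul_mem (inv_mem hx) hy))), conj_mul, mul_inv_cancel_left,
        cm (hS.1.ab h5.r) (inv_mem hx) (inv_mem (mul_mem (inv_mem hx) hy)), ← mul_inv_rev, mul_inv_cancel_left]
    have u3 : ∀ x ∈ D, ⁅A, u x ⋆ A⁆ = ⊥ := fun x hx => by
      obtain rfl | k := eq_or_ne x 1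
      · simpa [hu, cj_one] using hS.1.ab h.l
      obtain ⟨y, hy, -, e⟩ := h6.o.symm.left hx k
      have := cj_comm (cj_comm (cs l1) y) x⁻¹
      rwa [← e, cj_inv_cj, ← cj_mul y, l3 y hy, cj_mul t, ← e, ← cj_of_cent (inv_mem l3), ← cj_mul x, ← cj_mul t, ← mul_assoc,
        ← cj_mul x⁻¹, cj_of_cent (inv_mem l3), ← hu] at this
    have u4 : ∀ x ∈ D, ∀ y ∈ D, ⁅u x ⋆ A, u y ⋆ A⁆ = ⊥ := fun x hx y hy => by
      rw [u2 x hx y hy, cj_mul]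
      exact cj_comm (u3 _ (mul_mem (inv_mem hx) hy)) _
    have u5 : ∀ x ∈ D, ∀ y ∈ D, u x ⋆ A = u y ⋆ A → x = y := fun x hx y hy e => by
      rw [u2 x hx y hy, cj_mul, cj_inj, hu, cj_mul, eq_comm, cj_eq_iff, inv_inv] at e
      exact inv_mul_eq_one.1 (tri_inj h6 l1 l2 (mul_mem (inv_mem hx) hy) e)
    have u6 : u 1 ⋆ A = A := by simp [hu, cj_one]
    have m1 : Om S (u d' ⋆ A) D := by simpa only [cj_of_cent (u1 d' hd')] using h6.cj (u d')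
    obtain ⟨c', hc', -, e4⟩ := m1.o.symm.left hd' k2
    have m2 : c'⁻¹ * (t * a') ∈ 𝒞 (A ⊔ C) := mul_mem (inv_mem (comm_iff'.1 (csup (u3 d' hd') (l5 ▸ u4 d hd d' hd')) hc')) l8
    have m3 : c'⁻¹ * (t * a') ∈ 𝒞 (A ⊔ D) := h6.o.cent_of_norm (cent_sup.1 m2).1 (by
      rw [cj_mul, cj_mul, ← e3, eq_comm, ← cj_eq_iff, ← e4, ← cj_mul d', hu, mul_inv_cancel_left, cj_mul, cj_of_cent (inv_mem l3), cj_mul])
    have m4 : u d'' * (c'⁻¹ * (t * a')) = c'⁻¹ * (t * a') * u d'' := by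
      have k := cent_sup.2 ⟨m2, (cent_sup.1 m3).2⟩
      exact k _ (hu d'' ▸ mul_mem (mem_sup_right (inv_mem hd'')) (mul_mem (mul_mem (mem_sup_left l4) (mem_sup_right hd''))
        (mem_sup_left (inv_mem l4))))
    have m5 : ∀ x ∈ D, x ≠ d'' → ⁅u x ⋆ A, u d'' ⋆ B⁆ = ⊥ := fun x hx k => by
      rw [u2 d'' hd'' x hx, cj_mul]
      exact cj_comm (h2 _ (hS.1.cj h.l _) (fun e => k (inv_mul_eq_one.1 (u5 _ (mul_mem (inv_mem hd'') hx) 1 (one_mem _)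
        (e.trans u6.symm))).symm) (u3 _ (mul_mem (inv_mem hd'') hx))) _
    have m6 : (c'⁻¹ * (t * a')) ⋆ u d'' ⋆ B = u d'' ⋆ B := by
      rw [cj_mul, cj_of_comm (csup (u6 ▸ m5 1 (one_mem _) k3.symm) (l5 ▸ m5 d hd k5.symm)) (mul_mem l4 (mem_sup_left ha')),
        cj_of_comm (m5 d' hd' (Ne.symm k6)) (inv_mem hc')]
    rw [← cj_mul, ← m4, cj_mul, cj_inj, cj_mul, l7, cj_eq_iff, inv_inv,
      cj_of_comm (h2 _ m1.l (fun e => k2 (u5 _ hd' 1 (one_mem _) (e.trans u6.symm))) (u3 d' hd')) hc'] at m6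
    exact l6 (inv_mul_eq_one.1 (h.o.eq_one (mul_mem (inv_mem ha) ha') m6)).symm
  have h8 : ∀ E ∈ S, ∀ d ∈ E, ∀ d' ∈ E, ∀ d'' ∈ E, d ≠ 1 → d' ≠ 1 → d'' ≠ 1 → d' ≠ d → d'' ≠ d → d'' = d' := by
    intro E hE
    obtain ⟨g, rfl⟩ := hS.2.2 D h5.r E hE
    rintro _ ⟨d, hd, rfl⟩ _ ⟨d', hd', rfl⟩ _ ⟨d'', hd'', rfl⟩ k1 k2 k3 k4 k5
    have k : ∀ {x : G}, (MulAut.conj g).toMonoidHom x ≠ 1 → x ≠ 1 := fun k e => k (by rw [e, map_one])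
    exact congrArg _ (h7 d hd d' hd' d'' hd'' (k k1) (k k2) (k k3) (mt (congrArg _) k4) (mt (congrArg _) k5))
  refine h.o.special fun a ha b hb k1 e => ?_
  have k2 : a ≠ 1 := fun k => h.o.ne (by rw [← cj_inv_cj b A, e, k, cj_one, cj_eq_of_mem (inv_mem hb)])
  obtain ⟨a', ha', k3, e'⟩ := h.o.symm.left (inv_mem hb) (inv_ne_one.2 k1)
  by_contra k4
  have k5 : a' ≠ a⁻¹ := fun k => k4 (k ▸ e')
  by_cases k6 : a' = a
  · have k7 : b⁻¹ = b := h.o.symm.eq_of_cj (inv_mem hb) hb (by rw [e', k6, e])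
    obtain ⟨w, -, -, w2⟩ := h.o.exists_swap
    have k8 : (w * b * w⁻¹)⁻¹ = w * b * w⁻¹ := by rw [conj_inv, k7]
    have k9 : w * b * w⁻¹ ≠ a := fun k => k5 (by rw [k6, ← k, k8])
    have := h8 A h.l a ha a⁻¹ (inv_mem ha) _ (w2 ▸ conj_mem_cj w hb) k2 (inv_ne_one.2 k2) (by simpa [mul_inv_eq_one] using k1)
      (k6 ▸ k5).symm k9
    exact k9 (by rw [← k8, this, inv_inv])
  by_cases k7 : a⁻¹ = a
  · exact k2 (mul_eq_right.1 (h8 A h.l a ha a' ha' (a * a') (mul_mem ha ha') k2 k3 (fun k => k5 (eq_inv_of_mul_eq_one_right k)) k6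
      (mt mul_eq_left.1 k3)))
  · exact k5 (h8 A h.l a ha a⁻¹ (inv_mem ha) a' ha' k2 (inv_ne_one.2 k2) k3 k7 k6)

end Cfsg.Agent.C3
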