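/-
Sets of abstract root subgroups viewed inside the subgroup they generate.
-/
import Cfsg.Agent.C3.RS2

set_option autoImplicit false

namespace Cfsg

open Subgroup Cfsg.Agent Cfsg.Agent.H2 Cfsg.Agent.BG Cfsg.Agent.C3

variable {X Y : Type*} [Group X] [Group Y] {f : Y →* X} {T : Set (Subgroup X)} {A B : Subgroup Y}

theorem IsRankOnePair.of_map (hf : Function.Injective f) (h : IsRankOnePair (A.map f) (B.map f)) : IsRankOnePair A B := by
  have k : ∀ {A B : Subgroup Y}, RankOneCondition (A.map f) (B.map f) → RankOneCondition A B := fun h a ha h1 => by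
    obtain ⟨_, ⟨b, hb, rfl⟩, h2, h3⟩ := h (f a) ⟨a, ha, rfl⟩ (mt (map_eq_one_iff f hf).1 h1)
    exact ⟨b, hb, mt (map_eq_one_iff f hf).2 h2, map_injective hf (by simpa only [map_cj, map_inv] using h3)⟩
  haveI := h.nilpotent_left
  haveI := h.nilpotent_right
  exact ⟨mt (congrArg _) h.ne, Group.nilpotent_of_mulEquiv (A.equivMapOfInjective f hf).symm,
    Group.nilpotent_of_mulEquiv (B.equivMapOfInjective f hf).symm, k h.cond_left, k h.cond_right⟩

theorem IsRankOnePair.map_iff (hf : Function.Injective f) : IsRankOnePair (A.map f) (B.map f) ↔ IsRankOnePair A B :=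
  ⟨.of_map hf, fun h => h.map f (fun _ _ => (map_eq_one_iff f hf).1) (fun _ _ => (map_eq_one_iff f hf).1) (mt (map_injective hf ·) h.ne)⟩

theorem RootCommutatorCase.map_iff (hf : Function.Injective f) :
    RootCommutatorCase T (A.map f) (B.map f) ↔ RootCommutatorCase {C | C.map f ∈ T} A B := by
  simp only [RootCommutatorCase, ← map_commutator, ← Subgroup.map_sup, Set.mem_setOf_eq, Subgroup.mem_map, forall_exists_index, and_imp,
    forall_apply_eq_imp_iff₂, ← map_mul, hf.eq_iff, ne_eq, map_eq_one_iff f hf, ← (map_injective hf).eq_iff, MonoidHom.map_closure,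
    coe_map, Set.image_image, ← map_inv]

namespace Agent.C3

theorem image_subgroupOf {L : Subgroup X} (h : ∀ A ∈ T, A ≤ L) : (fun A => A.subgroupOf L) '' T = {C | C.map L.subtype ∈ T} :=
  Set.ext fun C => ⟨fun ⟨A, hA, e⟩ => by rwa [← e, Set.mem_setOf_eq, map_subgroupOf_eq_of_le (h A hA)],
    fun e => ⟨_, e, H8.subgroupOf_map_subtype_self C⟩⟩

theorem rootSet_map (hf : Function.Injective f) (hr : f.range = ⨆ A ∈ T, A) (h1 : ∀ A ∈ T, ⁅A, A⁆ = ⊥) (h2 : ∀ A ∈ T, A ≠ ⊥)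
    (h3 : ∀ A ∈ T, ∀ g ∈ ⨆ A ∈ T, A, g ⋆ A ∈ T) (h4 : ∀ A ∈ T, ∀ B ∈ T, ⁅A, B⁆ = ⊥ ∨ IsRankOnePair A B ∨ RootCommutatorCase T A B) :
    IsRootSubgroupSet {C : Subgroup Y | C.map f ∈ T} := by
  have k : ∀ {A B : Subgroup Y}, ⁅A.map f, B.map f⁆ = ⊥ → ⁅A, B⁆ = ⊥ := fun e => by
    rwa [← map_commutator, map_eq_bot_iff_of_injective _ hf] at e
  refine ⟨fun A hA => commutator_self_eq_bot_iff.1 (k (h1 _ hA)), fun A hA e => h2 _ hA (by rw [e, Subgroup.map_bot]),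
    top_unique ((map_le_map_iff_of_injective hf).1 ?_), fun A hA g => ?_,
    fun A hA B hB => (h4 _ hA _ hB).imp k (Or.imp (.of_map hf) (RootCommutatorCase.map_iff hf).1)⟩
  · rw [← MonoidHom.range_eq_map, hr]
    refine iSup₂_le fun A hA => ?_
    have := map_comap_eq_self ((le_biSup (fun A => A) hA).trans hr.ge)
    exact this.ge.trans (map_mono (le_biSup (fun A => A) (show _ ∈ T from this.symm ▸ hA)))
  · rw [Set.mem_setOf_eq, map_cj]
    exact h3 _ hA _ (hr.le ⟨g, rfl⟩)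

theorem rootSet_of (h1 : ∀ A ∈ T, ⁅A, A⁆ = ⊥) (h2 : ∀ A ∈ T, A ≠ ⊥) (h3 : ∀ A ∈ T, ∀ g ∈ ⨆ A ∈ T, A, g ⋆ A ∈ T)
    (h4 : ∀ A ∈ T, ∀ B ∈ T, ⁅A, B⁆ = ⊥ ∨ IsRankOnePair A B ∨ RootCommutatorCase T A B) :
    IsRootSubgroupSet ((fun A => A.subgroupOf (⨆ B ∈ T, B)) '' T) := by
  rw [image_subgroupOf fun A hA => le_biSup (fun A => A) hA]
  exact rootSet_map (subtype_injective _) (range_subtype _) h1 h2 h3 h4

theorem class_of {L : Subgroup X} (h0 : T.Nonempty) (h : ∀ A ∈ T, ∀ B ∈ T, ∃ g ∈ L, B = g ⋆ A) :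
    IsConjClassOfSubgroups ((fun A => A.subgroupOf L) '' T) := by
  refine ⟨h0.image _, ?_⟩
  rintro _ ⟨A, hA, rfl⟩ _ ⟨B, hB, rfl⟩
  obtain ⟨g, hg, rfl⟩ := h A hA B hB
  exact ⟨⟨g, hg⟩, Subgroup.ext fun x => by rw [mem_subgroupOf, mem_cj, mem_cj, mem_subgroupOf]; rfl⟩

theorem biSup_ind {p : X → Prop} {x : X} (hx : x ∈ ⨆ A ∈ T, A) (h1 : ∀ A ∈ T, ∀ a ∈ A, p a) (h0 : p 1)
    (h2 : ∀ x y, p x → p y → p (x * y)) : p x := by
  rw [iSup_subtype'] at hx
  exact iSup_induction _ (C := p) hx (fun A => h1 A A.2) h0 h2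

end Agent.C3

end Cfsg
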