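/-
Linear root subgroups: groups `{1 + c a}` for square-zero endomorphisms `a`.
-/
import Cfsg.Agent.C3.QP6
import Cfsg.Agent.C3.RS3

set_option autoImplicit false

namespace Cfsg.Agent.C3.LR

open Matrix Subgroup Module Cfsg.Agent.H2 Cfsg.Agent.BG Cfsg.Agent.C3.QP
open scoped MatrixGroups commutatorElement

variable {k : Type*} [Field k] {M : Type*} [AddCommGroup M] [Module k M] {X : Type*} [Group X]
  {ι : X →* End k M} {a b : End k M} {g x : X} {c : k} {N : Set (End k M)}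

/-- The group `1 + k a`. -/
def LA (ι : X →* End k M) (a : End k M) : Subgroup X := closure {g | ∃ c : k, ι g = 1 + c • a}

/-- All of `1 + k a` is in the group. -/
structure Fl (ι : X →* End k M) (a : End k M) : Prop where
  sq : a * a = 0
  ne : a ≠ 0
  ex : ∀ c : k, ∃ g, ι g = 1 + c • a

theorem inv_val (ha : a * a = 0) (e : ι g = 1 + a) : ι g⁻¹ = 1 - a := by
  have : ι g⁻¹ * ι g = 1 := by rw [← map_mul, inv_mul_cancel, map_one]
  rw [e] at this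
  linear_combination (norm := noncomm_ring) this * (1 - a) + ι g⁻¹ * ha

theorem sm_sq (ha : a * a = 0) (c d : k) : c • a * d • a = 0 := by simp [ha]

theorem mem_LA (ha : a * a = 0) : g ∈ LA ι a ↔ ∃ c : k, ι g = 1 + c • a := by
  refine ⟨fun h => ?_, fun h => subset_closure h⟩
  induction h using closure_induction with
  | mem x h => exact h
  | one => exact ⟨0, by simp⟩
  | mul x y _ _ h1 h2 =>
    obtain ⟨c, h1⟩ := h1
    obtain ⟨d, h2⟩ := h2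
    exact ⟨c + d, by rw [map_mul, h1, h2, add_smul, mul_add, add_mul, add_mul, sm_sq ha, one_mul, mul_one, one_mul, add_zero, add_assoc]⟩
  | inv x _ h1 =>
    obtain ⟨c, h1⟩ := h1
    exact ⟨-c, by rw [inv_val (sm_sq ha c c) h1, neg_smul, sub_eq_add_neg]⟩

theorem LA_smul (hc : c ≠ 0) : LA ι (c • a) = LA ι a := by
  refine congrArg Subgroup.closure (Set.ext fun g => ⟨fun ⟨d, h⟩ => ⟨d * c, by rw [h, smul_smul]⟩, fun ⟨d, h⟩ => ⟨d * c⁻¹, ?_⟩⟩)
  rw [h, smul_smul, inv_mul_cancel_right₀ hc]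

theorem Fl.smul (h : Fl ι a) (hc : c ≠ 0) : Fl ι (c • a) :=
  ⟨sm_sq h.sq c c, smul_ne_zero hc h.ne, fun d => by simpa only [smul_smul] using h.ex (d * c)⟩

theorem ii (g : X) : ι g * ι g⁻¹ = 1 := by rw [← map_mul, mul_inv_cancel, map_one]

theorem ii' (g : X) : ι g⁻¹ * ι g = 1 := by rw [← map_mul, inv_mul_cancel, map_one]

theorem cj_val (e : ι x = 1 + c • a) (g : X) : ι (g * x * g⁻¹) = 1 + c • (ι g * a * ι g⁻¹) := by
  simp only [map_mul, e, mul_add, add_mul, mul_one, ii, mul_smul_comm, smul_mul_assoc]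

theorem cj_back (a : End k M) (g : X) : ι g⁻¹ * (ι g * a * ι g⁻¹) * ι g⁻¹⁻¹ = a := by
  simp only [← mul_assoc, ii', one_mul, inv_inv]
  rw [mul_assoc, ii', mul_one]

theorem cj_LA_le (g : X) : g ⋆ LA ι a ≤ LA ι (ι g * a * ι g⁻¹) :=
  map_le_iff_le_comap.2 ((closure_le _).2 fun _ ⟨c, h⟩ => subset_closure (k := {x | _}) ⟨c, cj_val h g⟩)

theorem cj_LA (g : X) : g ⋆ LA ι a = LA ι (ι g * a * ι g⁻¹) := by
  refine le_antisymm (cj_LA_le g) ?_
  have := cj_mono g (cj_LA_le (ι := ι) (a := ι g * a * ι g⁻¹) g⁻¹)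
  rwa [cj_back, cj_cj_inv] at this

theorem Fl.cj (h : Fl ι a) (g : X) : Fl ι (ι g * a * ι g⁻¹) :=
  ⟨by linear_combination (norm := noncomm_ring) ι g * a * ii' (ι := ι) g * a * ι g⁻¹ + ι g * h.sq * ι g⁻¹,
    fun e => h.ne (by rw [← cj_back (ι := ι) a g, e, mul_zero, zero_mul]),
    fun c => let ⟨_, e⟩ := h.ex c; ⟨_, cj_val e g⟩⟩

theorem Fl.ne_bot (h : Fl ι a) : LA ι a ≠ ⊥ := fun e => by
  obtain ⟨g, hg⟩ := h.ex 1
  have := (eq_bot_iff_forall _).1 e g (subset_closure ⟨1, hg⟩)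
  rw [this, map_one, one_smul] at hg
  exact h.ne (left_eq_add.1 hg)

theorem LA_le {K : Subgroup X} (h : ∀ g (c : k), ι g = 1 + c • a → g ∈ K) : LA ι a ≤ K := (closure_le _).2 fun g ⟨c, e⟩ => h g c e

variable (hι : Function.Injective ι)
include hι

theorem LA_comm (e : a * b = b * a) : ⁅LA ι a, LA ι b⁆ = ⊥ :=
  comm_iff.2 (LA_le fun g c h => (zpowers_le (H := 𝒞 _)).1 (le_centralizer_iff.1 (LA_le fun x d h' => by
    rw [zpowers_eq_closure, centralizer_closure, mem_centralizer_singleton_iff]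
    exact hι (by simp only [map_mul, h, h', mul_add, add_mul, mul_one, one_mul, mul_smul_comm, smul_mul_assoc, e]; module))))

theorem LA_cond (ha : Fl ι a) (hb : Fl ι b) (hc : c ≠ 0) (e : a * b * a = c • a) (e' : b * a * b = c • b) :
    RankOneCondition (LA ι a) (LA ι b) := fun g hg h1 => by
  obtain ⟨s, hs⟩ := (mem_LA ha.sq).1 hg
  have h0 : s ≠ 0 := fun e => h1 (hι (by simp [hs, e]))
  obtain ⟨x, hx⟩ := hb.ex (s * c)⁻¹
  have h2 := inv_ne_zero (mul_ne_zero h0 hc)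
  refine ⟨x, (mem_LA hb.sq).2 ⟨_, hx⟩, fun e => (hb.smul h2).ne (left_eq_add.1 (by rw [← hx, e, map_one])), ?_⟩
  rw [← LA_smul h0, ← LA_smul (a := b) (neg_ne_zero.2 h2), neg_smul]
  change x⁻¹ ⋆ _ = g⁻¹ ⋆ _
  have e1 : s • a * (s * c)⁻¹ • b * s • a = s • a := by simp [e, smul_smul]; congr 1; field_simp
  have e2 : (s * c)⁻¹ • b * s • a * (s * c)⁻¹ • b = (s * c)⁻¹ • b := by simp [e', smul_smul]; congr 1; field_simp
  have h3 := (ha.smul h0).sq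
  have h4 := (hb.smul h2).sq
  rw [cj_LA, cj_LA, inv_inv, inv_inv, inv_val h4 hx, inv_val h3 hs, hx, hs]
  congr 1
  generalize s • a = a at *
  generalize (s * c)⁻¹ • b = b at *
  linear_combination (norm := noncomm_ring) -e2 - e1

theorem LA_ro (ha : Fl ι a) (hb : Fl ι b) (hc : c ≠ 0) (e : a * b * a = c • a) (e' : b * a * b = c • b) :
    IsRankOnePair (LA ι a) (LA ι b) := by
  refine ⟨fun h => ?_, (isNilpotent_iff_lowerCentralSeries _).2 ⟨1, LA_comm hι rfl⟩,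
    (isNilpotent_iff_lowerCentralSeries _).2 ⟨1, LA_comm hι rfl⟩, LA_cond hι ha hb hc e e', LA_cond hι hb ha hc e' e⟩
  obtain ⟨g, hg⟩ := ha.ex 1
  obtain ⟨d, hd⟩ := (mem_LA hb.sq).1 (h ▸ (mem_LA ha.sq).2 ⟨1, hg⟩)
  rw [hg, one_smul, add_right_inj] at hd
  exact (ha.smul hc).ne (by rw [← e, hd]; simp [hb.sq])

theorem LA_special (ha : Fl ι a) (hb : Fl ι b) (hc : c ≠ 0) (e : a * b * a = c • a) (e' : b * a * b = c • b) :
    IsSpecialRankOnePair (LA ι a) (LA ι b) := by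
  obtain ⟨v, hv⟩ : ∃ v, (c • a) v ≠ 0 := by simpa [LinearMap.ext_iff] using (ha.smul hc).ne
  letI inst_act : DistribMulAction X M := DistribMulAction.compHom M ι
  refine (LA_ro hι ha hb hc e e').quad_special (V := M) (fun x hx y hy v => ?_) (w := b (a v)) (fun y hy => ?_) fun e' => hv ?_
  · obtain ⟨s, hs⟩ := (mem_LA ha.sq).1 hx
    obtain ⟨t, ht⟩ := (mem_LA ha.sq).1 hy
    change ι y (ι x v - v) = ι x v - v
    simp [hs, ht, ← End.mul_apply, ha.sq]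
  · obtain ⟨t, ht⟩ := (mem_LA hb.sq).1 hy
    change ι y _ = _
    simp [ht, ← End.mul_apply, ← mul_assoc, hb.sq]
  · obtain ⟨g, hg⟩ := ha.ex 1
    obtain ⟨x, hx⟩ := ha.ex 1
    have := e' g ((mem_LA ha.sq).2 ⟨1, hg⟩)
    change ι g _ = _ at this
    simp [hg] at this
    rw [← e]
    exact this

theorem LA_psl2 (ha : Fl ι a) (hb : Fl ι b) (hc : c ≠ 0) (e : a * b * a = c • a) (e' : b * a * b = c • b) :
    IsPSL2PairOver k (LA ι a) (LA ι b) := by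
  have hb' := hb.smul (inv_ne_zero hc)
  obtain ⟨ψ, h1, h2, h3, -⟩ := psi_norm ha.sq hb'.sq (by simp [e, smul_smul, hc]) (by simp [e', smul_smul, hc]) ha.ne
  have h4 : Function.Injective ι.toHomUnits := fun x y h => hι (congrArg Units.val h)
  have h5 : ∀ g, ψ g ∈ ι.toHomUnits.range := range_le_of ψ (fun t => let ⟨g, hg⟩ := ha.ex t; ⟨g, Units.ext (hg.trans (h2 t).symm)⟩)
    fun t => let ⟨g, hg⟩ := hb'.ex t; ⟨g, Units.ext (hg.trans (h3 t).symm)⟩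
  let φ : SL(2, k) →* X := (MonoidHom.ofInjective h4).symm.toMonoidHom.comp (ψ.codRestrict _ h5)
  have h6 : ∀ g, ι (φ g) = ψ g := fun g => congrArg Units.val (MonoidHom.apply_ofInjective_symm h4 ⟨ψ g, h5 g⟩)
  have h7 : Function.Injective φ := fun x y h => h1 (Units.ext (by rw [← h6, h, h6]))
  have h8 : (upperUnipotentSL2 k).map φ = LA ι a := by
    rw [upperUnipotentSL2, MonoidHom.map_closure]
    refine congrArg Subgroup.closure (Set.ext fun g => ⟨?_, fun ⟨t, ht⟩ => ⟨xx t, ⟨rfl, rfl, rfl⟩, hι (by rw [h6, h2, ht])⟩⟩)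
    rintro ⟨g, e, rfl⟩
    exact ⟨g 0 1, by rw [h6, ← h2, show xx (g 0 1) = g from extE e.2.1.symm rfl e.1.symm e.2.2.symm]⟩
  have h9 : (lowerUnipotentSL2 k).map φ = LA ι b := by
    rw [lowerUnipotentSL2, MonoidHom.map_closure, ← LA_smul (inv_ne_zero hc)]
    refine congrArg Subgroup.closure (Set.ext fun g => ⟨?_, fun ⟨t, ht⟩ => ⟨yy t, ⟨rfl, rfl, rfl⟩, hι (by rw [h6, h3, ht])⟩⟩)
    rintro ⟨g, e, rfl⟩
    exact ⟨g 1 0, by rw [h6, ← h3, show yy (g 1 0) = g from extE e.2.1.symm e.1.symm rfl e.2.2.symm]⟩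
  refine ⟨φ, ?_, ((MonoidHom.ker_eq_bot_iff _).2 h7).trans_le bot_le, h8, h9⟩
  rw [← h8, ← h9, ← Subgroup.map_sup, MonoidHom.range_eq_map]
  exact congrArg _ (H4.SL2_eq_top (fun c => mem_sup_left (Subgroup.subset_closure (by exact ⟨rfl, rfl, rfl⟩)))
    fun c => mem_sup_right (Subgroup.subset_closure (by exact ⟨rfl, rfl, rfl⟩))).symm

theorem br_val (ha : a * a = 0) (hb : b * b = 0) (e : a * b * a = 0) (e' : b * a * b = 0) {s t : k} (hg : ι g = 1 + s • a)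
    (hx : ι x = 1 + t • b) : ι (g * x * g⁻¹ * x⁻¹) = 1 + (s * t) • (a * b - b * a) := by
  have := comm_val (g := ι.toHomUnits g) (x := ι.toHomUnits x) hg hx (sm_sq ha s s) (sm_sq hb t t) (by simp [e]) (by simp [e'])
  rw [← map_commutatorElement] at this
  refine this.trans ?_
  simp only [mul_smul_comm, smul_mul_assoc]
  module

theorem LA_cl (ha : Fl ι a) (hb : Fl ι b) (e : a * b * a = 0) (e' : b * a * b = 0) (hg : g ∈ LA ι a) (h1 : g ≠ 1) :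
    Subgroup.closure ((fun x => g * x * g⁻¹ * x⁻¹) '' (LA ι b : Set X)) = LA ι (a * b - b * a) := by
  obtain ⟨s, hs⟩ := (mem_LA ha.sq).1 hg
  have h0 : s ≠ 0 := fun e => h1 (hι (by simp [hs, e]))
  refine congrArg Subgroup.closure (Set.ext fun y => ⟨?_, fun ⟨t, ht⟩ => ?_⟩)
  · rintro ⟨x, hx, rfl⟩
    obtain ⟨t, ht⟩ := (mem_LA hb.sq).1 hx
    exact ⟨_, br_val hι ha.sq hb.sq e e' hs ht⟩
  · obtain ⟨x, hx⟩ := hb.ex (s⁻¹ * t)
    exact ⟨x, (mem_LA hb.sq).2 ⟨_, hx⟩, hι (by rw [br_val hι ha.sq hb.sq e e' hs hx, mul_inv_cancel_left₀ h0, ht])⟩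

theorem LA_br (ha : Fl ι a) (hb : Fl ι b) (e : a * b * a = 0) (e' : b * a * b = 0) : ⁅LA ι a, LA ι b⁆ = LA ι (a * b - b * a) := by
  refine le_antisymm (commutator_le.2 fun g hg x hx => ?_) ?_
  · obtain ⟨s, hs⟩ := (mem_LA ha.sq).1 hg
    obtain ⟨t, ht⟩ := (mem_LA hb.sq).1 hx
    exact Subgroup.subset_closure ⟨_, br_val hι ha.sq hb.sq e e' hs ht⟩
  · obtain ⟨g, hg, h1⟩ := (bot_or_exists_ne_one _).resolve_left ha.ne_bot
    rw [← LA_cl hι ha hb e e' hg h1, closure_le]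
    rintro _ ⟨x, hx, rfl⟩
    exact commutator_mem_commutator hg hx

theorem LA_rcc {S : Set (Subgroup X)} (ha : Fl ι a) (hb : Fl ι b) (e : a * b * a = 0) (e' : b * a * b = 0)
    (hS : LA ι (a * b - b * a) ∈ S) : RootCommutatorCase S (LA ι a) (LA ι b) := by
  have h := LA_br hι ha hb e e'
  refine ⟨h ▸ hS, fun y hy x hx => cm (B := LA ι a ⊔ LA ι b) ?_ hy hx, fun g hg h1 => (LA_cl hι ha hb e e' hg h1).trans h.symm,
    fun x hx h1 => ?_⟩
  · rw [h]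
    exact csup' (LA_comm hι (by linear_combination (norm := noncomm_ring) 2 * e - b * ha.sq - ha.sq * b))
      (LA_comm hι (by linear_combination (norm := noncomm_ring) -2 * e' + a * hb.sq + hb.sq * a))
  · rw [commutator_comm, LA_br hι hb ha e' e, ← LA_cl hι hb ha e' e hx h1, ← Subgroup.closure_inv]
    congr 1
    ext y
    simp only [Set.mem_inv, Set.mem_image]
    exact exists_congr fun z => and_congr_right fun _ => by rw [← _root_.inv_inj, _root_.inv_inv, show (z * x * z⁻¹ * x⁻¹)⁻¹ = x * z * x⁻¹ * z⁻¹ by group]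

/-- The trichotomy for pairs of root elements. -/
def Tri (N : Set (End k M)) (a b : End k M) : Prop :=
  a * b = b * a ∨ (∃ c : k, c ≠ 0 ∧ a * b * a = c • a ∧ b * a * b = c • b) ∨ (a * b * a = 0 ∧ b * a * b = 0 ∧ a * b - b * a ∈ N)

theorem LA_set (h1 : ∀ a ∈ N, Fl ι a) (h2 : ∀ a ∈ N, ∀ g, ι g * a * ι g⁻¹ ∈ N) (h3 : ∀ a ∈ N, ∀ b ∈ N, Tri N a b)
    (h4 : ∀ K : Subgroup X, (∀ a ∈ N, LA ι a ≤ K) → K = ⊤) : IsKRootSubgroupSet k (LA ι '' N) := by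
  have hS : IsRootSubgroupSet (LA ι '' N) := by
    refine ⟨?_, ?_, h4 _ fun a ha => le_iSup₂_of_le _ ⟨a, ha, rfl⟩ le_rfl, ?_, ?_⟩
    · rintro _ ⟨a, -, rfl⟩
      exact ⟨⟨fun x y => Subtype.ext (cm (LA_comm hι rfl) x.2 y.2)⟩⟩
    · rintro _ ⟨a, ha, rfl⟩
      exact (h1 a ha).ne_bot
    · rintro _ ⟨a, ha, rfl⟩ g
      exact ⟨_, h2 a ha g, (cj_LA g).symm⟩
    · rintro _ ⟨a, ha, rfl⟩ _ ⟨b, hb, rfl⟩
      exact (h3 a ha b hb).imp (LA_comm hι) (Or.imp (fun ⟨c, hc, e, e'⟩ => LA_ro hι (h1 a ha) (h1 b hb) hc e e')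
        fun ⟨e, e', h⟩ => LA_rcc hι (h1 a ha) (h1 b hb) e e' ⟨_, h, rfl⟩)
  refine ⟨hS, ?_⟩
  rintro _ ⟨a, ha, rfl⟩ _ ⟨b, hb, rfl⟩ h
  rcases h3 a ha b hb with e | ⟨c, hc, e, e'⟩ | ⟨e, e', h'⟩
  · exact absurd (LA_comm hι e) h.not_comm
  · exact LA_psl2 hι (h1 a ha) (h1 b hb) hc e e'
  · exact absurd h (Ps.not_om ⟨hS, ⟨a, ha, rfl⟩, ⟨b, hb, rfl⟩, _, h', (LA_br hι (h1 a ha) (h1 b hb) e e').symm⟩)

omit hι in
theorem deg_of {S : Set (Subgroup X)} (hS : IsRootSubgroupSet S) (h : ∀ A ∈ S, ∀ B ∈ S, ⁅A, B⁆ = ⊥ ∨ IsRankOnePair A B) :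
    IsDegenerateRootSet S := fun A hA B hB e =>
  (h A hA B hB).elim (Ps.not_comm ⟨hS, hA, hB, e.1⟩) (Ps.not_om ⟨hS, hA, hB, e.1⟩)

end Cfsg.Agent.C3.LR
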