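/-
Linear root subgroups: the classical examples (isotropic transvections, Siegel transformations, transvections).
-/
import Cfsg.Agent.C3.LR
import Cfsg.Agent.H4.Unit
import Cfsg.Agent.H4.Lin

set_option autoImplicit false

namespace Cfsg.Agent.C3.LR

open Subgroup Module Cfsg.Agent.H2 Cfsg.Agent.BG Cfsg.Agent.C3.QP Cfsg.Agent.H4
open scoped commutatorElement

section General

variable {k : Type*} [Field k] {M : Type*} [AddCommGroup M] [Module k M] {X : Type*} [Group X]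
  {ι : X →* End k M} {a b : End k M} {g x : X} {c : k} {N : Set (End k M)}

/-- Opposite root elements. -/
def Opp (N : Set (End k M)) (a b : End k M) : Prop := a ∈ N ∧ b ∈ N ∧ ∃ c : k, c ≠ 0 ∧ a * b * a = c • a ∧ b * a * b = c • b

theorem Opp.symm (h : Opp N a b) : Opp N b a := let ⟨h1, h2, c, h3, h4, h5⟩ := h; ⟨h2, h1, c, h3, h5, h4⟩

theorem LA_conn (hι : Function.Injective ι) (h1 : ∀ a ∈ N, Fl ι a) (h : ∀ a ∈ N, ∀ b ∈ N, Relation.ReflTransGen (Opp N) a b) :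
    IsConnectedFamily (FAdj (LA ι '' N)) (LA ι '' N) := by
  rintro _ ⟨a, ha, rfl⟩ _ ⟨b, hb, rfl⟩
  exact (h a ha b hb).lift (LA ι) fun a b ⟨h2, h3, c, h4, h5, h6⟩ =>
    ⟨⟨a, h2, rfl⟩, ⟨b, h3, rfl⟩, LA_ro hι (h1 a h2) (h1 b h3) h4 h5 h6⟩

theorem class_of_conn {S : Set (Subgroup X)} (h0 : S.Nonempty) (h : IsConnectedFamily (FAdj S) S) : IsConjClassOfSubgroups S :=
  ⟨h0, fun A hA B hB => Re.conj (h A hA B hB)⟩

theorem sub_image {K : Subgroup X} (h1 : ∀ a ∈ N, Fl ι a) : (fun A => A.subgroupOf K) '' (LA ι '' N) = LA (ι.comp K.subtype) '' N := by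
  rw [Set.image_image]
  exact Set.image_congr fun a ha => Subgroup.ext fun g => by rw [mem_subgroupOf, mem_LA (h1 a ha).sq, mem_LA (h1 a ha).sq]; rfl

theorem Fl.sub {K : Subgroup X} (h : Fl ι a) (hK : LA ι a ≤ K) : Fl (ι.comp K.subtype) a :=
  ⟨h.sq, h.ne, fun c => let ⟨g, hg⟩ := h.ex c; ⟨⟨g, hK ((mem_LA h.sq).2 ⟨c, hg⟩)⟩, hg⟩⟩

theorem sub_fl (h1 : ∀ a ∈ N, Fl ι a) : ∀ a ∈ N, Fl (ι.comp (⨆ B ∈ LA ι '' N, B).subtype) a := fun a ha =>
  (h1 a ha).sub (le_iSup₂_of_le _ ⟨a, ha, rfl⟩ le_rfl)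

theorem sub_set (hι : Function.Injective ι) (h1 : ∀ a ∈ N, Fl ι a) (h2 : ∀ a ∈ N, ∀ g, ι g * a * ι g⁻¹ ∈ N)
    (h3 : ∀ a ∈ N, ∀ b ∈ N, Tri N a b) : IsKRootSubgroupSet k (LA (ι.comp (⨆ B ∈ LA ι '' N, B).subtype) '' N) := by
  refine LA_set (hι.comp Subtype.val_injective) (sub_fl h1) (fun a ha g => h2 a ha g) h3 fun K hK => ?_
  refine eq_top_iff.2 fun ⟨x, hx⟩ _ => ?_
  obtain ⟨y, hy, rfl⟩ : x ∈ K.map (Subgroup.subtype _) := by
    refine (iSup₂_le ?_ : _ ≤ K.map (Subgroup.subtype _)) hx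
    rintro _ ⟨a, ha, rfl⟩ g hg
    exact ⟨⟨g, (le_iSup₂_of_le _ ⟨a, ha, rfl⟩ le_rfl : _ ≤ ⨆ B ∈ LA ι '' N, B) hg⟩, hK a ha ((mem_LA (h1 a ha).sq).2 ((mem_LA (ι := ι) (h1 a ha).sq).1 hg)), rfl⟩
  exact hy

theorem deg_LA (hι : Function.Injective ι) (h1 : ∀ a ∈ N, Fl ι a) (hS : IsRootSubgroupSet (LA ι '' N))
    (h : ∀ a ∈ N, ∀ b ∈ N, a * b = b * a ∨ Opp N a b) : IsDegenerateRootSet (LA ι '' N) := by
  refine deg_of hS ?_
  rintro _ ⟨a, ha, rfl⟩ _ ⟨b, hb, rfl⟩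
  exact (h a ha b hb).imp (LA_comm hι) fun ⟨_, _, c, h4, h5, h6⟩ => LA_ro hι (h1 a ha) (h1 b hb) h4 h5 h6

end General

variable {F : Type*} [Field F] {V : Type*} [AddCommGroup V] [Module F V] {X : Type*} [Group X]

section Iso

variable (L : Type*) [Field L] [Algebra L F] [Module L V] [IsScalarTower L F V]

/-- The action with restricted scalars. -/
def rs (j : X →* (V ≃ₗ[F] V)) : X →* End L V where
  toFun g := (j g : V →ₗ[F] V).restrictScalars L
  map_one' := by ext; simp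
  map_mul' _ _ := by ext; simp

@[simp] theorem rs_apply (j : X →* (V ≃ₗ[F] V)) (g : X) (v : V) : rs L j g v = j g v := rfl

theorem rs_inj {j : X →* (V ≃ₗ[F] V)} (h : Function.Injective j) : Function.Injective (rs L j) :=
  fun _ _ e => h (LinearEquiv.ext fun v => LinearMap.congr_fun e v)

variable {T : FType F} (f : CForm T V) (e : F)

/-- The nilpotent part of an isotropic transvection. -/
def tn (p : V) : End L V := ((e • f.fn p).smulRight p).restrictScalars L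

@[simp] theorem tn_apply (p v : V) : tn L f e p v = (e * f.B v p) • p := rfl

/-- Isotropic transvections. -/
def TN : Set (End L V) := {a | ∃ p, p ≠ 0 ∧ f.Q p = 0 ∧ a = tn L f e p}

variable {L f e} {j : X →* (V ≃ₗ[F] V)} (hf : f.Nondeg) (he0 : e ≠ 0) (he : ∀ d, T.τ d = 0 ↔ ∃ c : L, d = algebraMap L F c * e)

theorem tn_eq {p : V} {g : X} {c : L} :
    rs L j g = 1 + c • tn L f e p ↔ ∀ v, j g v = v + (algebraMap L F c * e * f.B v p) • p := by
  simp only [LinearMap.ext_iff, rs_apply, LinearMap.add_apply, End.one_apply, LinearMap.smul_apply, tn_apply, mul_assoc, mul_smul,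
    algebraMap_smul]

theorem tn_cj (hj : ∀ g, j g ∈ f.iso) : ∀ a ∈ TN L f e, ∀ g, rs L j g * a * rs L j g⁻¹ ∈ TN L f e := by
  rintro _ ⟨p, h0, hp, rfl⟩ g
  refine ⟨j g p, by simpa, by rwa [CForm.iso_Q (hj g)], LinearMap.ext fun v => ?_⟩
  simp [CForm.iso_B_right (hj g)]

include hf he0 he

theorem tn_fl (hj : ∀ p c, f.Q p = 0 → T.τ c = 0 → ∃ g, j g = f.tv p c) : ∀ a ∈ TN L f e, Fl (rs L j) a := by
  rintro _ ⟨p, h0, hp, rfl⟩
  refine ⟨LinearMap.ext fun v => by simp [f.B_self_of_Q hp], fun h => ?_, fun c => ?_⟩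
  · obtain ⟨y, hy⟩ := hf.exists_B_ne h0
    simpa [he0, h0, f.B_ne_symm hy] using LinearMap.congr_fun h y
  · obtain ⟨g, hg⟩ := hj p _ hp ((he _).2 ⟨c, rfl⟩)
    exact ⟨g, tn_eq.2 fun v => by rw [hg, CForm.tv_apply' (by simp [f.B_self_of_Q hp])]⟩

omit hf in
theorem tn_opp {p q : V} (hp0 : p ≠ 0) (hq0 : q ≠ 0) (hp : f.Q p = 0) (hq : f.Q q = 0) (h : f.B p q ≠ 0) :
    Opp (TN L f e) (tn L f e p) (tn L f e q) := by
  have h1 : T.τ e = 0 := (he e).2 ⟨1, by simp⟩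
  have h2 : e = -(T.ε * T.σ e) := by linear_combination T.β_τ e + T.β * h1
  obtain ⟨c, hc⟩ := (he (e * e * f.B p q * f.B q p * e)).1 (by
    have := T.τ_norm (e * f.B p q) e
    rw [h1, mul_zero, map_mul T.σ] at this
    rw [← neg_eq_zero, ← map_neg, ← this, f.symm p q]
    congr 1
    linear_combination (-(e * f.B p q * T.σ (f.B p q) * e * T.ε)) * h2 + (e * f.B p q * T.σ (f.B p q) * e * T.σ e) * T.εε)
  have h3 := mul_right_cancel₀ he0 hc
  refine ⟨⟨p, hp0, hp, rfl⟩, ⟨q, hq0, hq, rfl⟩, c, fun h0 => ?_, LinearMap.ext fun v => ?_, LinearMap.ext fun v => ?_⟩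
  · simp [h0, he0, h, f.B_ne_symm h] at h3
  all_goals
    simp only [End.mul_apply, tn_apply, LinearMap.smul_apply, CForm.B_smul_left]
    rw [← algebraMap_smul F c, ← h3, smul_smul]
    congr 1; ring

omit hf in
theorem tn_pair : ∀ a ∈ TN L f e, ∀ b ∈ TN L f e, a * b = b * a ∨ Opp (TN L f e) a b := by
  rintro _ ⟨p, hp0, hp, rfl⟩ _ ⟨q, hq0, hq, rfl⟩
  refine (em (f.B p q = 0)).imp (fun h => LinearMap.ext fun v => ?_) (tn_opp he0 he hp0 hq0 hp hq)
  simp [h, f.B_zero_symm h]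

theorem tn_conn : ∀ a ∈ TN L f e, ∀ b ∈ TN L f e, Relation.ReflTransGen (Opp (TN L f e)) a b := by
  rintro _ ⟨p, hp0, hp, rfl⟩ _ ⟨q, hq0, hq, rfl⟩
  obtain ⟨r, -, hr, h1, h2⟩ := (CForm.thick_of_tau (f := f) ⟨e, he0, (he e).2 ⟨1, by simp⟩⟩ ⊤).exists_opp_both
    (by rw [CForm.perp_top hf, inf_bot_eq]) trivial trivial hp0 hq0 hp hq
  have h0 : r ≠ 0 := by rintro rfl; simp at h1
  exact (Relation.ReflTransGen.single (tn_opp he0 he hp0 h0 hp hr h1)).tail (tn_opp he0 he hq0 h0 hq hr h2).symm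

theorem tn_char [FiniteDimensional F V] {p : V} (h0 : p ≠ 0) (hp : f.Q p = 0) {g : X} (hg : j g ∈ f.iso) :
    (∃ c : L, rs L j g = 1 + c • tn L f e p) ↔ (∀ v, ∃ c : F, j g v = v + c • p) ∧ ∀ v, f.B v p = 0 → j g v = v := by
  refine ⟨fun ⟨c, h⟩ => ⟨fun v => ⟨_, tn_eq.1 h v⟩, fun v hv => by simp [tn_eq.1 h v, hv]⟩, fun ⟨h1, h2⟩ => ?_⟩
  obtain ⟨y, hy⟩ := hf.exists_B_eq h0 T.ε
  have h3 : f.B y p = 1 := by rw [f.symm, hy]; simp
  obtain ⟨d, hd⟩ := h1 y
  have h4 := CForm.iso_Q hg y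
  rw [hd, f.Q_add_smul hp, h3, mul_one, T.τ_σ, add_eq_left] at h4
  obtain ⟨c, rfl⟩ := (he d).1 h4
  refine ⟨c, tn_eq.2 fun v => ?_⟩
  have := h2 (v - f.B v p • y) (by simp [h3])
  rw [map_sub, map_smul, hd] at this
  linear_combination (norm := module) this

end Iso

section Siegel

variable (f : CForm (FType.orth F) V)

/-- The nilpotent part of a Siegel transformation. -/
def sn (p r : V) : End F V := (f.fn p).smulRight r - (f.fn r).smulRight p

@[simp] theorem sn_apply (p r v : V) : sn f p r v = f.B v p • r - f.B v r • p := rfl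

/-- A basis of a singular line. -/
structure Sl (p r : V) : Prop where
  li : LinearIndependent F ![p, r]
  l : f.Q p = 0
  m : f.Q r = 0
  b : f.B p r = 0

/-- Siegel transformations. -/
def SN : Set (End F V) := {a | ∃ p r, Sl f p r ∧ a = sn f p r}

variable {f} {j : X →* (V ≃ₗ[F] V)} {p r p' r' : V}

theorem Bc (x y : V) : f.B x y = f.B y x := by simpa using f.symm y x

theorem Sl.symm (h : Sl f p r) : Sl f r p := ⟨LinearIndependent.pair_symm_iff.1 h.li, h.m, h.l, f.B_zero_symm h.b⟩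

theorem Sl.comb (h : Sl f p r) (x y : F) : f.Q (x • p + y • r) = 0 := by
  rw [f.Q_add_of_perp (by simp [h.b]), f.Q_smul_of_Q h.l, f.Q_smul_of_Q h.m, add_zero]

theorem Sl.ne (h : Sl f p r) : p ≠ 0 := h.li.ne_zero 0

theorem Sl.notMem (h : Sl f p r) : p ∉ Submodule.span F {r} := fun e => by
  obtain ⟨c, e⟩ := Submodule.mem_span_singleton.1 e
  exact one_ne_zero (LinearIndependent.pair_iff.1 h.li 1 (-c) (by rw [← e]; module)).1

theorem sn_eq {g : X} {c : F} : rs F j g = 1 + c • sn f p r ↔ ∀ v, j g v = v + c • (f.B v p • r - f.B v r • p) := LinearMap.ext_iff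

theorem sn_cj (hj : ∀ g, j g ∈ f.iso) : ∀ a ∈ SN f, ∀ g, rs F j g * a * rs F j g⁻¹ ∈ SN f := by
  rintro _ ⟨p, r, h, rfl⟩ g
  refine ⟨j g p, j g r, ⟨?_, (CForm.iso_Q (hj g) _).trans h.l, (CForm.iso_Q (hj g) _).trans h.m, (CForm.iso_B (hj g) _ _).trans h.b⟩,
    LinearMap.ext fun v => by simp [CForm.iso_B_right (hj g)]⟩
  exact LinearIndependent.pair_iff.2 fun s t e => LinearIndependent.pair_iff.1 h.li s t ((j g).injective (by simpa using e))

theorem sn_opp (h : Sl f p r) (h' : Sl f p' r') (e : f.B p p' * f.B r r' - f.B p r' * f.B r p' ≠ 0) :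
    Opp (SN f) (sn f p r) (sn f p' r') := by
  refine ⟨⟨p, r, h, rfl⟩, ⟨p', r', h', rfl⟩, -(f.B p p' * f.B r r' - f.B p r' * f.B r p'), neg_ne_zero.2 e, LinearMap.ext fun v => ?_,
    LinearMap.ext fun v => ?_⟩ <;>
  simp only [End.mul_apply, sn_apply, LinearMap.smul_apply, CForm.B_smul_left, CForm.B_sub_left, Bc p' p, Bc p' r, Bc r' p, Bc r' r] <;>
  module

theorem rank_one {a b c d : F} (h : a * d - b * c = 0) : ∃ u₁ u₂ w₁ w₂ : F, a = u₁ * w₁ ∧ b = u₁ * w₂ ∧ c = u₂ * w₁ ∧ d = u₂ * w₂ := by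
  by_cases ha : a = 0
  · rcases mul_eq_zero.1 (show b * c = 0 by linear_combination -h + d * ha) with e | e
    · exact ⟨0, 1, c, d, by simp [ha], by simp [e], by simp, by simp⟩
    · exact ⟨b, d, 0, 1, by simp [ha], by simp, by simp [e], by simp⟩
  · exact ⟨1, c / a, a, b, by simp, by simp, by field_simp, by field_simp; linear_combination h⟩

theorem sn_dep (h : ¬ LinearIndependent F ![p, r]) : sn f p r = 0 := by
  by_cases h0 : p = 0
  · ext; simp [h0]
  obtain ⟨c, rfl⟩ : ∃ c : F, c • p = r := by simpa [LinearIndependent.pair_iff' h0] using h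
  ext; simp [smul_smul, mul_comm]

theorem sn_tri : ∀ a ∈ SN f, ∀ b ∈ SN f, Tri (SN f) a b := by
  rintro _ ⟨p, r, h, rfl⟩ _ ⟨p', r', h', rfl⟩
  by_cases e : f.B p p' * f.B r r' - f.B p r' * f.B r p' = 0
  swap
  · exact .inr (.inl (sn_opp h h' e).2.2)
  obtain ⟨u₁, u₂, w₁, w₂, e1, e2, e3, e4⟩ := rank_one e
  have h1 : sn f p r * sn f p' r' - sn f p' r' * sn f p r = sn f (u₂ • p + -u₁ • r) (w₂ • p' + -w₁ • r') := by
    ext v
    simp only [End.mul_apply, LinearMap.sub_apply, sn_apply, CForm.B_smul_left, CForm.B_sub_left, Bc p' p, Bc p' r, Bc r' p, Bc r' r,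
      e1, e2, e3, e4, CForm.B_add_right, CForm.B_smul_right, FType.orth_σ]
    module
  by_cases h2 : LinearIndependent F ![u₂ • p + -u₁ • r, w₂ • p' + -w₁ • r']
  · refine .inr (.inr ⟨LinearMap.ext fun v => ?_, LinearMap.ext fun v => ?_, _, _, ⟨h2, h.comb _ _, h'.comb _ _, ?_⟩, h1⟩)
    rotate_left 2
    · simp only [CForm.B_add_left, CForm.B_add_right, CForm.B_smul_left, CForm.B_smul_right, FType.orth_σ, e1, e2, e3, e4]; ring
    all_goals
      simp only [End.mul_apply, sn_apply, CForm.B_smul_left, CForm.B_sub_left, Bc p' p, Bc p' r, Bc r' p, Bc r' r, e1, e2, e3, e4,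
        LinearMap.zero_apply]
      module
  · exact .inl (sub_eq_zero.1 (h1.trans (sn_dep h2)))

variable [FiniteDimensional F V] (hf : f.Nondeg)
include hf

theorem Sl.dual (h : Sl f p r) : ∃ y, f.B y p = 1 ∧ f.B y r = 0 :=
  let ⟨y, h1, h2⟩ := hf.exists_perp_B_eq h.notMem 1; ⟨y, (Bc _ _).trans h2, f.mem_perp_singleton.1 h1⟩

theorem sn_fl (hj : ∀ e ∈ f.iso, ∃ g, j g = e) : ∀ a ∈ SN f, Fl (rs F j) a := by
  rintro _ ⟨p, r, h, rfl⟩
  refine ⟨LinearMap.ext fun v => by simp [f.B_self_of_Q h.l, f.B_self_of_Q h.m, h.b, h.symm.b], fun e => ?_, fun c => ?_⟩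
  · obtain ⟨y, h1, h2⟩ := h.dual hf
    simpa [h1, h2, h.symm.ne] using LinearMap.congr_fun e y
  · have hok : f.EichOk p (-c • r) 0 := ⟨h.l, by simp [h.symm.b], (f.Q_smul_of_Q h.m _).symm⟩
    obtain ⟨g, hg⟩ := hj _ hok.mem_iso
    refine ⟨g, sn_eq.2 fun v => ?_⟩
    rw [hg, hok.apply]
    simp only [CForm.B_smul_right, FType.orth_σ, FType.orth_ε]
    module

theorem sn_char (h : Sl f p r) {g : X} (hg : j g ∈ f.iso) :
    (∃ c : F, rs F j g = 1 + c • sn f p r) ↔ ∀ v, f.B v p = 0 → f.B v r = 0 → j g v = v := by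
  refine ⟨fun ⟨c, e⟩ v h1 h2 => by simp [sn_eq.1 e v, h1, h2], fun e => ?_⟩
  have h1 : ∀ v, ∃ x y : F, j g v = v + (x • p + y • r) ∧ x * f.B v p + y * f.B v r = 0 := fun v => by
    have := CForm.iso_sub_mem_perp hg (H := f.perp (Submodule.span F {p, r})) (fun x hx => by
      rw [f.mem_perp_pair] at hx; exact e x hx.1 hx.2) v
    rw [hf.perp_perp, Submodule.mem_span_pair] at this
    obtain ⟨x, y, e'⟩ := this
    have h2 := CForm.iso_Q hg v
    rw [← sub_add_cancel (j g v) v, ← e', add_comm] at h2 ⊢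
    rw [f.Q_add, h.comb] at h2
    exact ⟨x, y, rfl, by simpa using h2⟩
  obtain ⟨y, h2, h3⟩ := h.dual hf
  obtain ⟨z, h4, h5⟩ := h.symm.dual hf
  obtain ⟨s, t, e1, e2⟩ := h1 y
  obtain ⟨s', t', e3, e4⟩ := h1 z
  obtain ⟨s'', t'', e5, e6⟩ := h1 (y + z)
  simp only [h2, h3, h4, h5, CForm.B_add_left, mul_one, mul_zero, add_zero, zero_add] at e2 e4 e6
  have e7 := LinearIndependent.pair_iff.1 h.li (s' - s'') (t - t'') (by
    rw [map_add, e1, e3, e2, e4] at e5; linear_combination (norm := module) e5)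
  refine ⟨t, sn_eq.2 fun v => ?_⟩
  have := e (v - f.B v p • y - f.B v r • z) (by simp [h2, h5]) (by simp [h3, h4])
  rw [map_sub, map_sub, map_smul, map_smul, e1, e3, e2, e4, show s' = -t by linear_combination e7.1 + e6 + e7.2] at this
  linear_combination (norm := module) this

variable (h5 : 5 ≤ finrank F V)
include h5

theorem sn_step (h : Sl f p r) (h' : Sl f p r') : Relation.ReflTransGen (Opp (SN f)) (sn f p r) (sn f p r') := by
  obtain ⟨w, hw, h1, h2, h3⟩ : ∃ w, f.Q w = 0 ∧ f.B p w = 1 ∧ f.B w r = 0 ∧ (f.B w r' = 0 ∨ ∃ x y : F, y ≠ 0 ∧ r' = x • p + y • r) := by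
    by_cases e : p ∈ Submodule.span F {r, r'}
    · obtain ⟨w, h1, h2, h3⟩ := hf.exists_partner h.l h.notMem (f.mem_perp_singleton.2 h.b)
      obtain ⟨x, y, e⟩ := Submodule.mem_span_pair.1 e
      have hx : x ≠ 0 := fun e' => h'.notMem (Submodule.mem_span_singleton.2 ⟨y, by simpa [e'] using e⟩)
      have hy : y ≠ 0 := fun e' => h.notMem (Submodule.mem_span_singleton.2 ⟨x, by simpa [e'] using e⟩)
      refine ⟨w, h2, h3, f.mem_perp_singleton.1 h1, .inr ⟨y⁻¹, -(y⁻¹ * x), by simp [hx, hy], ?_⟩⟩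
      rw [← e, smul_add, smul_smul, inv_smul_smul₀ hy]; module
    · obtain ⟨w, h1, h2, h3⟩ := hf.exists_partner h.l e (f.mem_perp_pair.2 ⟨h.b, h'.b⟩)
      exact ⟨w, h2, h3, (f.mem_perp_pair.1 h1).1, .inl (f.mem_perp_pair.1 h1).2⟩
  have hW := f.res_nondeg_iff.1 (hf.res_perp_pair h.l hw h1)
  have hT := CForm.thick_of_three_le hW (by
    have := hf.finrank_perp (Submodule.span F {p, w}); have := finrank_span_pair_le (F := F) p w; omega)
  have hr := f.mem_perp_pair.2 ⟨h.symm.b, f.B_zero_symm h2⟩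
  obtain ⟨s, hs, h4, h6, h7⟩ : ∃ s ∈ f.perp (Submodule.span F {p, w}), f.Q s = 0 ∧ f.B r s ≠ 0 ∧ f.B r' s ≠ 0 := by
    rcases h3 with h3 | ⟨x, y, hy, rfl⟩
    · exact hT.exists_opp_both hW hr (f.mem_perp_pair.2 ⟨h'.symm.b, f.B_zero_symm h3⟩) h.symm.ne h'.symm.ne h.m h'.m
    · obtain ⟨s, hs, h4, h6, -⟩ := hT.exists_opp_both hW hr hr h.symm.ne h.symm.ne h.m h.m
      exact ⟨s, hs, h4, h6, by simp [hy, h6, f.B_zero_symm (f.mem_perp_pair.1 hs).1]⟩
  obtain ⟨h8, h9⟩ := f.mem_perp_pair.1 hs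
  have h0 : Sl f w s := ⟨LinearIndependent.pair_iff.2 fun x y e => by
    simpa [h1, f.B_zero_symm h8, f.B_zero_symm h2, h6] using And.intro (congrArg (f.B p) e) (congrArg (f.B r) e), hw, h4, f.B_zero_symm h9⟩
  exact (Relation.ReflTransGen.single (sn_opp h h0 (by simpa [h1, f.B_zero_symm h8]))).tail
    (sn_opp h' h0 (by simpa [h1, f.B_zero_symm h8])).symm

theorem sn_conn : ∀ a ∈ SN f, ∀ b ∈ SN f, Relation.ReflTransGen (Opp (SN f)) a b := by
  have k1 : ∀ {p r s s'}, Sl f p r → Sl f s s' → f.B p s = 0 → Relation.ReflTransGen (Opp (SN f)) (sn f p r) (sn f s s') := by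
    intro p r s s' h h' e
    by_cases h1 : LinearIndependent F ![p, s]
    · have h2 : Sl f p s := ⟨h1, h.l, h'.l, e⟩
      have h3 : Sl f s (-p) := ⟨LinearIndependent.pair_neg_right_iff.2 h2.symm.li, h'.l, by simpa using h.l, by simpa using h2.symm.b⟩
      refine (sn_step hf h5 h h2).trans ((show sn f s (-p) = sn f p s from ?_) ▸ sn_step hf h5 h3 h')
      ext; simp; abel
    · obtain ⟨c, rfl⟩ : ∃ c : F, c • p = s := by simpa [LinearIndependent.pair_iff' h.ne] using h1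
      have hc : c ≠ 0 := left_ne_zero_of_smul h'.ne
      refine (show sn f p (c • s') = sn f (c • p) s' from ?_) ▸ sn_step hf h5 h ⟨LinearIndependent.pair_iff.2 fun x y e => ?_, h.l,
        f.Q_smul_of_Q h'.m _, by simpa using h'.b⟩
      · ext; simp [smul_smul, mul_comm]
      · simpa [hc] using LinearIndependent.pair_iff.1 h'.li (x * c⁻¹) (y * c) (by simpa [smul_smul, hc] using e)
  rintro _ ⟨p, r, h, rfl⟩ _ ⟨p', r', h', rfl⟩
  by_cases e : f.B p p' = 0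
  · exact k1 h h' e
  have h1 : Sl f (f.B p r' • p' + -f.B p p' • r') ((f.B p p')⁻¹ • p') := ⟨LinearIndependent.pair_iff.2 fun x y e' => by
    have := LinearIndependent.pair_iff.1 h'.li (x * f.B p r' + y * (f.B p p')⁻¹) (-(x * f.B p p')) (by linear_combination (norm := module) e')
    obtain rfl : x = 0 := by simpa [e] using this.2
    simpa [e] using this.1, h'.comb _ _, f.Q_smul_of_Q h'.l _, by simp [f.B_self_of_Q h'.l, h'.symm.b]⟩
  refine (show sn f _ _ = sn f p' r' from ?_) ▸ k1 h h1 (by simp [mul_comm])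
  ext v
  simp only [sn_apply, CForm.B_add_right, CForm.B_smul_right, FType.orth_σ]
  match_scalars <;> field_simp <;> ring

end Siegel

section Lin

variable (F V) in
/-- Transvections. -/
def RN : Set (End F V) := {a | ∃ (φ : Dual F V) (v : V), φ ≠ 0 ∧ v ≠ 0 ∧ φ v = 0 ∧ a = φ.smulRight v}

variable {j : X →* (V ≃ₗ[F] V)} {φ ψ χ : Dual F V} {u v w : V} {a b c : End F V}

theorem rn_cj : ∀ a ∈ RN F V, ∀ g, rs F j g * a * rs F j g⁻¹ ∈ RN F V := by
  rintro _ ⟨φ, v, h1, h2, h3, rfl⟩ g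
  refine ⟨φ ∘ₗ rs F j g⁻¹, j g v, fun e => h1 (LinearMap.ext fun x => ?_), by simpa, by simpa, LinearMap.ext fun x => by simp⟩
  simpa using LinearMap.congr_fun e (j g x)

theorem rn_smul (ha : a ∈ RN F V) {t : F} (h : t ≠ 0) : t • a ∈ RN F V := by
  obtain ⟨φ, v, h1, h2, h3, rfl⟩ := ha
  exact ⟨φ, t • v, h1, smul_ne_zero h h2, by simp [h3], LinearMap.ext fun x => by simp [smul_comm t]⟩

theorem rn_tri : ∀ a ∈ RN F V, ∀ b ∈ RN F V, Tri (RN F V) a b := by
  rintro _ ⟨φ, v, h1, h2, h3, rfl⟩ _ ⟨ψ, w, h4, h5, h6, rfl⟩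
  by_cases e : φ w = 0 <;> by_cases e' : ψ v = 0
  · exact .inl (LinearMap.ext fun x => by simp [e, e'])
  · exact .inr (.inr ⟨LinearMap.ext fun x => by simp [e], LinearMap.ext fun x => by simp [e], φ, -ψ v • w, h1,
      smul_ne_zero (neg_ne_zero.2 e') h5, by simp [e], LinearMap.ext fun x => by simp [e]⟩)
  · exact .inr (.inr ⟨LinearMap.ext fun x => by simp [e'], LinearMap.ext fun x => by simp [e'], ψ, φ w • v, h4,
      smul_ne_zero e h2, by simp [e'], LinearMap.ext fun x => by simp [e']⟩)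
  · refine .inr (.inl ⟨φ w * ψ v, mul_ne_zero e e', LinearMap.ext fun x => ?_, LinearMap.ext fun x => ?_⟩) <;>
      simp only [End.mul_apply, LinearMap.smulRight_apply, map_smul, LinearMap.smul_apply] <;> module

theorem rn_top [FiniteDimensional F V] (hι : Function.Injective j) (hj' : ∀ g, j g ∈ SLg F V)
    (hj : ∀ φ v, φ v = 0 → ∃ g, j g = dt φ v) {K : Subgroup X} (h : ∀ g, ∀ a ∈ RN F V, rs F j g = 1 + a → g ∈ K) : K = ⊤ := by
  refine eq_top_iff.2 fun g _ => (mem_map_iff_mem hι).1 (SLg_le_of_tr (M := K.map j) (fun φ v e => ?_) (hj' g))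
  obtain ⟨x, hx⟩ := hj φ v e
  by_cases h1 : φ = 0 ∨ v = 0
  · exact (show 1 = dt φ v from LinearEquiv.ext fun y => by rw [dt_apply e]; rcases h1 with rfl | rfl <;> simp) ▸ one_mem _
  · exact ⟨x, h x _ ⟨φ, v, (not_or.1 h1).1, (not_or.1 h1).2, e, rfl⟩ (LinearMap.ext fun y => by simp [hx, dt_apply e]), hx⟩

variable (j) in
/-- Conjugate endomorphisms. -/
def Cj (a b : End F V) : Prop := ∃ g, rs F j g * a * rs F j g⁻¹ = b

theorem Cj.trans (h : Cj j a b) (h' : Cj j b c) : Cj j a c := by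
  obtain ⟨g, rfl⟩ := h
  obtain ⟨x, rfl⟩ := h'
  exact ⟨x * g, by simp only [map_mul, _root_.mul_inv_rev, mul_assoc]⟩

theorem Cj.of {g : X} (h : rs F j g * a = b * rs F j g) : Cj j a b := ⟨g, by rw [h, mul_assoc, ii, mul_one]⟩

theorem Cj.smul (h : Cj j a b) (t : F) : Cj j (t • a) (t • b) := h.imp fun g e => by rw [← e, mul_smul_comm, smul_mul_assoc]

theorem exists_both {W W' : Type*} [AddCommGroup W] [AddCommGroup W'] {f g : W → W'} (hf : ∀ x y, f (x + y) = f x + f y)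
    (hg : ∀ x y, g (x + y) = g x + g y) {x y : W} (h1 : f x ≠ 0) (h2 : g y ≠ 0) : ∃ z, f z ≠ 0 ∧ g z ≠ 0 := by
  by_cases e : g x = 0
  · by_cases e' : f y = 0
    · exact ⟨x + y, by simpa [hf, e'], by simpa [hg, e]⟩
    · exact ⟨y, e', h2⟩
  · exact ⟨x, h1, e⟩

variable (hj : ∀ φ v, φ v = 0 → ∃ g, j g = dt φ v)
include hj

theorem rn_fl : ∀ a ∈ RN F V, Fl (rs F j) a := by
  rintro _ ⟨φ, v, h1, h2, h3, rfl⟩
  refine ⟨LinearMap.ext fun x => by simp [h3], fun e => h1 (LinearMap.ext fun x => by simpa [h2] using LinearMap.congr_fun e x), fun c => ?_⟩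
  have h4 : (c • φ) v = 0 := by simp [h3]
  exact (hj _ _ h4).imp fun g hg => LinearMap.ext fun x => by simp [hg, dt_apply h4, mul_smul]

theorem stepL (h1 : φ v = 0) (h2 : ψ v = 0) (e : ψ u = φ u) (h0 : φ u ≠ 0) : Cj j (φ.smulRight v) (ψ.smulRight v) := by
  have h3 : (φ - ψ) ((φ u)⁻¹ • u) = 0 := by simp [e]
  obtain ⟨g, hg⟩ := hj _ _ h3
  exact .of (g := g) (LinearMap.ext fun x => by simp [hg, dt_apply h3, h1, h2, e, h0])

theorem stepR (h1 : φ v = 0) (h2 : φ w = 0) (e : χ w = χ v) (h0 : χ v ≠ 0) : Cj j (φ.smulRight v) (φ.smulRight w) := by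
  have h3 : ((χ v)⁻¹ • χ) (w - v) = 0 := by simp [e]
  obtain ⟨g, hg⟩ := hj _ _ h3
  exact .of (g := g) (LinearMap.ext fun x => by simp [hg, dt_apply h3, h1, h2, h0])

theorem rn_conj [FiniteDimensional F V] (h3 : 3 ≤ finrank F V) : ∀ a ∈ RN F V, ∀ b ∈ RN F V, Cj j a b := by
  have kL : ∀ {φ ψ : Dual F V} {v}, φ ≠ 0 → ψ ≠ 0 → φ v = 0 → ψ v = 0 → ∃ t : F, t ≠ 0 ∧ Cj j (φ.smulRight v) (t • ψ.smulRight v) := by
    intro φ ψ v h1 h2 h4 h5
    obtain ⟨x, hx⟩ := DFunLike.ne_iff.1 h1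
    obtain ⟨y, hy⟩ := DFunLike.ne_iff.1 h2
    obtain ⟨u, e, e'⟩ := exists_both φ.map_add ψ.map_add hx hy
    refine ⟨φ u / ψ u, div_ne_zero e e', ?_⟩
    convert stepL hj (ψ := (φ u / ψ u) • ψ) h4 (by simp [h5]) (by simp [e']) e using 1
    ext; simp [mul_smul]
  have kR : ∀ {φ : Dual F V} {v w}, v ≠ 0 → w ≠ 0 → φ v = 0 → φ w = 0 → ∃ t : F, t ≠ 0 ∧ Cj j (φ.smulRight v) (t • φ.smulRight w) := by
    intro φ v w h1 h2 h4 h5
    obtain ⟨x, hx⟩ := exists_dual_of_ne h1 (1 : F)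
    obtain ⟨y, hy⟩ := exists_dual_of_ne h2 (1 : F)
    obtain ⟨χ, e, e'⟩ := exists_both (f := fun χ : Dual F V => χ v) (g := fun χ => χ w) (fun _ _ => rfl) (fun _ _ => rfl)
      (hx.trans_ne one_ne_zero) (hy.trans_ne one_ne_zero)
    refine ⟨χ v / χ w, div_ne_zero e e', ?_⟩
    convert stepR hj (w := (χ v / χ w) • w) h4 (by simp [h5]) (by simp [e']) e using 1
    ext; simp [smul_comm (χ v / χ w)]
  rintro _ ⟨φ, v, h1, h2, h4, rfl⟩ _ ⟨ψ, w, h5, h6, h7, rfl⟩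
  obtain ⟨u, -, u0, hu⟩ := exists_mem_ker_of_lt (W := ⊤) ![φ, ψ] (by rw [finrank_top]; exact h3)
  obtain ⟨t₁, e1, c1⟩ := kR h2 u0 h4 (hu 0)
  obtain ⟨t₂, e2, c2⟩ := kL h1 h5 (hu 0) (hu 1)
  obtain ⟨t₃, e3, c3⟩ := kR (φ := ψ) u0 h6 (hu 1) h7
  refine (c1.trans ((c2.trans (c3.smul _)).smul _)).trans ?_
  rw [smul_smul, smul_smul]
  have h8 := mul_ne_zero (mul_ne_zero e1 e2) e3
  generalize t₁ * t₂ * t₃ = t at *
  obtain ⟨x, hx⟩ := DFunLike.ne_iff.1 h5
  obtain ⟨y, h9, hy⟩ := exists_notMem_of_finrank_lt (U := Submodule.span F {w}) (W := LinearMap.ker ψ) (by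
    have := finrank_ker_dual_ge ψ; have := finrank_span_singleton_le (F := F) w; omega)
  obtain ⟨χ, k1, k2⟩ := exists_dual_pair hy (1 : F)
  rw [LinearMap.mem_ker] at h9
  rw [show t • ψ.smulRight w = (t • ψ).smulRight w from LinearMap.ext fun _ => by simp [mul_smul]]
  exact (stepL hj (u := x + (t * ψ x - χ x) • y) (by simp [h7]) k1 (by simp [k2, h9]) (by simpa [h9, h8] using hx)).trans
    (stepL hj (u := x + (ψ x - χ x) • y) k1 h7 (by simp [k2, h9]) (by simpa [k2] using hx))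

end Lin

open Matrix
open scoped MatrixGroups

section SL

variable {n : Type} [Fintype n] [DecidableEq n]

variable (n F) in
/-- The natural action of `SL`. -/
noncomputable abbrev jS : SpecialLinearGroup n F →* ((n → F) ≃ₗ[F] (n → F)) := matE SpecialLinearGroup.coeMonoidHom

theorem jS_inj : Function.Injective (jS F n) := matE_injective Subtype.val_injective

theorem jS_mem (g : SpecialLinearGroup n F) : jS F n g ∈ SLg F (n → F) := mem_SLg.2 (Units.ext ((det_matE _ g).trans g.2))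

theorem jS_dt (φ : Dual F (n → F)) (v : n → F) (h : φ v = 0) : ∃ g, jS F n g = dt φ v := by
  obtain ⟨g, hg⟩ := glE.surjective (dt φ v)
  exact ⟨⟨g, congrArg Units.val (show GeneralLinearGroup.det g = 1 by rw [← det_glE, hg]; exact mem_SLg.1 (dt_mem_SLg h))⟩,
    LinearEquiv.ext fun x => LinearEquiv.congr_fun hg x⟩

/-- An elementary matrix as an endomorphism. -/
noncomputable abbrev el (F : Type*) [Field F] (i j : n) : End F (n → F) := (LinearMap.proj j).smulRight (Pi.single i (1 : F) : n → F)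

theorem el_mem {i j : n} (h : i ≠ j) : el F i j ∈ RN F (n → F) :=
  ⟨_, _, fun e => by simpa using LinearMap.congr_fun e (Pi.single j 1), by simp, by simp [h.symm], rfl⟩

theorem el_eq {g : SpecialLinearGroup n F} {i j : n} {c : F} :
    rs F (jS F n) g = 1 + c • el F i j ↔ (g : Matrix n n F) = transvection i j c := by
  have : ∀ v, transvection i j c *ᵥ v = (1 + c • el F i j) v := fun v => by
    ext l; simp [transvection, add_mulVec, single_mulVec, Pi.single_apply, Function.update_apply]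
  exact ⟨fun e => matrix_ext_mulVec fun v => (LinearMap.congr_fun e v).trans (this v).symm,
    fun e => LinearMap.ext fun v => (congrArg (· *ᵥ v) e).trans (this v)⟩

end SL

theorem odd_xx_yy [Finite F] [CharP F 2] {s t : F} (hs : s ≠ 0) (ht : t ≠ 0) : Odd (orderOf (xx s * yy t)) := by
  refine Nat.not_even_iff_odd.1 fun ⟨r, hr⟩ => ?_
  have h0 := orderOf_pos (xx s * yy t)
  have h1 : xx s * xx s = 1 := by rw [← xx_add, CharTwo.add_self_eq_zero, xx_zero]
  have h2 : yy t * yy t = 1 := by rw [← yy_add, CharTwo.add_self_eq_zero]; exact extE rfl rfl rfl rfl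
  have h3 : (xx s * yy t) ^ r * (xx s * yy t) ^ r = 1 := by rw [← pow_add, ← hr, pow_orderOf_eq_one]
  have h4 : xx s * (xx s * yy t) ^ r * (xx s)⁻¹ = ((xx s * yy t) ^ r)⁻¹ := by
    rw [← conj_pow, ← inv_pow, _root_.mul_inv_rev, ← mul_assoc, h1, one_mul, inv_eq_of_mul_eq_one_right h2]
  have h5 : (xx s * yy t) * (xx s * yy t) ^ r = (xx s * yy t) ^ r * (xx s * yy t) := (Commute.self_pow _ _).eq
  refine pow_ne_one_of_lt_orderOf (x := xx s * yy t) (n := r) (by omega) (by omega) ?_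
  generalize (xx s * yy t) ^ r = z at *
  rw [inv_eq_of_mul_eq_one_right h3, mul_inv_eq_iff_eq_mul] at h4
  rw [← mul_assoc, ← h4, mul_assoc, mul_assoc, mul_right_inj] at h5
  have e1 := congrArg (· 0 0) h4
  have e2 := congrArg (· 0 1) h4
  have e3 := congrArg (· 0 0) h5
  have e4 := detE z
  simp [mulE, hs, ht] at e1 e2 e3
  have e5 : z 1 1 = z 0 0 := mul_left_cancel₀ hs (by linear_combination e2)
  have e6 : z 0 0 = 1 := by
    rw [e1, e5, mul_zero, sub_zero, mul_self_eq_one_iff, CharTwo.neg_eq, or_self] at e4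
    exact e4
  exact extE e6 e3 e1 (e5.trans e6)

theorem LA_phi {k M : Type*} [Field k] [AddCommGroup M] [Module k M] {ι : X →* End k M} {a b : End k M} (hι : Function.Injective ι)
    (ha : Fl ι a) (hb : Fl ι b) (e : a * b * a = a) (e' : b * a * b = b) : ∃ φ : SL(2, k) →* X, Function.Injective φ ∧
      (∀ t, ι (φ (xx t)) = 1 + t • a) ∧ ∀ t, ι (φ (yy t)) = 1 + t • b := by
  obtain ⟨ψ, h1, h2, h3, -⟩ := psi_norm ha.sq hb.sq e e' ha.ne
  have h4 : Function.Injective ι.toHomUnits := fun x y h => hι (congrArg Units.val h)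
  have h5 : ∀ g, ψ g ∈ ι.toHomUnits.range := range_le_of ψ (fun t => let ⟨g, hg⟩ := ha.ex t; ⟨g, Units.ext (hg.trans (h2 t).symm)⟩)
    fun t => let ⟨g, hg⟩ := hb.ex t; ⟨g, Units.ext (hg.trans (h3 t).symm)⟩
  let φ : SL(2, k) →* X := (MonoidHom.ofInjective h4).symm.toMonoidHom.comp (ψ.codRestrict _ h5)
  have h6 : ∀ g, ι (φ g) = ψ g := fun g => congrArg Units.val (MonoidHom.apply_ofInjective_symm h4 ⟨ψ g, h5 g⟩)
  exact ⟨φ, fun x y h => h1 (Units.ext (by rw [← h6, h, h6])), fun t => (h6 _).trans (h2 t), fun t => (h6 _).trans (h3 t)⟩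

end Cfsg.Agent.C3.LR
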