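import Cfsg.Agent.C3.Sig
import Cfsg.Agent.S4469
import Cfsg.Agent.H1.Section
import Cfsg.Agent.H2.Invol2

/-! Landau's theorem, the Brauer–Fowler character bound, groups with a four-group of small centralizers. -/

set_option autoImplicit false

namespace Cfsg.Agent.C3

open Cfsg H3 H2 B Subgroup Finset H1
open scoped ComplexConjugate commutatorElement

universe u

theorem landau_aux (k : ℕ) : ∀ q : ℚ, ∃ N : ℕ, ∀ (ι : Type u) (s : Finset ι) (f : ι → ℕ), s.card ≤ k →
    (∀ i ∈ s, 0 < f i) → ∑ i ∈ s, (f i : ℚ)⁻¹ = q → ∀ i ∈ s, f i ≤ N := by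
  classical
  induction k with
  | zero => exact fun q => ⟨0, fun ι s f a _ _ i b => by simp_all⟩
  | succ k ih =>
  intro q
  choose N hN using ih
  refine ⟨⌈(k + 1) / q⌉₊ + (range (⌈(k + 1) / q⌉₊ + 1)).sup fun m => N (q - (m : ℚ)⁻¹), fun ι s f a b c i d => ?_⟩
  obtain ⟨j, e, h⟩ := exists_min_image s f ⟨i, d⟩
  have n : (0 : ℚ) < f j := Nat.cast_pos.2 (b j e)
  have o : 0 < q := c ▸ sum_pos (fun i a => inv_pos.2 (Nat.cast_pos.2 (b i a))) ⟨i, d⟩
  have l : f j ≤ ⌈(k + 1) / q⌉₊ := by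
    have := sum_le_card_nsmul s (fun i => (f i : ℚ)⁻¹) (f j : ℚ)⁻¹ fun i a => inv_anti₀ n (Nat.cast_le.2 (h i a))
    rw [c, nsmul_eq_mul, ← div_eq_mul_inv, le_div_iff₀' n, ← le_div_iff₀ o] at this
    exact Nat.cast_le.1 ((this.trans (by gcongr; exact_mod_cast a)).trans (Nat.le_ceil _))
  by_cases m : i = j
  · exact (m ▸ l).trans le_self_add
  · exact (hN (q - (f j : ℚ)⁻¹) ι (s.erase j) f (by rw [card_erase_of_mem e]; omega)
      (fun i a => b i (mem_of_mem_erase a)) (by rw [← c, ← add_sum_erase _ _ e]; simp) i (by simp [m, d])).trans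
      (le_add_left (le_sup (f := fun m : ℕ => N (q - (m : ℚ)⁻¹)) (mem_range.2 (Nat.lt_succ_of_le l))))

variable {G : Type*} [Group G] [Finite G]

theorem sum_index_out [Fintype (ConjClasses G)] :
    ∑ K : ConjClasses G, (centralizer ({K.out} : Set G)).index = Nat.card G := by
  rw [← Nat.card_congr (Equiv.sigmaFiberEquiv ConjClasses.mk), Nat.card_sigma]
  exact sum_congr rfl fun K _ => (card_isConj_eq_index _).symm.trans
    (Nat.card_congr (Equiv.subtypeEquivRight fun x => isConj_out_iff.trans eq_comm))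

theorem landau (k : ℕ) : ∃ N : ℕ, ∀ (G : Type u) [Group G] [Finite G], Nat.card (IrrCharacter G) ≤ k →
    Nat.card G ≤ N := by
  obtain ⟨N, h⟩ := landau_aux.{u} k 1
  refine ⟨N, fun G _ _ a => ?_⟩
  have := Fintype.ofFinite (ConjClasses G)
  have b := h _ univ (fun K : ConjClasses G => Nat.card (centralizer ({K.out} : Set G)))
    (by rwa [card_univ, ← Nat.card_eq_fintype_card, ← card_irr_eq_card_conjClasses]) (fun _ _ => Nat.card_pos) (by
      have b : (Nat.card G : ℚ) ≠ 0 := Nat.cast_ne_zero.2 Nat.card_pos.ne'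
      rw [← mul_right_inj' b, mul_one, mul_sum]
      nth_rw 2 [← sum_index_out]
      rw [Nat.cast_sum]
      refine sum_congr rfl fun K _ => ?_
      rw [← (centralizer ({K.out} : Set G)).index_mul_card, Nat.cast_mul,
        mul_inv_cancel_right₀ (Nat.cast_ne_zero.2 Nat.card_pos.ne')]) (ConjClasses.mk 1) (mem_univ _)
  rwa [isConj_one_right.1 (isConj_out 1), centralizer_eq_top_iff_subset.2 (by simp), Subgroup.card_top] at b

theorem one_block_bound (p a : ℕ) [Fact p.Prime] : ∃ N : ℕ, ∀ (G : Type u) [Group G] [Finite G] (M : Ideal AlgInt)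
    [PMod p M], (Nat.card G).factorization p ≤ a → (∀ B, IsPBlock M B → B = principalBlock M G) → Nat.card G ≤ N := by
  obtain ⟨N, h⟩ := landau.{u} (p ^ (2 * a) + 4)
  refine ⟨N, fun G _ _ M _ b c => h G ?_⟩
  have d := (isPBlock_principal (M := M) (G := G)).card_le_bf
  rw [defect_principal, Set.eq_univ_of_forall (s := principalBlock M G) fun χ =>
    c _ (isPBlock_blockOf χ) ▸ self_mem_blockOf χ, Nat.card_congr (Equiv.Set.univ _)] at d
  have := Nat.pow_le_pow_right (Fact.out : p.Prime).pos (Nat.mul_le_mul_left 2 b)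
  omega

open Classical in
theorem card_invol_le : Nat.card {x : G // orderOf x = 2} ≤ ∑ χ : IrrCharacter G with χ ≠ oneIrr G ∧
    (fun g => conj ((χ : G → ℂ) g)) = χ, charDegree (χ : G → ℂ) := by
  have := Fintype.ofFinite G
  have a := card_sq_root_eq_sum (1 : G)
  have b : Nat.card {s : G // s * s = 1} = Nat.card {x : G // orderOf x = 2} + 1 := by
    rw [card_subtype_eq_filter, card_subtype_eq_filter, ← card_erase_add_one (a := 1) (by simp)]
    congr 2; ext; simp [ord2_iff, and_comm]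
  rw [b, ← add_sum_erase _ _ (mem_univ (oneIrr G)), show fsInd (oneIrr G : G → ℂ) = 1 by simp [fsInd, oneIrr],
    show (oneIrr G : G → ℂ) 1 = 1 from rfl, map_one, mul_one, Nat.cast_succ, add_comm, add_right_inj] at a
  rw [← Nat.cast_le (α := ℝ), ← Complex.norm_natCast, a, sum_filter, Nat.cast_sum, ← filter_ne', sum_filter]
  refine (norm_sum_le _ _).trans (sum_le_sum fun χ _ => ?_)
  by_cases h : (fun g => conj ((χ : G → ℂ) g)) = χ
  · rcases χ.2.fsInd_of_real h with c | c <;> by_cases d : χ = oneIrr G <;> simp [c, d, h, ← χ.2.cast_charDegree]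
  · simp [χ.2.fsInd_of_not_real h, h]

open Classical in
theorem sum_sq_ne_one (P : IrrCharacter G → Prop) :
    ∑ χ : IrrCharacter G with χ ≠ oneIrr G ∧ P χ, charDegree (χ : G → ℂ) ^ 2 + 1 ≤ Nat.card G := by
  have := Fintype.ofFinite G
  rw [← sum_irr_charDegree_sq, ← add_sum_erase _ _ (mem_univ (oneIrr G)), add_comm]
  exact add_le_add (by simp [oneIrr, charDegree]) (sum_le_sum_of_subset fun χ => by simp +contextual)

theorem exists_real_small (h : Even (Nat.card G)) : ∃ χ : IrrCharacter G, χ ≠ oneIrr G ∧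
    (fun g => conj ((χ : G → ℂ) g)) = χ ∧ charDegree (χ : G → ℂ) * Nat.card {x : G // orderOf x = 2} < Nat.card G := by
  classical
  obtain ⟨t, a⟩ := exists_ord2_of_even h
  have : Nonempty {x : G // orderOf x = 2} := ⟨⟨t, a⟩⟩
  have b := card_invol_le (G := G)
  obtain ⟨χ, c, d⟩ := exists_min_image _ (fun χ : IrrCharacter G => charDegree (χ : G → ℂ))
    (nonempty_of_sum_ne_zero (Nat.card_pos.trans_le b).ne')
  refine ⟨χ, (mem_filter.1 c).2.1, (mem_filter.1 c).2.2, ((Nat.mul_le_mul_left _ b).trans ?_).trans_lt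
    (sum_sq_ne_one fun χ => (fun g => conj ((χ : G → ℂ) g)) = χ)⟩
  rw [mul_sum]
  exact sum_le_sum fun ψ e => sq (charDegree (ψ : G → ℂ)) ▸ Nat.mul_le_mul_right _ (d ψ e)

theorem exists_real_lt_cent {s : G} (h : orderOf s = 2) : ∃ χ : IrrCharacter G, 2 ∣ (charKer (χ : G → ℂ)).index ∧
    charDegree (χ : G → ℂ) < Nat.card (centralizer ({s} : Set G)) := by
  obtain ⟨χ, a, b, c⟩ := exists_real_small (even_iff_two_dvd.2 (h ▸ orderOf_dvd_natCard s))
  have := χ.2.isClassFunction.charKer_normal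
  obtain ⟨ψ, d, e⟩ := χ.2.exists_quotient _ le_rfl
  refine ⟨χ, by_contra fun f => a (Subtype.ext (funext fun g => ?_)), lt_of_mul_lt_mul_right (((Nat.mul_le_mul_left _
    (Nat.card_le_card_of_injective (fun y : {y // IsConj s y} => (⟨y.1, orderOf_of_isConj y.2 ▸ h⟩ :
      {x : G // orderOf x = 2}))
      fun _ _ f => Subtype.ext (congrArg (·.1) f))).trans_lt c).trans_eq ?_) (Nat.zero_le _)⟩
  · rw [← e, d.eq_one_of_real_of_odd (Nat.odd_iff.2 (Nat.two_dvd_ne_zero.1 f)) (funext fun x => by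
      obtain ⟨x, rfl⟩ := QuotientGroup.mk_surjective x
      rw [e, congrFun b])]
    rfl
  · rw [mul_comm, card_isConj_mul]

theorem jordan_ker (n : ℕ) : ∃ J : ℕ, ∀ (G : Type u) [Group G] [Finite G] (χ : G → ℂ), IsIrrCharacter G χ →
    charDegree χ ≤ n → ∃ A : Subgroup G, ⁅A, A⁆ ≤ charKer χ ∧ charKer χ ≤ A ∧ A.index ≤ J := by
  refine ⟨(range (n + 1)).sup fun n => n.factorial * 12 ^ (n * (Nat.primeCounting (n + 1) + 1)), fun G _ _ χ a b => ?_⟩
  have := a.isClassFunction.charKer_normal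
  obtain ⟨ψ, c, d, e, f⟩ := exists_faithful_quot a _ rfl
  obtain ⟨A, -, i, j⟩ := S4469.result ψ c.isCharacter (fun g i => mem_bot.1 (e ▸ c.mem_charKer_iff.2 i)) _ f
  refine ⟨A.comap (QuotientGroup.mk' _), commutator_le.2 fun x k y l => (QuotientGroup.eq_one_iff _).1 ?_,
    QuotientGroup.le_comap_mk' _ _, ?_⟩
  · exact (map_commutatorElement (QuotientGroup.mk' _) x y).trans (commutatorElement_eq_one_iff_mul_comm.2 (i _ k _ l))
  · rw [index_comap_of_surjective _ (QuotientGroup.mk'_surjective _)]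
    exact j.trans (le_sup (f := fun n : ℕ => n.factorial * 12 ^ (n * (Nat.primeCounting (n + 1) + 1)))
      (mem_range.2 (Nat.lt_succ_of_le b)))

/-- A four-group acting on `H` with centralizers of order at most `c`. -/
structure KD (c : ℕ) (H : Subgroup G) (a b : G) : Prop where
  aa : a * a = 1
  bb : b * b = 1
  ab : Commute a b
  na : a ∈ normalizer (H : Set G)
  nb : b ∈ normalizer (H : Set G)
  le : ∀ v, v = a ∨ v = b ∨ v = a * b → Nat.card ↥(H ⊓ centralizer ({v} : Set G)) ≤ c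

variable {c : ℕ} {H K X Y : Subgroup G} {a b : G}

theorem KD.mono (h : KD c H a b) (hK : K ≤ H) (ha : a ∈ normalizer (K : Set G)) (hb : b ∈ normalizer (K : Set G)) :
    KD c K a b :=
  ⟨h.aa, h.bb, h.ab, ha, hb, fun v e => (card_le_of_le (inf_le_inf_right _ hK)).trans (h.le v e)⟩

theorem card_sec_cent (hK : K ≤ H) (hn : H ≤ normalizer (K : Set G)) (ha : a ∈ normalizer (K : Set G)) :
    Nat.card ↥(sec K H ⊓ centralizer {secMk K ⟨a, ha⟩}) ≤ Nat.card ↥(H ⊓ centralizer ({a} : Set G)) := by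
  refine le_of_mul_le_mul_left ?_ (Nat.card_pos (α := K))
  rw [← card_unsec, ← card_inf_mul_relIndex (centralizer {a}), mul_comm (Nat.card K), inf_comm]
  refine Nat.mul_le_mul (card_le_of_le (inf_le_inf_right _ ?_)) (relIndex_centralizer_le_card fun g hg => ?_)
  · rw [unsec_inf, unsec_sec hn, sup_eq_left.2 hK]; exact inf_le_left
  · obtain ⟨i, -, j⟩ := mem_unsec_iff.1 hg
    exact (secMk_eq_one_iff (x := ⁅⟨g, i⟩, ⟨a, ha⟩⁆)).1 ((map_commutatorElement ..).trans
      (commutatorElement_eq_one_iff_mul_comm.2 (mem_centralizer_singleton_iff.1 j)))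

theorem KD.sec (h : KD c H a b) (hK : K ≤ H) (hn : H ≤ normalizer (K : Set G)) (ha : a ∈ normalizer (K : Set G))
    (hb : b ∈ normalizer (K : Set G)) : KD c (sec K H) (secMk K ⟨a, ha⟩) (secMk K ⟨b, hb⟩) := by
  have n : ∀ {a} (ha : a ∈ normalizer (K : Set G)), a ∈ normalizer (H : Set G) →
      secMk K ⟨a, ha⟩ ∈ normalizer (H1.sec K H : Set (Sec K)) := fun ha i =>
    sec_le_normalizer (zpowers_le.2 i) (secMk_mem_sec (mem_zpowers _) ha)
  refine ⟨?_, ?_, Commute.map (Subtype.ext h.ab.eq) _, n ha h.na, n hb h.nb, ?_⟩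
  · rw [← map_mul, ← map_one (secMk K)]; exact congrArg _ (Subtype.ext h.aa)
  · rw [← map_mul, ← map_one (secMk K)]; exact congrArg _ (Subtype.ext h.bb)
  · rintro _ (rfl | rfl | rfl)
    · exact (card_sec_cent hK hn ha).trans (h.le _ (.inl rfl))
    · exact (card_sec_cent hK hn hb).trans (h.le _ (.inr (.inl rfl)))
    · exact (card_sec_cent hK hn (mul_mem ha hb)).trans (h.le _ (.inr (.inr rfl)))

theorem exists_conj_odd (hH : Odd (Nat.card H)) {x y w : G} (hx : x * x = 1) (hy : y * y = 1) (h : x * y ∈ H)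
    (hx' : Commute x w) (hy' : Commute y w) : ∃ u ∈ H ⊓ centralizer ({w} : Set G), u * x * u⁻¹ = y :=
  (conj_of_odd hx hy (hH.of_dvd_nat (orderOf_dvd_card_of_mem h))).elim fun k e =>
    ⟨_, pow_mem (mem_inf.2 ⟨h, mem_centralizer_singleton_iff.2 (hx'.mul_left hy')⟩) k, e⟩

theorem KD.odd (h : KD c H a b) (hH : Odd (Nat.card H)) : Nat.card H ≤ c ^ 3 := by
  have ca : ∀ {x}, x ∈ H → a * x * a⁻¹ ∈ H := conj_mem_of_mem_normalizer h.na
  have cb : ∀ {x}, x ∈ H → b * x * b⁻¹ ∈ H := conj_mem_of_mem_normalizer h.nb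
  have ia := inv_eq_of_mul_eq_one_right h.aa
  have ib := inv_eq_of_mul_eq_one_right h.bb
  have abab : a * b * (a * b) = 1 := by rw [← sq, h.ab.mul_pow, sq, sq, h.aa, h.bb, mul_one]
  refine (Nat.card_le_card_of_surjective (fun x : ↥(H ⊓ centralizer ({b} : Set G)) × ↥(H ⊓ centralizer
    ({a * b} : Set G)) × ↥(H ⊓ centralizer ({a} : Set G)) => (⟨x.1 * x.2.1 * x.2.2, mul_mem (mul_mem x.1.2.1 x.2.1.2.1)
      x.2.2.2.1⟩ : H)) fun ⟨x, hx⟩ => ?_).trans (by
    rw [Nat.card_prod, Nat.card_prod, pow_three]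
    exact Nat.mul_le_mul (h.le _ (by simp)) (Nat.mul_le_mul (h.le _ (by simp)) (h.le _ (by simp))))
  have t : x * a * x⁻¹ * (x * a * x⁻¹) = 1 := by rw [conj_mul, h.aa]; simp
  obtain ⟨y, hy, e⟩ : ∃ y ∈ H, x * a * x⁻¹ * b = y * (a * b) := ⟨_, mul_mem hx (ca (inv_mem hx)), by group⟩
  have w : (x * a * x⁻¹ * b) ^ 2 ∈ H := by
    convert mul_mem hy (ca (cb hy)) using 1
    rw [e, sq, ← mul_one (_ * (a * _ * _)), ← abab]; group
  obtain ⟨k, f⟩ := hH.of_dvd_nat (orderOf_dvd_card_of_mem w)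
  set z := (x * a * x⁻¹ * b) ^ (2 * k + 1) with hz
  have zz : z * z = 1 := by rw [hz, ← pow_add, ← two_mul, pow_mul, ← f, pow_orderOf_eq_one]
  have iz := inv_eq_of_mul_eq_one_right zz
  obtain ⟨u, i, j⟩ := exists_conj_odd hH zz abab (by
      rw [hz, pow_succ, pow_mul, mul_assoc]
      exact mul_mem (pow_mem w k) (by rwa [e, mul_assoc, abab, mul_one]))
    (mul_inv_eq_iff_eq_mul.1 ((inv_conj_pow (inverts_right t h.bb) _).trans iz)).symm (h.ab.mul_left (.refl b))
  obtain ⟨v, l, m⟩ := exists_conj_odd hH (x := u * (x * a * x⁻¹) * u⁻¹) (by rw [conj_mul, t]; simp) h.aa (by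
      have := mul_mem i.1 hx
      simpa [ia, mul_assoc] using H.mul_mem this (ca (inv_mem this)))
    (j ▸ (Commute.conj_iff u).2 (mul_inv_eq_iff_eq_mul.1 ((inv_conj_pow (inverts_left t h.bb) _).trans iz)))
    ((Commute.refl a).mul_right h.ab)
  exact ⟨⟨⟨_, inv_mem i⟩, ⟨_, inv_mem l⟩, v * u * x, mul_mem (mul_mem l.1 i.1) hx,
    mem_centralizer_singleton_conj.2 (by simpa [mul_assoc] using m)⟩, Subtype.ext (by simp [mul_assoc])⟩

theorem KD.exists_inv (h : KD c H a b) (hH : Even (Nat.card H)) :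
    ∃ s ∈ H, orderOf s = 2 ∧ Commute a s ∧ Commute b s := by
  obtain ⟨s, i, j⟩ := exists_ord2_mem_of_even (Nat.even_iff.2 (Eq.trans (card_modEq_card_centralizer (K := H)
    (isPGroup_closure_commute_invol h.aa h.bb h.ab) ((closure_le _).2 (by
      simp [Set.insert_subset_iff, h.na, h.nb]))).symm (Nat.even_iff.1 hH)))
  exact ⟨s, i.1, j, i.2 a (subset_closure (by simp)), i.2 b (subset_closure (by simp))⟩

/-- intersection with a conjugate -/
abbrev sqc (a : G) (X : Subgroup G) : Subgroup G := X ⊓ cj a X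

omit [Finite G] in
theorem sqc_self (h : a * a = 1) : a ∈ normalizer (sqc a X : Set G) :=
  mem_normalizer_iff_cj.2 (by rw [cj_inf, ← cj_mul, h, cj_one, inf_comm])

omit [Finite G] in
theorem sqc_comm (h : Commute a b) (h1 : a ∈ normalizer (X : Set G)) : a ∈ normalizer (sqc b X : Set G) :=
  mem_normalizer_iff_cj.2 (by rw [cj_inf, ← cj_mul, h.eq, cj_mul, cj_eq_of_mem_normalizer h1])

omit [Finite G] in
theorem sqc_norm (h : a ∈ normalizer (H : Set G)) (h1 : H ≤ normalizer (X : Set G)) :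
    H ≤ normalizer (sqc a X : Set G) :=
  le_normalizer_inf h1 (by rw [← cj_normalizer, ← cj_eq_of_mem_normalizer h]; exact cj_mono a h1)

omit [Finite G] in
theorem sqc_index (h : a ∈ normalizer (H : Set G)) {J : ℕ} (h1 : X.relIndex H ≤ J) : (sqc a X).relIndex H ≤ J * J :=
  relIndex_inf_le.trans (Nat.mul_le_mul h1 (by rwa [← cj_eq_of_mem_normalizer h, relIndex_cj]))

omit [Finite G] in
theorem sqc_commutator (h : ⁅X, X⁆ ≤ Y) : ⁅sqc a X, sqc a X⁆ ≤ sqc a Y :=
  le_inf ((commutator_mono inf_le_left inf_le_left).trans h)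
    ((commutator_mono inf_le_right inf_le_right).trans (cj_commutator a X X ▸ cj_mono a h))

theorem klein_bound (c n : ℕ) : ∃ N : ℕ, ∀ (G : Type u) [Group G] [Finite G] (H : Subgroup G) (a b : G),
    KD c H a b → ¬ 2 ^ n ∣ Nat.card H → Nat.card H ≤ N := by
  induction n with
  | zero => exact ⟨0, by simp⟩
  | succ n ih =>
  obtain ⟨N, ih⟩ := ih
  have step : ∀ (G : Type u) [Group G] [Finite G] (H : Subgroup G) (a b : G), KD c H a b → ¬ 2 ^ (n + 1) ∣ Nat.card H →
      Even (Nat.card H) → ∃ s ∈ H, orderOf s = 2 ∧ Nat.card ↥(H ⊓ centralizer ({s} : Set G)) ≤ 2 * N :=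
    fun G _ _ H a b h d e => by
      obtain ⟨s, f, i, j, k⟩ := h.exists_inv e
      have l : centralizer ({s} : Set G) ≤ normalizer (zpowers s : Set G) :=
        B.centralizer_zpowers s ▸ centralizer_le_normalizer _
      have m : ∀ {a}, Commute a s → a ∈ normalizer (centralizer ({s} : Set G) : Set G) := fun j =>
        le_normalizer (mem_centralizer_singleton_iff.2 j)
      have o : zpowers s ≤ H ⊓ centralizer {s} := zpowers_le.2 ⟨f, mem_centralizer_singleton_iff.2 rfl⟩
      have r := card_mul_relIndex o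
      rw [Nat.card_zpowers, i, ← card_sec _ _ (inf_le_right.trans l)] at r
      refine ⟨s, f, i, r ▸ Nat.mul_le_mul_left 2 (ih _ _ _ _ ((h.mono inf_le_left (inf_normalizer_le_normalizer_inf
        ⟨h.na, m j⟩) (inf_normalizer_le_normalizer_inf ⟨h.nb, m k⟩)).sec o (inf_le_right.trans l)
        (l (mem_centralizer_singleton_iff.2 j)) (l (mem_centralizer_singleton_iff.2 k))) fun t => d ?_)⟩
      exact (pow_succ' 2 n ▸ Nat.mul_dvd_mul_left 2 t).trans (r ▸ card_dvd_of_le inf_le_left)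
  obtain ⟨J, hJ⟩ := jordan_ker.{u} (2 * N)
  refine ⟨c ^ 3 + N * (c ^ 3 + 2 * N) * (J * J * (J * J)), fun G _ _ H a b h d => ?_⟩
  rcases (Nat.card H).even_or_odd with e | e
  swap
  · exact (h.odd e).trans le_self_add
  obtain ⟨s, f, i, j⟩ := step G H a b h d e
  obtain ⟨χ, k, l⟩ := exists_real_lt_cent (s := (⟨s, f⟩ : H)) ((orderOf_coe _).symm.trans i)
  rw [centralizer_coe_eq, ← inf_subgroupOf_left, Nat.card_congr (subgroupOfEquivOfLe inf_le_left).toEquiv] at l
  obtain ⟨A, m, o, r⟩ := hJ H χ χ.2 (l.le.trans j)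
  have := χ.2.isClassFunction.charKer_normal
  set L := (charKer (χ : H → ℂ)).map H.subtype
  set K := sqc b (sqc a L)
  have t : H ≤ normalizer (K : Set G) := sqc_norm h.nb (sqc_norm h.na fun x y =>
    le_normalizer_map H.subtype ⟨⟨x, y⟩, le_normalizer_of_normal (mem_top _), rfl⟩)
  have v : ∀ X : Subgroup H, sqc b (sqc a (X.map H.subtype)) ≤ H := fun X =>
    inf_le_left.trans (inf_le_left.trans (map_subtype_le X))
  have w : ∀ X : Subgroup H, KD c (sqc b (sqc a (X.map H.subtype))) a b := fun X =>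
    h.mono (v X) (sqc_comm h.ab (sqc_self h.aa)) (sqc_self h.bb)
  have x : K ≤ sqc b (sqc a (A.map H.subtype)) := by
    have := inf_le_inf (map_mono (f := H.subtype) o) (cj_mono a (map_mono (f := H.subtype) o))
    exact inf_le_inf this (cj_mono b this)
  refine le_add_left ?_
  rw [← card_mul_relIndex (v A), ← card_mul_relIndex x, ← card_sec _ _ ((v A).trans t)]
  refine Nat.mul_le_mul (Nat.mul_le_mul (ih _ _ _ _ (w _) fun y => d ?_) ?_) (sqc_index h.nb (sqc_index h.na ?_))
  · rw [pow_succ, ← (charKer (χ : H → ℂ)).card_mul_index, ← card_map_of_injective H.subtype_injective]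
    exact mul_dvd_mul (y.trans (card_dvd_of_le (inf_le_left.trans inf_le_left))) k
  · have y := (w A).sec x ((v A).trans t) (w _).na (w _).nb
    have := isMulCommutative_sec ((v A).trans t) (sqc_commutator (sqc_commutator (by
      rw [← map_commutator]; exact map_mono m)))
    rcases (Nat.card (sec K (sqc b (sqc a (A.map H.subtype))))).even_or_odd with e | e
    · obtain ⟨s, f, -, j⟩ := step _ _ _ _ y (fun z => d (z.trans ((card_sec_dvd _ _ ((v A).trans t)).trans
        (card_dvd_of_le (v A))))) e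
      exact le_add_left (by rwa [inf_eq_left.2 fun z i => mem_centralizer_singleton_iff.2
        (setLike_mul_comm i f)] at j)
    · exact (y.odd e).trans le_self_add
  · rwa [relIndex, ← comap_subtype, comap_map_eq_self_of_injective H.subtype_injective]

end Cfsg.Agent.C3
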