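import Cfsg.Agent.H6.Mat

/-! Packed matrices over `ZMod p` for kernel computation with words of involutions. -/

set_option autoImplicit false

namespace Cfsg.Agent.C3.PM
open Cfsg.Agent.H6 Matrix Finset

variable {p B n : ℕ}

theorem dg_add {a b : ℕ} (h : ∀ j, dg B a j + dg B b j < B) (j : ℕ) :
    dg B (a + b) j = dg B a j + dg B b j := by
  induction j generalizing a b with
  | zero =>
    have := h 0
    simp only [dg_zero'] at this ⊢
    exact Nat.add_mod_of_add_mod_lt this
  | succ j ih =>
    have := h 0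
    simp only [dg_zero'] at this
    rw [dg_succ, dg_succ, dg_succ, Nat.add_div_eq_of_add_mod_lt this]
    exact ih fun j => by simpa only [dg_succ] using h (j + 1)

theorem dg_mul {c x : ℕ} (h : ∀ j, c * dg B x j < B) (j : ℕ) : dg B (c * x) j = c * dg B x j := by
  induction c generalizing j with
  | zero => simp [dg_zero]
  | succ c ih =>
    have a : ∀ j, dg B (c * x) j = c * dg B x j := ih fun j => by have := h j; nlinarith
    rw [Nat.succ_mul, dg_add fun j => by rw [a, ← Nat.succ_mul]; exact h j, a, Nat.succ_mul]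

theorem dg_sum {c x : ℕ → ℕ} (hc : ∀ k, c k < p) (hx : ∀ k j, dg B (x k) j < p) {m : ℕ}
    (hm : m * (p * p) < B) (j : ℕ) :
    dg B (∑ k ∈ range m, c k * x k) j = ∑ k ∈ range m, c k * dg B (x k) j ∧
      ∑ k ∈ range m, c k * dg B (x k) j ≤ m * (p * p) := by
  induction m generalizing j with
  | zero => simp [dg_zero]
  | succ m ih =>
    have b : ∀ j, c m * dg B (x m) j ≤ p * p := fun j => Nat.mul_le_mul (hc m).le (hx m j).le
    have a := ih (by nlinarith)
    have e : ∀ j, dg B (c m * x m) j = c m * dg B (x m) j := dg_mul fun j => by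
      have := b j; nlinarith
    rw [sum_range_succ, sum_range_succ, dg_add fun j => by
      rw [(a j).1, e]; have := (a j).2; have := b j; nlinarith, (a j).1, e]
    exact ⟨rfl, by have := (a j).2; have := b j; nlinarith⟩

noncomputable def rm (p B : ℕ) (X : List ℕ) : ℕ → ℕ → ℕ :=
  List.rec (motive := fun _ => ℕ → ℕ → ℕ) (fun _ acc => acc)
    (fun x _ ih r acc => seq (Nat.add acc (Nat.mul (Nat.mod (Nat.mod r B) p) x)) fun acc' =>
      seq (Nat.div r B) fun r' => ih r' acc') X

theorem rm_eq (X : List ℕ) (r acc : ℕ) :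
    rm p B X r acc = acc + ∑ k ∈ range X.length, dg B r k % p * lk 0 X k := by
  induction X generalizing r acc with
  | nil => rfl
  | cons x X ih =>
    have : rm p B (x :: X) r acc = seq (acc + r % B % p * x) fun acc' =>
      seq (r / B) fun r' => rm p B X r' acc' := rfl
    rw [this, seq_eq, seq_eq, ih, List.length_cons, sum_range_succ']
    simp only [dg_succ, lk_succ, lk_zero, dg_zero']
    ring

def vec (p B n r : ℕ) : Fin n → ZMod p := fun j => (dg B r j : ZMod p)

noncomputable def toM (p B n : ℕ) (X : List ℕ) : Matrix (Fin n) (Fin n) (ZMod p) :=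
  of fun i j => (dg B (lk 0 X i) j : ZMod p)

noncomputable def good (p B n : ℕ) (X : List ℕ) : Bool :=
  band (Nat.beq (llen X) n) (lall (fun x => band (Nat.ble (Nat.succ x) (Nat.pow B n))
    (nall (fun j => Nat.ble (Nat.succ (dg B x j)) p) n)) X)

theorem vec_rm (hp : 0 < p) (hB : n * (p * p) < B) {X : List ℕ} (h : good p B n X = true) (r : ℕ) :
    vec p B n (rm p B X r 0) = vec p B n r ᵥ* toM p B n X := by
  simp only [good, band_eq, beq_eq, llen_eq, lall_eq, ble_eq, nall_eq] at h
  have hx : ∀ k j, dg B (lk 0 X k) j < p := fun k j => by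
    rcases lk_mem 0 X k with e | e
    · rw [e, dg_zero]; exact hp
    · by_cases c : j < n
      · exact (h.2 _ e).2 j c
      · have : lk 0 X k < B ^ j := lt_of_lt_of_le (h.2 _ e).1
          (Nat.pow_le_pow_right (by omega) (not_lt.1 c))
        rw [dg_eq, Nat.div_eq_of_lt this]; simpa using hp
  ext j
  rw [vec, rm_eq, zero_add, h.1, (dg_sum (fun k => Nat.mod_lt _ hp) hx hB j).1,
    ← Fin.sum_univ_eq_sum_range (fun k => dg B r k % p * dg B (lk 0 X k) j)]
  simp [vecMul, dotProduct, vec, toM]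

noncomputable def rw' (p B : ℕ) (ms : ℕ → List ℕ) (w : List ℕ) : ℕ → ℕ :=
  List.rec (motive := fun _ => ℕ → ℕ) (fun r => r)
    (fun l _ ih r => seq (rm p B (ms l) r 0) ih) w

theorem vec_rw (hp : 0 < p) (hB : n * (p * p) < B) {ms : ℕ → List ℕ} {w : List ℕ}
    (h : ∀ l ∈ w, good p B n (ms l) = true) (r : ℕ) :
    vec p B n (rw' p B ms w r) = vec p B n r ᵥ* (w.map fun l => toM p B n (ms l)).prod := by
  induction w generalizing r with
  | nil => simp [rw']
  | cons l w ih =>
    have : rw' p B ms (l :: w) r = seq (rm p B (ms l) r 0) (rw' p B ms w) := rfl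
    rw [this, seq_eq, ih fun l hl => h l (by simp [hl]), vec_rm hp hB (h l (by simp)),
      vecMul_vecMul, List.map_cons, List.prod_cons]

theorem vec_pow (hB : 1 < B) (i : Fin n) : vec p B n (B ^ (i : ℕ)) = Pi.single i 1 := by
  ext j
  rw [vec, dg_eq]
  rcases lt_trichotomy (i : ℕ) j with c | c | c
  · rw [Nat.div_eq_of_lt (Nat.pow_lt_pow_right hB c), Pi.single_eq_of_ne (by rintro rfl; omega)]
    simp
  · rw [Fin.ext c, Nat.div_self (by positivity), Nat.mod_eq_of_lt hB]; simp
  · rw [Nat.pow_div c.le (by omega), Pi.single_eq_of_ne (by rintro rfl; omega),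
      Nat.mod_eq_zero_of_dvd (dvd_pow_self B (by omega))]
    simp

noncomputable def one (p B n m : ℕ) (ms : ℕ → List ℕ) (w : List ℕ) : Bool :=
  band (lall (fun l => Nat.ble (Nat.succ l) m) w) (nall (fun i => seq (Nat.pow B i) fun e =>
    seq (rw' p B ms w e) fun y => nall (fun j => Nat.beq (Nat.mod (dg B y j) p) (dg B e j)) n) n)

theorem one_spec (hp : 0 < p) (hB : n * (p * p) < B) (hB1 : 1 < B) {m : ℕ} {ms : ℕ → List ℕ}
    (hg : nall (fun l => good p B n (ms l)) m = true) {w : List ℕ} (h : one p B n m ms w = true) :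
    (∀ l ∈ w, l < m) ∧ (w.map fun l => toM p B n (ms l)).prod = 1 := by
  simp only [one, band_eq, lall_eq, ble_eq, nall_eq, seq_eq, beq_eq] at h hg
  refine ⟨h.1, ?_⟩
  ext i j
  have a := vec_rw hp hB (fun l hl => hg l (h.1 l hl)) (B ^ (i : ℕ))
  have b : vec p B n (rw' p B ms w (B ^ (i : ℕ))) = vec p B n (B ^ (i : ℕ)) := by
    ext j
    have := congrArg (Nat.cast : ℕ → ZMod p) (h.2 i i.2 j j.2)
    exact (ZMod.natCast_mod _ p).symm.trans this
  rw [b, vec_pow hB1, single_one_vecMul] at a
  have := congrFun a j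
  rw [Matrix.row_apply] at this
  rw [← this, Pi.single_apply, one_apply]
  simp [eq_comm]

open Classical in
noncomputable def gl (p B n : ℕ) (ms : ℕ → List ℕ) (l : ℕ) : GL (Fin n) (ZMod p) :=
  if h : toM p B n (ms l) * toM p B n (ms l) = 1 then ⟨_, _, h, h⟩ else 1

theorem gl_sq (ms : ℕ → List ℕ) (l : ℕ) : gl p B n ms l * gl p B n ms l = 1 := by
  unfold gl
  split_ifs with h
  · exact Units.ext h
  · simp

theorem gl_val (hp : 0 < p) (hB : n * (p * p) < B) (hB1 : 1 < B) {m : ℕ} {ms : ℕ → List ℕ}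
    (hg : nall (fun l => good p B n (ms l)) m = true)
    (h2 : nall (fun l => one p B n m ms [l, l]) m = true) {l : ℕ} (hl : l < m) :
    (gl p B n ms l).val = toM p B n (ms l) := by
  have := (one_spec hp hB hB1 hg ((nall_eq _ _).1 h2 l hl)).2
  rw [gl, dif_pos (by simpa using this)]

theorem wp_one (hp : 0 < p) (hB : n * (p * p) < B) (hB1 : 1 < B) {m : ℕ} {ms : ℕ → List ℕ}
    (hg : nall (fun l => good p B n (ms l)) m = true)
    (h2 : nall (fun l => one p B n m ms [l, l]) m = true) {w : List ℕ}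
    (h : one p B n m ms w = true) : wp (gl p B n ms) w = 1 := by
  obtain ⟨a, b⟩ := one_spec hp hB hB1 hg h
  refine Units.ext (Eq.trans ?_ b)
  clear h b
  induction w with
  | nil => simp
  | cons l w ih =>
    rw [wp_cons, Units.val_mul, ih fun l hl => a l (by simp [hl]),
      gl_val hp hB hB1 hg h2 (a l (by simp)), List.map_cons, List.prod_cons]

end Cfsg.Agent.C3.PM
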