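/-
Quadratic pairs: the components of the set of root subgroups and the central product decomposition.
-/
import Cfsg.Agent.C3.QP6
import Cfsg.Agent.C3.RS3

set_option autoImplicit false

namespace Cfsg.Agent.C3.QP

open Matrix Subgroup Module LinearMap Cfsg.Agent.H2 Cfsg.Agent.BG
open scoped MatrixGroups commutatorElement

universe u v

variable {k : Type u} [Field k] {M : Type v} [AddCommGroup M] [Module k M]
  {G H A B C D U : Subgroup (LinearMap.GeneralLinearGroup k M)} {a a' b b' c n n' m r : End k M}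
  {g x σ : LinearMap.GeneralLinearGroup k M}

/-- The component of `A` in the graph of rank one pairs. -/
abbrev Cp (G A : Subgroup (LinearMap.GeneralLinearGroup k M)) := componentOf (FAdj (quadraticRootSubgroups G)) (quadraticRootSubgroups G) A

/-- The subgroup generated by the root subgroups. -/
abbrev G0 (G : Subgroup (LinearMap.GeneralLinearGroup k M)) := ⨆ A ∈ quadraticRootSubgroups G, A

/-- The subgroup generated by the quadratic elements centralizing all root subgroups. -/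
abbrev C0 (G : Subgroup (LinearMap.GeneralLinearGroup k M)) := Subgroup.closure (quadraticElements (G ⊓ 𝒞 (G0 G)))

theorem comm_biSup {X : Type*} [Group X] {T : Set (Subgroup X)} {K : Subgroup X} (h : ∀ A ∈ T, ⁅K, A⁆ = ⊥) : ⁅K, ⨆ A ∈ T, A⁆ = ⊥ :=
  comm_iff'.2 (iSup₂_le fun A hA => comm_iff'.1 (h A hA))

theorem mem_biSup {X : Type*} [Group X] {T : Set (Subgroup X)} {K : Subgroup X} {x : X} (hx : x ∈ K) (h : K ∈ T) : x ∈ ⨆ A ∈ T, A :=
  le_biSup (fun A => A) h hx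

theorem QN.closure (h : QN G r) : QN (Subgroup.closure (quadraticElements G)) r := ⟨h.1, fun c => ⟨un (h.smul c).1, by
  obtain e | e := eq_or_ne (c • r) 0
  · exact (show 1 = un (h.smul c).1 from Units.ext (by simp [un_val, e])) ▸ one_mem _
  · exact Subgroup.subset_closure (quad_iff.2 (by rw [un_sub]; exact ⟨h.smul c, e⟩)), rfl⟩⟩

theorem closure_quad_le : Subgroup.closure (quadraticElements G) ≤ G := (closure_le _).2 fun _ h => h.1

theorem quad_mono (h : H ≤ G) : quadraticElements H ⊆ quadraticElements G := fun _ e => ⟨h e.1, e.2.1, e.2.2.trans h⟩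

theorem comm_C0 : ⁅G0 G, C0 G⁆ = ⊥ := comm_iff'.2 (closure_quad_le.trans inf_le_right)

theorem Cp.eq (h : B ∈ Cp G A) : Cp G B = Cp G A := Set.ext fun _ => and_congr_right fun _ => ⟨h.2.trans, (Re.symm h.2).trans⟩

variable [FiniteDimensional k M]

theorem G0_le : G0 G ≤ G := iSup₂_le fun _ h => Rt.le h

theorem G0_norm : G ≤ 𝒩 (G0 G) := fun _ hg => mem_normalizer_iff_cj.2 (cj_biSup (fun _ h => Rt.cj h hg) fun _ h => Rt.cj h (inv_mem hg))

variable (h2 : ringChar k ≠ 2) (h3 : Nat.card k ≠ 3)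
include h2 h3

theorem Rt.re (hA : Rt G A) (hB : Rt G B) (h : Op A B) : Re (quadraticRootSubgroups G) A B := .single ⟨hA, hB, hA.ro h2 h3 hB h⟩

variable (hn : NU G)
include hn

theorem Rt.re_of (hA : Rt G A) (hB : Rt G B) (h : ⁅A, B⁆ ≠ ⊥) : Re (quadraticRootSubgroups G) A B := by
  have l : ∀ {A B}, PsQ G A B → Re (quadraticRootSubgroups G) ⁅A, B⁆ B := fun e =>
    let ⟨h4, h5⟩ := e.rt h2 h3 hn; let ⟨_, hC, h6, h7⟩ := e.link h4 h5 h2 h3 hn; (h4.re h2 h3 hC h6).trans (hC.re h2 h3 e.r h7)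
  obtain e | e | e := hA.tri h2 h3 hB
  exacts [absurd e h, hA.re h2 h3 hB e, (Re.symm (l e.symm)).trans (commutator_comm A B ▸ l e)]

theorem PsQ.mem (h : PsQ G B C) (hB : B ∈ Cp G A) : ⁅B, C⁆ ∈ Cp G A := by
  obtain ⟨h4, h5⟩ := h.symm.rt h2 h3 hn
  obtain ⟨_, hC, h6, h7⟩ := h.symm.link h4 h5 h2 h3 hn
  exact commutator_comm C B ▸ ⟨h4, hB.2.trans (Re.symm ((h4.re h2 h3 hC h6).trans (hC.re h2 h3 h.l h7)))⟩

theorem cp_cj (hg : g ∈ G0 G) (hB : B ∈ Cp G A) : g ⋆ B ∈ Cp G A := by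
  refine ⟨Rt.cj hB.1 (G0_le hg), hB.2.trans ((biSup_ind (p := fun g => g ∈ G ∧ ∀ B, Rt G B → Re (quadraticRootSubgroups G) B (g ⋆ B)) hg
    (fun C hC g hg => ⟨Rt.le hC hg, fun B hB => ?_⟩) ⟨one_mem _, fun B _ => by rw [cj_one]⟩ fun x y hx hy =>
      ⟨mul_mem hx.1 hy.1, fun B hB => cj_mul x y B ▸ (hy.2 B hB).trans (hx.2 _ (hB.cj hy.1))⟩).2 B hB.1)⟩
  by_cases e : ⁅C, B⁆ = ⊥
  · rw [cj_of_comm e hg]
  · exact (Re.symm (Rt.re_of h2 h3 hn hC hB e)).trans (Rt.re_of h2 h3 hn hC (hB.cj (Rt.le hC hg)) fun e' => e (by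
      simpa only [cj_inv_cj, cj_eq_of_mem (inv_mem hg)] using cj_comm e' g⁻¹))

omit h2 h3 hn in
theorem cp_le : ⨆ B ∈ Cp G A, B ≤ G0 G := biSup_mono fun _ h => h.1

theorem cp_norm : G0 G ≤ 𝒩 (⨆ B ∈ Cp G A, B :) := fun _ hg =>
  mem_normalizer_iff_cj.2 (cj_biSup (fun _ => cp_cj h2 h3 hn hg) fun _ => cp_cj h2 h3 hn (inv_mem hg))

omit h2 h3 hn [FiniteDimensional k M] in
theorem cp_conj (hA : Rt G A) (hB : B ∈ Cp G A) : ∃ g ∈ ⨆ B ∈ Cp G A, B, B = g ⋆ A := by
  obtain ⟨-, h⟩ := hB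
  induction h with
  | refl => exact ⟨1, one_mem _, (cj_one A).symm⟩
  | tail h1 h ih =>
    obtain ⟨g, hg, rfl⟩ := ih
    obtain ⟨w, hw, e, -⟩ := h.2.2.exists_swap
    exact ⟨w * g, mul_mem ((sup_le (fun _ e => mem_biSup e ⟨h.1, h1⟩) fun _ e => mem_biSup e ⟨h.2.1, h1.tail h⟩ : _ ≤ ⨆ B ∈ Cp G A, B) hw) hg,
      by rw [cj_mul, e]⟩

theorem cp_comm (h : Cp G A ≠ Cp G B) : ⁅⨆ C ∈ Cp G A, C, ⨆ C ∈ Cp G B, C⁆ = ⊥ :=
  comm_biSup fun C hC => cs (comm_biSup fun D hD => by_contra fun e =>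
    h ((Cp.eq (A := B) ⟨hD.1, hC.2.trans (Rt.re_of h2 h3 hn hC.1 hD.1 e)⟩).symm.trans (Cp.eq hD)).symm)

theorem cp_qs (hA : Rt G A) : IsQuasisimple (⨆ B ∈ Cp G A, B :) := by
  have hL := (hn.of_norm G0_le G0_norm).of_norm (cp_le (A := A)) (cp_norm h2 h3 hn)
  have l1 : ∀ B ∈ Cp G A, B ≤ ⨆ B ∈ Cp G A, B := fun B hB => le_biSup (fun B => B) hB
  have l2 := fun g (hg : g ∈ ⨆ B ∈ Cp G A, B) B => cp_cj h2 h3 hn (A := A) (B := B) (cp_le hg)
  have l3 := @cp_conj _ _ _ _ _ G A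
  refine H8.qs_iff.2 ⟨(commutator_le_sup _ _).trans_eq (sup_idem _) |>.antisymm (iSup₂_le fun B hB => ?_),
    fun e => hA.ne_bot (le_bot_iff.1 ((l1 A ⟨hA, .refl⟩).trans_eq e)), fun N h4 h5 => or_iff_not_imp_left.2 fun h6 => ?_⟩
  · obtain ⟨C, hC, e⟩ := Rt.partner h2 h3 hn hB.1
    have := sup_le (l1 B hB) (l1 C ⟨hC, hB.2.trans (Rt.re h2 h3 hB.1 hC e)⟩)
    exact (Rt.le_comm h2 h3 hB.1 hC e).trans (commutator_mono this this)
  have l4 : ∀ B ∈ Cp G A, ∀ n ∈ N, ¬ Op B (n ⋆ B) := fun B hB n hn' e => h6 (h4.antisymm (iSup₂_le fun C hC => by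
    have e1 := (l1 B hB).trans h5
    have e2 : B ⊔ n ⋆ B ≤ N ⊔ B := sup_le le_sup_right (cj_le_of_le le_sup_right (mem_sup_left hn'))
    have e3 := sup_le le_normalizer e1
    have e4 : B ≤ N := (Rt.le_comm h2 h3 hB.1 (l2 n (h4 hn') B hB).1 e).trans ((commutator_mono e2 e2).trans
      (H8.commutator_sup_le_of_norm (H8.commutator_le_left_of_norm e3) ((commutator_comm_le _ _).trans (H8.commutator_sup_le_of_norm
        (H8.commutator_le_left_of_norm e1) ((Rt.ab hB.1).trans_le bot_le) e3)) e3))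
    obtain ⟨g, hg, rfl⟩ := l3 hA hB
    obtain ⟨g', hg', rfl⟩ := l3 hA hC
    exact (cj_mono g' ((cj_le_iff.1 e4).trans_eq (cj_eq_of_mem_normalizer (h5 (inv_mem hg))))).trans_eq (cj_eq_of_mem_normalizer (h5 hg'))))
  refine comm_biSup fun B hB => hL.baer (W := (fun B => ⁅N, B⁆) '' Cp G A) ?_ ?_ ?_ ⟨B, hB, rfl⟩
  · rintro _ ⟨B, hB, rfl⟩
    exact (commutator_le_sup _ _).trans (sup_le h4 (l1 B hB))
  · rintro _ ⟨B, hB, rfl⟩ g hg
    exact ⟨_, l2 g hg B hB, by rw [cj_commutator, cj_eq_of_mem_normalizer (h5 hg)]⟩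
  have l5 : ∀ B ∈ Cp G A, IsUnipotentOn ⁅N, B⁆ := fun B hB => by
    have e1 := sup_le h4 (l1 B hB)
    refine unip_mono ?_ (baer (G := N ⊔ B) (W := (· ⋆ B) '' (N ⊔ B :)) ?_ ?_ ?_)
    · exact commutator_le.2 fun x hx y hy => mul_mem (mem_biSup (conj_mem_cj x hy) ⟨x, mem_sup_left hx, rfl⟩)
        (mem_biSup (inv_mem hy) ⟨1, one_mem _, cj_one B⟩)
    · rintro _ ⟨g, hg, rfl⟩
      exact cj_le_of_le le_sup_right hg
    · rintro _ ⟨g, hg, rfl⟩ x hx
      exact ⟨_, mul_mem hx hg, cj_mul _ _ _⟩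
    · rintro _ ⟨g, hg, rfl⟩ _ ⟨x, hx, rfl⟩
      refine Rt.unip h2 h3 (l2 g (e1 hg) B hB).1 (l2 x (e1 hx) B hB).1 fun e => ?_
      obtain ⟨n, hn', b, hb, e'⟩ := H8.mem_sup_of_norm_left ((l1 B hB).trans h5) (mul_mem (inv_mem hg) hx)
      have := e.cj g⁻¹
      rw [cj_inv_cj, ← cj_mul, e', cj_mul, cj_eq_of_mem hb] at this
      exact l4 B hB n hn' this
  rintro _ ⟨B, hB, rfl⟩ _ ⟨C, hC, rfl⟩
  exact unip_sup (l5 B hB) (l5 C hC) ((H8.commutator_le_left_of_norm ((l1 C hC).trans h5)).trans (normalizer_commutator_ge_left N B))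

theorem cp_finite : (Cp G '' quadraticRootSubgroups G).Finite := by
  have : ∀ T : Cp G '' quadraticRootSubgroups G, ∃ A B a b, Rt G A ∧ Cp G A = T ∧ B ∈ Cp G A ∧ a ∈ aug A ∧ b ∈ aug B ∧ b * a * b ≠ 0 :=
    fun ⟨_, A, hA, e⟩ => let ⟨B, hB, h⟩ := Rt.partner h2 h3 hn hA; let ⟨b, hb, a, ha, e'⟩ := Rt.op_symm h2 h3 hA hB h
      ⟨A, B, a, b, hA, e, ⟨hB, Rt.re h2 h3 hA hB h⟩, ha, hb, e'⟩
  choose A B a b hA e hB ha hb h using this
  refine LinearIndependent.finite (R := k) (f := a) (linearIndependent_iff'.2 fun s t e' i hi => ?_)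
  have := congrArg (fun x => b i * x * b i) e'
  simp only [Finset.mul_sum, Finset.sum_mul, mul_smul_comm, smul_mul_assoc, mul_zero, zero_mul] at this
  rwa [Finset.sum_eq_single_of_mem i hi fun j _ hj => ?_, smul_eq_zero_iff_left (h i)] at this
  rw [(Rt.qn' (hB i).1 (hb i)).cm ((hA j).qn' (ha j)) (cmono (cp_comm h2 h3 hn fun l => hj (Subtype.ext ((e j).symm.trans (l.symm.trans (e i)))))
    (le_biSup (fun B => B) (hB i)) (le_biSup (fun B => B) ⟨hA j, .refl⟩)), mul_assoc, (Rt.qn (hB i).1 (hb i)).1, mul_zero, smul_zero]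

theorem split (hr : QN G r) : (∃ s, Min G s ∧ s * r = 0 ∧ r * s = 0 ∧ rk (r - s) < rk r) ∨ QN (C0 G) r := by
  have t2 : ∀ {x : End k M}, x + x = 0 → x = 0 := fun {x} e =>
    (smul_eq_zero_iff_right (Ring.two_ne_zero h2 : (2 : k) ≠ 0)).1 ((two_smul k x).trans e)
  refine or_iff_not_imp_left.2 fun h => ?_
  have h1 : ∀ a, Min G a → a * r * a = 0 := fun a ha => by_contra fun e => by
    obtain ⟨n, n1, n2, n3, n4, -, n5⟩ := ha.st h2 h3 le_rfl ha.q hr e
    have n0 : n ≠ 0 := fun e => ha.ne (by rw [← n4, e, mul_zero])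
    have n6 := ((InE.min ha ⟨n1, n2, n3⟩ n0).1.conj' hr.neg).conj' n1
    rw [show (1 + n) * ((1 + -r) * n * (1 - -r)) * (1 - n) = -(r * n * r) by
      linear_combination (norm := noncomm_ring) n1.1 * (1 + r) * (1 - n) - (1 - r) * n1.1 - n5 * (1 + r) * (1 - n) - (1 - r) * n5
        + n5 * r * (1 - n) + n1.1 - n5 * r + n5 * r * n + n5] at n6
    have n7 : rk (r - r * n * r) + finrank k (ker (r - r * n * r)) = rk r + finrank k (ker r) := by rw [rk_ker, rk_ker]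
    have n8 : finrank k (ker r) < finrank k (ker (r - r * n * r)) := Submodule.finrank_lt_finrank_of_lt (lt_of_le_of_ne
      (fun v hv => by simp [mem_ker.1 hv]) fun e => n0 (by
        have : range n ≤ ker r := e ▸ range_le_ker_iff.2 (show _ * n = 0 by rw [sub_mul, mul_assoc, mul_assoc, ← mul_assoc n, n5, sub_self])
        rw [← n5, mul_assoc, show r * n = 0 from range_le_ker_iff.1 this, mul_zero]))
    exact h ⟨r * n * r, n6.of_le (neg_neg (r * n * r) ▸ n6.q.neg) (neg_ne_zero.1 n6.ne) (by rw [rk, rk, range_neg]), by simp [mul_assoc, hr.1],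
      by simp [← mul_assoc, hr.1], by omega⟩
  clear h
  have h4 : ∀ x, (∀ a, Min G a → a * x * a = 0) → ∀ g ∈ G, ∀ a, Min G a → a * ((g : End k M) * x * ↑g⁻¹) * a = 0 := fun x hx g hg a ha => by
    simpa only [mul_assoc, mul_zero, zero_mul, Units.mul_inv_cancel_left, Units.mul_inv, mul_one] using congrArg
      (fun y => (g : End k M) * y * (↑g⁻¹ : End k M)) (hx _ (ha.conj (inv_mem hg) (m := (↑g⁻¹ : End k M) * a * (g : End k M)) (by simp)))
  have h5 : ∀ a, Min G a → r * a = a * r := fun a ha => by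
    have e := h1 a ha
    have a0 := ha.q.1
    have r0 := hr.1
    have s1 : ∀ b, Min G b → b * (r * a - a * r) * b = 0 := fun b hb => by
      have := h4 r h1 _ (ha.q.neg.mem (un_val ha.q.neg.1)) b hb
      rw [un_val, un_inv] at this
      linear_combination (norm := noncomm_ring) this - h1 b hb + b * e * b
    have p1 := ha.conj' hr
    have p2 := ha.conj' hr.neg
    have s2 : r * a * r = 0 := by_contra fun e' => by
      have q1 := (p1.q.add p2.q (by linear_combination (norm := noncomm_ring) (1 + r) * (a0 - e - e + a * r0 * a) * (1 + r))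
        (by linear_combination (norm := noncomm_ring) (1 - r) * (a0 + e + e + a * r0 * a) * (1 - r))).sub (ha.q.smul 2)
        (by rw [two_smul]; linear_combination (norm := noncomm_ring) 4 * a0 - 4 * r * e)
        (by rw [two_smul]; linear_combination (norm := noncomm_ring) 4 * a0 - 4 * e * r) |>.smul (-2⁻¹)
      rw [show _ - _ = (-2 : k) • (r * a * r) by rw [neg_smul, two_smul, two_smul]; noncomm_ring, smul_smul, neg_mul_neg,
        inv_mul_cancel₀ (Ring.two_ne_zero h2), one_smul] at q1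
      have q2 := ha.of_le q1 e' ((rk_mul_le _ _).trans ((Nat.le_add_right _ _).trans_eq (rk_mul r a)))
      obtain ⟨b, hb, q3⟩ := hn.partner h2 h3 q2
      have := h4 _ s1 _ (hr.mem (un_val r0)) b hb
      rw [un_val, un_inv] at this
      exact q3 (hb.symm h2 h3 q2 (t2 (by
        linear_combination (norm := noncomm_ring) s1 b hb - this + b * (r0 * a * (1 - r) + (1 + r) * a * r0) * b)))
    refine sub_eq_zero.1 (hn.zero (P := {s | QN G s ∧ (∀ b, Min G b → b * s * b = 0) ∧ ∀ x, (∀ b, Min G b → b * x * b = 0) → s * x * s = 0})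
      (fun _ h => h.1) (fun s hs g hg => ⟨hs.1.conj hg (by simp), h4 s hs.2.1 g hg, fun x hx => ?_⟩) (fun s hs t ht => hs.2.2 t ht.2.1)
      ⟨?_, s1, fun x hx => t2 ?_⟩)
    · simpa only [mul_assoc, mul_zero, zero_mul, inv_inv] using congrArg (fun y => (g : End k M) * y * (↑g⁻¹ : End k M))
        (hs.2.2 _ (h4 x hx _ (inv_mem hg)))
    · convert p1.q.sub ha.q (by linear_combination (norm := noncomm_ring) (1 + r) * (a0 - e))
        (by linear_combination (norm := noncomm_ring) (a0 + e) * (1 - r)) using 1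
      linear_combination (norm := noncomm_ring) s2
    · have e1 := hx _ p1
      have e2 := hx _ p2
      rw [show (1 + r) * a * (1 - r) = a + (r * a - a * r) by linear_combination (norm := noncomm_ring) -s2] at e1
      rw [show (1 + -r) * a * (1 - -r) = a - (r * a - a * r) by linear_combination (norm := noncomm_ring) -s2] at e2
      linear_combination (norm := noncomm_ring) e1 + e2 - 2 * hx a ha
  refine QN.closure ⟨hr.1, fun c => ⟨un (hr.smul c).1, ⟨(hr.smul c).mem rfl, zpowers_le.1 (le_centralizer_iff.1 (iSup₂_le fun A hA =>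
    le_centralizer_iff.1 (zpowers_le.2 fun g hg => Units.ext ?_)))⟩, rfl⟩⟩
  obtain rfl | e := eq_or_ne g 1
  · simp
  have := h5 _ (Rt.min hA (mem_aug hg) (sub_ne_iff.2 e))
  simp only [Units.val_mul, un_val, mul_add, add_mul, mul_one, one_mul, mul_smul_comm, smul_mul_assoc]
  rw [show (g : End k M) * r = r * g by linear_combination (norm := noncomm_ring) -this]

theorem mem_sup_C0 (hr : QN G r) (e : (g : End k M) = 1 + r) : g ∈ G0 G ⊔ C0 G := by
  induction hd : rk r using Nat.strong_induction_on generalizing r g with | _ d ih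
  obtain ⟨s, hs, e1, e2, e3⟩ | h := split h2 h3 hn hr
  · have h4 := hr.sub hs.q e2 e1
    obtain ⟨A, hA, ha⟩ := hs.rt
    convert mul_mem (mem_sup_left (le_biSup (fun A => A) hA (hA.mem ha (un_val hs.q.1)))) (ih _ (hd ▸ e3) h4 (un_val h4.1) rfl) using 1
    refine Units.ext ?_
    rw [e, Units.val_mul, un_val, un_val]
    linear_combination (norm := noncomm_ring) hs.q.1 - e1
  · exact mem_sup_right (h.mem e)

theorem sup_C0 (hG : Subgroup.closure (quadraticElements G) = G) : G0 G ⊔ C0 G = G :=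
  (sup_le G0_le (closure_quad_le.trans inf_le_left)).antisymm (hG.ge.trans ((closure_le _).2 fun _ h =>
    mem_sup_C0 h2 h3 hn (quad_iff.1 h).1 (by simp)))

omit hn in
theorem decomp (d : ℕ) : ∀ {G : Subgroup (LinearMap.GeneralLinearGroup k M)}, NU G → Subgroup.closure (quadraticElements G) = G →
    finrank k (Submodule.span k {r | QN G r}) = d → ∃ T : Set (Subgroup (LinearMap.GeneralLinearGroup k M)), T.Finite ∧
      (∀ K ∈ T, G ≤ 𝒩 K ∧ IsQuasisimple K ∧ Subgroup.closure (quadraticElements G ∩ K) = K) ∧ T.Pairwise (⁅·, ·⁆ = ⊥) ∧ ⨆ K ∈ T, K = G ∧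
      ∀ r, QN G r → r ≠ 0 → ∃ K ∈ T, ∃ s, QN K s ∧ s ≠ 0 ∧ s * r = 0 ∧ r * s = 0 ∧ rk (r - s) < rk r := by
  induction d using Nat.strong_induction_on with | _ d ih
  intro G hn hG hd
  by_cases h0 : ∃ a, Min G a
  swap
  · have h4 : ∀ r, QN G r → r = 0 := fun r hr => by_contra fun e => by
      obtain ⟨a, ha, h⟩ := (measure (rk : End k M → ℕ)).wf.has_min {r | QN G r ∧ r ≠ 0} ⟨r, hr, e⟩
      exact h0 ⟨a, ha.1, ha.2, fun n e e' => not_lt.1 (h n ⟨e, e'⟩)⟩
    exact ⟨∅, Set.finite_empty, by simp, by simp, (iSup_emptyset.trans_le bot_le).antisymm (hG.ge.trans ((closure_le _).2 fun g hg =>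
      absurd (h4 _ (quad_iff.1 hg).1) (quad_iff.1 hg).2)), fun r hr e => absurd (h4 r hr) e⟩
  have h4 := sup_C0 h2 h3 hn hG
  have h5 : C0 G ≤ G := le_sup_right.trans_eq h4
  obtain ⟨T, t1, t2, t3, t4, t5⟩ := ih _ (hd ▸ Submodule.finrank_lt_finrank_of_lt (lt_of_le_of_ne
    (Submodule.span_mono fun r (hr : QN _ r) => hr.mono h5) fun e => by
      obtain ⟨a, ha⟩ := h0
      obtain ⟨b, hb, e'⟩ := hn.partner h2 h3 ha
      obtain ⟨B, hB, h⟩ := hb.rt
      have : b * a - a * b = 0 := (Submodule.span_le (p := ker (mulLeft k b - mulRight k b))).2 (fun r hr => sub_eq_zero.2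
        ((hB.qn' h).cm hr (cmono comm_C0 (le_biSup (fun A => A) hB) le_rfl))) (e.ge (Submodule.subset_span ha.q))
      exact e' (by rw [← sub_eq_zero.1 this, mul_assoc, ha.q.1, mul_zero])))
    (hn.of_norm h5 (h4.ge.trans (sup_le (H8.le_normalizer_of_commutator_eq_bot comm_C0) le_normalizer)))
    (closure_quad_le.antisymm (Subgroup.closure_mono fun g hg => quad_iff.2 ⟨(quad_iff.1 hg).1.closure, (quad_iff.1 hg).2⟩)) rfl
  have t6 : ∀ K ∈ T, K ≤ C0 G := fun K hK => (le_biSup (fun K => K) hK).trans_eq t4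
  refine ⟨(fun S => ⨆ B ∈ S, B) '' (Cp G '' quadraticRootSubgroups G) ∪ T, ((cp_finite h2 h3 hn).image _).union t1, ?_, ?_, ?_,
    fun r hr e => ?_⟩
  · rintro K (⟨_, ⟨A, hA, rfl⟩, rfl⟩ | hK)
    · refine ⟨h4.ge.trans (sup_le (cp_norm h2 h3 hn) (H8.le_normalizer_of_commutator_eq_bot (cs (cmono comm_C0 cp_le le_rfl)))),
        cp_qs h2 h3 hn hA, ((closure_le _).2 Set.inter_subset_right).antisymm (iSup₂_le fun B hB g hg => ?_)⟩
      obtain rfl | e := eq_or_ne g 1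
      exacts [one_mem _, Subgroup.subset_closure ⟨quad_iff.2 ⟨Rt.qn hB.1 (mem_aug hg), sub_ne_iff.2 e⟩, le_biSup (fun B => B) hB hg⟩]
    · exact ⟨h4.ge.trans (sup_le (H8.le_normalizer_of_commutator_eq_bot (cmono comm_C0 le_rfl (t6 K hK))) (t2 K hK).1), (t2 K hK).2.1,
        ((closure_le _).2 Set.inter_subset_right).antisymm ((t2 K hK).2.2.ge.trans (Subgroup.closure_mono
          (Set.inter_subset_inter_left _ (quad_mono h5))))⟩
  · rintro K (⟨_, ⟨A, hA, rfl⟩, rfl⟩ | hK) K' (⟨_, ⟨B, hB, rfl⟩, rfl⟩ | hK') e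
    exacts [cp_comm h2 h3 hn (fun l => e (by rw [l])), cmono comm_C0 cp_le (t6 _ hK'), cs (cmono comm_C0 cp_le (t6 _ hK)), t3 hK hK' e]
  · rw [iSup_union, t4]
    refine Eq.trans (congrArg (· ⊔ _) ?_) h4
    refine le_antisymm (iSup₂_le ?_) (iSup₂_le fun A hA => le_iSup₂_of_le _ ⟨_, ⟨A, hA, rfl⟩, rfl⟩ (le_biSup (fun B => B) ⟨hA, .refl⟩))
    rintro _ ⟨_, ⟨A, hA, rfl⟩, rfl⟩
    exact cp_le
  · obtain ⟨s, hs, h⟩ | h := split h2 h3 hn hr
    · obtain ⟨A, hA, ha⟩ := hs.rt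
      exact ⟨_, .inl ⟨_, ⟨A, hA, rfl⟩, rfl⟩, s, (hA.qn' ha).mono (le_biSup (fun B => B) ⟨hA, .refl⟩), hs.ne, h⟩
    · exact let ⟨K, hK, h⟩ := t5 r h e; ⟨K, .inr hK, h⟩

end Cfsg.Agent.C3.QP
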