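/-
Root involutions: elementary theory.
-/
import Cfsg.Prelude.Def_RootSubgroups
import Cfsg.Agent.H2.Baer
import Cfsg.Agent.H4.Bridge

set_option autoImplicit false

namespace Cfsg.Agent.C3.RI

open Subgroup Cfsg.Agent.H2
open scoped commutatorElement

variable {G : Type*} [Group G] {D : Set G} {a b c d e f f' g h r u x y z : G}

theorem ord_comm (a b : G) : orderOf (a * b) = orderOf (b * a) := by rw [← orderOf_conj' b]; congr 1; group

theorem one_of_odd (h : Odd (orderOf x)) {k : ℕ} (e : x ^ 2 ^ k = 1) : x = 1 :=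
  orderOf_eq_one_iff.1 (Nat.eq_one_of_self_dvd_of_coprime' (orderOf_dvd_of_pow_eq_one e) ((Nat.coprime_two_right.2 h).pow_right k))
where Nat.eq_one_of_self_dvd_of_coprime' {a b : ℕ} (h : a ∣ b) (h' : a.Coprime b) : a = 1 := Nat.Coprime.eq_one_of_dvd h' h

theorem Od.cj (h : x ∈ oddPartners D a) (hD : IsRootInvolutionSet D) (g : G) : g * x * g⁻¹ ∈ oddPartners D (g * a * g⁻¹) :=
  ⟨hD.conj_mem _ h.1 g, fun e => h.2.1 (by simpa using e), by rw [conj_mul, orderOf_conj']; exact h.2.2⟩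

theorem Od.symm (ha : a ∈ D) (h : x ∈ oddPartners D a) : a ∈ oddPartners D x := ⟨ha, h.2.1.symm, ord_comm a x ▸ h.2.2⟩

theorem pgroup_closure [Finite G] {T : Set G} (h1 : ∀ t ∈ T, t * t = 1) (h2 : ∀ t ∈ T, ∀ s ∈ T, t * s * t⁻¹ ∈ T)
    (h3 : ∀ t ∈ T, ∀ s ∈ T, (t * s) ^ 4 = 1) : IsPGroup 2 (closure T) := by
  have h4 : ∀ g ∈ closure T, ∀ s ∈ T, g * s * g⁻¹ ∈ T := fun g hg => by
    induction hg using closure_induction'' with
    | mem x hx => exact h2 x hx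
    | inv_mem x hx => rw [inv_eq_of_mul_eq_one_right (h1 x hx)]; exact h2 x hx
    | one => simp
    | mul x y _ _ h h' => exact fun s hs => by simpa [mul_assoc] using h _ (h' s hs)
  refine (L.pCore_isPGroup 2 (closure T)).of_equiv ((MulEquiv.subgroupCongr (eq_top_iff.2 ?_)).trans topEquiv)
  rw [← closure_preimage_eq_top, closure_le]
  exact fun t ht => baer_suzuki_elem fun g => isPGroup_closure_invol (k := 2) (Subtype.ext (h1 _ ht))
    (Subtype.ext (h1 _ (h4 g g.2 _ ht))) (Subtype.ext (h3 _ ht _ (h4 g g.2 _ ht)))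

variable (hD : IsRootInvolutionSet D)
include hD

theorem sq1 (ha : a ∈ D) : a * a = 1 := ord2_mul_self (hD.1 a ha)

theorem sq2 (ha : a ∈ D) (x : G) : a * (a * x) = x := by rw [← mul_assoc, sq1 hD ha, one_mul]

theorem inv1 (ha : a ∈ D) : a⁻¹ = a := ord2_inv (hD.1 a ha)

theorem ne1 (ha : a ∈ D) : a ≠ 1 := ord2_ne_one (hD.1 a ha)

theorem cj1 (ha : a ∈ D) (hb : b ∈ D) : a * b * a ∈ D := by simpa only [inv1 hD ha] using hD.conj_mem b hb a

theorem sq_of_cm (ha : a ∈ D) (hb : b ∈ D) (e : a * b = b * a) : (a * b) ^ 2 = 1 := by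
  rw [Commute.mul_pow e, sq, sq, sq1 hD ha, sq1 hD hb, mul_one]

theorem Od.ne (ha : a ∈ D) (h : x ∈ oddPartners D a) : a * x ≠ 1 := fun e =>
  h.2.1 (by rw [← inv1 hD ha, inv_eq_of_mul_eq_one_right e])

theorem Od.four (ha : a ∈ D) (h : x ∈ oddPartners D a) : (a * x) ^ 4 ≠ 1 := fun e => Od.ne hD ha h (one_of_odd (k := 2) h.2.2 e)

theorem four_of_cm (ha : a ∈ D) (hb : b ∈ D) (e : a * b = b * a) : (a * b) ^ 4 = 1 := by
  rw [show 4 = 2 * 2 from rfl, pow_mul, sq_of_cm hD ha hb e, one_pow]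

theorem Od.not_cm (ha : a ∈ D) (h : x ∈ oddPartners D a) : a * x ≠ x * a := fun e => Od.four hD ha h (four_of_cm hD ha h.1 e)

theorem Od.not_fo (ha : a ∈ D) (h : x ∈ oddPartners D a) : orderOf (a * x) ≠ 4 := fun e => Od.four hD ha h (e ▸ pow_orderOf_eq_one _)

theorem fo_of (ha : a ∈ D) (hb : b ∈ D) (h1 : a * b ≠ b * a) (h2 : b ∉ oddPartners D a) : orderOf (a * b) = 4 :=
  (((hD.pair a ha b hb).resolve_left h1).resolve_left fun e => h2 ⟨hb, fun e' => h1 (e' ▸ rfl), e⟩).1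

theorem four_of (ha : a ∈ D) (hb : b ∈ D) (h2 : b ∉ oddPartners D a) : (a * b) ^ 4 = 1 :=
  (em (a * b = b * a)).elim (four_of_cm hD ha hb) fun e => fo_of hD ha hb e h2 ▸ pow_orderOf_eq_one _

theorem fo_not_cm (ha : a ∈ D) (hb : b ∈ D) (h : orderOf (a * b) = 4) : a * b ≠ b * a := fun e =>
  absurd (h ▸ orderOf_dvd_of_pow_eq_one (sq_of_cm hD ha hb e)) (by decide)

omit hD in
theorem X_iff : b ∈ productPartners D a ↔ b ∈ D ∧ b * a = a * b ∧ b ≠ a ∧ b * a ∈ D := by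
  simp only [productPartners, commutingOthers, Set.mem_setOf_eq, and_assoc]

theorem X_symm (ha : a ∈ D) (h : b ∈ productPartners D a) : a ∈ productPartners D b :=
  ⟨⟨ha, h.1.2.1.symm, h.1.2.2.symm⟩, h.1.2.1 ▸ h.2⟩

theorem X_mul (ha : a ∈ D) (h : b ∈ productPartners D a) : b * a ∈ productPartners D a :=
  ⟨⟨h.2, by rw [← mul_assoc, h.1.2.1], fun e => ne1 hD h.1.1 (by simpa using e)⟩, by rw [mul_assoc, sq1 hD ha, mul_one]; exact h.1.1⟩

/-- The data of a pair with product of order four. -/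
theorem br (ha : a ∈ D) (hb : b ∈ D) (h : orderOf (a * b) = 4) : ∃ z, z = a * b * a * b ∧ z = b * a * b * a ∧ b * a * b = a * z ∧
    a * b * a = b * z ∧ z ∈ productPartners D a ∧ z ∈ productPartners D b := by
  have h1 : a * b * a * b ∈ D := by
    simpa [sq, mul_assoc] using (((hD.pair a ha b hb).resolve_left (fo_not_cm hD ha hb h)).resolve_left (by rw [h]; decide)).2
  have h2 : a * b * a * b = b * a * b * a := by
    rw [← inv1 hD h1]; simp only [mul_inv_rev, inv1 hD ha, inv1 hD hb, mul_assoc]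
  have h3 : b * a * b = a * (a * b * a * b) := by simp only [mul_assoc, sq2 hD ha]
  have h4 : a * b * a = b * (a * b * a * b) := by rw [h2]; simp only [mul_assoc, sq2 hD hb]
  have h5 : a * b * a * b * a = a * (a * b * a * b) := by rw [← h3, h2, mul_assoc _ a a, sq1 hD ha, mul_one]
  have h6 : a * b * a * b * b = b * (a * b * a * b) := by rw [← h4, mul_assoc _ b b, sq1 hD hb, mul_one]
  refine ⟨_, rfl, h2, h3, h4, ⟨⟨h1, h5, fun e => ?_⟩, h5 ▸ h3 ▸ cj1 hD hb ha⟩, ⟨h1, h6, fun e => ?_⟩, h6 ▸ h4 ▸ cj1 hD ha hb⟩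
  · exact ne1 hD (cj1 hD hb ha) (by rw [h3, e, sq1 hD ha])
  · exact ne1 hD (cj1 hD ha hb) (by rw [h4, e, sq1 hD hb])

theorem key (he : e ∈ D) (hf : f ∈ D) (h0 : e * f = u * h) (hu : u * u = 1) (hc : u * h = h * u) (ho : Odd (orderOf h))
    (h1 : h ≠ 1) : u = 1 := by
  by_cases k : f ∈ oddPartners D e
  · refine one_of_odd (k := 1) (k.2.2.of_dvd_nat ?_) (by rw [pow_one, sq, hu])
    obtain ⟨m, hm⟩ := ho
    convert orderOf_pow_dvd (x := e * f) (orderOf h) using 2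
    rw [h0, Commute.mul_pow hc, pow_orderOf_eq_one, hm, pow_succ, pow_mul, sq, hu, one_pow, one_mul, mul_one]
  · have := four_of hD he hf k
    rw [h0, Commute.mul_pow hc, show 4 = 2 * 2 from rfl, pow_mul u, sq u, hu, one_pow, one_mul] at this
    exact absurd (one_of_odd (k := 2) ho this) h1

theorem L1 (ha : a ∈ D) (hb : b ∈ productPartners D a) (hx : x ∈ oddPartners D a) : b * x ≠ x * b := fun e =>
  ne1 hD hb.1.1 (key hD hb.2 hx.1 (mul_assoc _ _ _) (sq1 hD hb.1.1) (by rw [← mul_assoc, hb.1.2.1, mul_assoc, e, mul_assoc])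
    hx.2.2 (Od.ne hD ha hx))

theorem L2 (ha : a ∈ D) (hb : b ∈ productPartners D a) (hx : x ∈ oddPartners D a) :
    x ∈ oddPartners D b ∨ x ∈ oddPartners D (b * a) := by
  by_contra! k
  have hc := X_mul hD ha hb
  obtain ⟨z, -, -, -, e1, -, h1⟩ := br hD hb.1.1 hx.1 (fo_of hD hb.1.1 hx.1 (L1 hD ha hb hx) k.1)
  obtain ⟨z', -, -, -, e2, h2, h3⟩ := br hD hc.1.1 hx.1 (fo_of hD hc.1.1 hx.1 (L1 hD ha hc hx) k.2)
  have e3 : b * a * b = a := by rw [mul_assoc, ← hb.1.2.1, sq2 hD hb.1.1]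
  have e4 : b * (b * a) = a := sq2 hD hb.1.1 a
  generalize b * a = c at *
  have e5 : (x * a) ^ 2 = c * (z' * z) * c⁻¹ := by
    rw [inv1 hD hc.1.1]
    calc _ = x * (c * b) * (x * (b * c)) := by rw [e3, e4, sq]
      _ = x * (c * (b * x * b) * c) := by simp only [mul_assoc]
      _ = x * (c * x * c) * (c * z * c) := by simp only [e1, mul_assoc, sq2 hD hc.1.1]
      _ = _ := by rw [e2, sq2 hD hx.1, ← mul_assoc, ← mul_assoc, h2.1.2.1]; simp only [mul_assoc]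
  refine L1 hD h3.1.1 (X_symm hD hx.1 h3) (x := z) ⟨h1.1.1, fun e => ?_, ?_⟩ h1.1.2.1.symm
  · rw [e, sq1 hD h3.1.1, mul_one, mul_inv_cancel] at e5
    exact Od.ne hD hx.1 (Od.symm ha hx) (one_of_odd (k := 1) (Od.symm ha hx).2.2 e5)
  · rw [← orderOf_conj' c, ← e5]
    exact (Od.symm ha hx).2.2.of_dvd_nat (orderOf_pow_dvd _)

theorem inj (ha : a ∈ D) (hx : x ∈ oddPartners D a) (hf : f ∈ productPartners D a) (hf' : f' ∈ productPartners D a)
    (h1 : orderOf (f * x) = 4) (e : f * x * f = f' * x * f') : f = f' := by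
  obtain ⟨z, -, -, -, e1, h2, h3⟩ := br hD hf.1.1 hx.1 h1
  have k0 : ∀ {f}, f ∈ D → f * x * f = x * z → x ∉ oddPartners D f := fun {f} hf e h => Od.four hD hf h (by
    rw [show (f * x) ^ 4 = (f * x * f) * x * (f * x * f) * x by simp only [pow_succ, pow_zero, one_mul, mul_assoc], e, ← h3.1.2.1]
    simp only [mul_assoc, sq2 hD hx.1, sq2 hD h3.1.1, sq1 hD hx.1, mul_one, sq1 hD h3.1.1])
  have k : ∀ {f f'}, f ∈ productPartners D a → f' ∈ productPartners D a → f * x * f = x * z → f' * x * f' = x * z →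
      f * f' = f' * f → f = f' := fun {f f'} hf hf' e e' hc => by
    have k1 := (L2 hD ha hf' hx).resolve_left (k0 hf'.1.1 e')
    have k2 : f * f' * x = x * (f * f') := by
      calc _ = f * (f' * x * f') * f' := by simp only [mul_assoc, sq1 hD hf'.1.1, mul_one]
        _ = _ := by simp only [e', ← e, mul_assoc, sq2 hD hf.1.1]
    have := key hD hf.2 hx.1 (u := f * f') (h := f' * a * x) (by simp only [mul_assoc, sq2 hD hf'.1.1])
      (by rw [← sq, sq_of_cm hD hf.1.1 hf'.1.1 hc]) (Commute.mul_right (Commute.mul_right (Commute.mul_left hc rfl)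
        (Commute.mul_left hf.1.2.1 hf'.1.2.1)) k2) k1.2.2 (Od.ne hD hf'.2 k1)
    rw [← inv1 hD hf.1.1, inv_eq_of_mul_eq_one_right this]
  refine k hf hf' e1 (e ▸ e1) (by_contra fun hc => hc ?_)
  have k3 : z * f' = f' * z := by
    have : f' * (x * z) * f' = x := by rw [← e1, e]; simp only [mul_assoc, sq2 hD hf'.1.1, sq1 hD hf'.1.1, mul_one]
    have k4 : x * z * (f' * z * f') = x := by
      calc _ = f' * x * f' * (f' * z * f') := by rw [← e, e1]
        _ = _ := by simpa only [mul_assoc, sq2 hD hf'.1.1] using this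
    rw [mul_assoc, mul_eq_left, mul_eq_one_iff_eq_inv', inv1 hD h3.1.1] at k4
    rw [← k4, mul_assoc, sq1 hD hf'.1.1, mul_one, k4]
  obtain ⟨t, -, -, e2, -, h4, -⟩ := br hD hf.1.1 hf'.1.1 (fo_of hD hf.1.1 hf'.1.1 hc fun h =>
    L1 hD hf.1.1 (X_symm hD ha hf) h hf'.1.2.1.symm)
  have k5 : f' * f * f' * a = f' * (f * a) * f' := by simp only [mul_assoc, hf'.1.2.1]
  have := k hf (f' := f' * f * f') ⟨⟨cj1 hD hf'.1.1 hf.1.1, by rw [k5, hf.1.2.1, ← mul_assoc, hf'.1.2.1]; simp only [mul_assoc],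
    fun e => hf.1.2.2 ?_⟩, k5 ▸ cj1 hD hf'.1.1 hf.2⟩ e1 ?_ (by rw [e2, ← h4.1.2.1, ← mul_assoc, ← h4.1.2.1])
  · conv_lhs => rw [this, mul_assoc, sq1 hD hf'.1.1, mul_one]
  · rw [← sq2 hD hf'.1.1 f, ← mul_one (f' * f), ← sq1 hD hf'.1.1, ← mul_assoc (f' * f), e, ← hf'.1.2.1, sq2 hD hf'.1.1]
  · calc _ = f' * (f * (f' * x * f') * f) * f' := by simp only [mul_assoc]
      _ = f' * (f * (x * z) * f) * f' := by rw [← e, e1]
      _ = f' * (f * x * f * (f * z * f)) * f' := by simp only [mul_assoc, sq2 hD hf.1.1]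
      _ = _ := by rw [e1, ← h2.1.2.1, mul_assoc z, sq1 hD hf.1.1, mul_one, mul_assoc x, sq1 hD h3.1.1, mul_one, ← e, e1]

theorem lift [Finite G] (ha : a ∈ D) (hx : x ∈ oddPartners D a) (hb : b ∈ productPartners D a) (h : x ∉ oddPartners D b) :
    ∃ r ∈ productPartners D x, orderOf (a * r) = 4 ∧ r * a * r = a * b ∧ r * b = b * r := by
  have k : ∀ {a x}, a ∈ D → x ∈ oddPartners D a → ∃ φ : {f | f ∈ productPartners D a ∧ orderOf (f * x) = 4} →
      {f | f ∈ productPartners D x ∧ orderOf (f * a) = 4}, φ.Injective ∧ ∀ f, f.1 * x * f.1 = x * φ f ∧ (φ f).1 * f = f * φ f := by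
    intro a x ha hx
    choose z _ _ _ e h1 h2 using fun f : {f | f ∈ productPartners D a ∧ orderOf (f * x) = 4} => br hD f.2.1.1.1 hx.1 f.2.2
    exact ⟨fun f => ⟨z f, h2 f, fo_of hD (h2 f).1.1 ha (L1 hD hx.1 (h2 f) (Od.symm ha hx)) fun h =>
      L1 hD (h2 f).1.1 (X_symm hD f.2.1.1.1 (h1 f)) h f.2.1.1.2.1⟩, fun f f' e' => Subtype.ext (inj hD ha hx f.2.1 f'.2.1 f.2.2
        (by rw [e, e, show z f = z f' from congrArg Subtype.val e'])), fun f => ⟨e f, (h1 f).1.2.1⟩⟩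
  obtain ⟨φ, h1, -⟩ := k ha hx
  obtain ⟨ψ, h2, h3⟩ := k hx.1 (Od.symm ha hx)
  obtain ⟨r, e⟩ := (Finite.injective_iff_surjective.1 (h2.comp h1)).of_comp ⟨b, hb, fo_of hD hb.1.1 hx.1 (L1 hD ha hb hx) h⟩
  exact ⟨r, r.2.1, ord_comm a r ▸ r.2.2, by simpa [e] using (h3 r).1, by simpa [e] using (h3 r).2.symm⟩

theorem three (he : e ∈ D) (hr : r ∈ D) (hz : z ∈ D) (hy : y ∈ D) (h1 : e * z = z * e) (h2 : e * y * e = y * z) (h3 : r * y = y * r)
    (h4 : r * z * r = z * y) (h5 : z * y = y * z) : r ∈ oddPartners D e ∧ (e * r) ^ 3 * z = z * (e * r) ^ 3 := by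
  have k0 : (e * r)⁻¹ = r * e := by rw [mul_inv_rev, inv1 hD he, inv1 hD hr]
  have k1 : MulAut.conj (e * r) y = y * z := by
    rw [MulAut.conj_apply, k0, ← h2, mul_assoc e, h3]; simp only [mul_assoc, sq2 hD hr]
  have k2 : MulAut.conj (e * r) z = y := by
    calc _ = e * (r * z * r) * e := by simp only [MulAut.conj_apply, k0, mul_assoc]
      _ = z * (e * y * e) := by rw [h4, ← mul_assoc, h1]; simp only [mul_assoc]
      _ = _ := by rw [h2, ← h5, sq2 hD hz]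
  have k3 : MulAut.conj ((e * r) ^ 3) z = z := by
    rw [map_pow, pow_three, MulAut.mul_apply, MulAut.mul_apply, k2, k1, map_mul, k1, k2, ← h5, mul_assoc, sq1 hD hy, mul_one]
  refine ⟨by_contra fun k => ?_, mul_inv_eq_iff_eq_mul.1 k3⟩
  have k4 : MulAut.conj ((e * r) ^ 4) z = y := by rw [pow_succ', map_mul, MulAut.mul_apply, k3, k2]
  rw [four_of hD he hr k, map_one, MulAut.one_apply] at k4
  rw [← k4, sq1 hD hz, mul_assoc, ← h1, sq2 hD he] at h2
  exact ne1 hD hz h2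

theorem A_cj (a g : G) : oddPartners D (g * a * g⁻¹) = MulAut.conj g '' oddPartners D a :=
  Set.ext fun x => ⟨fun h => ⟨g⁻¹ * x * g, by simpa [mul_assoc] using Od.cj h hD g⁻¹, by simp [mul_assoc]⟩,
    fun ⟨_, h, e⟩ => e ▸ Od.cj h hD g⟩

theorem A_eq [Finite G] (h : IsConj a b) (h' : oddPartners D a ⊆ oddPartners D b) : oddPartners D a = oddPartners D b := by
  obtain ⟨g, rfl⟩ := isConj_iff.1 h
  exact Set.eq_of_subset_of_ncard_le h' (by rw [A_cj hD, Set.ncard_image_of_injective _ (MulAut.conj g).injective])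

theorem isConj_of (hc : IsConnectedSet (OddAdj D) D) (ha : a ∈ D) (hb : b ∈ D) : IsConj a b := by
  induction hc a ha b hb with
  | refl => exact IsConj.refl _
  | tail _ k ih => exact (ih k.1).trans (isConj_of_odd (sq1 hD k.1) (sq1 hD k.2.1) k.2.2.2)

theorem A_of_C (hd : d ∈ D) (he : e ∈ D) (h : commutingMembers D e ⊆ commutingMembers D d) (h' : commutingMembers D d ⊆ commutingMembers D e) :
    oddPartners D d ⊆ oddPartners D e := fun x hx => by_contra fun k => by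
  obtain ⟨z, -, -, -, -, h1, h2⟩ := br hD he hx.1 (fo_of hD he hx.1 (fun e' => Od.not_cm hD hd hx (h ⟨hx.1, e'.symm⟩).2.symm) k)
  exact L1 hD hx.1 h2 (Od.symm hd hx) (h ⟨h1.1.1, h1.1.2.1⟩).2

variable [Finite G] (hc : ∀ a ∈ D, ∀ b ∈ D, IsConj a b)
include hc

theorem cm_of_A (he : e ∈ D) (hy : y ∈ D) (h : oddPartners D y = oddPartners D e) : e * y = y * e := by
  have k0 : ∀ {s t}, s ∈ D → oddPartners D s = oddPartners D e → oddPartners D t = oddPartners D e → t ∉ oddPartners D s :=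
    fun _ h1 h2 h3 => (h2.ge (h1.le h3)).2.1 rfl
  let T := {t | t ∈ D ∧ oddPartners D t = oddPartners D e}
  have k1 : ∀ {g s t}, s ∈ T → g * s * g⁻¹ ∈ T → t ∈ T → g * t * g⁻¹ ∈ T := fun {g s t} h1 h2 h3 =>
    ⟨hD.conj_mem _ h3.1 g, by rw [A_cj hD, h3.2.trans h1.2.symm, ← A_cj hD, h2.2]⟩
  have k2 := pgroup_closure (T := T) (fun t ht => sq1 hD ht.1) (fun t ht s hs => k1 ht (by simpa using ht) hs)
    fun t ht s hs => four_of hD ht.1 hs.1 (k0 ht.1 ht.2 hs.2)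
  by_contra k
  obtain ⟨z, e1, -, e2, -, h1, -⟩ := br hD he hy (fo_of hD he hy k (k0 he rfl h))
  have k3 : e * z ∈ T := by simpa only [inv1 hD hy, e2] using k1 (g := y) ⟨hy, h⟩ (by rw [mul_inv_cancel_right]; exact ⟨hy, h⟩) ⟨he, rfl⟩
  have k4 : z ∈ T := ⟨h1.1.1, A_eq hD (hc _ h1.1.1 _ he) fun x hx => (L2 hD h1.1.1 (X_symm hD he h1) hx).elim id fun h => k3.2.le h⟩
  haveI := k2.isNilpotent
  haveI : Nontrivial (closure T) := (Subgroup.nontrivial_iff_exists_ne_one _).2 ⟨e, subset_closure ⟨he, rfl⟩, ne1 hD he⟩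
  refine (IsSolvable.commutator_lt_top_of_nontrivial (closure T)).ne ((H4.commutator_eq_top_iff _).2 ((closure_le _).2 fun t ht => ?_))
  obtain ⟨g, rfl⟩ := isConj_iff.1 (hc _ k4.1 _ ht.1)
  have := commutator_mem_commutator (subset_closure (k1 k4 ht ⟨he, rfl⟩)) (subset_closure (k1 k4 ht ⟨hy, h⟩))
  rwa [← conjugate_commutatorElement, commutatorElement_def, inv1 hD he, inv1 hD hy, ← e1] at this

theorem C_of_A (hd : d ∈ D) (he : e ∈ D) (h : oddPartners D d = oddPartners D e) : commutingMembers D d ⊆ commutingMembers D e :=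
  fun y hy => ⟨hy.1, by_contra fun k => by
    obtain ⟨z, -, -, e2, e3, h1, h2⟩ := br hD he hy.1 (fo_of hD he hy.1 (Ne.symm k) fun h' => Od.not_cm hD hd (h.ge h') hy.2.symm)
    have k3 : oddPartners D (e * z) = oddPartners D e := by
      rw [← e2, ← congrArg (y * e * ·) (inv1 hD hy.1), A_cj hD, ← h, ← A_cj hD, hy.2, mul_inv_cancel_right]
    have k4 : oddPartners D z = oddPartners D e :=
      A_eq hD (hc _ h1.1.1 _ he) fun x hx => (L2 hD h1.1.1 (X_symm hD he h1) hx).elim id fun h => k3.le h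
    by_cases k5 : oddPartners D z ⊆ oddPartners D y
    · exact k (cm_of_A hD hc he hy.1 ((A_eq hD (hc _ h1.1.1 _ hy.1) k5).symm.trans k4)).symm
    obtain ⟨x, hx, k5⟩ := Set.not_subset.1 k5
    obtain ⟨r, h3, h4, h5, h6⟩ := lift hD h1.1.1 hx (X_symm hD hy.1 h2) k5
    exact Od.not_fo hD h1.1.1 (k4.ge (three hD he h3.1.1 h1.1.1 hy.1 h1.1.2.1.symm e3 h6 h5 h2.1.2.1).1) h4⟩

theorem exists_A (ha : a ∈ D) (hb : b ∈ D) (h : commutingMembers D a ≠ commutingMembers D b) :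
    ∃ x ∈ oddPartners D a, x ∉ oddPartners D b :=
  Set.not_subset.1 fun k => h ((C_of_A hD hc ha hb (A_eq hD (hc _ ha _ hb) k)).antisymm
    (C_of_A hD hc hb ha (A_eq hD (hc _ ha _ hb) k).symm))

end Cfsg.Agent.C3.RI
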