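import Mathlib
import Cfsg.Prelude.Def_KGroupFacts

/-! Central extensions (general lemmas copied from `H5/Ce1,2,5` to avoid the Chevalley imports). -/

set_option autoImplicit false

namespace Cfsg.Agent.C3.SM

open scoped commutatorElement

section abs
variable {E G : Type*} [Group E] [Group G]

theorem comm_of_central {a b c : E} (ha : ⁅a, c⁆ ∈ Subgroup.center E) (hb : ⁅b, c⁆ ∈ Subgroup.center E) : ⁅⁅a, b⁆, c⁆ = 1 := by
  let f : E →* E ⧸ Subgroup.center E := QuotientGroup.mk' _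
  have h1 : c * a * c⁻¹ = a * ⁅a, c⁆⁻¹ := by rw [Subgroup.mem_center_iff.1 (inv_mem ha)]; simp [commutatorElement_def, mul_assoc]
  have h2 : c * b * c⁻¹ = b * ⁅b, c⁆⁻¹ := by rw [Subgroup.mem_center_iff.1 (inv_mem hb)]; simp [commutatorElement_def, mul_assoc]
  have h3 := Subgroup.mem_center_iff.1 (inv_mem ha)
  have h4 := Subgroup.mem_center_iff.1 (inv_mem hb)
  generalize ⁅a, c⁆⁻¹ = z, ⁅b, c⁆⁻¹ = w at *
  have : c * ⁅a, b⁆ * c⁻¹ = ⁅a, b⁆ := by
    rw [show c * ⁅a, b⁆ * c⁻¹ = ⁅c * a * c⁻¹, c * b * c⁻¹⁆ by group, h1, h2, commutatorElement_def, commutatorElement_def,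
      show a * z * (b * w) * (a * z)⁻¹ * (b * w)⁻¹ = a * (z * (b * w) * z⁻¹) * (a⁻¹ * w⁻¹) * b⁻¹ by group, ← h3, mul_inv_cancel_right,
      ← mul_inv_rev, ← h4]
    group
  rw [commutatorElement_eq_one_iff_mul_comm, ← mul_inv_eq_iff_eq_mul.1 this]

theorem comm_mod {N C : Subgroup E} (hC : C ≤ Subgroup.center E) {a b c : E} (ha : a ∈ Subgroup.normalizer (N : Set E))
    (hb : b ∈ Subgroup.normalizer (N : Set E)) (hc : c ∈ Subgroup.normalizer (N : Set E)) (h1 : ⁅a, c⁆ ∈ N ⊔ C) (h2 : ⁅b, c⁆ ∈ N ⊔ C) :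
    ⁅⁅a, b⁆, c⁆ ∈ N := by
  let M := Subgroup.normalizer (N : Set E)
  let f := QuotientGroup.mk' (N.subgroupOf M)
  have hCM : C ≤ M := hC.trans (Subgroup.center_le_normalizer _)
  have key : ∀ g : M, (g : E) ∈ N ⊔ C → f g ∈ Subgroup.center _ := fun g hg => by
    have : (N ⊔ C).subgroupOf M ≤ (Subgroup.center _).comap f := by
      rw [Subgroup.subgroupOf_sup Subgroup.le_normalizer hCM]
      refine sup_le (fun g hg => ?_) fun g hg => Subgroup.mem_center_iff.2 fun x => ?_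
      · rw [Subgroup.mem_comap, show f g = 1 from (QuotientGroup.eq_one_iff g).2 hg]; exact one_mem _
      · obtain ⟨x, rfl⟩ := QuotientGroup.mk'_surjective _ x
        rw [← map_mul, ← map_mul]
        exact congrArg f (Subtype.ext (Subgroup.mem_center_iff.1 (hC hg) x))
    exact this hg
  have := comm_of_central (a := f ⟨a, ha⟩) (b := f ⟨b, hb⟩) (c := f ⟨c, hc⟩) (map_commutatorElement f _ _ ▸ key _ h1)
    (map_commutatorElement f _ _ ▸ key _ h2)
  rw [← map_commutatorElement, ← map_commutatorElement] at this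
  exact (QuotientGroup.eq_one_iff (N := N.subgroupOf M) _).1 this

/-- central extensions -/
structure CE (ψ : E →* G) : Prop where
  surj : Function.Surjective ψ
  cen : ψ.ker ≤ Subgroup.center E

namespace CE
variable {ψ : E →* G} (h : CE ψ)
include h

theorem comm {z : E} (hz : ψ z = 1) (e : E) : e * z = z * e := Subgroup.mem_center_iff.1 (h.cen hz) e

theorem conj_eq {a b : E} (hab : ψ a = ψ b) (e : E) : a * e * a⁻¹ = b * e * b⁻¹ := by
  have := h.comm (z := b⁻¹ * a) (by simp [hab]) e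
  rw [show a * e * a⁻¹ = b * (b⁻¹ * a * e) * a⁻¹ by group, ← this]; group

theorem comm_congr {a a' b b' : E} (ha : ψ a = ψ a') (hb : ψ b = ψ b') : ⁅a, b⁆ = ⁅a', b'⁆ := by
  rw [commutatorElement_def, h.conj_eq ha, mul_assoc a', mul_assoc, mul_assoc b, ← mul_assoc b, h.conj_eq hb]; group

/-- the elements whose lifts commute with the lifts of `k` -/
def lc (k : G) : Subgroup G where
  carrier := {g | ∀ a b, ψ a = g → ψ b = k → ⁅a, b⁆ = 1}
  one_mem' a b ha _ := by rw [h.comm_congr (ha.trans (map_one ψ).symm) rfl, commutatorElement_one_left]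
  inv_mem' hg a b ha hb := by
    have := commutatorElement_eq_one_iff_commute.1 (hg a⁻¹ b (by simp [ha]) hb)
    exact commutatorElement_eq_one_iff_commute.2 (by simpa using this.inv_left)
  mul_mem' {g g'} hg hg' a b ha hb := by
    obtain ⟨c, rfl⟩ := h.surj g
    have h1 := commutatorElement_eq_one_iff_commute.1 (hg c b rfl hb)
    have h2 := commutatorElement_eq_one_iff_commute.1 (hg' (c⁻¹ * a) b (by simp [ha]) hb)
    exact commutatorElement_eq_one_iff_commute.2 (by simpa using h1.mul_left h2)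

theorem mem_lc {a b : E} : ψ a ∈ h.lc (ψ b) ↔ ⁅a, b⁆ = 1 :=
  ⟨fun hh => hh a b rfl rfl, fun hh _ _ ha hb => (h.comm_congr ha hb).trans hh⟩

theorem lc_symm {g k : G} (hh : g ∈ h.lc k) : k ∈ h.lc g := fun a b ha hb => by
  rw [← commutatorElement_inv, hh b a hb ha, inv_one]

theorem lc_self (g : G) : g ∈ h.lc g := by
  obtain ⟨a, rfl⟩ := h.surj g
  exact h.mem_lc.2 (commutatorElement_self a)

theorem lc_conj {g k : G} (hh : g ∈ h.lc k) (m : G) : m * g * m⁻¹ ∈ h.lc (m * k * m⁻¹) := fun a b ha hb => by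
  obtain ⟨c, rfl⟩ := h.surj m
  have := hh (c⁻¹ * a * c) (c⁻¹ * b * c) (by simp [ha, mul_assoc]) (by simp [hb, mul_assoc])
  rw [show ⁅a, b⁆ = c * ⁅c⁻¹ * a * c, c⁻¹ * b * c⁆ * c⁻¹ by group, this]; group

theorem lc_comm {g g' k : G} (h1 : g * k = k * g) (h2 : g' * k = k * g') : ⁅g, g'⁆ ∈ h.lc k := by
  obtain ⟨a, rfl⟩ := h.surj g
  obtain ⟨b, rfl⟩ := h.surj g'
  obtain ⟨c, rfl⟩ := h.surj k
  rw [← map_commutatorElement, h.mem_lc]
  exact comm_of_central (h.cen (by rwa [MonoidHom.mem_ker, map_commutatorElement, commutatorElement_eq_one_iff_mul_comm]))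
    (h.cen (by rwa [MonoidHom.mem_ker, map_commutatorElement, commutatorElement_eq_one_iff_mul_comm]))

theorem mem_sup {N : Subgroup E} {g : E} (hg : ψ g ∈ N.map ψ) : g ∈ N ⊔ ψ.ker := by
  rwa [← Subgroup.comap_map_eq]

end CE

theorem surj_of_stem {Γ Δ : Type*} [Group Γ] [Group Δ] {σ : Γ →* G} (hσ : IsStemExtension σ) {τ : Δ →* Γ}
    (h : Function.Surjective (σ.comp τ)) : Function.Surjective τ := by
  have hc : CE σ := ⟨hσ.1, hσ.2.1⟩
  have h1 : commutator Γ ≤ τ.range := Subgroup.commutator_le.2 fun a _ b _ => by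
    obtain ⟨a', ha⟩ := h (σ a)
    obtain ⟨b', hb⟩ := h (σ b)
    exact ⟨⁅a', b'⁆, by rw [map_commutatorElement]; exact hc.comm_congr ha hb⟩
  intro g
  obtain ⟨a, ha⟩ := h (σ g)
  have : (τ a)⁻¹ * g ∈ τ.range := h1 (hσ.2.2 (by rw [MonoidHom.mem_ker, map_mul, map_inv, ← ha]; exact inv_mul_cancel _))
  simpa using mul_mem (show τ a ∈ τ.range from ⟨a, rfl⟩) this

universe u in
theorem hasMult_of_lift {Q Δ : Type u} [Group Q] [Group Δ] [Finite Δ] {π : Δ →* Q} (hπ : IsStemExtension π) {A : Type*} [CommGroup A]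
    (e : π.ker ≃* A) (h : ∀ (Γ : Type u) [Group Γ] [Finite Γ] (σ : Γ →* Q), IsStemExtension σ → ∃ τ : Δ →* Γ, σ.comp τ = π) :
    HasSchurMultiplier Q A := by
  refine ⟨⟨Δ, _, inferInstance, π, hπ, ⟨e⟩⟩, fun Γ _ _ σ hσ => ?_⟩
  obtain ⟨τ, rfl⟩ := h Γ σ hσ
  refine ⟨((τ.comp (σ.comp τ).ker.subtype).codRestrict σ.ker fun a => a.2).comp e.symm.toMonoidHom, fun ⟨g, hg⟩ => ?_⟩
  obtain ⟨a, rfl⟩ := surj_of_stem hσ hπ.1 g
  exact ⟨e ⟨a, hg⟩, Subtype.ext (congrArg (fun x : (σ.comp τ).ker => τ x) (e.symm_apply_apply _))⟩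

end abs

section abs
variable {E G : Type*} [Group E] [Group G]

theorem exists_powHom {C : Subgroup E} [C.FiniteIndex] (h : C ≤ Subgroup.center E) : ∃ f : E →* C, ∀ g, (f g : E) = g ^ C.index := by
  letI : CommGroup C := { (inferInstance : Group C) with mul_comm := fun a b => Subtype.ext (Subgroup.mem_center_iff.1 (h b.2) a) }
  refine ⟨MonoidHom.transfer (MonoidHom.id C), fun g => ?_⟩
  rw [MonoidHom.transfer_eq_pow _ g fun k g₀ hk => ?_]
  · rfl
  have := Subgroup.mem_center_iff.1 (h hk) g₀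
  generalize g ^ k = x at *
  have h1 : x = g₀⁻¹ * x * g₀ := by rw [← mul_left_inj g₀, ← this]; group
  exact h1.symm

theorem hom_eq_of_perfect {Δ : Type*} [Group Δ] (hp : commutator Δ = ⊤) {ψ : E →* G} (h : ψ.ker ≤ Subgroup.center E) {f g : Δ →* E}
    (e : ψ.comp f = ψ.comp g) : f = g := by
  have hc : CE ψ.rangeRestrict := ⟨ψ.rangeRestrict_surjective, by rwa [MonoidHom.ker_rangeRestrict]⟩
  refine MonoidHom.eq_of_eqOn_top fun x hx => (show commutator Δ ≤ f.eqLocus g from Subgroup.commutator_le.2 fun a _ b _ => ?_) (hp ▸ hx)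
  change f _ = g _
  rw [map_commutatorElement, map_commutatorElement]
  exact hc.comm_congr (Subtype.ext (DFunLike.congr_fun e a)) (Subtype.ext (DFunLike.congr_fun e b))

theorem exists_pullback {G₁ : Type*} [Group G₁] {π : E →* G₁} (h : CE π) (σ : G →* G₁) :
    ∃ (P : Subgroup (E × G)), CE ((MonoidHom.snd E G).comp P.subtype) ∧ ∀ x ∈ P, π x.1 = σ x.2 :=
  ⟨(π.comp (.fst E G)).eqLocus (σ.comp (.snd E G)), ⟨fun g => (h.surj (σ g)).elim fun e he => ⟨⟨(e, g), he⟩, rfl⟩,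
    fun ⟨(a, b), hx⟩ hb => Subgroup.mem_center_iff.2 fun y => by
      obtain rfl : b = 1 := hb
      exact Subtype.ext (Prod.ext (h.comm (hx.trans (map_one σ)) _) (by simp))⟩, fun _ => id⟩

namespace CE
variable {ψ : E →* G} (h : CE ψ) {p : ℕ} [Fact p.Prime] (hC : ∀ c, ψ c = 1 → c ^ p = 1 → c = 1)
include h hC

omit h in
theorem eq_one_of_pow {c : E} (h1 : ψ c = 1) {k : ℕ} (h2 : c ^ p ^ k = 1) : c = 1 := by
  induction k with
  | zero => simpa using h2
  | succ k ih => exact ih (hC _ (by simp [h1]) (by rwa [← pow_mul, ← pow_succ]))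

/-- the unique lift of a `p`-subgroup -/
theorem exists_plift {U : Subgroup G} [Finite U] (hU : IsPGroup p U) :
    ∃ P : Subgroup E, ∀ e, e ∈ P ↔ ψ e ∈ U ∧ ∃ k, e ^ p ^ k = 1 := by
  let φ := ψ.subgroupComap U
  have hs : Function.Surjective φ := ψ.subgroupComap_surjective_of_surjective U h.surj
  obtain ⟨k, hk⟩ := IsPGroup.iff_card.1 hU
  have hi : φ.ker.index = p ^ k := by rw [Subgroup.index_ker, MonoidHom.range_eq_top.2 hs, Subgroup.card_top, hk]
  have : φ.ker.FiniteIndex := ⟨hi ▸ pow_ne_zero _ (Fact.out : p.Prime).ne_zero⟩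
  obtain ⟨f, hf⟩ := exists_powHom (C := φ.ker) fun c hc => Subgroup.mem_center_iff.2 fun g =>
    Subtype.ext (h.comm (congrArg Subtype.val hc) g)
  refine ⟨f.ker.map (U.comap ψ).subtype, fun e => ⟨?_, fun ⟨h1, j, h2⟩ => ⟨⟨e, h1⟩, Subtype.ext (Subtype.ext ?_), rfl⟩⟩⟩
  · rintro ⟨e, he, rfl⟩
    exact ⟨e.2, k, by rw [← hi]; exact congrArg Subtype.val ((hf e).symm.trans (congrArg Subtype.val he))⟩
  · refine eq_one_of_pow hC (congrArg Subtype.val (f ⟨e, h1⟩).2) (k := j) ?_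
    rw [hf, Subgroup.coe_pow, ← pow_mul, mul_comm, pow_mul, h2, one_pow]

omit hC in
theorem exists_pelt [Finite G] (hp : commutator G = ⊤) {g : G} {k : ℕ} (hg : g ^ p ^ k = 1) : ∃ e, ψ e = g ∧ ∃ k, e ^ p ^ k = 1 := by
  have hi : ψ.ker.index = Nat.card G := by rw [Subgroup.index_ker, MonoidHom.range_eq_top.2 h.surj, Subgroup.card_top]
  have : ψ.ker.FiniteIndex := ⟨hi ▸ Nat.card_pos.ne'⟩
  obtain ⟨f, hf⟩ := exists_powHom h.cen
  obtain ⟨e, he, rfl⟩ : g ∈ (commutator E).map ψ := by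
    rw [map_commutator_eq, MonoidHom.range_eq_top.2 h.surj, ← commutator_def, hp]; trivial
  have h1 : e ^ Nat.card G = 1 := by
    letI : CommGroup ψ.ker := { (inferInstance : Group ψ.ker) with
      mul_comm := fun a b => Subtype.ext (Subgroup.mem_center_iff.1 (h.cen b.2) a) }
    rw [← hi, ← hf, Abelianization.commutator_subset_ker f he, OneMemClass.coe_one]
  obtain ⟨a, m, h2, h3⟩ := Nat.exists_eq_pow_mul_and_not_dvd (Nat.card_pos (α := G)).ne' p (Fact.out : p.Prime).ne_one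
  obtain ⟨n, hn⟩ := exists_pow_eq_self_of_coprime (x := ψ e) (n := m)
    (Nat.Coprime.coprime_dvd_right (orderOf_dvd_of_pow_eq_one hg) (((Nat.Prime.coprime_iff_not_dvd Fact.out).2 h2).symm.pow_right _))
  exact ⟨(e ^ m) ^ n, by simp [hn], a, by rw [← pow_mul, ← pow_mul, mul_comm n, ← mul_assoc, mul_comm m, ← h3, pow_mul, h1, one_pow]⟩

end CE
end abs

theorem symb_mul {K G : Type*} [Field K] [Finite K] [Group G] {h : Kˣ → G} (h1 : h 1 = 1)
    (hc : ∀ a b c, Commute (h a * h b * (h (a * b))⁻¹) (h c)) (hq : ∀ a b, h a * h b * (h a)⁻¹ = h (a ^ 2 * b) * (h (a ^ 2))⁻¹)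
    (hs : ∀ a b : Kˣ, (a : K) + b = 1 → h a * h b = h (a * b)) (a b : Kˣ) : h a * h b = h (a * b) := by
  obtain ⟨g, hg⟩ := IsCyclic.exists_monoid_generator (α := Kˣ)
  have key : ∀ c, Commute (h g) (h c) → ∀ a, Commute (h a) (h c) := fun c hgc a => by
    obtain ⟨n, rfl⟩ := hg a
    induction n with
    | zero => simp [h1]
    | succ n ih => simpa [pow_succ, mul_assoc] using (hc (g ^ n) g c).inv_left.mul_left (ih.mul_left hgc)
  have hcm : ∀ a b, h a * h b = h b * h a := fun a b => key b (key g (.refl _) b).symm a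
  have h2 : ∀ a b, h b * h (a ^ 2) = h (b * a ^ 2) := fun a b => by
    rw [mul_comm b, mul_inv_eq_iff_eq_mul.1 (hq a b).symm, hcm a, mul_inv_cancel_right]
  by_cases ha : IsSquare (a : K)
  · obtain ⟨c, e⟩ := ha
    rw [show a = Units.mk0 c (by rintro rfl; simp at e) ^ 2 from Units.ext (by simp [e, pow_two]), hcm, h2, mul_comm]
  by_cases hb : IsSquare (b : K)
  · obtain ⟨c, e⟩ := hb
    rw [show b = Units.mk0 c (by rintro rfl; simp at e) ^ 2 from Units.ext (by simp [e, pow_two]), h2]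
  classical
  cases nonempty_fintype K
  obtain ⟨e, he⟩ : IsSquare ((a : K) * b) := (quadraticChar_one_iff_isSquare (by simp)).1 (by
    rw [map_mul, quadraticChar_neg_one_iff_not_isSquare.2 ha, quadraticChar_neg_one_iff_not_isSquare.2 hb]; simp)
  obtain ⟨x, y, hxy⟩ := FiniteField.exists_root_sum_quadratic (f := Polynomial.C (a : K) * Polynomial.X ^ 2)
    (g := Polynomial.C (a : K) * Polynomial.X ^ 2 - 1) (by compute_degree!) (by compute_degree!)
    (FiniteField.odd_card_of_char_ne_two fun e => ha (FiniteField.isSquare_of_char_two e _))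
  simp only [Polynomial.eval_mul, Polynomial.eval_C, Polynomial.eval_pow, Polynomial.eval_X, Polynomial.eval_sub, Polynomial.eval_one] at hxy
  have ns : ∀ z : K, a * z ^ 2 ≠ 1 := fun z hz => ha ⟨a * z, by grind⟩
  have x0 : x ≠ 0 := by rintro rfl; exact ns y (by grind)
  have y0 : y ≠ 0 := by rintro rfl; exact ns x (by grind)
  have e0 : e ≠ 0 := by rintro rfl; simp at he
  have h3 := hs (a * Units.mk0 x x0 ^ 2) (a * Units.mk0 y y0 ^ 2) (by simp; grind)
  generalize ht : a * Units.mk0 x x0 ^ 2 = t at h3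
  generalize hu : a * Units.mk0 y y0 ^ 2 = u at h3
  have e1 : a = t * (Units.mk0 x x0)⁻¹ ^ 2 := by simp [← ht]
  have e2 : b = u * (Units.mk0 e e0 / a / Units.mk0 y y0) ^ 2 := Units.ext (by simp [← hu]; field_simp; grind)
  rw [e2, e1, ← h2, ← h2, mul_assoc, ← mul_assoc (h (_ ^ 2)), hcm (_ ^ 2), mul_assoc, ← mul_assoc, h3, ← mul_assoc, h2, h2]
  exact congrArg h (by ac_rfl)

end Cfsg.Agent.C3.SM
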