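import Cfsg.Agent.C3.SM0
import Cfsg.Agent.C3.QP1

/-! Steinberg's presentation of `SL₂` over a finite field, and an abstract covering lemma. -/

set_option autoImplicit false

namespace Cfsg.Agent.C3.SM

open scoped MatrixGroups

/-- rank one Steinberg relations -/
structure R1 {K E : Type*} [Field K] [Group E] (x y : K → E) : Prop where
  xa : ∀ s t, x (s + t) = x s * x t
  ya : ∀ s t, y (s + t) = y s * y t
  wx : ∀ t s, t ≠ 0 → x t * y (-t⁻¹) * x t * x s * (x t * y (-t⁻¹) * x t)⁻¹ = y (-(t⁻¹ ^ 2 * s))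

def ww {K E : Type*} [Field K] [Group E] (x y : K → E) (t : K) : E := x t * y (-t⁻¹) * x t
def hh {K E : Type*} [Field K] [Group E] (x y : K → E) (t : K) : E := ww x y t * ww x y (-1)

namespace R1

variable {K E : Type*} [Field K] [Group E] {x y : K → E} (H : R1 x y)
include H

theorem x0 : x 0 = 1 := by have := H.xa 0 0; simpa using this
theorem y0 : y 0 = 1 := by have := H.ya 0 0; simpa using this
theorem xn (s : K) : x (-s) = (x s)⁻¹ := by
  rw [eq_inv_iff_mul_eq_one, ← H.xa]; simp [H.x0]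
theorem yn (s : K) : y (-s) = (y s)⁻¹ := by
  rw [eq_inv_iff_mul_eq_one, ← H.ya]; simp [H.y0]
theorem wn (t : K) : ww x y (-t) = (ww x y t)⁻¹ := by
  simp only [ww, inv_neg, neg_neg, H.xn, H.yn, mul_inv_rev, inv_inv, mul_assoc]
theorem w_x {t : K} (ht : t ≠ 0) (s : K) : ww x y t * x s = y (-(t⁻¹ ^ 2 * s)) * ww x y t := by
  rw [← H.wx t s ht, ww]; group
theorem w_y {t : K} (ht : t ≠ 0) (s : K) : ww x y t * y s = x (-(t ^ 2 * s)) * ww x y t := by
  have := H.w_x (neg_ne_zero.2 ht) (-(t ^ 2 * s))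
  rw [H.wn, show -((-t)⁻¹ ^ 2 * -(t ^ 2 * s)) = s by field_simp] at this
  calc _ = ww x y t * (y s * (ww x y t)⁻¹) * ww x y t := by group
    _ = _ := by rw [← this]; group
theorem w_eq {t : K} (ht : t ≠ 0) : ww x y t = y (-t⁻¹) * x t * y (-t⁻¹) := by
  have := H.w_x ht t
  rw [show -(t⁻¹ ^ 2 * t) = -t⁻¹ by field_simp, ww] at this
  rw [ww]
  have h2 : x t * y (-t⁻¹) * x t * x t = y (-t⁻¹) * x t * y (-t⁻¹) * x t := by rw [this]; group
  exact mul_right_cancel h2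
theorem w_w {t u : K} (ht : t ≠ 0) (hu : u ≠ 0) : ww x y t * ww x y u = ww x y (t ^ 2 / u) * ww x y t := by
  rw [H.w_eq (div_ne_zero (pow_ne_zero 2 ht) hu)]
  conv_lhs => rw [show ww x y u = x u * y (-u⁻¹) * x u from rfl]
  rw [← mul_assoc, ← mul_assoc, H.w_x ht, mul_assoc (y _), H.w_y ht, mul_assoc (y _), mul_assoc (x _), H.w_x ht]
  rw [show -(t⁻¹ ^ 2 * u) = -(t ^ 2 / u)⁻¹ by field_simp, show -(t ^ 2 * -u⁻¹) = t ^ 2 / u by field_simp]
  group
theorem y_eq {r : K} (hr : r ≠ 0) : y r = x r⁻¹ * ww x y (-r⁻¹) * x r⁻¹ := by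
  rw [ww, show -(-r⁻¹)⁻¹ = r by field_simp, H.xn]; group
theorem h_x {t : K} (ht : t ≠ 0) (s : K) : hh x y t * x s = x (t ^ 2 * s) * hh x y t := by
  rw [hh, mul_assoc, H.w_x (by simp), ← mul_assoc, H.w_y ht, mul_assoc]; congr 2; field_simp
theorem h_y {t : K} (ht : t ≠ 0) (s : K) : hh x y t * y s = y (t⁻¹ ^ 2 * s) * hh x y t := by
  rw [hh, mul_assoc, H.w_y (by simp), ← mul_assoc, H.w_x ht, mul_assoc]; congr 2; field_simp
theorem h_w {t u : K} (ht : t ≠ 0) (hu : u ≠ 0) : hh x y t * ww x y u = ww x y (t ^ 2 * u) * hh x y t := by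
  rw [ww, ww, ← mul_assoc, ← mul_assoc, H.h_x ht, mul_assoc (x _), H.h_y ht, mul_assoc, mul_assoc, H.h_x ht,
    show t⁻¹ ^ 2 * -u⁻¹ = -(t ^ 2 * u)⁻¹ by field_simp]
  group
theorem h1 : hh x y 1 = 1 := by rw [hh, H.wn]; simp

theorem www {t u : K} (ht : t ≠ 0) (hu : u ≠ 0) (htu : t + u = 1) :
    ww x y (-t ^ 2) * ww x y t * ww x y u = ww x y (t * u) := by
  have e1 := H.y_eq (r := -t⁻¹) (by simpa)
  have e2 := H.y_eq (r := -u⁻¹) (by simpa)
  have e3 := H.y_eq (r := -(t * u)⁻¹) (by simp [ht, hu])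
  have e4 := H.y_eq (r := (t ^ 2)⁻¹) (by simpa)
  simp only [inv_neg, inv_inv, neg_neg] at e1 e2 e3 e4
  have e5 : y (-(t * u)⁻¹) = y (-t⁻¹) * y (-u⁻¹) := by
    rw [← H.ya]; congr 1; field_simp; linear_combination htu
  have e6 := H.w_x ht (-1)
  rw [show -(t⁻¹ ^ 2 * -1) = (t ^ 2)⁻¹ by field_simp] at e6
  have e7 : x (-t) * x (-u) = x (-1) := by rw [← H.xa]; congr 1; linear_combination -htu
  have e8 : x (-t) * x (t ^ 2) = x (-(t * u)) := by rw [← H.xa]; congr 1; linear_combination t * htu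
  have e9 : ww x y t * ww x y u * x (u ^ 2) = x (t ^ 2) * (ww x y t * ww x y u) := by
    rw [mul_assoc, H.w_x hu, ← mul_assoc, H.w_y ht, mul_assoc]; congr 2; field_simp
  have e10 : x (u ^ 2) * x (-u) = x (-(t * u)) := by rw [← H.xa]; congr 1; linear_combination u * htu
  rw [e3, e1, e2] at e5
  have : x (-t) * ww x y t * x (-t) * (x (-u) * ww x y u * x (-u)) =
      x (-(t * u)) * (ww x y (-t ^ 2) * ww x y t * ww x y u) * x (-(t * u)) := by
    calc _ = x (-t) * (ww x y t * (x (-t) * x (-u))) * ww x y u * x (-u) := by group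
      _ = x (-t) * x (t ^ 2) * ww x y (-t ^ 2) * (x (t ^ 2) * (ww x y t * ww x y u)) * x (-u) := by
        rw [e7, e6, e4]; group
      _ = _ := by rw [← e9, e8, ← e10]; group
  rw [this] at e5
  exact (mul_left_cancel (mul_right_cancel e5)).symm

theorem h_mul [Finite K] {a b : K} (ha : a ≠ 0) (hb : b ≠ 0) : hh x y a * hh x y b = hh x y (a * b) := by
  have := symb_mul (h := fun a : Kˣ => hh x y a) (by simpa using H.h1) (fun a b c => ?_) (fun a b => ?_)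
    (fun a b hab => ?_) (Units.mk0 a ha) (Units.mk0 b hb)
  · simpa using this
  · have hab : ((a * b : Kˣ) : K) ≠ 0 := (a * b).ne_zero
    have cx : ∀ s, Commute (hh x y a * hh x y b * (hh x y (a * b : Kˣ))⁻¹) (x s) := fun s => by
      have := H.h_x hab (((a * b : Kˣ) : K)⁻¹ ^ 2 * s)
      rw [show ((a * b : Kˣ) : K) ^ 2 * (((a * b : Kˣ) : K)⁻¹ ^ 2 * s) = s by field_simp] at this
      rw [Commute, SemiconjBy, mul_assoc, show (hh x y (a * b : Kˣ))⁻¹ * x s =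
        x (((a * b : Kˣ) : K)⁻¹ ^ 2 * s) * (hh x y (a * b : Kˣ))⁻¹ by
          rw [inv_mul_eq_iff_eq_mul, ← mul_assoc, this]; group, ← mul_assoc, mul_assoc (hh x y a), H.h_x b.ne_zero,
        ← mul_assoc, H.h_x a.ne_zero]
      rw [show (a : K) ^ 2 * ((b : K) ^ 2 * (((a * b : Kˣ) : K)⁻¹ ^ 2 * s)) = s by
        rw [Units.val_mul]; have := a.ne_zero; have := b.ne_zero; field_simp]
      group
    have cy : ∀ s, Commute (hh x y a * hh x y b * (hh x y (a * b : Kˣ))⁻¹) (y s) := fun s => by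
      have := H.h_y hab (((a * b : Kˣ) : K) ^ 2 * s)
      rw [show ((a * b : Kˣ) : K)⁻¹ ^ 2 * (((a * b : Kˣ) : K) ^ 2 * s) = s by field_simp] at this
      rw [Commute, SemiconjBy, mul_assoc, show (hh x y (a * b : Kˣ))⁻¹ * y s =
        y (((a * b : Kˣ) : K) ^ 2 * s) * (hh x y (a * b : Kˣ))⁻¹ by
          rw [inv_mul_eq_iff_eq_mul, ← mul_assoc, this]; group, ← mul_assoc, mul_assoc (hh x y a), H.h_y b.ne_zero,
        ← mul_assoc, H.h_y a.ne_zero]
      rw [show (a : K)⁻¹ ^ 2 * ((b : K)⁻¹ ^ 2 * (((a * b : Kˣ) : K) ^ 2 * s)) = s by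
        rw [Units.val_mul]; have := a.ne_zero; have := b.ne_zero; field_simp]
      group
    have cw : ∀ s, Commute (hh x y a * hh x y b * (hh x y (a * b : Kˣ))⁻¹) (ww x y s) := fun s =>
      ((cx _).mul_right (cy _)).mul_right (cx _)
    exact (cw _).mul_right (cw _)
  · simp only [Units.val_mul, Units.val_pow_eq_pow_val]
    rw [show hh x y b = ww x y b * ww x y (-1) from rfl, ← mul_assoc, H.h_w a.ne_zero b.ne_zero, mul_assoc (ww _ _ _),
      H.h_w a.ne_zero (by simp), mul_neg_one, H.wn, hh, hh, hh]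
    group
  · simp only [Units.val_mul]
    have := H.www a.ne_zero b.ne_zero hab
    have e := H.w_w a.ne_zero (u := -1) (by simp)
    rw [show (a : K) ^ 2 / -1 = -(a : K) ^ 2 by ring] at e
    rw [hh, hh, hh, ← this, ← e]; group

theorem w_eq_h (t : K) : ww x y t = hh x y t * ww x y 1 := by rw [hh, H.wn]; group

theorem w_h [Finite K] {v t : K} (hv : v ≠ 0) (ht : t ≠ 0) : ww x y v * hh x y t = ww x y (v / t) := by
  have e1 := H.w_w one_ne_zero ht
  have e2 := H.w_w (t := 1) (u := -1) one_ne_zero (by simp)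
  rw [show (1 : K) ^ 2 / -1 = -1 by ring] at e2
  rw [H.w_eq_h v, H.w_eq_h (v / t), mul_assoc, hh, hh, ← mul_assoc (ww x y 1), e1, mul_assoc (ww x y (1 ^ 2 / t)), e2,
    ← mul_assoc (ww x y (1 ^ 2 / t)), ← hh, ← hh, ← mul_assoc, H.h_mul hv (by simpa)]
  congr 2; ring

theorem h_w' [Finite K] {a u : K} (ha : a ≠ 0) (hu : u ≠ 0) : hh x y a * ww x y u = ww x y (a * u) := by
  rw [H.w_eq_h u, ← mul_assoc, H.h_mul ha hu, ← H.w_eq_h]

theorem w_mul_w [Finite K] {v t : K} (hv : v ≠ 0) (ht : t ≠ 0) : ww x y v * ww x y t = hh x y (-v / t) := by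
  have := H.h_w' (a := -v / t) (u := -t) (by simp [hv, ht]) (by simpa)
  rw [show -v / t * -t = v by field_simp, H.wn] at this
  rw [← this]; group

/-- Bruhat normal form -/
theorem nf [Finite K] {g : E} (hg : g ∈ Subgroup.closure (Set.range x ∪ Set.range y)) :
    (∃ s t, t ≠ 0 ∧ g = x s * hh x y t) ∨ ∃ s t s', t ≠ 0 ∧ g = x s * ww x y t * x s' := by
  let Ω : E → Prop := fun g => (∃ s t, t ≠ 0 ∧ g = x s * hh x y t) ∨ ∃ s t s', t ≠ 0 ∧ g = x s * ww x y t * x s'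
  have hx : ∀ r g, Ω g → Ω (x r * g) := by
    rintro r g (⟨s, t, ht, rfl⟩ | ⟨s, t, s', ht, rfl⟩)
    · exact .inl ⟨r + s, t, ht, by rw [H.xa]; group⟩
    · exact .inr ⟨r + s, t, s', ht, by rw [H.xa]; group⟩
  have hxh : ∀ s t, t ≠ 0 → x s * hh x y t = hh x y t * x (t⁻¹ ^ 2 * s) := fun s t ht => by
    rw [H.h_x ht]; congr 2; field_simp
  have hw : ∀ v g, v ≠ 0 → Ω g → Ω (ww x y v * g) := by
    rintro v g hv (⟨s, t, ht, rfl⟩ | ⟨s, t, s', ht, rfl⟩)
    · exact .inr ⟨0, v / t, t⁻¹ ^ 2 * s, div_ne_zero hv ht, by rw [hxh _ _ ht, ← mul_assoc, H.w_h hv ht, H.x0, one_mul]⟩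
    · have hvt : -v / t ≠ 0 := by simp [hv, ht]
      by_cases hs : s = 0
      · exact .inl ⟨(-v / t) ^ 2 * s', -v / t, hvt, by rw [hs, H.x0, one_mul, ← mul_assoc, H.w_mul_w hv ht, H.h_x hvt]⟩
      · have hr : -(v⁻¹ ^ 2 * s) ≠ 0 := by simp [hv, hs]
        refine .inr ⟨(-(v⁻¹ ^ 2 * s))⁻¹, -(-(v⁻¹ ^ 2 * s))⁻¹ / (-v / t), (-v / t)⁻¹ ^ 2 * (-(v⁻¹ ^ 2 * s))⁻¹ + s',
          div_ne_zero (neg_ne_zero.2 (inv_ne_zero hr)) hvt, ?_⟩
        rw [← mul_assoc, ← mul_assoc, H.w_x hv, mul_assoc (y _), H.w_mul_w hv ht, H.y_eq hr, mul_assoc _ (x _), hxh _ _ hvt,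
          ← H.w_h (neg_ne_zero.2 (inv_ne_zero hr)) hvt, H.xa]
        group
  have hy : ∀ r g, Ω g → Ω (y r * g) := fun r g h => by
    by_cases hr : r = 0
    · rwa [hr, H.y0, one_mul]
    · rw [H.y_eq hr, mul_assoc, mul_assoc]
      exact hx _ _ (hw _ _ (by simpa) (hx _ _ h))
  induction hg using Subgroup.closure_induction_left with
  | one => exact .inl ⟨0, 1, one_ne_zero, by rw [H.x0, H.h1, one_mul]⟩
  | mul_left a ha g _ h =>
    rcases ha with ⟨r, rfl⟩ | ⟨r, rfl⟩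
    exacts [hx _ _ h, hy _ _ h]
  | inv_mul_cancel a ha g _ h =>
    rcases ha with ⟨r, rfl⟩ | ⟨r, rfl⟩
    · rw [← H.xn]; exact hx _ _ h
    · rw [← H.yn]; exact hy _ _ h

omit H in
theorem map {E' : Type*} [Group E'] (H : R1 x y) (φ : E →* E') : R1 (fun t => φ (x t)) (fun t => φ (y t)) :=
  ⟨fun s t => by rw [H.xa, map_mul], fun s t => by rw [H.ya, map_mul], fun t s ht => by
    rw [← H.wx t s ht]; simp⟩

end R1

open QP in
theorem r1_SL (K : Type*) [Field K] : R1 (xx (R := K)) (yy (R := K)) :=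
  ⟨xx_add, yy_add, fun t s ht => by
    rw [mul_inv_eq_iff_eq_mul]
    apply extE <;> simp [mulE, ht] <;> field_simp <;> ring⟩

open QP in
/-- Steinberg's theorem for `SL₂` over a finite field -/
theorem R1.exists_hom {K E : Type*} [Field K] [Finite K] [Group E] {x y : K → E} (H : R1 x y) :
    ∃ ψ : SL(2, K) →* E, (∀ t, ψ (xx t) = x t) ∧ ∀ t, ψ (yy t) = y t := by
  let X : K → SL(2, K) × E := fun t => (xx t, x t)
  let Y : K → SL(2, K) × E := fun t => (yy t, y t)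
  have H' : R1 X Y := ⟨fun s t => Prod.ext (xx_add s t) (H.xa s t), fun s t => Prod.ext (yy_add s t) (H.ya s t),
    fun t s ht => Prod.ext ((r1_SL K).wx t s ht) (H.wx t s ht)⟩
  let Γ := Subgroup.closure (Set.range X ∪ Set.range Y)
  let π : Γ →* SL(2, K) := (MonoidHom.fst _ _).comp Γ.subtype
  have hX : ∀ t, X t ∈ Γ := fun t => Subgroup.subset_closure (.inl ⟨t, rfl⟩)
  have hY : ∀ t, Y t ∈ Γ := fun t => Subgroup.subset_closure (.inr ⟨t, rfl⟩)
  have hinj : Function.Injective π := by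
    rw [injective_iff_map_eq_one]
    rintro ⟨g, hg⟩ h1
    have h1 : g.1 = 1 := h1
    rcases H'.nf hg with ⟨s, t, ht, rfl⟩ | ⟨s, t, s', ht, rfl⟩
    · have e1 := congrArg (fun g : SL(2, K) => g 1 1) h1
      have e2 := congrArg (fun g : SL(2, K) => g 0 1) h1
      simp [hh, ww, X, Y, mulE, ht] at e1 e2
      subst e1
      have e3 : s = 0 := by simpa using e2
      subst e3
      exact Subtype.ext (show X 0 * hh X Y 1 = 1 by rw [H'.x0, H'.h1, one_mul])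
    · have e1 := congrArg (fun g : SL(2, K) => g 1 0) h1
      simp [ww, X, Y, mulE, ht] at e1
  have hsurj : Function.Surjective π := by
    rw [← MonoidHom.range_eq_top]
    exact H4.SL2_eq_top (fun c => ⟨⟨X c, hX c⟩, rfl⟩) fun c => ⟨⟨Y c, hY c⟩, rfl⟩
  let e := MulEquiv.ofBijective π ⟨hinj, hsurj⟩
  refine ⟨((MonoidHom.snd _ _).comp Γ.subtype).comp e.symm.toMonoidHom, fun t => ?_, fun t => ?_⟩
  · have : e.symm (xx t) = ⟨X t, hX t⟩ := e.symm_apply_eq.2 rfl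
    simp [this, X]
  · have : e.symm (yy t) = ⟨Y t, hY t⟩ := e.symm_apply_eq.2 rfl
    simp [this, Y]

/-- the covering lemma -/
theorem cover {G X : Type*} [Group G] (H : Subgroup G) (S : Set G) (hH : H ≤ Subgroup.closure S) (hS : S ⊆ H)
    (act : G → X → X) (act1 : ∀ a, act 1 a = a) (actm : ∀ g h a, act (g * h) a = act g (act h a))
    (pt : X → Prop) (ptm : ∀ g ∈ H, ∀ a, pt a → pt (act g a)) (adj : X → X → Prop)
    (symm : ∀ a b, adj a b → adj b a) (refl : ∀ a, pt a → adj a a)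
    (adjm : ∀ g ∈ H, ∀ a b, adj (act g a) (act g b) ↔ adj a b)
    (P : X → Subgroup G) (e : X → X → G → Prop)
    (e0 : ∀ a b, pt a → pt b → adj a b → ∃ t, e a b t) (e1 : ∀ a, pt a → e a a 1)
    (em : ∀ g ∈ H, ∀ a b t, pt a → pt b → adj a b → e a b t → e (act g a) (act g b) (g * t * g⁻¹))
    (Pm : ∀ g ∈ H, ∀ a, pt a → ∀ p ∈ P a, g * p * g⁻¹ ∈ P (act g a))
    (eP : ∀ a b t, pt a → pt b → adj a b → e a b t → ∀ p, t * p * t⁻¹ ∈ P b ↔ p ∈ P a)
    (tri : ∀ a b c t1 t2 t3, pt a → pt b → pt c → adj a b → adj b c → adj a c → e a b t1 → e b c t2 → e a c t3 →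
      t3⁻¹ * (t2 * t1) ∈ P a)
    (quad : ∀ a c b b', pt a → pt c → pt b → pt b' → ¬ adj a c → adj a b → adj b c → adj a b' → adj b' c →
      ∃ l ∈ H, l ∈ P a ∧ l ∈ P c ∧ act l a = a ∧ act l c = c ∧ adj (act l b) b')
    (pent : ∀ a b c, pt a → pt b → pt c → ¬ adj a b → adj b c → ¬ adj a c → ∃ x, pt x ∧ adj a x ∧ adj x b ∧ adj x c)
    (gen : ∀ s ∈ S, s = 1 ∨ ∃ y, pt y ∧ act s y = y ∧ s ∈ P y)
    {g : G} (hg : g ∈ H) {a : X} (ha : pt a) (h1 : adj a (act g a)) (h2 : e a (act g a) 1) : g ∈ P a := by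
  let C : X → X → G → Prop := fun a b t => (adj a b ∧ ∃ t0, e a b t0 ∧ t0⁻¹ * t ∈ P a) ∨
    (¬ adj a b ∧ ∃ x t1 t2, pt x ∧ adj a x ∧ adj x b ∧ e a x t1 ∧ e x b t2 ∧ (t2 * t1)⁻¹ * t ∈ P a)
  have C1 : ∀ a b t p, C a b t → p ∈ P a → C a b (t * p) := by
    rintro a b t p (⟨h, t0, h1, h2⟩ | ⟨h, x, t1, t2, hx, h1, h2, h3, h4, h5⟩) hp
    · exact .inl ⟨h, t0, h1, by rw [← mul_assoc]; exact mul_mem h2 hp⟩
    · exact .inr ⟨h, x, t1, t2, hx, h1, h2, h3, h4, by rw [← mul_assoc]; exact mul_mem h5 hp⟩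
  have uq : ∀ a b t t', pt a → pt b → adj a b → e a b t → e a b t' → t⁻¹ * t' ∈ P a := fun a b t t' ha hb h h1 h2 => by
    simpa using tri a b b t' 1 t ha hb hb h (refl b hb) h h2 (e1 b hb) h1
  have q2 : ∀ a c b b' t1 t2 t1' t2', pt a → pt c → pt b → pt b' → adj a b → adj b c → adj a b' → adj b' c → adj b b' →
      e a b t1 → e b c t2 → e a b' t1' → e b' c t2' → (t2' * t1')⁻¹ * (t2 * t1) ∈ P a := by
    intro a c b b' t1 t2 t1' t2' ha hc hb hb' h1 h2 h3 h4 h5 k1 k2 k3 k4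
    obtain ⟨u, hu⟩ := e0 b b' hb hb' h5
    have i1 := tri a b b' t1 u t1' ha hb hb' h1 h5 h3 k1 hu k3
    have i2 := tri b b' c u t2' t2 hb hb' hc h5 h4 h2 hu k4 k2
    have i3 := (eP a b t1 ha hb h1 k1 (t1⁻¹ * (t2⁻¹ * (t2' * u)) * t1)).1 (by simpa [mul_assoc] using i2)
    have := mul_mem i1 (inv_mem i3)
    simpa [mul_assoc] using this
  have q1 : ∀ a c b b' t1 t2 t1' t2', pt a → pt c → pt b → pt b' → ¬ adj a c → adj a b → adj b c → adj a b' → adj b' c →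
      e a b t1 → e b c t2 → e a b' t1' → e b' c t2' → (t2' * t1')⁻¹ * (t2 * t1) ∈ P a := by
    intro a c b b' t1 t2 t1' t2' ha hc hb hb' h0 h1 h2 h3 h4 k1 k2 k3 k4
    obtain ⟨l, hl, l1, l2, l3, l4, l5⟩ := quad a c b b' ha hc hb hb' h0 h1 h2 h3 h4
    have m1 := em l hl a b t1 ha hb h1 k1
    have m2 := em l hl b c t2 hb hc h2 k2
    have n1 := (adjm l hl a b).2 h1
    have n2 := (adjm l hl b c).2 h2
    rw [l3] at m1 n1
    rw [l4] at m2 n2
    have i1 := q2 a c _ b' _ _ t1' t2' ha hc (ptm l hl b hb) hb' n1 n2 h3 h4 l5 m1 m2 k3 k4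
    have i2 := (eP b c t2 hb hc h2 k2 (t2⁻¹ * l⁻¹ * t2)).1 (by simpa [mul_assoc] using inv_mem l2)
    have i3 := (eP a b t1 ha hb h1 k1 (t1⁻¹ * (t2⁻¹ * l⁻¹ * t2) * t1)).1 (by simpa [mul_assoc] using i2)
    have := mul_mem (mul_mem i1 l1) i3
    simpa [mul_assoc] using this
  have C2 : ∀ a b t t', pt a → pt b → C a b t → C a b t' → t⁻¹ * t' ∈ P a := by
    rintro a b t t' ha hb (⟨h, t0, h1, h2⟩ | ⟨h, x, t1, t2, hx, h1, h2, h3, h4, h5⟩)
      (⟨h', t0', h1', h2'⟩ | ⟨h', x', t1', t2', hx', h1', h2', h3', h4', h5'⟩)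
    · simpa [mul_assoc] using mul_mem (mul_mem (inv_mem h2) (uq a b _ _ ha hb h h1 h1')) h2'
    · exact absurd h h'
    · exact absurd h' h
    · have := q1 a b x' x _ _ _ _ ha hb hx' hx h h1' h2' h1 h2 h3' h4' h3 h4
      simpa [mul_assoc] using mul_mem (mul_mem (inv_mem h5) this) h5'
  have C3 : ∀ a b, pt a → pt b → ∃ t, C a b t := fun a b ha hb => by
    by_cases h : adj a b
    · obtain ⟨t, ht⟩ := e0 a b ha hb h
      exact ⟨t, .inl ⟨h, t, ht, by simp⟩⟩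
    · obtain ⟨x, hx, h1, h2, -⟩ := pent a b b ha hb hb h (refl b hb) h
      obtain ⟨t1, k1⟩ := e0 a x ha hx h1
      obtain ⟨t2, k2⟩ := e0 x b hx hb h2
      exact ⟨t2 * t1, .inr ⟨h, x, t1, t2, hx, h1, h2, k1, k2, by simp⟩⟩
  have C4 : ∀ a b c t u, pt a → pt b → pt c → C a b t → adj b c → e b c u → C a c (u * t) := by
    intro a b c t u ha hb hc h hbc hu
    by_cases hab : adj a b
    · obtain ⟨-, t0, h1, h2⟩ := h.resolve_right fun h => h.1 hab
      by_cases hac : adj a c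
      · obtain ⟨t3, k3⟩ := e0 a c ha hc hac
        exact .inl ⟨hac, t3, k3, by simpa [mul_assoc] using mul_mem (tri a b c t0 u t3 ha hb hc hab hbc hac h1 hu k3) h2⟩
      · exact .inr ⟨hac, b, t0, u, hb, hab, hbc, h1, hu, by simpa [mul_assoc] using h2⟩
    · obtain ⟨x, hx, h1, h2, h3⟩ : ∃ x, pt x ∧ adj a x ∧ adj x b ∧ adj x c := by
        by_cases hac : adj a c
        · exact ⟨c, hc, hac, symm _ _ hbc, refl c hc⟩
        · exact pent a b c ha hb hc hab hbc hac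
      obtain ⟨t1, k1⟩ := e0 a x ha hx h1
      obtain ⟨t2, k2⟩ := e0 x b hx hb h2
      obtain ⟨t3, k3⟩ := e0 x c hx hc h3
      have i0 := C2 a b _ _ ha hb (.inr ⟨hab, x, t1, t2, hx, h1, h2, k1, k2, by simp⟩ : C a b (t2 * t1)) h
      have i1 := tri x b c t2 u t3 hx hb hc h2 hbc h3 k2 hu k3
      have i2 := (eP a x t1 ha hx h1 k1 (t1⁻¹ * (t3⁻¹ * (u * t2)) * t1)).1 (by simpa [mul_assoc] using i1)
      have i3 : (t3 * t1)⁻¹ * (u * t) ∈ P a := by simpa [mul_assoc] using mul_mem i2 i0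
      by_cases hac : adj a c
      · obtain ⟨t4, k4⟩ := e0 a c ha hc hac
        exact .inl ⟨hac, t4, k4, by simpa [mul_assoc] using mul_mem (tri a x c t1 t3 t4 ha hx hc h1 h3 hac k1 k3 k4) i3⟩
      · exact .inr ⟨hac, x, t1, t3, hx, h1, h3, k1, k3, i3⟩
  have CP : ∀ a b t q, pt a → pt b → C a b t → q ∈ P b → C a b (q * t) := by
    intro a b t q ha hb h hq
    have : t⁻¹ * q * t ∈ P a := by
      rcases h with ⟨h, t0, h1, h2⟩ | ⟨h, x, t1, t2, hx, h1, h2, h3, h4, h5⟩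
      · have := (eP a b t0 ha hb h h1 (t0⁻¹ * q * t0)).1 (by simpa [mul_assoc] using hq)
        simpa [mul_assoc] using mul_mem (mul_mem (inv_mem h2) this) h2
      · have i1 := (eP x b t2 hx hb h2 h4 (t2⁻¹ * q * t2)).1 (by simpa [mul_assoc] using hq)
        have i2 := (eP a x t1 ha hx h1 h3 (t1⁻¹ * (t2⁻¹ * q * t2) * t1)).1 (by simpa [mul_assoc] using i1)
        simpa [mul_assoc] using mul_mem (mul_mem (inv_mem h5) i2) h5
    simpa [mul_assoc] using C1 a b t _ h this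
  have C5 : ∀ a b c t u, pt a → pt b → pt c → C a b t → C b c u → C a c (u * t) := by
    rintro a b c t u ha hb hc h (⟨h0, t0, h1, h2⟩ | ⟨h0, x, t1, t2, hx, h1, h2, h3, h4, h5⟩)
    · simpa [mul_assoc] using C4 a b c _ t0 ha hb hc (CP a b t _ ha hb h h2) h0 h1
    · simpa [mul_assoc] using C4 a x c _ t2 ha hx hc (C4 a b x _ t1 ha hb hx (CP a b t _ ha hb h h5) h1 h3) h2 h4
  have C6 : ∀ g ∈ H, ∀ a b t, pt a → pt b → C a b t → C (act g a) (act g b) (g * t * g⁻¹) := by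
    rintro g hg a b t ha hb (⟨h, t0, h1, h2⟩ | ⟨h, x, t1, t2, hx, h1, h2, h3, h4, h5⟩)
    · exact .inl ⟨(adjm g hg a b).2 h, _, em g hg a b t0 ha hb h h1, by simpa [mul_assoc] using Pm g hg a ha _ h2⟩
    · exact .inr ⟨mt (adjm g hg a b).1 h, act g x, _, _, ptm g hg x hx, (adjm g hg _ _).2 h1, (adjm g hg _ _).2 h2,
        em g hg a x t1 ha hx h1 h3, em g hg x b t2 hx hb h2 h4, by simpa [mul_assoc] using Pm g hg a ha _ h5⟩
  have C0 : ∀ a p, pt a → p ∈ P a → C a a p := fun a p ha hp => .inl ⟨refl a ha, 1, e1 a ha, by simpa⟩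
  have C7 : ∀ s ∈ H, (s = 1 ∨ ∃ y, pt y ∧ act s y = y ∧ s ∈ P y) → ∀ a, pt a → C a (act s a) s := by
    rintro s hs (rfl | ⟨y, hy, h1, h2⟩) a ha
    · rw [act1]; exact C0 a 1 ha (one_mem _)
    obtain ⟨t, ht⟩ := C3 a y ha hy
    obtain ⟨u, hu⟩ := C3 y a hy ha
    have i1 := C2 a a _ _ ha ha (C5 a y a t u ha hy ha ht hu) (C0 a 1 ha (one_mem _))
    have i2 := C6 s hs y a u hy ha hu
    rw [h1] at i2
    simpa [mul_assoc] using C1 _ _ _ _ (C5 a y _ _ _ ha hy (ptm s hs a ha) (CP a y t s ha hy ht h2) i2) i1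
  have C8 : ∀ g ∈ Subgroup.closure S, g ∈ H ∧ ∀ a, pt a → C a (act g a) g := by
    intro g hg
    induction hg using Subgroup.closure_induction_left with
    | one => exact ⟨one_mem _, C7 1 (one_mem _) (.inl rfl)⟩
    | mul_left s hs g _ h =>
      refine ⟨mul_mem (hS hs) h.1, fun a ha => ?_⟩
      rw [actm]
      exact C5 _ _ _ _ _ ha (ptm g h.1 a ha) (ptm s (hS hs) _ (ptm g h.1 a ha)) (h.2 a ha)
        (C7 s (hS hs) (gen s hs) _ (ptm g h.1 a ha))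
    | inv_mul_cancel s hs g _ h =>
      refine ⟨mul_mem (inv_mem (hS hs)) h.1, fun a ha => ?_⟩
      rw [actm]
      refine C5 _ _ _ _ _ ha (ptm g h.1 a ha) (ptm _ (inv_mem (hS hs)) _ (ptm g h.1 a ha)) (h.2 a ha)
        (C7 _ (inv_mem (hS hs)) ?_ _ (ptm g h.1 a ha))
      rcases gen s hs with rfl | ⟨y, hy, h1, h2⟩
      · exact .inl inv_one
      · exact .inr ⟨y, hy, by conv_lhs => rw [← h1, ← actm, inv_mul_cancel, act1], inv_mem h2⟩
  simpa using C2 a _ 1 g ha (ptm g hg a ha) (.inl ⟨h1, 1, h2, by simp⟩) ((C8 g (hH hg)).2 a ha)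

end Cfsg.Agent.C3.SM
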