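import Cfsg.Agent.C3.SM9

/-! Central extensions of symplectic groups. -/

set_option autoImplicit false

namespace Cfsg.Agent.C3.SM

open Submodule Module H4 H4.CForm
open scoped commutatorElement

variable {F : Type*} [Field F] {V : Type*} [AddCommGroup V] [Module F V] {E : Type*} [Group E] {ρ : E →* (V ≃ₗ[F] V)}
  {f : CForm (FType.symp F) V}

theorem sp_self (x : V) : f.B x x = 0 := f.B_self_of_Q (Lift.symp_Q x)

theorem sp_symm (x y : V) : f.B y x = -f.B x y := by rw [f.symm]; simp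

theorem comm_tv {g : V ≃ₗ[F] V} (hg : g ∈ f.iso) {u : V} (h : g u = u) (c : F) : Commute g (f.tv u c) := by
  rw [Commute, SemiconjBy, ← mul_inv_eq_iff_eq_mul, tv_conj hg, h]

theorem exists_TS_ext [FiniteDimensional F V] (hf : f.Nondeg) {U : Submodule F V} (h : 2 * finrank F U < finrank F V) :
    ∃ a ∈ f.perp U, a ∉ U := exists_notMem_of_finrank_lt (by have := hf.finrank_perp U; omega)

variable [FiniteDimensional F V] (C : CX ρ f.E) (hf : f.Nondeg) {u : V} {c : F} {k : E} (hk : ρ k = f.tv u c)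
include C hf hk

theorem sp_big (h8 : 8 ≤ finrank F V) {x : V} (hx : f.B x u = 0) (r : F) : f.tv x r ∈ CX.lc ρ k := by
  have key : ∀ a, f.B a u = 0 → f.B a x = 0 → a ∉ span F {u, x} → f.eich x (r • a) (-r) ∈ CX.lc ρ k := fun a h1 h2 h3 => by
    obtain ⟨w, hw, e⟩ := hf.exists_perp_B_eq h3 1
    obtain ⟨w1, w2⟩ := f.mem_perp_pair.1 hw
    have o := symp_eichOk w2 (0 : F)
    have := C.lc_comm (symp_tv_mem_E a (-r)) o.mem_E (k := k) (hk ▸ comm_tv (symp_tv_mem_iso _ _) (tv_fix _ (f.B_zero_symm h1)) c)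
      (hk ▸ comm_tv o.mem_iso (eich_fix _ (f.B_zero_symm hx) (f.B_zero_symm w1)) c)
    rw [commutatorElement_def, eich_conj (symp_tv_mem_iso _ _), tv_fix _ (f.B_zero_symm h2), eich_inv (sp_self x) w2, symp_tv_apply,
      eich_mul (sp_self x) (by simp [w2, h2]) (by simp [w2])] at this
    convert this using 2
    · rw [sp_symm a w, e]; module
    · simp [sp_self, sp_symm a w, e]
  obtain ⟨a, ha, na⟩ := exists_TS_ext hf (U := span F {u, x}) (by have := finrank_span_pair_le (F := F) u x; omega)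
  obtain ⟨b, hb, nb⟩ := exists_TS_ext hf (U := span F {u, x} ⊔ span F {a}) (by
    have := finrank_span_pair_le (F := F) u x; have := finrank_sup_span_le (span F {u, x}) a; omega)
  rw [f.perp_sup] at hb
  obtain ⟨a1, a2⟩ := f.mem_perp_pair.1 ha
  obtain ⟨b1, b2⟩ := f.mem_perp_pair.1 hb.1
  have b3 := f.mem_perp_singleton.1 hb.2
  have := mul_mem (mul_mem (key a a1 a2 na) (key b b1 b2 fun h => nb (mem_sup_left h))) (inv_mem (key (a + b) (by simp [a1, b1])
    (by simp [a2, b2]) fun h => nb (by simpa using sub_mem (mem_sup_left h) (mem_sup_right (mem_span_singleton_self a)))))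
  rw [eich_inv (sp_self x) (by simp [a2, b2]), eich_mul (sp_self x) (by simp [a2]) (by simp [b2]),
    eich_mul (sp_self x) (by simp [a2, b2]) (by simp [a2, b2]), show r • a + r • b + -(r • (a + b)) = 0 by module,
    eich_zero_eq_tv (sp_self x)] at this
  simpa [sp_self, b3, f.B_zero_symm b3] using this

theorem sp_perp (u0 : u ≠ 0) (h : ∃ l : F, l ≠ 0 ∧ l ≠ 1) {x : V} (hx : f.B x u = 0) (hn : x ∉ span F {u}) (r : F) : f.tv x r ∈ CX.lc ρ k := by
  by_cases h1 : ∃ l : F, l ≠ 0 ∧ l ^ 2 ≠ 1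
  · obtain ⟨l, l0, l1⟩ := h1
    obtain ⟨g, hg, g1, g2⟩ := hf.witt_core (span F {u}) (v' := l • x) hn (fun h => hn ((smul_mem_iff _ l0).1 h))
      (by simp [Lift.symp_Q]) fun y hy => by obtain ⟨t, rfl⟩ := mem_span_singleton.1 hy; simp [f.B_zero_symm hx]
    have := C.lc_comm (hf.symp_E_eq ▸ hg) (symp_tv_mem_E x (r / (l ^ 2 - 1))) (k := k)
      (hk ▸ comm_tv hg (g1 u (mem_span_singleton_self u)) c) (hk ▸ comm_tv (symp_tv_mem_iso _ _) (tv_fix _ (f.B_zero_symm hx)) c)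
    rw [commutatorElement_def, tv_conj hg, g2, tv_smul, tv_inv (sp_self x), tv_mul_tv (sp_self x)] at this
    convert this using 2
    simp only [FType.symp_σ]; field_simp [sub_ne_zero.2 l1]; ring
  push Not at h1
  obtain ⟨l, l0, l1⟩ := h
  have h2 : (2 : F) ≠ 0 := fun h2 => l1 (by rcases sq_eq_sq_iff_eq_or_eq_neg.1 ((h1 l l0).trans (one_pow 2).symm) with h | h <;> grind)
  by_cases c0 : c = 0
  · obtain ⟨g, hg⟩ := C.surj _ (symp_tv_mem_E (f := f) x r)
    rw [← hg, C.mem_lc]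
    exact C.cen k (by rw [hk, c0, tv_zero]) g
  obtain ⟨u', x', pu', hB, px, px', hB'⟩ := exists_frame hf (Lift.symp_Q u) (Lift.symp_Q x) hx u0 hn
  obtain ⟨w, hw, w1, w2, -⟩ := exists_swap (Lift.symp_Q u) (Lift.symp_Q x) (Lift.symp_Q u') (Lift.symp_Q x') hB hB' hx (mem_pp px.1).2
    (mem_pp px'.1).1
  obtain ⟨g, rfl⟩ := C.surj w hw
  obtain ⟨a, ha⟩ := C.surj _ (symp_tv_mem_E (f := f) x c)
  have i1 : f.tv x c ∈ CX.lc ρ k := by
    rw [← ha, C.mem_lc]
    refine C.swap (g := g) (n := 3) (by rw [ha, hk]; exact comm_tv (symp_tv_mem_iso _ _) (tv_fix _ (f.B_zero_symm hx)) c) ?_ ?_ (by decide) ?_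
    · rw [map_mul, map_mul, map_inv, ha, tv_conj (E_le_iso hw), w2, hk]
    · rw [map_mul, map_mul, map_inv, hk, tv_conj (E_le_iso hw), w1, ha, ← neg_one_smul F x, tv_smul]; simp
    · rw [ha, pow_succ, sq, tv_mul_tv (sp_self x), tv_mul_tv (sp_self x), show c + c + c = 0 by linear_combination c * h1 2 h2 - c * h1 1 one_ne_zero, tv_zero]
  by_cases r0 : r = 0
  · rw [r0, tv_zero]; exact one_mem _
  rcases sq_eq_sq_iff_eq_or_eq_neg.1 ((h1 r r0).trans (h1 c c0).symm) with rfl | rfl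
  · exact i1
  · rw [← tv_inv (sp_self x)]; exact inv_mem i1

theorem sp_all (u0 : u ≠ 0) (h4 : 4 ≤ finrank F V) (h : (∃ l : F, l ≠ 0 ∧ l ≠ 1) ∨ 8 ≤ finrank F V) {x : V} (hx : f.B x u = 0) (r : F) :
    f.tv x r ∈ CX.lc ρ k := by
  rcases h with h | h
  swap
  · exact sp_big C hf hk h hx r
  by_cases hn : x ∈ span F {u}
  swap
  · exact sp_perp C hf hk u0 h hx hn r
  obtain ⟨t, rfl⟩ := mem_span_singleton.1 hn
  rw [tv_smul]
  generalize t * _ * r = r
  obtain ⟨v, hv, nv⟩ := exists_TS_ext hf (U := span F {u}) (by have := finrank_span_singleton_le (F := F) u; omega)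
  have key : ∀ v (a : F), f.B v u = 0 → v ∉ span F {u} → f.eich u (a • v) (-a) ∈ CX.lc ρ k := fun v a hv nv => by
    rw [symp_eich_eq hv, neg_sub_neg, sub_self, tv_zero, mul_one]
    exact mul_mem (sp_perp C hf hk u0 h (by simp [hv, sp_self]) (fun h => nv (by simpa using sub_mem h (mem_span_singleton_self u))) _)
      (sp_perp C hf hk u0 h hv nv _)
  by_cases r0 : r = 0
  · rw [r0, tv_zero]; exact one_mem _
  obtain ⟨l, l0, l1⟩ := h
  have l2 := sub_ne_zero.2 l1
  have v1 := f.mem_perp_singleton.1 hv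
  have := mul_mem (key v (r * l) v1 nv) (key ((l / (l - 1)) • v) (r * (1 - l)) (by simp [v1]) fun h => nv ((smul_mem_iff _ (div_ne_zero l0 l2)).1 h))
  rw [eich_mul (sp_self u) (by simp [v1]) (by simp [v1]), show (r * l) • v + (r * (1 - l)) • (l / (l - 1)) • v = 0 by
    match_scalars; field_simp; ring, eich_zero_eq_tv (sp_self u)] at this
  convert this using 2
  simp [sp_self]; ring

theorem sp_RC (u0 : u ≠ 0) (h4 : 4 ≤ finrank F V) (h : (∃ l : F, l ≠ 0 ∧ l ≠ 1) ∨ 8 ≤ finrank F V) {g : E} (gu : ρ g u = u) :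
    Commute g k := by
  have key : ∀ p v c, f.B p u = 0 → f.B v u = 0 → f.EichOk p v c → f.eich p v c ∈ CX.lc ρ k := fun p v c h1 h2 o => by
    rw [← one_smul F v, symp_eich_eq o.hv]
    exact mul_mem (mul_mem (sp_all C hf hk u0 h4 h (by simp [h1, h2]) _) (sp_all C hf hk u0 h4 h h2 _)) (sp_all C hf hk u0 h4 h h1 _)
  obtain ⟨u', q, hB⟩ := hf.exists_pair u0 (Lift.symp_Q u)
  obtain ⟨v, c, o, e1, e2⟩ := exists_X_map (Lift.symp_Q u) q hB (E_le_iso (C.mem g)) gu
  rw [← C.mem_lc, ← mul_inv_cancel_left (f.eich u v c) (ρ g)]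
  refine mul_mem (key u v c (sp_self u) o.hv o) (hf.mem_of_fix _ (pair_nondeg (Lift.symp_Q u) q (by simp [hB]))
    (fun p hp c _ => sp_all C hf hk u0 h4 h (f.mem_perp_pair.1 hp).1 c) (fun p hp v hv c o => key p v c (f.mem_perp_pair.1 hp).1
      (f.mem_perp_pair.1 hv).1 o) _ (mul_mem (inv_mem o.mem_iso) (E_le_iso (C.mem g))) fun x hx => ?_)
  obtain ⟨α, β, rfl⟩ := mem_span_pair.1 hx
  rw [map_add, map_smul, map_smul, e1, e2]

omit hk

theorem sp_D (u0 : u ≠ 0) (h4 : 4 ≤ finrank F V) (h : ∃ l : F, l ≠ 0 ∧ l ≠ 1) :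
    ∀ d ∈ ⁅(f.X u).comap ρ, (f.X u).comap ρ⁆, (ρ d = 1 → d = 1) ∧ ∃ t, ρ d = f.eich u 0 (2 * t) := by
  have uu := sp_self (f := f) u
  have RC : ∀ g k c, ρ k = f.eich u 0 c → ρ g u = u → Commute g k := fun g k c hk gu =>
    sp_RC C hf (hk.trans (eich_zero_eq_tv uu c)) u0 h4 (.inl h) gu
  choose! j hj using C.surj
  have hj' : ∀ v, f.B v u = 0 → ρ (j (f.eich u v 0)) = f.eich u v 0 := fun v hv => hj _ (symp_eichOk hv 0).mem_E
  have fx : ∀ v, f.B v u = 0 → ρ (j (f.eich u v 0)) u = u := fun v hv => by rw [hj' v hv, (symp_eichOk hv 0).apply_self]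
  let κ : V → V → E := fun v w => ⁅j (f.eich u v 0), j (f.eich u w 0)⁆
  have k1 : ∀ a v c b, f.B v u = 0 → ρ a = f.eich u v c → ρ b u = u → ⁅a, b⁆ = ⁅j (f.eich u v 0), b⁆ := fun a v c b hv e hb => by
    have := RC b ((j (f.eich u v 0))⁻¹ * a) c (by
      rw [map_mul, map_inv, hj' v hv, e, inv_mul_eq_iff_eq_mul, eich_mul uu hv (by simp)]; simp) hb
    rw [← mul_inv_cancel_left (j (f.eich u v 0)) a, commutatorElement_def, mul_assoc (j _), ← this.eq]; group
  have k0 : ∀ a v c b w c', f.B v u = 0 → f.B w u = 0 → ρ a = f.eich u v c → ρ b = f.eich u w c' → ⁅a, b⁆ = κ v w :=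
    fun a v c b w c' hv hw e e' => by
      rw [k1 a v c b hv e (by rw [e', (symp_eichOk hw _).apply_self]), ← commutatorElement_inv, k1 b w c' _ hw e' (fx v hv),
        commutatorElement_inv]
  have km : ∀ v w, f.B v u = 0 → f.B w u = 0 → ρ (κ v w) = f.eich u 0 (2 * f.B v w) := fun v w hv hw => by
    rw [map_commutatorElement, hj' v hv, hj' w hw, commutator_eich uu hv hw]; simp [two_mul]
  have anti : ∀ v w, κ w v = (κ v w)⁻¹ := fun v w => (commutatorElement_inv _ _).symm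
  have add : ∀ v v' w, f.B v u = 0 → f.B v' u = 0 → f.B w u = 0 → κ (v + v') w = κ v' w * κ v w := fun v v' w hv hv' hw => by
    rw [← k0 (j (f.eich u v 0) * j (f.eich u v' 0)) _ _ _ w 0 (by simp [hv, hv']) hw (by
      rw [map_mul, hj' v hv, hj' v' hv', eich_mul uu hv hv']) (hj' w hw), ← mul_inv_cancel_right (κ v' w) (j (f.eich u v 0)),
      ← (RC _ _ _ (km v' w hv' hw) (fx v hv)).eq]
    simp only [κ]; group
  have cj : ∀ g (l : F) v w, ρ g u = l • u → f.B v u = 0 → f.B w u = 0 → l ≠ 0 → g * κ v w * g⁻¹ = κ (l • ρ g v) (l • ρ g w) :=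
    fun g l v w e hv hw l0 => by
      have i : ∀ v, f.B v u = 0 → f.B (ρ g v) u = 0 := fun v hv => by
        have := iso_B (E_le_iso (C.mem g)) v u
        rwa [e, hv, B_smul_right, mul_eq_zero, or_iff_right (by simpa using l0)] at this
      have i2 : ∀ v, f.B v u = 0 → ρ (g * j (f.eich u v 0) * g⁻¹) = f.eich u (l • ρ g v) 0 := fun v hv => by
        rw [map_mul, map_mul, map_inv, hj' v hv, eich_conj (E_le_iso (C.mem g)), e, eich_smul uu (i v hv)]; simp
      rw [← k0 _ _ _ _ _ _ (by simp [i v hv]) (by simp [i w hw]) (i2 v hv) (i2 w hw)]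
      simp only [κ]; group
  have zero : ∀ x w, f.B x u = 0 → f.B w u = 0 → f.B x w = 0 → κ x w = 1 := fun x w hx hw e => by
    by_cases hn : w ∈ span F {u}
    · obtain ⟨t, rfl⟩ := mem_span_singleton.1 hn
      exact commutatorElement_eq_one_iff_commute.2 (RC _ _ _ (by rw [hj' _ hw, ← zero_add (t • u), eich_add_smul uu (by simp)]) (fx x hx))
    obtain ⟨v, hv, e1⟩ := hf.exists_perp_B_eq hn 1
    have v1 := f.mem_perp_singleton.1 hv
    have o := symp_eichOk e (-f.B v x)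
    have gu : ρ (j (f.eich w x (-f.B v x))) u = u := by rw [hj _ o.mem_E, eich_fix _ (f.B_zero_symm hw) (f.B_zero_symm hx)]
    have := cj _ 1 v w (by rw [gu, one_smul]) v1 hw one_ne_zero
    rw [(RC _ _ _ (km v w v1 hw) gu).eq, mul_inv_cancel_right, hj _ o.mem_E, o.apply_self, o.apply, sp_symm w v, e1, one_smul, one_smul,
      show v + f.B v x • w - (-1 : F) • ((FType.symp F).ε • x + (-f.B v x) • w) = v - x by simp] at this
    have i := add (v - x) x w (by simp [v1, hx]) hx hw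
    rwa [sub_add_cancel, ← this, right_eq_mul] at i
  have c1 : ∀ v v' w, f.B v u = 0 → f.B v' u = 0 → f.B w u = 0 → f.B v w = f.B v' w → κ v w = κ v' w := fun v v' w hv hv' hw e => by
    have := add v' (v - v') w hv' (by simp [hv, hv']) hw
    rwa [add_sub_cancel, zero (v - v') w (by simp [hv, hv']) hw (by simp [e]), one_mul] at this
  obtain ⟨u', q, hB⟩ := hf.exists_pair u0 (Lift.symp_Q u)
  have n1 := inf_pair_nondeg hf.top_inf_perp mem_top mem_top (Lift.symp_Q u) q (by simp [hB])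
  have d1 := finrank_inf_pair (W := ⊤) ⟨mem_top, u0, Lift.symp_Q u⟩ ⟨mem_top, ne_of_B hB, q⟩ (by simp [hB])
  rw [finrank_top] at d1
  obtain ⟨e, he, ne⟩ := exists_notMem_of_finrank_lt (U := ⊥) (W := ⊤ ⊓ f.perp (span F {u, u'})) (by rw [finrank_bot]; omega)
  obtain ⟨e', he', -, hE⟩ := exists_partner_of_nondeg n1 he (by simpa using ne) (Lift.symp_Q e)
  have e1 := (mem_pp he).1
  have e2 := (mem_pp he').1
  let γ : F → E := fun t => κ (t • e) e'
  have ga : ∀ s t, γ (s + t) = γ t * γ s := fun s t => by simp only [γ, add_smul]; exact add _ _ _ (by simp [e1]) (by simp [e1]) e2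
  have g0 : γ 0 = 1 := zero _ _ (by simp) e2 (by simp)
  have m1 : ∀ v w, f.B v u = 0 → f.B w u = 0 → w ∉ span F {u, e'} → κ v w = γ (f.B v w) := fun v w hv hw hn => by
    obtain ⟨z, hz, e3⟩ := hf.exists_perp_B_eq hn (f.B v w * f.B e w - f.B v w)
    obtain ⟨z1, z2⟩ := f.mem_perp_pair.1 hz
    have i : f.B (f.B v w • e + z) w = f.B v w := by simp [sp_symm w z, e3]
    have i2 : f.B (f.B v w • e + z) u = 0 := by simp [e1, z1]
    rw [c1 v _ w hv i2 hw i.symm, anti, c1 w e' _ hw e2 i2 (by rw [sp_symm _ w, sp_symm _ e', i]; simp [hE, z2]), ← anti,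
      c1 _ (f.B v w • e) e' i2 (by simp [e1]) e2 (by simp [z2])]
  have m2 : ∀ v w, f.B v u = 0 → f.B w u = 0 → κ v w = γ (f.B v w) := fun v w hv hw => by
    by_cases hn : w ∈ span F {u, e'}
    swap
    · exact m1 v w hv hw hn
    have n : e ∉ span F {u, e'} := fun h => by
      obtain ⟨α, β, h⟩ := mem_span_pair.1 h
      simp [← h, sp_self, f.B_zero_symm e2] at hE
    have := add (w + e) (-e) v (by simp [hw, e1]) (by simp [e1]) hv
    rw [add_neg_cancel_right, anti v w, anti v (-e), anti v (w + e), m1 v (w + e) hv (by simp [hw, e1]) fun h => n (by simpa using sub_mem h hn),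
      m1 v (-e) hv (by simp [e1]) fun h => n (by simpa using neg_mem h), ← mul_inv_rev, inv_inj, ← ga] at this
    simpa using this
  let M : Subgroup E :=
    { carrier := Set.range γ
      one_mem' := ⟨0, g0⟩
      mul_mem' := by rintro _ _ ⟨s, rfl⟩ ⟨t, rfl⟩; exact ⟨_, ga t s⟩
      inv_mem' := by rintro _ ⟨s, rfl⟩; exact ⟨-s, by rw [eq_inv_iff_mul_eq_one, ← ga, add_neg_cancel, g0]⟩ }
  intro d hd
  obtain ⟨t, rfl⟩ := (show _ ≤ M from Subgroup.commutator_le.2 fun a ha b hb => by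
    obtain ⟨v, c, o, i⟩ := (mem_X (Lift.symp_Q u)).1 ha
    obtain ⟨w, c', o', i'⟩ := (mem_X (Lift.symp_Q u)).1 hb
    exact ⟨_, by rw [k0 a v c b w c' o.hv o'.hv i i', m2 v w o.hv o'.hv]⟩) hd
  have gm : ∀ t, ρ (γ t) = f.eich u 0 (2 * t) := fun t => by rw [km _ _ (by simp [e1]) e2]; simp [hE]
  refine ⟨fun h1 => ?_, t, gm t⟩
  by_cases h2 : (2 : F) = 0
  · obtain ⟨l, l0, l1⟩ := h
    have l2 : l ^ 2 - 1 ≠ 0 := fun h => l1 (by grind)
    obtain ⟨g, hg, g1, g2⟩ := hf.witt_core (f.perp (span F {u, u'})) (v := u) (v' := l • u) (fun h => by simpa [hB] using (f.mem_perp_pair.1 h).2)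
      (fun h => by simpa [hB, l0] using (f.mem_perp_pair.1 h).2) (by simp [Lift.symp_Q]) fun y hy => by simp [(f.mem_perp_pair.1 hy).1]
    rw [← hf.symp_E_eq] at hg
    have := cj (j g) l ((t / (l ^ 2 - 1)) • e) e' (by rw [hj g hg, g2]) (by simp [e1]) e2 l0
    rw [C.cen (κ _ _) (by rw [km _ _ (by simp [e1]) e2, h2, zero_mul, eich_zero_zero]), mul_inv_cancel_right, hj g hg, g1 _ (smul_mem _ _ he.2),
      g1 _ he'.2, m2 (l • _) _ (by simp [e1]) (by simp [e2]), show f.B (l • (t / (l ^ 2 - 1)) • e) (l • e') = t / (l ^ 2 - 1) + t by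
        simp [hE]; field_simp; ring, ga] at this
    exact right_eq_mul.1 this
  · have := congrArg (fun g : V ≃ₗ[F] V => f.B (g u') u') ((gm t).symm.trans h1)
    simp [(symp_eichOk (f := f) (u := u) (v := 0) (by simp) _).apply, sp_symm u u', hB, h2] at this
    rw [this, g0]

theorem sp_lift1 [Finite F] (h4 : 4 ≤ finrank F V) (h : ∃ l : F, l ≠ 0 ∧ l ≠ 1) : ∃ ℓ, Lift f ρ ℓ := by
  have : Finite V := Module.finite_of_finite F
  have : Finite (V ≃ₗ[F] V) := Finite.of_injective _ DFunLike.coe_injective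
  have D := fun u u0 => sp_D C hf (u := u) u0 h4 h
  obtain ⟨l, l0, l1⟩ := h
  have l2 := sub_ne_zero.2 l1.symm
  have tor : ∀ u u', f.B u u' = 1 → ∃ g, ρ g u = l • u ∧ ∀ z, f.B z u = 0 → f.B z u' = 0 → ρ g z = z := fun u u' hB => by
    obtain ⟨g, hg, g1, g2⟩ := hf.witt_core (f.perp (span F {u, u'})) (v := u) (v' := l • u) (fun h => by simpa [hB] using (f.mem_perp_pair.1 h).2)
      (fun h => by simpa [hB, l0] using (f.mem_perp_pair.1 h).2) (by simp [Lift.symp_Q]) fun y hy => by simp [(f.mem_perp_pair.1 hy).1]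
    obtain ⟨g, rfl⟩ := C.surj g (hf.symp_E_eq ▸ hg)
    exact ⟨g, g2, fun z h1 h2 => g1 z (f.mem_perp_pair.2 ⟨h1, h2⟩)⟩
  have cm : ∀ u v c g, f.B v u = 0 → ρ g u = l • u → ρ g v = v → ⁅f.eich u v c, ρ g⁆ = f.eich u ((1 - l) • v) ((1 - l ^ 2) * c) :=
    fun u v c g hv g1 g2 => by
      rw [commutatorElement_def, mul_assoc, mul_assoc, ← mul_assoc (ρ g), eich_inv (sp_self u) hv, eich_conj (E_le_iso (C.mem g)), g1, map_neg,
        g2, eich_smul (sp_self u) (by simp [hv]), eich_mul (sp_self u) hv (by simp [hv])]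
      congr 1
      · simp; module
      · simp [sp_self]; ring
  refine lift_of_comm hf (fun u u0 hu => ?_) fun u u' k u0 hu hu' h hn => ?_
  · obtain ⟨u', q, hB⟩ := hf.exists_pair u0 hu
    obtain ⟨g, g1, g2⟩ := tor u u' hB
    have uu := sp_self (f := f) u
    refine C.lemB (X_le_E u) (X_le_pst hu) (pst_X hu) (fun d hd => (D u u0 d hd).1) (h := g) ⟨C.mem g, l, l0, g1⟩ (fun x hx h => ?_)
      fun n hn => ?_
    · obtain ⟨v, c, o, rfl⟩ := (mem_X hu).1 hx
      have p := (Lift.proj ⟨mem_top, u0, hu⟩ ⟨mem_top, ne_of_B hB, q⟩ hB mem_top o.hv).1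
      rw [← sub_add_cancel v (f.B v u' • u), eich_add_smul uu (mem_pp p).1] at h ⊢
      generalize v - f.B v u' • u = w, c + _ - _ = c at *
      rw [cm u w c g (mem_pp p).1 g1 (g2 w (mem_pp p).1 (mem_pp p).2), ← Subgroup.map_comap_eq_self (f := ρ) (H := f.X u)
        (fun x hx => C.surj x (X_le_E u hx)), ← Subgroup.map_commutator] at h
      obtain ⟨d, hd, e⟩ := h
      obtain ⟨t, e1⟩ := (D u u0 d hd).2
      have e2 := congrArg (fun g : V ≃ₗ[F] V => g u') (e1.symm.trans e)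
      simp only [eich_apply' uu (v := 0) (by simp), eich_apply' uu (v := (1 - l) • w) (by simp [(mem_pp p).1]), sp_symm u u', hB] at e2
      have e3 := congrArg (fun z => f.B z u') e2
      simp [hB, (mem_pp p).2, f.B_zero_symm (mem_pp p).2] at e3
      have e4 : w = 0 := by
        rw [e3] at e2
        simp [f.B_zero_symm (mem_pp p).2] at e2
        exact (smul_eq_zero.1 (by linear_combination (norm := module) e2 : (1 - l) • w = 0)).resolve_left l2
      subst e4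
      by_cases h2 : (2 : F) = 0
      · rw [show c = 0 by grind, eich_zero_zero]; exact one_mem _
      have d1 := finrank_inf_pair (W := ⊤) ⟨mem_top, u0, hu⟩ ⟨mem_top, ne_of_B hB, q⟩ (by simp [hB])
      rw [finrank_top] at d1
      obtain ⟨e, he, ne⟩ := exists_notMem_of_finrank_lt (U := ⊥) (W := ⊤ ⊓ f.perp (span F {u, u'})) (by rw [finrank_bot]; omega)
      obtain ⟨e', he', -, hE⟩ := exists_partner_of_nondeg (inf_pair_nondeg hf.top_inf_perp mem_top mem_top hu q (by simp [hB])) he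
        (by simpa using ne) (Lift.symp_Q e)
      have := Subgroup.commutator_mem_commutator (symp_eichOk (f := f) (u := u) (v := (c / 2) • e) (by simp [(mem_pp he).1]) 0).mem_X
        (symp_eichOk (mem_pp he').1 0).mem_X
      rw [commutator_eich uu (by simp [(mem_pp he).1]) (mem_pp he').1] at this
      simpa [hE, show c / 2 + c / 2 = c by field_simp; ring] using this
    · obtain ⟨-, m, m0, e⟩ := id hn
      have i : ∀ x, f.B x u = 0 → ρ g x - x ∈ span F {u} := fun x hx => by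
        have p := (Lift.proj ⟨mem_top, u0, hu⟩ ⟨mem_top, ne_of_B hB, q⟩ hB mem_top hx).1
        rw [← sub_add_cancel x (f.B x u' • u), map_add, g2 _ (mem_pp p).1 (mem_pp p).2, map_smul, g1]
        exact mem_span_singleton.2 ⟨f.B x u' * (l - 1), by module⟩
      have b : ∀ n x, ρ n ∈ pst u f.E → f.B x u = 0 → f.B (ρ n x) u = 0 := fun n x ⟨_, m, m0, e⟩ hx => by
        have := iso_B (E_le_iso (C.mem n)) x u
        rwa [e, hx, B_smul_right, mul_eq_zero, or_iff_right (by simpa using m0)] at this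
      have hg : ρ g ∈ pst u f.E := ⟨C.mem g, l, l0, g1⟩
      rw [← map_commutatorElement]
      refine mem_X_of hu q hB (E_le_iso (C.mem _)) ?_ fun x hx => ?_
      · rw [commutatorElement_def, mul_assoc, mul_assoc, ← mul_inv_rev, ← mul_assoc, mul_app, inv_app ρ (a := (m * l)⁻¹ • u)] <;>
          simp [mul_app, e, g1, smul_smul] <;> field_simp <;> simp
      · have y1 := b g⁻¹ x (by simpa using inv_mem hg) hx
        obtain ⟨s, hs⟩ := mem_span_singleton.1 (i _ (b n⁻¹ _ (by simpa using inv_mem hn) y1))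
        obtain ⟨s', hs'⟩ := mem_span_singleton.1 (i _ y1)
        rw [commutatorElement_def, mul_app, mul_app, mul_app, ← sub_add_cancel (ρ g _) (ρ n⁻¹ (ρ g⁻¹ x)), ← hs, map_add, map_smul, e]
        rw [← mul_app, mul_inv_cancel, map_one] at hs' ⊢
        exact mem_span_singleton.2 ⟨s * m - s', by rw [sub_smul, hs']; simp [smul_smul]; abel⟩
  · obtain ⟨z, hz, e⟩ := hf.exists_perp_B_eq (U := span F {u'}) (v := u) (fun h => hn (by
      obtain ⟨t, rfl⟩ := mem_span_singleton.1 h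
      exact mem_span_singleton.2 ⟨t⁻¹, by rw [smul_smul, inv_mul_cancel₀ (by rintro rfl; simp at u0), one_smul]⟩)) 1
    obtain ⟨g, g1, g2⟩ := tor u z e
    have g3 := g2 u' h (f.B_zero_symm (f.mem_perp_singleton.1 hz))
    have o := symp_eichOk (f := f) (u := u) (v := (k / (1 - l)) • u') (by simp [h]) 0
    obtain ⟨a, ha⟩ := C.surj _ o.mem_E
    refine ⟨a, g, ha ▸ o.mem_X, ?_, ⟨C.mem g, l, l0, g1⟩, ⟨C.mem g, 1, one_ne_zero, by rw [g3, one_smul]⟩, ?_⟩
    · rw [ha, eich_swap hu (Lift.symp_Q _) o.hv]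
      exact X_smul_le hu' _ (symp_eichOk (by simp [f.B_zero_symm h]) 0).mem_X
    · rw [ha, cm u _ 0 g o.hv g1 (by rw [map_smul, g3]), smul_smul, mul_div_cancel₀ _ l2, mul_zero]

theorem sp_lift2 (h8 : 8 ≤ finrank F V) (h : ∀ l : F, l ≠ 0 → l = 1) : ∃ ℓ, Lift f ρ ℓ := by
  have n1 : (-1 : F) = 1 := h _ (by simp)
  have RC : ∀ u g k c, u ≠ 0 → ρ k = f.tv u c → ρ g u = u → Commute g k := fun u g k c u0 hk gu => sp_RC C hf hk u0 (by omega) (.inr h8) gu
  obtain ⟨u₀, -, n0⟩ := exists_notMem_of_finrank_lt (F := F) (V := V) (U := ⊥) (W := ⊤) (by rw [finrank_bot, finrank_top]; omega)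
  obtain ⟨t₀, h0⟩ := C.surj _ (symp_tv_mem_E (f := f) u₀ 1)
  have : ∀ x, x ≠ 0 → ∃ g, ρ g u₀ = x := fun x hx => by
    obtain ⟨g, hg, e⟩ := hf.witt_vec (v := u₀) (by simpa using n0) hx (by simp [Lift.symp_Q])
    obtain ⟨g, rfl⟩ := C.surj g (hf.symp_E_eq ▸ hg)
    exact ⟨g, e⟩
  choose! gx hgx using this
  obtain ⟨t, ht⟩ : ∃ t : V → E, ∀ x, t x = gx x * t₀ * (gx x)⁻¹ := ⟨_, fun _ => rfl⟩
  have tm : ∀ x, x ≠ 0 → ρ (t x) = f.tv x 1 := fun x hx => by
    simp only [ht, map_mul, map_inv, h0]; rw [tv_conj (E_le_iso (C.mem _)), hgx x hx]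
  have tc : ∀ g x, x ≠ 0 → g * t x * g⁻¹ = t (ρ g x) := fun g x hx => by
    have := RC u₀ ((gx (ρ g x))⁻¹ * g * gx x) t₀ 1 (by simpa using n0) h0 (by
      rw [mul_app, mul_app, hgx x hx]; exact inv_app ρ (hgx _ (by simpa using hx)))
    rw [ht, ht (ρ g x)]
    nth_rewrite 2 [← mul_inv_cancel_right t₀ ((gx (ρ g x))⁻¹ * g * gx x)]
    rw [← this.eq]; group
  obtain ⟨z, hz⟩ : ∃ z, z = t₀ * t₀ := ⟨_, rfl⟩
  have zc := C.cen z (by rw [hz, map_mul, h0, tv_mul_tv (sp_self _), show (1 : F) + 1 = 0 by linear_combination -n1, tv_zero])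
  have z1 : ρ z = 1 := by rw [hz, map_mul, h0, tv_mul_tv (sp_self _), show (1 : F) + 1 = 0 by linear_combination -n1, tv_zero]
  have t2 : ∀ x, t x * t x = z := fun x => by
    rw [ht, ← mul_inv_cancel_right z (gx x), ← zc, hz]; group
  have t0 : ∀ x y, x ≠ 0 → y ≠ 0 → f.B y x = 0 → t x * t y = t y * t x := fun x y hx hy e => by
    rw [← mul_inv_eq_iff_eq_mul, tc _ y hy, tm x hx, tv_fix _ e]
  have t1 : ∀ x y, x ≠ 0 → y ≠ 0 → f.B y x = 1 → t x * t y * (t x)⁻¹ = t (y + x) := fun x y hx hy e => by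
    rw [tc _ y hy, tm x hx, symp_tv_apply, e]; simp
  have aa : ∀ a : V, a + a = 0 := fun a => by nth_rewrite 1 [← one_smul F a, ← n1]; simp
  have ne1 : ∀ {u a : V}, a ∉ span F {u} → a ≠ 0 := fun h e => h (e ▸ zero_mem _)
  have ne2 : ∀ {u a : V}, a ∉ span F {u} → u + a ∉ span F {u} := fun {u a} h e => h (by simpa using sub_mem e (mem_span_singleton_self u))
  obtain ⟨σ, hσ⟩ : ∃ σ : V → V → E, ∀ u a, σ u a = t (u + a) * t a * z⁻¹ := ⟨_, fun _ _ => rfl⟩
  have σm : ∀ u a, f.B a u = 0 → a ∉ span F {u} → ρ (σ u a) = f.eich u a 1 := fun u a h1 h2 => by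
    have := symp_eich_eq h1 1 1
    rw [one_smul, n1, sub_self, tv_zero, mul_one] at this
    simp only [hσ, map_mul, map_inv, z1, tm _ (ne1 (ne2 h2)), tm _ (ne1 h2), this, inv_one, mul_one]
  have σc : ∀ g u a, a ∉ span F {u} → g * σ u a * g⁻¹ = σ (ρ g u) (ρ g a) := fun g u a h2 => by
    simp only [hσ]
    rw [← map_add, ← tc _ _ (ne1 h2), ← tc _ _ (ne1 (ne2 h2)), mul_assoc g, mul_assoc _ z⁻¹, ← mul_inv_rev, zc, mul_inv_rev]; group
  have P2 : ∀ u a, f.B a u = 0 → a ∉ span F {u} → t (u + a) * t a * (t (u + a) * t a) = z * z := fun u a h1 h2 => by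
    rw [mul_assoc, ← mul_assoc (t a), t0 a _ (ne1 h2) (ne1 (ne2 h2)) (by simp [f.B_zero_symm h1, sp_self]), mul_assoc, t2, ← mul_assoc, t2]
  have σ2 : ∀ u a, f.B a u = 0 → a ∉ span F {u} → σ u a * σ u a = 1 := fun u a h1 h2 => by
    simp only [hσ]
    rw [mul_assoc, ← mul_assoc z⁻¹, ← mul_assoc z⁻¹, ← (Commute.inv_right (zc _)).eq, mul_assoc _ z⁻¹, ← (Commute.inv_right (zc _)).eq,
      ← mul_assoc, ← mul_assoc, ← mul_assoc, mul_assoc _ (t (u + a)), P2 u a h1 h2]; group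
  have σu : ∀ u a, f.B a u = 0 → a ∉ span F {u} → σ u (u + a) = σ u a := fun u a h1 h2 => by
    simp only [hσ]
    rw [← add_assoc, aa, zero_add, t0 a _ (ne1 h2) (ne1 (ne2 h2)) (by simp [f.B_zero_symm h1, sp_self])]
  have σ1 : ∀ u a b, f.B a u = 0 → a ∉ span F {u} → f.B b u = 0 → b ∉ span F {u} → f.B a b = 1 → σ u a * σ u b = σ u (a + b) :=
    fun u a b h1 h2 h3 h4 h5 => by
      have h6 : f.B b a = 1 := by rw [sp_symm, h5, n1]
      have i1 := t1 b a (ne1 h4) (ne1 h2) h5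
      have i2 := t1 b (u + a) (ne1 h4) (ne1 (ne2 h2)) (by simp [h5, f.B_zero_symm h3])
      have i3 := tc (t (u + a) * t a) b (ne1 h4)
      rw [mul_app, tm _ (ne1 h2), tm _ (ne1 (ne2 h2)), symp_tv_apply, symp_tv_apply, show b + (1 * f.B b a) • a +
        (1 * f.B (b + (1 * f.B b a) • a) (u + a)) • (u + a) = u + b + (a + a) by simp [h6, h1, h3, sp_self]; abel, aa, add_zero] at i3
      have i4 := P2 u a h1 h2
      simp only [hσ]
      rw [← add_assoc, ← i1, ← i2, ← i3, show t b * t (u + a) * (t b)⁻¹ * (t b * t a * (t b)⁻¹) = t b * (t (u + a) * t a) * (t b)⁻¹ by group]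
      have i5 := t2 b
      generalize t (u + a) * t a = P, t b = y at *
      have i6 : P⁻¹ = P * z⁻¹ * z⁻¹ := by rw [mul_assoc, ← mul_inv_rev, ← i4]; group
      have i7 : y⁻¹ = y * z⁻¹ := by rw [← i5]; group
      have c := fun x => (Commute.inv_right (zc x)).eq
      rw [i6, i7]
      calc _ = (P * P) * z⁻¹ * (y * (P * z⁻¹ * z⁻¹ * (y * z⁻¹))) := by rw [mul_assoc (P * P), ← c (y * _), mul_assoc P z⁻¹, ← c (_ * _)]; group
        _ = z * (y * (P * z⁻¹ * z⁻¹ * (y * z⁻¹))) := by rw [i4]; group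
        _ = _ := by rw [← zc, mul_assoc (P * z⁻¹), ← c (y * z⁻¹), mul_assoc P, ← c (_ * _)]; group
  have dl : ∀ u, u ≠ 0 → ∃ τ, ρ τ = f.tv u 1 ∧ τ * τ = 1 ∧ ∀ a b, f.B a u = 0 → a ∉ span F {u} → f.B b u = 0 → f.B b a = 0 →
      b ∉ span F {u} ⊔ span F {a} → σ u a * σ u b = σ u (a + b) * τ := fun u u0 => by
    have k : ∀ a b, f.B a u = 0 → a ∉ span F {u} → f.B b u = 0 → f.B b a = 0 → b ∉ span F {u} ⊔ span F {a} →
        b ∉ span F {u} ∧ a + b ∉ span F {u} ∧ ρ ((σ u (a + b))⁻¹ * (σ u a * σ u b)) = f.tv u 1 := fun a b h1 h2 h3 h4 h5 => by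
      have i1 : b ∉ span F {u} := fun h => h5 (mem_sup_left h)
      have i2 : a + b ∉ span F {u} := fun h => h5 (by simpa using sub_mem (mem_sup_left h) (mem_sup_right (mem_span_singleton_self a)))
      refine ⟨i1, i2, ?_⟩
      rw [map_mul, map_mul, map_inv, σm u a h1 h2, σm u b h3 i1, σm u _ (by simp [h1, h3]) i2, eich_mul (sp_self u) h1 h3,
        inv_mul_eq_iff_eq_mul, ← neg_neg (1 : F), ← eich_zero_eq_tv (sp_self u), eich_mul (sp_self u) (by simp [h1, h3]) (by simp)]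
      simp [h4, n1]
    obtain ⟨a, ha, na⟩ := exists_TS_ext hf (U := span F {u}) (by have := finrank_span_singleton_le (F := F) u; omega)
    obtain ⟨b, hb, nb⟩ := exists_TS_ext hf (U := span F {u} ⊔ span F {a}) (by
      have := finrank_span_singleton_le (F := F) u; have := finrank_sup_span_le (span F {u}) a; omega)
    rw [f.perp_sup] at hb
    have a1 := f.mem_perp_singleton.1 ha
    have b1 := f.mem_perp_singleton.1 hb.1
    have b2 := f.mem_perp_singleton.1 hb.2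
    obtain ⟨i1, i2, i3⟩ := k a b a1 na b1 b2 nb
    refine ⟨_, i3, ?_, fun a' b' h1 h2 h3 h4 h5 => ?_⟩
    · have fx : ∀ a, f.B a u = 0 → a ∉ span F {u} → ρ (σ u a) u = u := fun a h1 h2 => by rw [σm u a h1 h2, (symp_eichOk h1 _).apply_self]
      have c1 := RC u _ _ _ u0 i3 (fx _ (by simp [a1, b1]) i2)
      have c2 := σc (σ u a) u b i1
      rw [fx a a1 na, σm u a a1 na, (symp_eichOk a1 _).apply, b1, b2, zero_smul, zero_smul, add_zero, sub_zero, mul_inv_eq_iff_eq_mul] at c2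
      have c3 := σ2 u _ (by simp [a1, b1]) i2
      have c4 : σ u a * σ u b * (σ u a * σ u b) = 1 := by
        rw [mul_assoc, ← mul_assoc (σ u b), ← c2, mul_assoc, σ2 u b b1 i1, mul_one, σ2 u a a1 na]
      generalize σ u a * σ u b = p, σ u (a + b) = s at *
      rw [show s⁻¹ * p * (s⁻¹ * p) = s⁻¹ * (p * s⁻¹) * p by group, show p * s⁻¹ = s * (s⁻¹ * p) * s⁻¹ by group, c1.eq, inv_eq_of_mul_eq_one_right c3]
      rw [show s * (s * p * s * s) * p = s * s * p * (s * s) * p by group, c3, one_mul, mul_one, c4]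
    · obtain ⟨g1, hg1, e1, e2⟩ := hf.witt_core (span F {u}) na h2 (by simp [Lift.symp_Q]) fun y hy => by
        obtain ⟨t, rfl⟩ := mem_span_singleton.1 hy; simp [f.B_zero_symm a1, f.B_zero_symm h1]
      have e3 := e1 u (mem_span_singleton_self u)
      obtain ⟨g2, hg2, e4, e5⟩ := hf.witt_core (span F {u} ⊔ span F {a'}) (v := g1 b) (fun h => nb (by
        obtain ⟨y, hy, c, e⟩ := mem_sup_span_singleton.1 h
        rw [← e2, ← e1 y hy, ← map_smul, ← map_add, g1.injective.eq_iff] at e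
        exact mem_sup_span_singleton.2 ⟨y, hy, c, e⟩)) h5 (by simp [Lift.symp_Q]) fun y hy => by
          obtain ⟨y, hy', c, rfl⟩ := mem_sup_span_singleton.1 hy
          obtain ⟨t, rfl⟩ := mem_span_singleton.1 hy'
          have j1 := iso_B hg1 u b
          have j2 := iso_B hg1 a b
          rw [e3] at j1; rw [e2] at j2
          simp [j1, j2, f.B_zero_symm b1, f.B_zero_symm b2, f.B_zero_symm h3, f.B_zero_symm h4]
      obtain ⟨g, hg⟩ := C.surj _ (hf.symp_E_eq ▸ mul_mem hg2 hg1)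
      have gu : ρ g u = u := by rw [hg, LinearEquiv.mul_apply, e3, e4 u (mem_sup_left (mem_span_singleton_self u))]
      have ga : ρ g a = a' := by rw [hg, LinearEquiv.mul_apply, e2, e4 a' (mem_sup_right (mem_span_singleton_self a'))]
      have gb : ρ g b = b' := by rw [hg, LinearEquiv.mul_apply, e5]
      rw [← mul_inv_cancel_right ((σ u (a + b))⁻¹ * _) g, ← (RC u g _ _ u0 i3 gu).eq, ← ga, ← gb, ← map_add]
      nth_rewrite 1 2 3 [← gu]
      rw [← σc g u a na, ← σc g u b i1, ← σc g u _ i2]; group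
  let S : V → Subgroup E := fun u => Subgroup.closure {s | ∃ a, f.B a u = 0 ∧ a ∉ span F {u} ∧ s = σ u a}
  have mS : ∀ u a, f.B a u = 0 → a ∉ span F {u} → σ u a ∈ S u := fun u a h1 h2 => Subgroup.subset_closure ⟨a, h1, h2, rfl⟩
  have ex : ∀ u v, f.B v u = 0 → ∃ a, f.B a u = 0 ∧ f.B a v = 0 ∧ a ∉ span F {u, v} := fun u v _ => by
    obtain ⟨a, ha, na⟩ := exists_TS_ext hf (U := span F {u, v}) (by have := finrank_span_pair_le (F := F) u v; omega)
    exact ⟨a, (f.mem_perp_pair.1 ha).1, (f.mem_perp_pair.1 ha).2, na⟩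
  have m1 : ∀ {u v a : V}, a ∉ span F {u, v} → a ∉ span F {u} := fun h e => h (span_mono (by simp) e)
  have m2 : ∀ {u v a : V}, a ∉ span F {u, v} → a + v ∉ span F {u} := fun {u v a} h e => h (by
    simpa using sub_mem (span_mono (by simp) e) (subset_span (by simp) : v ∈ span F {u, v}))
  have s0 : ∀ u v a, f.B v u = 0 → f.B a u = 0 → f.B a v = 0 → a ∉ span F {u, v} → ρ (σ u a * σ u (a + v)) = f.eich u v 0 :=
    fun u v a h1 h2 h3 h4 => by
      rw [map_mul, σm u a h2 (m1 h4), σm u _ (by simp [h1, h2]) (m2 h4), eich_mul (sp_self u) h2 (by simp [h1, h2]), ← add_assoc, aa, zero_add]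
      simp [sp_self, f.B_zero_symm h3, show (1 : F) + 1 = 0 by linear_combination -n1]
  refine exists_lift_of hf S (fun u v c u0 o => ?_) (fun u u0 _ s hs e => ?_) (fun u k _ _ hk => by rw [h k hk, one_smul])
    (fun u u' k u0 _ _ h1 hn => ?_) fun g _ u _ _ s hs => conj_closure g ?_ hs
  · obtain ⟨a, a1, a2, a3⟩ := ex u v o.hv
    have i := mul_mem (mS u a a1 (m1 a3)) (mS u _ (by simp [a1, o.hv]) (m2 a3))
    by_cases c0 : c = 0
    · exact ⟨_, i, by rw [s0 u v a o.hv a1 a2 a3, c0]⟩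
    obtain ⟨b, b1, b2, b3⟩ := ex u a a1
    refine ⟨_, mul_mem (mul_mem i (mul_mem (mS u b b1 (m1 b3)) (mS u _ (by simp [a1, b1]) (m2 b3)))) (mS u a a1 (m1 a3)), ?_⟩
    rw [map_mul, map_mul, s0 u v a o.hv a1 a2 a3, s0 u a b a1 b1 b2 b3, σm u a a1 (m1 a3), eich_mul (sp_self u) o.hv a1,
      eich_mul (sp_self u) (by simp [a1, o.hv]) a1, add_assoc, aa, h c c0]
    simp [a2, sp_self]
  · obtain ⟨τ, τ1, τ2, τ3⟩ := dl u u0
    have key : ∀ b s, f.B b u = 0 → b ∉ span F {u} → (∃ i : ℕ, s = τ ^ i ∨ ∃ a, f.B a u = 0 ∧ a ∉ span F {u} ∧ s = σ u a * τ ^ i) →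
        ∃ i : ℕ, σ u b * s = τ ^ i ∨ ∃ a, f.B a u = 0 ∧ a ∉ span F {u} ∧ σ u b * s = σ u a * τ ^ i := by
      rintro b s h1 h2 ⟨i, rfl | ⟨a, h3, h4, rfl⟩⟩
      · exact ⟨i, .inr ⟨b, h1, h2, rfl⟩⟩
      by_cases h5 : f.B b a = 0
      swap
      · refine ⟨i, .inr ⟨b + a, by simp [h1, h3], fun hh => h5 ?_, by rw [← mul_assoc, σ1 u b a h1 h2 h3 h4 (h _ h5)]⟩⟩
        obtain ⟨r, hr⟩ := mem_span_singleton.1 hh
        simpa [sp_self, f.B_zero_symm h3] using congrArg (fun x => f.B x a) hr.symm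
      by_cases h6 : a ∈ span F {u} ⊔ span F {b}
      swap
      · exact ⟨i + 1, .inr ⟨b + a, by simp [h1, h3], fun hh => h6 (by
          simpa using sub_mem (mem_sup_left hh) (mem_sup_right (mem_span_singleton_self b))), by
            rw [← mul_assoc, τ3 b a h1 h2 h3 (f.B_zero_symm h5) h6, pow_succ', mul_assoc]⟩⟩
      obtain ⟨y, hy, c, rfl⟩ := mem_sup_span_singleton.1 h6
      obtain ⟨r, rfl⟩ := mem_span_singleton.1 hy
      obtain rfl := h c (by rintro rfl; exact h4 (by simpa using hy))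
      refine ⟨i, .inl ?_⟩
      by_cases r0 : r = 0
      · rw [r0, zero_smul, zero_add, one_smul, ← mul_assoc, σ2 u b h1 h2, one_mul]
      · rw [h r r0, one_smul, one_smul, σu u b h1 h2, ← mul_assoc, σ2 u b h1 h2, one_mul]
    have : ∃ i : ℕ, s = τ ^ i ∨ ∃ a, f.B a u = 0 ∧ a ∉ span F {u} ∧ s = σ u a * τ ^ i := by
      clear e
      induction hs using Subgroup.closure_induction_left with
      | one => exact ⟨0, .inl (by simp)⟩
      | mul_left x hx y _ ih => obtain ⟨b, h1, h2, rfl⟩ := hx; exact key b y h1 h2 ih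
      | inv_mul_cancel x hx y _ ih =>
        obtain ⟨b, h1, h2, rfl⟩ := hx
        rw [inv_eq_of_mul_eq_one_right (σ2 u b h1 h2)]; exact key b y h1 h2 ih
    obtain ⟨i, rfl | ⟨a, h1, h2, rfl⟩⟩ := this
    · rcases Nat.even_or_odd' i with ⟨k, rfl | rfl⟩
      · rw [pow_mul, sq, τ2, one_pow]
      · rw [pow_succ, pow_mul, sq, τ2, one_pow, one_mul, τ1] at e
        obtain ⟨u', -, hB⟩ := hf.exists_pair u0 (Lift.symp_Q u)
        have := congrArg (fun g : V ≃ₗ[F] V => g u') e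
        simp [symp_tv_apply, sp_symm u u', hB, u0] at this
    · obtain ⟨w, hw, e1⟩ := hf.exists_perp_B_eq h2 1
      have w1 := f.mem_perp_singleton.1 hw
      have : ρ (τ ^ i) w = w := by
        clear e hs
        induction i with
        | zero => simp
        | succ i ih => rw [pow_succ, mul_app, τ1, tv_fix _ w1, ih]
      have e2 := congrArg (fun g : V ≃ₗ[F] V => g w) e
      simp only [mul_app, this] at e2
      rw [σm u a h1 h2, (symp_eichOk h1 _).apply] at e2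
      simp [w1, sp_symm a w, e1, u0] at e2
  · by_cases k0 : k = 0
    · exact ⟨1, one_mem _, one_mem _, by simp [k0]⟩
    obtain ⟨a, a1, a2, a3⟩ := ex u u' h1
    have a4 : a ∉ span F {u', u} := by rwa [Set.pair_comm]
    refine ⟨_, mul_mem (mS u a a1 (m1 a3)) (mS u _ (by simp [a1, h1]) (m2 a3)), ?_, by rw [s0 u u' a h1 a1 a2 a3, h k k0, one_smul]⟩
    convert mul_mem (mS u' a a2 (m1 a4)) (mS u' _ (by simp [a2, f.B_zero_symm h1]) (m2 a4)) using 1
    have b : ∀ x y, x ∈ span F {u, u'} → y ∈ span F {u, u'} → Commute (t (x + a)) (t (y + a)) := fun x y hx hy => by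
      refine t0 _ _ (fun e => a3 ?_) (fun e => a3 ?_) ?_
      · rw [← neg_eq_iff_add_eq_zero.2 e]; exact neg_mem hx
      · rw [← neg_eq_iff_add_eq_zero.2 e]; exact neg_mem hy
      obtain ⟨_, _, rfl⟩ := mem_span_pair.1 hx
      obtain ⟨_, _, rfl⟩ := mem_span_pair.1 hy
      simp [sp_self, a1, a2, h1, f.B_zero_symm a1, f.B_zero_symm a2, f.B_zero_symm h1]
    have mu : u ∈ span F {u, u'} := subset_span (by simp)
    have mu' : u' ∈ span F {u, u'} := subset_span (by simp)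
    have c1 := b u u' mu mu'
    have c2 := b u 0 mu (zero_mem _)
    have c3 := b u' 0 mu' (zero_mem _)
    have c4 := b u (u + u') mu (add_mem mu mu')
    have c5 := b u' (u + u') mu' (add_mem mu mu')
    have c := fun x => (Commute.inv_right (zc x)).eq
    simp only [hσ, zero_add, show u + (u' + a) = u + u' + a by abel, show u' + (u + a) = u + u' + a by abel, add_comm a] at c1 c2 c3 c4 c5 ⊢
    generalize t (u + a) = x1, t (u' + a) = x2, t a = x3, t (u + u' + a) = x4 at *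
    simp only [mul_assoc, ← c, ← c (_ * _)]
    rw [c2.left_comm, c4.left_comm, c1.left_comm, c3.left_comm, c5.left_comm]
  · rintro _ ⟨a, h1, h2, rfl⟩
    rw [σc g u a h2]
    refine mS _ _ ((iso_B (E_le_iso (C.mem g)) _ _).trans h1) fun hh => h2 ?_
    obtain ⟨r, hr⟩ := mem_span_singleton.1 hh
    exact mem_span_singleton.2 ⟨r, (ρ g).injective (by rw [map_smul, hr])⟩

end Cfsg.Agent.C3.SM
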