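import Cfsg.Agent.C3.SM7
import Cfsg.Agent.H4.Order
import Cfsg.Agent.H4.Bridge2

/-! Schur multipliers of the orthogonal groups, matrix form. -/

set_option autoImplicit false

namespace Cfsg.Agent.C3.SM

open Submodule Module H4 H4.CForm

universe u

theorem card_of_sq {F : Type*} [Field F] [Fintype F] {n : ℕ} (h : ∀ c : F, c ≠ 0 → c ^ n = 1) : Fintype.card F - 1 ∣ n :=
  (FiniteField.forall_pow_eq_one_iff F n).1 fun x => Units.ext (by simpa using h x x.ne_zero)

theorem two_eq_zero_iff {F : Type*} [Field F] [Fintype F] : (2 : F) = 0 ↔ Fintype.card F % 2 = 0 := by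
  rw [← FiniteField.even_card_iff_char_two]
  exact ⟨ringChar_eq_two, fun h => by have := ringChar.Nat.cast_ringChar (R := F); rwa [h] at this⟩

theorem pow_mod_four {q m : ℕ} (h : q % 2 = 1) : q ^ m % 4 = if Odd m ∧ q % 4 = 3 then 3 else 1 := by
  rcases Nat.odd_mod_four_iff.1 h with h | h
  · simp [Nat.pow_mod, h]
  · have : q ^ 2 % 4 = 1 := by simp [Nat.pow_mod, h]
    rcases Nat.even_or_odd' m with ⟨k, rfl | rfl⟩
    · rw [if_neg (by simp), pow_mul, Nat.pow_mod, this]; simp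
    · rw [if_pos (by simp [h]), pow_succ, pow_mul, Nat.mul_mod, Nat.pow_mod, this, h]; simp

theorem gcd_four (n : ℕ) : Nat.gcd 4 n = if n % 4 = 0 then 4 else if n % 4 = 2 then 2 else 1 := by
  rw [Nat.gcd_rec]
  have : n % 4 < 4 := Nat.mod_lt _ (by norm_num)
  generalize n % 4 = r at *
  interval_cases r <;> rfl

theorem gcd_two (n : ℕ) : Nat.gcd 2 n = if n % 2 = 0 then 2 else 1 := by
  rw [Nat.gcd_rec]
  rcases Nat.mod_two_eq_zero_or_one n with h | h <;> simp [h]

theorem omega_mult {ι : Type} [Fintype ι] [DecidableEq ι] {F : Type u} [Field F] [Fintype F] {f : CForm (FType.orth F) (ι → F)}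
    (hf : f.Nondeg) (h7 : 7 ≤ Fintype.card ι) (hx : Fintype.card F ≤ 3 → Fintype.card ι ≠ 7)
    (hy : Fintype.card F = 2 → Fintype.card ι = 8 → f.wi ≠ 4) {A : Type*} [CommGroup A]
    (h0 : Fintype.card F % 2 = 0 → Nat.card A = 1) (h1 : Fintype.card F % 2 = 1 → Odd (Fintype.card ι) → Nat.card A = 2)
    (h3 : Fintype.card F % 2 = 1 → ∀ l, Fintype.card ι = 2 * l → (¬ (Fintype.card F ^ l % 4 = 1 ↔ f.wi = l) → Nat.card A = 2) ∧
      ((Fintype.card F ^ l % 4 = 1 ↔ f.wi = l) → Nat.card A = 4 ∧ (Odd l → IsCyclic A) ∧ (Even l → IsKleinFour A))) :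
    HasSchurMultiplier (POmega F f.Q) A := by
  have d : finrank F (ι → F) = Fintype.card ι := by simp
  have e := hf.orth_commutator_eq_E' (by omega)
  have o : (2 : F) ≠ 0 → Fintype.card F % 2 = 1 := fun h => by have := two_eq_zero_iff.not.1 h; omega
  have k : ∀ l, (2 : F) ≠ 0 → Fintype.card ι = 2 * l → (scal _ (-1) ∈ f.E ↔ (Fintype.card F ^ l % 4 = 1 ↔ f.wi = l)) := fun l h hl => by
    rw [← e, hf.neg_one_mem_commutator_iff h (d.trans hl), isSquare_neg_one_pow_iff (Nat.odd_iff.2 (o h))]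
  refine orth_mult hf (by omega) (fun h => ?_) (Q := ⟨f.Q, fun a x => by simpa using f.Q_smul a x,
    LinearMap.mk₂ F (fun x y => f.B x y) (by simp) (by simp) (by simp) (by simp), f.Q_add⟩) (fun _ => rfl)
    ((omegaEquiv f).trans (MulEquiv.subgroupCongr e)).symm (fun h => h0 (two_eq_zero_iff.1 h)) (fun h h' => ?_) fun h h' => ?_
  · have h4 := Nat.le_of_dvd two_pos (card_of_sq h)
    have := Fintype.one_lt_card (α := F)
    exact ⟨d ▸ hx (by omega), fun h2 h8 => hy (by have := two_eq_zero_iff.1 h2; omega) (d ▸ h8)⟩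
  · rcases Nat.even_or_odd' (Fintype.card ι) with ⟨l, hl | hl⟩
    · exact (h3 (o h) l hl).1 ((k l h hl).not.1 h')
    · exact h1 (o h) ⟨l, hl⟩
  · rcases Nat.even_or_odd' (Fintype.card ι) with ⟨l, hl | hl⟩
    · obtain ⟨i1, i2⟩ := (h3 (o h) l hl).2 ((k l h hl).1 h')
      exact ⟨i1, l, d.trans hl, i2⟩
    · exact absurd h' (hf.neg_one_notMem_of_odd (d ▸ ⟨l, hl⟩))

end Cfsg.Agent.C3.SM
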