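import Cfsg.Agent.C3.SM10
import Cfsg.Agent.C3.SM8

/-! Schur multipliers of symplectic groups. -/

set_option autoImplicit false

namespace Cfsg.Agent.C3.SM

open Submodule Module H4 H4.CForm

universe u

theorem mult_of_split {F : Type*} [Field F] [Finite F] {V : Type u} [AddCommGroup V] [Module F V] [Finite V] [Nontrivial V]
    {K : Subgroup (V ≃ₗ[F] V)} {K' : Type u} [Group K'] (hp : K ≤ ⁅K, K⁆) (hc : ∀ g ∈ Subgroup.center K, ∃ a : F, ∀ x, (g : V ≃ₗ[F] V) x = a • x)
    {G : Type u} [Group G] (i : K ≃* G) (i' : K ≃* K') {n : ℕ} (hn : Nat.card (Subgroup.center G) = n)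
    (H : ∀ (E : Type u) [Group E] [Finite E] (ρ : E →* (V ≃ₗ[F] V)), CX ρ K → ∃ M : Subgroup E, (∀ x ∈ K, ∃ g ∈ M, ρ g = x) ∧
      ∀ g ∈ M, ρ g = 1 → g = 1) : HasCyclicSchurMultiplier (G ⧸ Subgroup.center G) n := by
  have : Finite (V ≃ₗ[F] V) := Finite.of_injective _ DFunLike.coe_injective
  have : Finite K' := Finite.of_equiv _ i'.toEquiv
  let θ : K →* G ⧸ Subgroup.center G := (QuotientGroup.mk' _).comp i.toMonoidHom
  have hθ : Function.Surjective θ := (QuotientGroup.mk'_surjective _).comp i.surjective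
  have kθ : θ.ker = Subgroup.center K := by
    ext x; rw [← mem_center_equiv i, MonoidHom.mem_ker]; exact QuotientGroup.eq_one_iff _
  have C : CX (K.subtype.comp i'.symm.toMonoidHom) K := ⟨fun g => (i'.symm g).2, fun x hx => ⟨i' ⟨x, hx⟩, by simp⟩, fun z hz e => by
    simp [show z = 1 from i'.symm.injective (Subtype.ext (by simpa using hz))]⟩
  obtain ⟨v, hv⟩ := exists_ne (0 : V)
  choose a ha using hc
  have : IsCyclic (Subgroup.center K) := isCyclic_of_injective_ringHom
    { toFun := fun g => a g.1 g.2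
      map_one' := smul_left_injective F hv (by simp [← ha])
      map_mul' := fun g h => smul_left_injective F hv (by simp [← ha, mul_smul]) } fun g h e => by
        ext x; rw [ha g.1 g.2, ha h.1 h.2]; exact congrArg (· • x) e
  have e : (θ.comp ((K.subtype.comp i'.symm.toMonoidHom).codRestrict K C.mem)).ker ≃* Subgroup.center K :=
    (i'.symm.subgroupMap _).trans (MulEquiv.subgroupCongr (by
      rw [← kθ, ← MonoidHom.comap_ker]; exact Subgroup.map_comap_eq_self_of_surjective i'.symm.surjective _))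
  have : NeZero n := ⟨by rw [← hn, ← card_center_equiv i]; exact Nat.card_pos.ne'⟩
  refine hasMult_gen C ?_ θ hθ kθ.le (e.trans (mulEquivOfCyclicCardEq (by rw [card_center_equiv i, hn]; simp))) fun E _ _ ρ C _ => ?_
  · rw [eq_top_iff]; intro x _
    rw [← mem_commutator_equiv i'.symm, (commutator_eq_top_iff _).2 hp]; trivial
  obtain ⟨M, m1, m2⟩ := H E ρ C
  exact ⟨M, m1, 1, fun g hg h => .inl (m2 g hg h), .inl rfl⟩

theorem symp_mult {F : Type u} [Field F] [Finite F] {V : Type u} [AddCommGroup V] [Module F V] [FiniteDimensional F V]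
    {f : CForm (FType.symp F) V} (hf : f.Nondeg) (h4 : 4 ≤ finrank F V) (h : (∃ l : F, l ≠ 0 ∧ l ≠ 1) ∨ 8 ≤ finrank F V)
    (hp : f.iso ≤ ⁅f.iso, f.iso⁆) {G : Type u} [Group G] (i : f.iso ≃* G) :
    HasCyclicSchurMultiplier (G ⧸ Subgroup.center G) (Nat.gcd 2 (Nat.card F - 1)) := by
  have : Finite V := Module.finite_of_finite F
  have : Nontrivial V := Module.nontrivial_of_finrank_pos (R := F) (by omega)
  have := Fintype.ofFinite F
  refine mult_of_split hp (fun g hg => hf.symp_mem_center_iff.1 hg) i (MulEquiv.refl _) ?_ fun E _ _ ρ C => ?_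
  · obtain ⟨v, hv⟩ := exists_ne (0 : V)
    rw [← card_center_equiv i, card_center_of_scalar hf (fun g => hf.symp_mem_center_iff) (rootsOfUnity 2 F) fun a => ?_,
      card_rootsOfUnity_field, Nat.card_eq_fintype_card]
    rw [mem_rootsOfUnity', sq]
    exact ⟨fun h => scal_mem_iso h, fun h => iso_scalar_norm hf h (scal_apply a) hv⟩
  rw [← hf.symp_E_eq] at C ⊢
  obtain ⟨ℓ, L⟩ : ∃ ℓ, Lift f ρ ℓ := by
    by_cases h1 : ∃ l : F, l ≠ 0 ∧ l ≠ 1
    · exact sp_lift1 C hf h4 h1
    · exact sp_lift2 C hf (h.resolve_left h1) (by simpa using h1)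
  exact ⟨GW f ℓ ⊤, fun x hx => (show f.E ≤ (GW f ℓ ⊤).map ρ from E_le_iff.2 fun u v c o =>
    ⟨_, L.mem_GW mem_top mem_top o, L.map _ _ _ o⟩) hx, L.symp_ker hf hf.top_inf_perp⟩

end Cfsg.Agent.C3.SM
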