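import Cfsg.Agent.C3.SM11
import Cfsg.Agent.H4.Lin

/-! Lifted transvections: the kernel theorem for the special linear groups. -/

set_option autoImplicit false

namespace Cfsg.Agent.C3.SM

open Submodule Module H4 H4.CForm

variable {F : Type*} [Field F] {V : Type*} [AddCommGroup V] [Module F V] {E : Type*} [Group E]

/-- an equivariant system of lifts of the transvections -/
structure LL (ρ : E →* (V ≃ₗ[F] V)) (ℓ : (V →ₗ[F] F) → V → E) : Prop where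
  map : ∀ φ a, φ a = 0 → ρ (ℓ φ a) = dt φ a
  addl : ∀ φ ψ a, φ a = 0 → ψ a = 0 → ℓ (φ + ψ) a = ℓ φ a * ℓ ψ a
  addr : ∀ φ a b, φ a = 0 → φ b = 0 → ℓ φ (a + b) = ℓ φ a * ℓ φ b
  smul : ∀ (c : F) φ a, φ a = 0 → ℓ (c • φ) a = ℓ φ (c • a)
  conj : ∀ g φ a, φ a = 0 → g * ℓ φ a * g⁻¹ = ℓ (φ ∘ₗ ((ρ g)⁻¹ : V ≃ₗ[F] V)) (ρ g a)

def ptL (W : Submodule F V) (a : V) : Prop := a ∈ W ∧ a ≠ 0

def SL' (ℓ : (V →ₗ[F] F) → V → E) (C : Submodule F V) (u : V) : Subgroup E :=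
  Subgroup.closure {e | ∃ φ : V →ₗ[F] F, φ u = 0 ∧ (∀ x ∈ C, φ x = 0) ∧ e = ℓ φ u}

theorem exists_dual_W {W C U : Submodule F V} (h : W ⊓ C = ⊥) (hU : U ≤ W) {x : V} (hx : x ∈ W) (hn : x ∉ U) (t : F) :
    ∃ φ : V →ₗ[F] F, (∀ y ∈ C, φ y = 0) ∧ (∀ y ∈ U, φ y = 0) ∧ φ x = t := by
  obtain ⟨φ, h1, h2⟩ := exists_dual_of_notMem (U := C ⊔ U) (v := x) (fun hh => by
    obtain ⟨c, hc, u, hu, rfl⟩ := mem_sup.1 hh
    have : c ∈ W ⊓ C := ⟨by simpa using sub_mem hx (hU hu), hc⟩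
    rw [h, mem_bot] at this
    exact hn (by simpa [this] using hu)) t
  exact ⟨φ, fun y hy => h1 y (mem_sup_left hy), fun y hy => h1 y (mem_sup_right hy), h2⟩

namespace LL

variable {ρ : E →* (V ≃ₗ[F] V)} {ℓ : (V →ₗ[F] F) → V → E} (L : LL ρ ℓ)
include L

theorem zl (a : V) : ℓ 0 a = 1 := by simpa using L.addl 0 0 a rfl rfl

theorem zr (φ : V →ₗ[F] F) : ℓ φ 0 = 1 := by simpa using L.addr φ 0 0 (map_zero _) (map_zero _)

theorem mem_S {C : Submodule F V} {u : V} {e : E} (h : e ∈ SL' ℓ C u) : ∃ φ : V →ₗ[F] F, φ u = 0 ∧ (∀ x ∈ C, φ x = 0) ∧ e = ℓ φ u := by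
  induction h using Subgroup.closure_induction with
  | mem x hx => exact hx
  | one => exact ⟨0, rfl, fun _ _ => rfl, (L.zl u).symm⟩
  | mul x y _ _ h1 h2 =>
    obtain ⟨φ, h1, h3, rfl⟩ := h1
    obtain ⟨ψ, h2, h4, rfl⟩ := h2
    exact ⟨φ + ψ, by simp [h1, h2], fun x hx => by simp [h3 x hx, h4 x hx], (L.addl _ _ _ h1 h2).symm⟩
  | inv x _ h1 =>
    obtain ⟨φ, h1, h3, rfl⟩ := h1
    exact ⟨-φ, by simp [h1], fun x hx => by simp [h3 x hx], by
      rw [inv_eq_iff_mul_eq_one, ← L.addl _ _ _ h1 (by simp [h1]), add_neg_cancel, L.zl]⟩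

theorem mem_G {W C : Submodule F V} {u : V} {φ : V →ₗ[F] F} (hu : u ∈ W) (h1 : φ u = 0) (h2 : ∀ x ∈ C, φ x = 0) :
    ℓ φ u ∈ gH (ptL W) (SL' ℓ C) := by
  by_cases h0 : u = 0
  · rw [h0, L.zr]; exact one_mem _
  · exact Geo.S_le_H ⟨hu, h0⟩ (Subgroup.subset_closure ⟨φ, h1, h2, rfl⟩)

theorem prop {W C : Submodule F V} {g : E} (hg : g ∈ gH (ptL W) (SL' ℓ C)) : (∀ x, ρ g x - x ∈ W) ∧ ∀ x ∈ C, ρ g x = x := by
  have k : ∀ u, ptL W u → ∀ s ∈ SL' ℓ C u, ∀ g, ((∀ x, ρ g x - x ∈ W) ∧ ∀ x ∈ C, ρ g x = x) →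
      (∀ x, ρ (s * g) x - x ∈ W) ∧ ∀ x ∈ C, ρ (s * g) x = x := fun u hu s hs g h => by
    obtain ⟨φ, h1, h2, rfl⟩ := L.mem_S hs
    refine ⟨fun x => ?_, fun x hx => by rw [mul_app, h.2 x hx, L.map _ _ h1, dt_fix _ (h2 x hx)]⟩
    rw [mul_app, L.map _ _ h1, dt_apply h1, add_sub_right_comm]
    exact add_mem (h.1 x) (smul_mem _ _ hu.1)
  induction hg using Subgroup.closure_induction_left with
  | one => simp
  | mul_left s hs g _ ih => obtain ⟨u, h1, h2⟩ := hs; exact k u h1 s h2 g ih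
  | inv_mul_cancel s hs g _ ih => obtain ⟨u, h1, h2⟩ := hs; exact k u h1 _ (inv_mem h2) g ih

theorem S_smul {C : Submodule F V} (u : V) {c : F} (hc : c ≠ 0) : SL' ℓ C (c • u) ≤ SL' ℓ C u := fun s hs => by
  obtain ⟨φ, h1, h2, rfl⟩ := L.mem_S hs
  have : φ u = 0 := by simpa [hc] using h1
  exact Subgroup.subset_closure ⟨c • φ, by simp [this], fun x hx => by simp [h2 x hx], (L.smul _ _ _ this).symm⟩

theorem geo {W C : Submodule F V} (h : W ⊓ C = ⊥) : Geo ρ (ptL W) (fun _ _ => True) (SL' ℓ C) where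
  ne _ h := h.2
  symm _ _ := id
  refl _ _ := trivial
  spt a b ha hb _ x hx h0 := ⟨(span_le.2 (by rintro _ (rfl | rfl); exacts [ha.1, hb.1]) : _ ≤ W) hx, h0⟩
  sadj _ _ _ _ _ _ _ := trivial
  Ssmul u c _ hc := le_antisymm (L.S_smul u hc) (by
    have := L.S_smul (C := C) (c • u) (inv_ne_zero hc)
    rwa [smul_smul, inv_mul_cancel₀ hc, one_smul] at this)
  ptm g hg a ha := ⟨by simpa using add_mem ((L.prop hg).1 a) ha.1, by simpa using ha.2⟩
  adjm _ _ _ _ := Iff.rfl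
  conj g hg u _ s hs := by
    obtain ⟨φ, h1, h2, rfl⟩ := L.mem_S hs
    refine Subgroup.subset_closure ⟨_, by simp [h1], fun x hx => ?_, L.conj g φ u h1⟩
    have := (L.prop (inv_mem hg)).2 x hx
    rw [map_inv] at this
    simpa using (congrArg φ this).trans (h2 x hx)
  self u _ s hs := by
    obtain ⟨φ, h1, -, rfl⟩ := L.mem_S hs
    rw [L.map _ _ h1, dt_fix _ h1]
  fix u _ s hs x _ := by
    obtain ⟨φ, h1, -, rfl⟩ := L.mem_S hs
    exact ⟨_, by rw [L.map _ _ h1, dt_apply h1]⟩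
  tr u x hu hx _ hn t := by
    obtain ⟨φ, h1, h2, h3⟩ := exists_dual_W h ((span_singleton_le_iff_mem _ _).2 hu.1) hx.1 hn t
    have := h2 u (mem_span_singleton_self u)
    exact ⟨_, Subgroup.subset_closure ⟨φ, this, h1, rfl⟩, by rw [L.map _ _ this, dt_apply this, h3]⟩

theorem stab [Finite F] {W C : Submodule F V} (h : W ⊓ C = ⊥) {a : V} (ha : ptL W a) {g : E} (hg : g ∈ gH (ptL W) (SL' ℓ C))
    (hga : ρ g a = a) : g ∈ gS ρ (ptL W) (SL' ℓ C) a := by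
  by_cases hb : ∃ b, ptL W b ∧ True ∧ b ∉ span F {a}
  swap
  · refine Subgroup.closure_mono ?_ hg
    rintro s ⟨u, hu, hs⟩
    refine ⟨u, hu, hs, ?_⟩
    obtain ⟨k, rfl⟩ := mem_span_singleton.1 (by_contra fun hn => hb ⟨u, hu, trivial, hn⟩)
    have := (L.geo h).self _ hu s hs
    rwa [map_smul, smul_right_inj (by rintro rfl; exact hu.2 (by simp))] at this
  refine (L.geo h).stab ?_ (fun _ _ _ _ _ _ _ _ h => absurd trivial h) (fun _ _ _ _ _ _ h => absurd trivial h) ?_ ha hb hg hga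
  · intro a b c ha hb hc _ _ _ hn
    obtain ⟨φ, h1, h2, h3⟩ := exists_dual_W h (span_le.2 (by
      rintro _ (rfl | rfl)
      exacts [sub_mem hb.1 ha.1, sub_mem hc.1 ha.1])) ha.1 hn 1
    have e1 : φ b = 1 := by have := h2 (b - a) (subset_span (by simp)); rwa [map_sub, h3, sub_eq_zero] at this
    have e2 : φ c = 1 := by have := h2 (c - a) (subset_span (by simp)); rwa [map_sub, h3, sub_eq_zero] at this
    have key : ∀ x y, ptL W x → ptL W y → φ x = 1 → φ y = 1 →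
        ℓ φ (y - x) ∈ gK F (ptL W) (SL' ℓ C) x y ∧ ρ (ℓ φ (y - x)) x = y := fun x y hx hy e1 e2 => by
      have o : φ (y - x) = 0 := by simp [e1, e2]
      refine ⟨?_, by rw [L.map _ _ o, dt_apply o, e1]; simp⟩
      by_cases h0 : y - x = 0
      · rw [h0, L.zr]; exact one_mem _
      exact Subgroup.subset_closure ⟨y - x, sub_mem (subset_span (by simp)) (subset_span (by simp)), ⟨sub_mem hy.1 hx.1, h0⟩,
        Subgroup.subset_closure ⟨φ, o, h1, rfl⟩⟩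
    refine ⟨_, (key a b ha hb h3 e1).1, _, (key b c hb hc e1 e2).1, _, (key a c ha hc h3 e2).1, (key a b ha hb h3 e1).2,
      (key b c hb hc e1 e2).2, (key a c ha hc h3 e2).2, ?_⟩
    rw [← L.addr _ _ _ (by simp [e1, e2]) (by simp [e1, h3]), sub_add_sub_cancel, inv_mul_cancel]
    exact one_mem _
  · intro a b b' ha hb hb' _ _ n1 n2
    by_cases hm : b ∈ span F {a, b'}
    · exact ⟨1, one_mem _, by simpa using hm⟩
    obtain ⟨φ, h1, h2, h3⟩ := exists_dual_W h (U := span F {a, b' - b}) (span_le.2 (by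
      rintro _ (rfl | rfl)
      exacts [ha.1, sub_mem hb'.1 hb.1])) hb.1 (fun hh => by
        obtain ⟨α, β, e⟩ := mem_span_pair.1 hh
        by_cases h0 : 1 + β = 0
        · exact n2 (mem_span_singleton.2 ⟨α, by linear_combination (norm := module) e - h0 • (b' - b)⟩)
        · exact hm ((smul_mem_iff _ h0).1 (mem_span_pair.2 ⟨α, β, by linear_combination (norm := module) e⟩))) 1
    have o := h2 (b' - b) (subset_span (by simp))
    refine ⟨ℓ φ (b' - b), Subgroup.subset_closure ⟨b' - b, ⟨sub_mem hb'.1 hb.1, fun e => hm ?_⟩, Subgroup.subset_closure ⟨φ, o, h1, rfl⟩,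
      by rw [L.map _ _ o, dt_fix _ (h2 a (subset_span (by simp)))]⟩, ?_⟩
    · rw [← sub_eq_zero.1 e]; exact subset_span (by simp)
    · rw [L.map _ _ o, dt_apply o, h3, one_smul, add_sub_cancel]; exact subset_span (by simp)

theorem ker [Finite F] [FiniteDimensional F V] {W C : Submodule F V} (h : W ⊓ C = ⊥) (h' : W ⊔ C = ⊤) :
    ∀ g ∈ gH (ptL W) (SL' ℓ C), ρ g = 1 → g = 1 := by
  induction hn : finrank F W using Nat.strong_induction_on generalizing W C with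
  | _ n ih =>
  by_cases hp : ∃ a, ptL W a
  swap
  · exact fun g hg _ => (show gH (ptL W) (SL' ℓ C) ≤ ⊥ from (Subgroup.closure_le _).2 fun _ ⟨u, hu, _⟩ => absurd ⟨u, hu⟩ hp) hg
  obtain ⟨a, ha⟩ := hp
  obtain ⟨α, α1, -, α2⟩ := exists_dual_W h bot_le ha.1 ha.2 1
  have m0 : ∀ x ∈ W, x - α x • a ∈ W ⊓ LinearMap.ker α := fun x hx => ⟨sub_mem hx (smul_mem _ _ ha.1), by simp [α2]⟩
  have le : gH (ptL (W ⊓ LinearMap.ker α)) (SL' ℓ (C ⊔ span F {a})) ≤ gH (ptL W) (SL' ℓ C) :=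
    Subgroup.closure_mono (by
      rintro s ⟨u, hu, hs⟩
      refine ⟨u, ⟨hu.1.1, hu.2⟩, Subgroup.closure_mono ?_ hs⟩
      rintro _ ⟨φ, h1, h2, h3⟩
      exact ⟨φ, h1, fun x hx => h2 x (mem_sup_left hx), h3⟩)
  have nrm : ∀ l ∈ gH (ptL (W ⊓ LinearMap.ker α)) (SL' ℓ (C ⊔ span F {a})), ∀ r ∈ SL' ℓ C a, l * r * l⁻¹ ∈ SL' ℓ C a := fun l hl r hr => by
    have := (L.geo h).conj l (le hl) a ha r hr
    rwa [(L.prop hl).2 a (mem_sup_right (mem_span_singleton_self a))] at this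
  let M : Subgroup E :=
    { carrier := {g | ∃ r ∈ SL' ℓ C a, ∃ l ∈ gH (ptL (W ⊓ LinearMap.ker α)) (SL' ℓ (C ⊔ span F {a})), g = r * l}
      one_mem' := ⟨1, one_mem _, 1, one_mem _, by simp⟩
      mul_mem' := by
        rintro _ _ ⟨x, hx, k, hk, rfl⟩ ⟨x', hx', k', hk', rfl⟩
        exact ⟨_, mul_mem hx (nrm k hk x' hx'), k * k', mul_mem hk hk', by group⟩
      inv_mem' := by
        rintro _ ⟨x, hx, k, hk, rfl⟩
        exact ⟨_, nrm k⁻¹ (inv_mem hk) _ (inv_mem hx), k⁻¹, inv_mem hk, by group⟩ }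
  intro g hg e
  obtain ⟨r, hr, l, hl, rfl⟩ := (show gS ρ (ptL W) (SL' ℓ C) a ≤ M from (Subgroup.closure_le _).2 <| by
    rintro s ⟨u, hu, hs, e⟩
    obtain ⟨φ, h1, h2, rfl⟩ := L.mem_S hs
    rw [L.map _ _ h1, dt_apply h1, add_eq_left, smul_eq_zero, or_iff_left hu.2] at e
    refine ⟨ℓ (α u • φ) a, Subgroup.subset_closure ⟨_, by simp [e], fun x hx => by simp [h2 x hx], rfl⟩, ℓ φ (u - α u • a),
      L.mem_G (m0 u hu.1) (by simp [e, h1]) fun x hx => ?_, by rw [L.smul _ _ _ e, ← L.addr _ _ _ (by simp [e]) (by simp [e, h1]), add_sub_cancel]⟩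
    obtain ⟨y, hy, c, rfl⟩ := mem_sup_span_singleton.1 hx
    simp [e, h2 y hy]) (L.stab h ha hg (by simp [e]))
  obtain ⟨φ, h1, h2, rfl⟩ := L.mem_S hr
  have z : φ = 0 := by
    have k : ∀ x ∈ W ⊓ LinearMap.ker α, φ x = 0 := fun x hx => by
      have i1 : ρ (ℓ φ a * l) x = x := by simp [e]
      have i2 : α (ρ l x - x) = 0 := ((L.prop hl).1 x).2
      rw [mul_app, L.map _ _ h1, dt_apply h1] at i1
      have i3 := congrArg α i1
      rw [map_sub, sub_eq_zero] at i2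
      rw [map_add, map_smul, i2, α2, add_eq_left, smul_eq_mul, mul_one] at i3
      rw [i3, zero_smul, add_zero] at i1
      rwa [i1] at i3
    ext x
    obtain ⟨w, hw, c, hc, rfl⟩ := mem_sup.1 (h' ▸ mem_top : x ∈ W ⊔ C)
    have := k _ (m0 w hw)
    simpa [h1, h2 c hc] using this
  rw [z, L.zl, one_mul] at e ⊢
  refine ih _ ?_ (W := W ⊓ LinearMap.ker α) (C := C ⊔ span F {a}) (eq_bot_iff.2 fun x ⟨⟨i1, i2⟩, i3⟩ => ?_) (eq_top_iff.2 fun x _ => ?_) rfl l hl e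
  · rw [← hn]
    exact finrank_lt_finrank_of_lt (lt_of_le_of_ne inf_le_left fun e => by have := (e.ge ha.1).2; simp [α2] at this)
  · obtain ⟨y, hy, c, rfl⟩ := mem_sup_span_singleton.1 i3
    obtain rfl : c = 0 := by simpa [α1 y hy, α2] using i2
    exact h ▸ ⟨i1, by simpa using hy⟩
  · obtain ⟨w, hw, c, hc, rfl⟩ := mem_sup.1 (h' ▸ mem_top : x ∈ W ⊔ C)
    exact mem_sup.2 ⟨_, m0 w hw, c + α w • a, mem_sup_span_singleton.2 ⟨c, hc, _, rfl⟩, by abel⟩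

end LL

end Cfsg.Agent.C3.SM
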