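import Cfsg.Agent.C3.SM12

/-! Central extensions of the special linear groups. -/

set_option autoImplicit false

namespace Cfsg.Agent.C3.SM

open Submodule Module H4 H4.CForm
open scoped commutatorElement

variable {F : Type*} [Field F] {V : Type*} [AddCommGroup V] [Module F V] {E : Type*} [Group E] {ρ : E →* (V ≃ₗ[F] V)}

theorem conj_dt {g : V ≃ₗ[F] V} {φ ψ : V →ₗ[F] F} {a b : V} (h1 : g a = b) (h2 : ∀ x, ψ (g x) = φ x) : g * dt φ a * g⁻¹ = dt ψ b := by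
  rw [dt_conj, h1]; congr 1; ext x; simp [← h2]

theorem comm_dt {g : V ≃ₗ[F] V} {φ : V →ₗ[F] F} {a : V} (h1 : g a = a) (h2 : ∀ x, φ (g x) = φ x) : Commute g (dt φ a) :=
  mul_inv_eq_iff_eq_mul.1 (conj_dt h1 h2)

theorem comm_dt' {φ ψ : V →ₗ[F] F} {a b : V} (h1 : ψ a = 0) (h2 : φ b = 0) : Commute (dt ψ b) (dt φ a) :=
  comm_dt (dt_fix _ h1) fun x => by
    obtain ⟨t, ht⟩ := mem_span_singleton.1 (dt_sub_mem ψ b x)
    rw [← sub_eq_zero, ← map_sub, ← ht, map_smul, h2, smul_zero]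

theorem dil_apply {φ : V →ₗ[F] F} {a : V} (h : φ a = 1) {l : F} (hl : l ≠ 0) (x : V) : dt ((l - 1) • φ) a x = x + ((l - 1) * φ x) • a :=
  dt_apply' (by simpa [h] using hl) x

theorem dt_zero_right (φ : V →ₗ[F] F) : dt φ (0 : V) = 1 := by ext x; simp [dt_apply (map_zero φ)]

theorem dt_zero_left (a : V) : dt (0 : V →ₗ[F] F) a = 1 := by ext x; simp [dt_apply (φ := (0 : V →ₗ[F] F)) (a := a) rfl]

variable (ρ) in
/-- commuting transvections have commuting lifts -/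
def CT : Prop := ∀ (φ ψ : V →ₗ[F] F) a b x y, φ a = 0 → φ b = 0 → ψ a = 0 → ψ b = 0 → ρ x = dt ψ b → ρ y = dt φ a → Commute x y

variable [FiniteDimensional F V]

theorem det_dil {φ : V →ₗ[F] F} {a : V} (h : φ a = 1) {l : F} (hl : l ≠ 0) : (LinearEquiv.det (dt ((l - 1) • φ) a) : F) = l := by
  rw [det_dt (by simpa [h] using hl)]; simp [h]

variable (C : CX ρ (SLg F V))
include C

section
variable {φ ψ : V →ₗ[F] F} {a b : V} {k : E} (h1 : φ a = 0) (h2 : φ b = 0) (h3 : ψ a = 0) (h4 : ψ b = 0) (hk : ρ k = dt φ a)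
include h1 h2 h3 h4 hk

omit h1 in
theorem ct_form {c : V} (c1 : φ c = 0) (c2 : ψ c = 0) (c3 : c ∉ span F {a, b}) : dt ψ b ∈ CX.lc ρ k := by
  obtain ⟨χ, x1, x2⟩ := exists_dual_of_notMem c3 (-1)
  have := C.lc_comm (dt_mem_SLg c2) (dt_mem_SLg (x1 b (subset_span (by simp)))) (k := k) (hk ▸ comm_dt' h3 c1)
    (hk ▸ comm_dt' (x1 a (subset_span (by simp))) h2)
  rwa [commutator_dt c2 (x1 b (subset_span (by simp))) h4, x2, neg_neg, one_smul] at this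

omit h1 in
theorem ct_tor {g : V ≃ₗ[F] V} (hg : g ∈ SLg F V) (g1 : Commute g (dt φ a)) {l m : F} (g2 : g b = l • b) (g3 : ∀ x, ψ (g x) = m • ψ x)
    (m0 : m ≠ 0) (h : l ≠ m) : dt ψ b ∈ CX.lc ρ k := by
  have := C.lc_comm hg (dt_mem_SLg (φ := ψ) (a := (m / (l - m)) • b) (by simp [h4])) (k := k) (hk ▸ g1) (hk ▸ comm_dt' h3 (by simp [h2]))
  rw [commutatorElement_def, conj_dt (ψ := m⁻¹ • ψ) rfl (fun x => by simp [g3, m0]), dt_smul, ← dt_neg_right (by simp [h4]),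
    ← dt_add_right (by simp [g2, h4]) (by simp [h4])] at this
  convert this using 2
  have := sub_ne_zero.2 h
  rw [map_smul, g2]; match_scalars; field_simp; ring

theorem ct_pow (h : 3 ≤ finrank F V) {l : F} (l0 : l ≠ 0) (l1 : l ^ finrank F V ≠ 1) : dt ψ b ∈ CX.lc ρ k := by
  by_cases n1 : b ∈ span F {a}
  swap
  · obtain ⟨β, b1, b2⟩ := exists_dual_pair n1 1
    refine ct_tor C h2 h3 h4 hk (g := scal V (Units.mk0 l l0)⁻¹ * dt ((l ^ finrank F V - 1) • β) b) ?_ (Commute.mul_left (by ext; simp)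
      (comm_dt' (by simp [b1]) h2)) (l := l⁻¹ * l ^ finrank F V) (m := l⁻¹) ?_ (fun x => ?_) (inv_ne_zero l0) (by simp [l0, l1])
    · rw [mem_SLg, ← Units.val_inj, map_mul, Units.val_mul, det_dil b2 (pow_ne_zero _ l0), det_scal]; simp [l0]
    · simp [dil_apply b2 (pow_ne_zero _ l0), b2]; module
    · simp [dil_apply b2 (pow_ne_zero _ l0), h4]
  by_cases n2 : ∃ c, φ c = 0 ∧ ψ c = 1
  · obtain ⟨c, c1, c2⟩ := n2
    have l2 := inv_ne_zero (pow_ne_zero (finrank F V) l0)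
    refine ct_tor C h2 h3 h4 hk (g := scal V (Units.mk0 l l0) * dt (((l ^ finrank F V)⁻¹ - 1) • ψ) c) ?_ (Commute.mul_left (by ext; simp)
      (comm_dt' (by simp [h3]) c1)) (l := l) (m := l * (l ^ finrank F V)⁻¹) ?_ (fun x => ?_) (mul_ne_zero l0 l2) (by simp [l0, l1])
    · rw [mem_SLg, ← Units.val_inj, map_mul, Units.val_mul, det_dil c2 l2, det_scal]; simp [l0]
    · simp [dil_apply c2 l2, h4]
    · simp [dil_apply c2 l2, c2]; ring
  obtain ⟨c, c1, c2⟩ := exists_notMem_of_finrank_lt (U := span F {a}) (W := LinearMap.ker φ) (by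
    have := finrank_ker_dual_ge φ; have := finrank_span_singleton_le (F := F) a; omega)
  refine ct_form C h2 h3 h4 hk c1 (by_contra fun e => n2 ⟨(ψ c)⁻¹ • c, by simp [show φ c = 0 from c1], by simp [e]⟩) fun e => c2 ?_
  exact (span_le.2 (by rintro _ (rfl | rfl); exacts [mem_span_singleton_self _, n1]) : _ ≤ span F {a}) e

theorem ct_four (h : 4 ≤ finrank F V) (hq : finrank F V = 4 → ∃ l : F, l ≠ 0 ∧ l ≠ 1) : dt ψ b ∈ CX.lc ρ k := by
  by_cases n0 : ∃ c ∈ LinearMap.ker φ ⊓ LinearMap.ker ψ, c ∉ span F {a, b}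
  · obtain ⟨c, c1, c2⟩ := n0
    exact ct_form C h2 h3 h4 hk c1.1 c1.2 c2
  have d0 : finrank F (LinearMap.ker φ ⊓ LinearMap.ker ψ : Submodule F V) ≤ finrank F (span F {a, b}) :=
    not_lt.1 fun hh => n0 (exists_notMem_of_finrank_lt hh)
  have d1 := finrank_ker_dual_ge φ
  have d2 := finrank_ker_dual_ge ψ
  have d3 := finrank_inf_ge (LinearMap.ker φ) (LinearMap.ker ψ)
  have d4 := finrank_span_pair_le (F := F) a b
  have k1 : ∀ a b : V, 2 ≤ finrank F (span F {a, b}) → ∃ β : V →ₗ[F] F, β a = 0 ∧ β b = 1 := fun a b h => exists_dual_pair (fun e => by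
    have := finrank_mono (span_le.2 (by rintro _ (rfl | rfl); exacts [mem_span_singleton_self _, e]) : span F {a, b} ≤ span F {a})
    have := finrank_span_singleton_le (F := F) a
    omega) 1
  have k2 : ∀ φ ψ : V →ₗ[F] F, finrank F (LinearMap.ker φ ⊓ LinearMap.ker ψ : Submodule F V) ≤ 2 → ∃ c, φ c = 0 ∧ ψ c = 1 := fun φ ψ h => by
    obtain ⟨c, c1, c2⟩ := exists_notMem_of_finrank_lt (U := LinearMap.ker φ ⊓ LinearMap.ker ψ) (W := LinearMap.ker φ) (by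
      have := finrank_ker_dual_ge φ; omega)
    exact ⟨(ψ c)⁻¹ • c, by simp [show φ c = 0 from c1], by simp [show ψ c ≠ 0 from fun e => c2 ⟨c1, e⟩]⟩
  obtain ⟨β, b1, b2⟩ := k1 a b (by omega)
  obtain ⟨c, c1, c2⟩ := k2 φ ψ (by omega)
  by_cases n1 : ∃ l : F, l ≠ 0 ∧ l ^ 2 ≠ 1
  · obtain ⟨l, l0, l1⟩ := n1
    refine ct_tor C h2 h3 h4 hk (g := dt ((l - 1) • β) b * dt ((l⁻¹ - 1) • ψ) c) ?_ (Commute.mul_left (comm_dt' (by simp [b1]) h2)
      (comm_dt' (by simp [h3]) c1)) (l := l) (m := l⁻¹) ?_ (fun x => ?_) (inv_ne_zero l0) fun e => l1 (by rw [sq]; nth_rewrite 1 [e]; simp [l0])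
    · rw [mem_SLg, ← Units.val_inj, map_mul, Units.val_mul, det_dil c2 (inv_ne_zero l0), det_dil b2 l0]; simp [l0]
    · simp [dil_apply c2 (inv_ne_zero l0), dil_apply b2 l0, h4, b2]; module
    · simp [dil_apply c2 (inv_ne_zero l0), dil_apply b2 l0, h4, c2]; ring
  push Not at n1
  obtain ⟨l, l0, l1⟩ := hq (by omega)
  have t2 : (2 : F) ≠ 0 := fun h2 => l1 (by rcases sq_eq_sq_iff_eq_or_eq_neg.1 ((n1 l l0).trans (one_pow 2).symm) with h | h <;> grind)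
  have t3 : (3 : F) = 0 := by linear_combination n1 2 t2
  obtain ⟨α, a1, a2⟩ := k1 b a (by rw [Set.pair_comm]; omega)
  obtain ⟨d, e1, e2⟩ := k2 ψ φ (by rw [inf_comm]; omega)
  have i1 : 1 + (β - α) (a - b) = -1 := by simp [a1, a2, b1, b2]
  have i2 : 1 + (φ - ψ) (c - d) = -1 := by simp [c1, c2, e1, e2]
  have j1 := dt_apply' (i1 ▸ neg_ne_zero.2 one_ne_zero)
  have j2 := dt_apply' (i2 ▸ neg_ne_zero.2 one_ne_zero)
  obtain ⟨g, hg⟩ := C.surj (dt (β - α) (a - b) * dt (φ - ψ) (c - d)) (by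
    rw [mem_SLg, ← Units.val_inj, map_mul, Units.val_mul, det_dt (i1 ▸ neg_ne_zero.2 one_ne_zero), det_dt (i2 ▸ neg_ne_zero.2 one_ne_zero), i1, i2]
    simp)
  obtain ⟨x, hx⟩ := C.surj _ (dt_mem_SLg h4)
  rw [← hx, C.mem_lc]
  refine C.swap (g := g) (n := 3) (by rw [hx, hk]; exact comm_dt' h3 h2) ?_ ?_ (by decide) ?_
  · rw [map_mul, map_mul, map_inv, hx, hk, hg]
    exact conj_dt (by simp [j1, j2, h2, h4, a1, b2]) fun x => by simp [j1, j2, h1, h2, c1, e2]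
  · rw [map_mul, map_mul, map_inv, hx, hk, hg]
    exact conj_dt (by simp [j1, j2, h1, h3, a2, b1]) fun x => by simp [j1, j2, h3, h4, c2, e1]
  · rw [hx, pow_succ, sq, ← dt_add_right h4 h4, ← dt_add_right (by simp [h4]) h4, show b + b + b = (3 : F) • b by module, t3, zero_smul,
      dt_zero_right]

end

theorem ct_of (h : ∀ {φ ψ : V →ₗ[F] F} {a b : V} {k : E}, φ a = 0 → φ b = 0 → ψ a = 0 → ψ b = 0 → ρ k = dt φ a → dt ψ b ∈ CX.lc ρ k) :
    CT ρ := fun _ _ _ _ _ _ h1 h2 h3 h4 hx hy => C.mem_lc.1 (hx ▸ h h1 h2 h3 h4 hy)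

theorem ct_two (h : finrank F V = 2) (hq : (∀ x : F, ∃ n : ℕ, x = n) ∨ ∃ l m : F, l ≠ 0 ∧ m ≠ 0 ∧ l ^ 2 + m ^ 2 = 1 ∧ l ^ 4 - l ^ 2 + 1 ≠ 0) :
    CT ρ := by
  intro φ ψ a b x y h1 h2 h3 h4 hx hy
  by_cases a0 : a = 0
  · exact C.cen y (by rw [hy, a0, dt_zero_right]) x
  by_cases p0 : φ = 0
  · exact C.cen y (by rw [hy, p0, dt_zero_left]) x
  obtain ⟨c, hc⟩ : ∃ c, φ c = 1 := by
    obtain ⟨c, hc⟩ := DFunLike.ne_iff.1 p0
    exact ⟨(φ c)⁻¹ • c, by simpa using inv_mul_cancel₀ hc⟩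
  have k0 : ∀ z, φ z = 0 → z ∈ span F {a} := fun z hz => by
    have : span F {a} = LinearMap.ker φ := eq_of_le_of_finrank_le ((span_singleton_le_iff_mem _ _).2 h1) (by
      have := finrank_lt (s := LinearMap.ker φ) (fun e => by have := e ▸ mem_top (x := c); simp [hc] at this)
      rw [finrank_span_singleton a0]; omega)
    exact this ▸ hz
  obtain ⟨s, rfl⟩ := mem_span_singleton.1 (k0 b h2)
  obtain ⟨r, rfl⟩ : ∃ r : F, ψ = r • φ := ⟨ψ c, by
    ext z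
    obtain ⟨t, ht⟩ := mem_span_singleton.1 (k0 (z - φ z • c) (by simp [hc]))
    simpa [h3, mul_comm, sub_eq_zero] using (congrArg ψ ht).symm⟩
  rw [dt_smul, smul_smul] at hx
  generalize _ * s = s at hx
  rcases hq with hq | ⟨l, m, l0, m0, e, e'⟩
  · obtain ⟨n, rfl⟩ := hq s
    refine C.commute_congr (a := y ^ n) ?_ rfl ((Commute.refl y).pow_left n)
    rw [map_pow, hx, hy]
    clear hx h2 h4
    induction n with
    | zero => simp [dt_zero_right]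
    | succ n ih => rw [pow_succ, ih, Nat.cast_succ, add_smul, one_smul, dt_add_right (by simp [h1]) h1]
  choose! j hj using C.surj
  have hj' : ∀ s : F, ρ (j (dt φ (s • a))) = dt φ (s • a) := fun s => hj _ (dt_mem_SLg (by simp [h1]))
  let f : F → F → E := fun s t => ⁅j (dt φ (s • a)), j (dt φ (t • a))⁆
  have f0 : ∀ s t, ρ (f s t) = 1 := fun s t => by
    rw [map_commutatorElement, hj', hj', commutatorElement_eq_one_iff_commute]; exact comm_dt' (by simp [h1]) (by simp [h1])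
  have f1 : ∀ s s' t, f (s + s') t = f s' t * f s t := fun s s' t => by
    rw [← mul_inv_cancel_right (f s' t) (j (dt φ (s • a))), ← C.cen _ (f0 _ _)]
    refine (C.comm_congr (a' := j (dt φ (s • a)) * j (dt φ (s' • a))) (by
      rw [map_mul, hj', hj', hj', add_smul, dt_add_right (by simp [h1]) (by simp [h1])]) rfl).trans ?_
    simp only [f]; group
  have f2 : ∀ s t t', f s (t + t') = f s t * f s t' := fun s t t' => by
    have := congrArg (·⁻¹) (f1 t t' s)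
    simpa only [f, commutatorElement_inv, mul_inv_rev] using this
  have f3 : ∀ l : F, l ≠ 0 → ∀ s t, f (l ^ 2 * s) (l ^ 2 * t) = f s t := fun l l0 s t => by
    obtain ⟨α, a1, a2⟩ := exists_dual_pair (u := c) (v := a) (fun e => by
      obtain ⟨r, e⟩ := mem_span_singleton.1 e
      have := congrArg φ e
      simp [hc, h1] at this; simp [← e, this] at a0) (1 : F)
    obtain ⟨g, hg⟩ := C.surj (dt ((l - 1) • α) a * dt ((l⁻¹ - 1) • φ) c) (by
      rw [mem_SLg, ← Units.val_inj, map_mul, Units.val_mul, det_dil hc (inv_ne_zero l0), det_dil a2 l0]; simp [l0])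
    have i : ∀ s : F, ρ (g * j (dt φ (s • a)) * g⁻¹) = ρ (j (dt φ ((l ^ 2 * s) • a))) := fun s => by
      rw [map_mul, map_mul, map_inv, hj', hj', hg, conj_dt (ψ := l • φ) (b := (l * s) • a), dt_smul, smul_smul, sq, mul_assoc]
      · simp [dil_apply hc (inv_ne_zero l0), dil_apply a2 l0, h1, a2]; module
      · intro x; simp [dil_apply hc (inv_ne_zero l0), dil_apply a2 l0, h1, hc]; field_simp; ring
    rw [← mul_inv_cancel_right (f s t) g, ← C.cen _ (f0 _ _)]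
    refine (C.comm_congr (i s) (i t)).symm.trans ?_
    simp only [f]; group
  refine commutatorElement_eq_one_iff_commute.1 ?_
  rw [C.comm_congr (hx.trans (hj' s).symm) (b' := j (dt φ ((1 : F) • a))) (by rw [hj', one_smul, hy])]
  change f s 1 = 1
  obtain ⟨r, rfl⟩ : ∃ r, s = (l ^ 4 - l ^ 2 + 1) * r := ⟨s / _, (mul_div_cancel₀ _ e').symm⟩
  have c : ∀ s t s' t', f s t * f s' t' = f s' t' * f s t := fun s t s' t' => C.cen _ (f0 _ _) _
  have i1 := f2 (l ^ 2 * r) (l ^ 2) (m ^ 2)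
  have i2 := f1 (l ^ 2 * (l ^ 2 * r)) (m ^ 2 * (l ^ 2 * r)) (m ^ 2)
  have i3 := f2 (l ^ 2 * (l ^ 2 * r)) (l ^ 2) (m ^ 2)
  have i4 := f3 l l0 (l ^ 2 * r) 1
  have i5 := f3 m m0 (l ^ 2 * r) 1
  have i6 := f3 l l0 r 1
  have i7 := f1 ((l ^ 4 - l ^ 2 + 1) * r) (l ^ 2 * r) 1
  rw [mul_one] at i4 i5 i6
  rw [← add_mul, e, one_mul, i5] at i2
  rw [e, i2, i6, c (l ^ 2 * r) 1, ← mul_assoc, right_eq_mul, c] at i1
  rw [e, i4] at i3
  rwa [show (l ^ 4 - l ^ 2 + 1) * r + l ^ 2 * r = r + l ^ 2 * (l ^ 2 * r) by ring, f1 r, i3, mul_assoc, i1, mul_one, left_eq_mul] at i7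

/-- the transvections with a given centre -/
def XL (F : Type*) [Field F] [Module F V] (a : V) : Subgroup (V ≃ₗ[F] V) where
  carrier := {g | g a = a ∧ ∀ x, g x - x ∈ span F {a}}
  one_mem' := by simp
  mul_mem' := fun {g h} h1 h2 => ⟨by simp [h1.1, h2.1], fun x => by simpa using add_mem (h1.2 (h x)) (h2.2 x)⟩
  inv_mem' := fun {g} h => ⟨(LinearEquiv.symm_apply_eq _).2 h.1.symm, fun x => by simpa using neg_mem (h.2 (g⁻¹ x))⟩

omit C [FiniteDimensional F V] in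
theorem mem_XL {a : V} (a0 : a ≠ 0) {g : V ≃ₗ[F] V} : g ∈ XL F a ↔ ∃ φ : V →ₗ[F] F, φ a = 0 ∧ g = dt φ a := by
  refine ⟨fun h => ?_, by rintro ⟨φ, h, rfl⟩; exact ⟨dt_fix _ h, dt_sub_mem φ a⟩⟩
  obtain ⟨α, hα⟩ := exists_dual_of_ne a0 (1 : F)
  have : (α ∘ₗ ((g : V →ₗ[F] V) - LinearMap.id)) a = 0 := by simp [h.1]
  refine ⟨_, this, LinearEquiv.ext fun x => ?_⟩
  obtain ⟨t, ht⟩ := mem_span_singleton.1 (h.2 x)
  rw [dt_apply this, ← sub_eq_iff_eq_add', ← ht]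
  congr 1
  simpa [hα] using congrArg α ht

theorem ll_A [Finite F] (H : CT ρ) {l : F} (l0 : l ≠ 0) (l1 : l ^ finrank F V ≠ 1) : ∃ ℓ, LL ρ ℓ := by
  have : Finite V := Module.finite_of_finite F
  have : Finite (V ≃ₗ[F] V) := Finite.of_injective _ DFunLike.coe_injective
  have l2 := pow_ne_zero (finrank F V) l0
  have l3 := sub_ne_zero.2 l1.symm
  let S : V → Subgroup E := fun a => ⁅(XL F a).comap ρ, (pst a (SLg F V)).comap ρ⁆
  have xs : ∀ a, a ≠ 0 → XL F a ≤ SLg F V := fun a a0 g hg => by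
    obtain ⟨φ, h, rfl⟩ := (mem_XL a0).1 hg; exact dt_mem_SLg h
  have cx : ∀ a (g x : V ≃ₗ[F] V), x ∈ XL F a → g * x * g⁻¹ ∈ XL F (g a) := fun a g x hx => ⟨by simp [hx.1], fun y => by
    obtain ⟨t, ht⟩ := mem_span_singleton.1 (hx.2 (g⁻¹ y))
    exact mem_span_singleton.2 ⟨t, by rw [← map_smul, ht]; simp⟩⟩
  have sx : ∀ (a : V) (k : F), k ≠ 0 → XL F (k • a) ≤ XL F a := fun a k hk g hg => ⟨by have := hg.1; rwa [map_smul, smul_right_inj hk] at this, fun x => by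
    have := hg.2 x; rwa [span_singleton_smul_eq (IsUnit.mk0 k hk)] at this⟩
  have ab : ∀ a, a ≠ 0 → ⁅(XL F a).comap ρ, (XL F a).comap ρ⁆ ≤ ⊥ := fun a a0 => Subgroup.commutator_le.2 fun x hx y hy => by
    obtain ⟨φ, h1, e1⟩ := (mem_XL a0).1 hx
    obtain ⟨ψ, h2, e2⟩ := (mem_XL a0).1 hy
    exact commutatorElement_eq_one_iff_commute.2 (H ψ φ a a x y h2 h2 h1 h1 e1 e2)
  have B : ∀ a, a ≠ 0 → (∀ s ∈ S a, ρ s = 1 → s = 1) ∧ ∀ x ∈ XL F a, ∃ s ∈ S a, ρ s = x := fun a a0 => by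
    obtain ⟨α, hα⟩ := exists_dual_of_ne a0 (1 : F)
    obtain ⟨h, hh⟩ := C.surj (scal V (Units.mk0 l l0)⁻¹ * dt ((l ^ finrank F V - 1) • α) a) (by
      rw [mem_SLg, ← Units.val_inj, map_mul, Units.val_mul, det_dil hα l2, det_scal]; simp [l0])
    have h1 : ∀ x, ρ h x = l⁻¹ • x + (l⁻¹ * (l ^ finrank F V - 1) * α x) • a := fun x => by simp [hh, dil_apply hα l2, smul_smul, mul_assoc]
    have h2 : ρ h a = (l⁻¹ * l ^ finrank F V) • a := by rw [h1, hα]; module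
    refine C.lemB (xs a a0) (fun g hg => ⟨xs a a0 hg, 1, one_ne_zero, by simp [hg.1]⟩) (fun n ⟨_, k, k0, e⟩ x hx => sx a k k0 (e ▸ cx a n x hx))
      (fun d hd _ => ab a a0 hd) (h := h) ⟨C.mem h, _, mul_ne_zero (inv_ne_zero l0) l2, h2⟩ (fun x hx e => ?_) fun n ⟨_, k, k0, e⟩ => ⟨?_, fun x => ?_⟩
    · obtain ⟨φ, i1, rfl⟩ := (mem_XL a0).1 hx
      rw [← Subgroup.map_comap_eq_self (f := ρ) (H := XL F a) (fun x hx => C.surj x (xs a a0 hx)), ← Subgroup.map_commutator] at e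
      obtain ⟨d, hd, e⟩ := e
      rw [ab a a0 hd, map_one, commutatorElement_def, mul_assoc, mul_assoc, ← mul_assoc (ρ h), ← dt_neg_left i1,
        conj_dt (ψ := (-l) • φ) h2 (fun x => by simp [h1, i1, l0]), dt_smul, ← dt_add_right i1 (by simp [i1])] at e
      suffices φ = 0 by rw [this, dt_zero_left]; exact one_mem _
      ext x
      have := congrArg (fun g : V ≃ₗ[F] V => α (g x)) e
      simp only [dt_apply (show φ (a + (-l) • (l⁻¹ * l ^ finrank F V) • a) = 0 by simp [i1])] at this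
      simp [hα, l0] at this
      exact (mul_eq_zero.1 (by linear_combination this : φ x * (1 - l ^ finrank F V) = 0)).resolve_right l3
    · rw [← map_commutatorElement, commutatorElement_def, mul_assoc, mul_assoc, ← mul_inv_rev, ← mul_assoc, mul_app,
        inv_app ρ (a := (k * (l⁻¹ * l ^ finrank F V))⁻¹ • a)] <;>
        simp [mul_app, e, h2, smul_smul] <;> field_simp <;> simp
    · rw [← map_commutatorElement, commutatorElement_def, mul_app, mul_app, mul_app, h1, map_add, map_smul, map_smul, e, ← mul_app,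
        mul_inv_cancel, map_one, LinearEquiv.coe_one, id]
      have := h1 (ρ h⁻¹ x)
      rw [← mul_app, mul_inv_cancel, map_one, LinearEquiv.coe_one, id] at this
      nth_rewrite 3 [this]
      rw [add_sub_add_left_eq_sub]
      exact sub_mem (smul_mem _ _ (smul_mem _ _ (mem_span_singleton_self a))) (smul_mem _ _ (mem_span_singleton_self a))
  have ex : ∀ (φ : V →ₗ[F] F) a, φ a = 0 → ∃ s, (a = 0 → s = 1) ∧ (a ≠ 0 → s ∈ S a) ∧ ρ s = dt φ a := fun φ a h => by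
    by_cases a0 : a = 0
    · exact ⟨1, fun _ => rfl, fun h => absurd a0 h, by rw [a0, dt_zero_right, map_one]⟩
    · obtain ⟨s, h1, h2⟩ := (B a a0).2 _ ((mem_XL a0).2 ⟨φ, h, rfl⟩)
      exact ⟨s, fun h => absurd h a0, fun _ => h1, h2⟩
  choose! ℓ e0 e1 e2 using ex
  have u : ∀ φ a s, φ a = 0 → a ≠ 0 → s ∈ S a → ρ s = dt φ a → ℓ φ a = s := fun φ a s h a0 hs e =>
    inv_mul_eq_one.1 ((B a a0).1 _ (mul_mem (inv_mem (e1 φ a h a0)) hs) (by simp [e, e2 φ a h]))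
  have z : ∀ a, ℓ 0 a = 1 := fun a => by
    by_cases a0 : a = 0
    exacts [e0 0 a rfl a0, u 0 a 1 rfl a0 (one_mem _) (by rw [map_one, dt_zero_left])]
  refine ⟨ℓ, e2, fun φ ψ a h1 h2 => ?_, fun φ a b h1 h2 => ?_, fun c φ a h => ?_, fun g φ a h => ?_⟩
  · by_cases a0 : a = 0
    · rw [e0 _ a h1 a0, e0 _ a h2 a0, e0 _ a (by simp [h1, h2]) a0, one_mul]
    · exact u _ _ _ (by simp [h1, h2]) a0 (mul_mem (e1 φ a h1 a0) (e1 ψ a h2 a0)) (by rw [map_mul, e2 _ _ h1, e2 _ _ h2, dt_add_left h1 h2])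
  · by_cases p0 : φ = 0
    · simp [p0, z]
    obtain ⟨c, hc⟩ : ∃ c, φ c = 1 := by
      obtain ⟨c, hc⟩ := DFunLike.ne_iff.1 p0
      exact ⟨(φ c)⁻¹ • c, by simpa using inv_mul_cancel₀ hc⟩
    obtain ⟨h, hh⟩ := C.surj (scal V (Units.mk0 l l0) * dt (((l ^ finrank F V)⁻¹ - 1) • φ) c) (by
      rw [mem_SLg, ← Units.val_inj, map_mul, Units.val_mul, det_dil hc (inv_ne_zero l2), det_scal]; simp [l0])
    have k : ∀ x y, φ x = 0 → ρ y = dt φ ((1 - l ^ finrank F V)⁻¹ • x) → ℓ φ x = ⁅y, h⁆ := fun x y hx e => by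
      by_cases x0 : x = 0
      · rw [e0 _ _ hx x0, eq_comm, commutatorElement_eq_one_iff_mul_comm, C.cen y (by rw [e, x0, smul_zero, dt_zero_right])]
      have i : ∀ x, φ x = 0 → ρ h x = l • x := fun x hx => by simp [hh, dil_apply hc (inv_ne_zero l2), hx]
      refine u _ _ _ hx x0 (Subgroup.commutator_mem_commutator ((mem_XL x0).2 ⟨_, by simp [hx], e.trans (dt_smul _ _ _).symm⟩)
        ⟨C.mem h, l, l0, i x hx⟩) ?_
      rw [map_commutatorElement, e, commutatorElement_def, mul_assoc, mul_assoc, ← mul_assoc (ρ h), ← dt_neg_right (by simp [hx]),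
        conj_dt (ψ := (l⁻¹ * l ^ finrank F V) • φ) (i _ (by simp [hx])) (fun x => by
          simp [hh, dil_apply hc (inv_ne_zero l2), hc]; field_simp; ring), dt_smul, ← dt_add_right (by simp [hx]) (by simp [hx])]
      congr 1; match_scalars; field_simp; ring
    obtain ⟨x, hx⟩ := C.surj _ (dt_mem_SLg (φ := φ) (a := (1 - l ^ finrank F V)⁻¹ • a) (by simp [h1]))
    obtain ⟨y, hy⟩ := C.surj _ (dt_mem_SLg (φ := φ) (a := (1 - l ^ finrank F V)⁻¹ • b) (by simp [h2]))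
    rw [k _ (y * x) (by simp [h1, h2]) (by rw [map_mul, hx, hy, ← dt_add_right (by simp [h2]) (by simp [h1]), add_comm, smul_add]),
      ← mul_inv_cancel_right (ℓ φ a) y, ← (H φ φ a _ y _ h1 (by simp [h2]) h1 (by simp [h2]) hy (e2 _ _ h1)).eq, k a x h1 hx, k b y h2 hy]
    group
  · by_cases c0 : c = 0
    · rw [c0, zero_smul, zero_smul, z, e0 _ _ (map_zero _) rfl]
    by_cases a0 : a = 0
    · rw [e0 _ a (by simp [h]) a0, e0 _ _ (by simp [h]) (by simp [a0])]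
    exact u _ _ _ (by simp [h]) a0 (Subgroup.commutator_mono (Subgroup.comap_mono (sx a c c0)) (Subgroup.comap_mono (pst_smul c0))
      (e1 φ _ (by simp [h]) (smul_ne_zero c0 a0))) (by rw [e2 _ _ (by simp [h]), dt_smul])
  · by_cases a0 : a = 0
    · rw [e0 _ a h a0, e0 _ _ (by simp [h]) (by simp [a0])]; simp
    refine (u _ _ _ (by simp [h]) (by simpa using a0) (conj_comm g (fun x hx => ?_) (fun x hx => ?_) (e1 φ a h a0)) ?_).symm
    · simpa using cx a _ _ hx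
    · simpa using conj_pst (C.mem g) hx
    · rw [map_mul, map_mul, map_inv, e2 _ _ h, dt_conj]

theorem ll_B (H : CT ρ) (h4 : 4 ≤ finrank F V) : ∃ ℓ, LL ρ ℓ := by
  choose! j hj using C.surj
  have hj' : ∀ (φ : V →ₗ[F] F) a, φ a = 0 → ρ (j (dt φ a)) = dt φ a := fun φ a h => hj _ (dt_mem_SLg h)
  let κ : (V →ₗ[F] F) → V → (V →ₗ[F] F) → V → E := fun φ a ψ b => ⁅j (dt φ b), j (dt ψ a)⁆
  have km : ∀ φ a ψ b, φ a = 0 → ψ a = 0 → φ b = 0 → ψ b = -1 → ρ (κ φ a ψ b) = dt φ a := fun φ a ψ b h1 h2 h3 h4 => by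
    rw [map_commutatorElement, hj' _ _ h3, hj' _ _ h2, commutator_dt h3 h2 h1, h4, neg_neg, one_smul]
  have c1 : ∀ φ a ψ ψ' b, φ a = 0 → ψ a = 0 → ψ' a = 0 → φ b = 0 → ψ b = ψ' b → κ φ a ψ b = κ φ a ψ' b := fun φ a ψ ψ' b h1 h2 h3 h4 h5 => by
    have := H (ψ - ψ') φ a b _ _ (by simp [h2, h3]) (by simp [h5]) h1 h4 (hj' _ _ h4) (hj' _ _ (by simp [h2, h3]))
    refine (C.comm_congr (b' := j (dt ψ' a) * j (dt (ψ - ψ') a)) rfl (by
      rw [map_mul, hj' _ _ h2, hj' _ _ h3, hj' _ _ (by simp [h2, h3]), ← dt_add_left h3 (by simp [h2, h3]), add_sub_cancel])).trans ?_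
    rw [commutatorElement_def, mul_assoc _ (j (dt φ b))⁻¹, mul_assoc (j (dt φ b)), mul_assoc (j (dt ψ' a)), ← mul_assoc _ (j (dt φ b))⁻¹,
      ← this.inv_left.eq]
    simp only [κ]; group
  have c2 : ∀ φ a ψ b b', φ a = 0 → ψ a = 0 → φ b = 0 → φ b' = 0 → ψ b = ψ b' → κ φ a ψ b = κ φ a ψ b' := fun φ a ψ b b' h1 h2 h3 h4 h5 => by
    have := H ψ φ a (b - b') _ _ h2 (by simp [h5]) h1 (by simp [h3, h4]) (hj' _ _ (by simp [h3, h4])) (hj' _ _ h2)
    refine (C.comm_congr (a' := j (dt φ b') * j (dt φ (b - b'))) (by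
      rw [map_mul, hj' _ _ h3, hj' _ _ h4, hj' _ _ (by simp [h3, h4]), ← dt_add_right h4 (by simp [h3, h4]), add_sub_cancel]) rfl).trans ?_
    rw [commutatorElement_def, mul_assoc (j _), this.eq]
    simp only [κ]; group
  have nb : ∀ {ψ : V →ₗ[F] F} {a b : V}, ψ a = 0 → ψ b = -1 → b ∉ span F {a} := fun h1 h2 e => by
    obtain ⟨t, rfl⟩ := mem_span_singleton.1 e; simp [h1] at h2
  have c3 : ∀ φ a ψ b ψ' b', φ a = 0 → ψ a = 0 → φ b = 0 → ψ b = -1 → ψ' a = 0 → φ b' = 0 → ψ' b' = -1 → b' ∉ span F {a} ⊔ span F {b} →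
      κ φ a ψ b = κ φ a ψ' b' := fun φ a ψ b ψ' b' h1 h2 h3 h4 h5 h6 h7 h8 => by
    obtain ⟨χ, x1, x2, x3⟩ := exists_dual_two (nb h2 h4) h8 (-1 : F) (-1)
    have x1 := x1 a (mem_span_singleton_self a)
    rw [c1 φ a ψ χ b h1 h2 x1 h3 (by rw [h4, x2]), c2 φ a χ b b' h1 x1 h3 h6 (by rw [x2, x3]), c1 φ a χ ψ' b' h1 x1 h5 h6 (by rw [x3, h7])]
  have ex : ∀ (φ : V →ₗ[F] F) a b, ∃ c, φ c = 0 ∧ c ∉ span F {a} ⊔ span F {b} ∧ ∃ ψ : V →ₗ[F] F, ψ a = 0 ∧ ψ b = 0 ∧ ψ c = -1 := fun φ a b => by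
    obtain ⟨c, c1, c2⟩ := exists_notMem_of_finrank_lt (U := span F {a} ⊔ span F {b}) (W := LinearMap.ker φ) (by
      have := finrank_ker_dual_ge φ; have := finrank_span_singleton_le (F := F) a; have := finrank_sup_span_le (span F {a}) b; omega)
    obtain ⟨ψ, p1, p2⟩ := exists_dual_of_notMem c2 (-1 : F)
    exact ⟨c, c1, c2, ψ, p1 a (mem_sup_left (mem_span_singleton_self a)), p1 b (mem_sup_right (mem_span_singleton_self b)), p2⟩
  have : ∀ (φ : V →ₗ[F] F) a, φ a = 0 → ∃ s, ∀ ψ b, ψ a = 0 → φ b = 0 → ψ b = -1 → s = κ φ a ψ b := fun φ a h => by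
    obtain ⟨b, b1, -, ψ, p1, -, p2⟩ := ex φ a a
    refine ⟨κ φ a ψ b, fun ψ' b' h1 h2 h3 => ?_⟩
    by_cases hn : b' ∈ span F {a} ⊔ span F {b}
    swap
    · exact c3 φ a ψ b ψ' b' h p1 b1 p2 h1 h2 h3 hn
    obtain ⟨c, i1, i2, χ, i3, -, i4⟩ := ex φ a b
    rw [c3 φ a ψ b χ c h p1 b1 p2 i3 i1 i4 i2, c3 φ a ψ' b' χ c h h1 h2 h3 i3 i1 i4 fun e => i2 ((sup_le le_sup_left
      ((span_singleton_le_iff_mem _ _).2 hn) : _ ≤ span F {a} ⊔ span F {b}) e)]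
  choose! ℓ hℓ using this
  have m : ∀ φ a, φ a = 0 → ρ (ℓ φ a) = dt φ a := fun φ a h => by
    obtain ⟨b, b1, -, ψ, p1, -, p2⟩ := ex φ a a
    rw [hℓ φ a h ψ b p1 b1 p2, km φ a ψ b h p1 b1 p2]
  refine ⟨ℓ, m, fun φ φ' a h1 h2 => ?_, fun φ a a' h1 h2 => ?_, fun c φ a h => ?_, fun g φ a h => ?_⟩
  · obtain ⟨b, b1, b2⟩ := exists_notMem_of_finrank_lt (U := span F {a}) (W := LinearMap.ker φ ⊓ LinearMap.ker φ') (by
      have := finrank_ker_dual_ge φ; have := finrank_ker_dual_ge φ'; have := finrank_span_singleton_le (F := F) a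
      have := finrank_inf_ge (LinearMap.ker φ) (LinearMap.ker φ'); omega)
    obtain ⟨ψ, p1, p2⟩ := exists_dual_pair b2 (-1 : F)
    have b3 : φ b = 0 := b1.1
    have b4 : φ' b = 0 := b1.2
    rw [← mul_inv_cancel_right (ℓ φ a) (j (dt φ' b)), ← (H φ φ' a b _ _ h1 b3 h2 b4 (hj' _ _ b4) (m _ _ h1)).eq, hℓ φ a h1 ψ b p1 b3 p2,
      hℓ φ' a h2 ψ b p1 b4 p2, hℓ _ a (by simp [h1, h2]) ψ b p1 (by simp [b3, b4]) p2]
    refine (C.comm_congr (a' := j (dt φ' b) * j (dt φ b)) (by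
      rw [map_mul, hj' _ _ b3, hj' _ _ b4, hj' _ _ (by simp [b3, b4]), ← dt_add_left b4 b3, add_comm]) rfl).trans ?_
    simp only [κ]; group
  · obtain ⟨b, b1, -, ψ, p1, p2, p3⟩ := ex φ a a'
    rw [← mul_inv_cancel_right (ℓ φ a') (j (dt ψ a)), ← (H φ ψ a' a _ _ h2 h1 p2 p1 (hj' _ _ p1) (m _ _ h2)).eq, hℓ φ a h1 ψ b p1 b1 p3,
      hℓ φ a' h2 ψ b p2 b1 p3, hℓ φ _ (by simp [h1, h2]) ψ b (by simp [p1, p2]) b1 p3]
    refine (C.comm_congr (b' := j (dt ψ a) * j (dt ψ a')) rfl (by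
      rw [map_mul, hj' _ _ p1, hj' _ _ p2, hj' _ _ (by simp [p1, p2]), dt_add_right p1 p2])).trans ?_
    simp only [κ]; group
  · obtain ⟨b, b1, -, ψ, p1, -, p2⟩ := ex φ a a
    by_cases c0 : c = 0
    · rw [c0, zero_smul, zero_smul, hℓ 0 a rfl ψ b p1 rfl p2, hℓ φ 0 (map_zero _) ψ b (map_zero _) b1 p2]
      simp only [κ, dt_zero_left, dt_zero_right]
      rw [commutatorElement_eq_one_iff_mul_comm.2 (C.cen _ (hj 1 (one_mem _)) _), commutatorElement_eq_one_iff_mul_comm.2 (C.cen _ (hj 1 (one_mem _)) _).symm]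
    rw [hℓ _ a (by simp [h]) ψ b p1 (by simp [b1]) p2, hℓ φ _ (by simp [h]) (c⁻¹ • ψ) (c • b) (by simp [p1]) (by simp [b1]) (by simp [p2, c0])]
    simp only [κ, dt_smul, smul_smul, inv_mul_cancel₀ c0, one_smul]
  · obtain ⟨b, b1, -, ψ, p1, -, p2⟩ := ex φ a a
    rw [hℓ φ a h ψ b p1 b1 p2, hℓ _ _ (by simp [h]) (ψ ∘ₗ ((ρ g)⁻¹ : V ≃ₗ[F] V)) (ρ g b) (by simp [p1]) (by simp [b1]) (by simp [p2])]
    refine Eq.trans ?_ (C.comm_congr (a := g * j (dt φ b) * g⁻¹) (b := g * j (dt ψ a) * g⁻¹) ?_ ?_)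
    · simp only [κ]; group
    · rw [map_mul, map_mul, map_inv, hj' _ _ b1, dt_conj, hj' _ _ (by simp [b1])]
    · rw [map_mul, map_mul, map_inv, hj' _ _ p1, dt_conj, hj' _ _ (by simp [p1])]

end Cfsg.Agent.C3.SM
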