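import Cfsg.Agent.C3.SM13

/-! Schur multipliers of the special linear groups. -/

set_option autoImplicit false

namespace Cfsg.Agent.C3.SM

open Submodule Module H4 Polynomial
open scoped MatrixGroups

universe u

theorem exists_nonroot {F : Type*} [Field F] [Fintype F] {p : F[X]} (hp : p.Monic) (h : p.natDegree < Fintype.card F) : ∃ t, p.eval t ≠ 0 :=
  exists_eval_ne_zero_of_natDegree_lt_card p hp.ne_zero (by rw [Cardinal.mk_fintype]; exact_mod_cast h)

theorem field_cases {F : Type*} [Field F] [Fintype F] (h4 : Fintype.card F ≠ 4) (h9 : Fintype.card F ≠ 9) :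
    (∀ x : F, ∃ n : ℕ, x = n) ∨ ∃ l m : F, l ≠ 0 ∧ m ≠ 0 ∧ l ^ 2 + m ^ 2 = 1 ∧ l ^ 4 - l ^ 2 + 1 ≠ 0 := by
  by_cases hp : (Fintype.card F).Prime
  · haveI := Fact.mk hp
    refine .inl fun x => ?_
    obtain ⟨y, rfl⟩ := (ZMod.ringEquivOfPrime F hp rfl).surjective x
    exact ⟨y.val, by rw [← map_natCast (ZMod.ringEquivOfPrime F hp rfl), ZMod.natCast_zmod_val]⟩
  have h1 := Fintype.one_lt_card (α := F)
  right
  by_cases h2 : (2 : F) = 0
  · have := two_eq_zero_iff.1 h2
    obtain ⟨v, hv⟩ := exists_nonroot (F := F) (p := X * (X - 1) * (X ^ 2 - X + 1)) (by monicity!) (lt_of_le_of_lt (b := 4) (by compute_degree) (by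
      by_contra h
      have : Fintype.card F = 2 := by omega
      exact hp (this ▸ Nat.prime_two)))
    simp only [eval_mul, eval_sub, eval_add, eval_pow, eval_X, eval_one, mul_ne_zero_iff] at hv
    obtain ⟨l, rfl⟩ := isSquare_of_two_eq_zero h2 v
    exact ⟨l, l - 1, by rintro rfl; simp at hv, fun h => hv.1.2 (by rw [sub_eq_zero.1 h]; simp), by linear_combination (l ^ 2 - l) * h2,
      fun h => hv.2 (by linear_combination h)⟩
  have := two_eq_zero_iff.not.1 h2
  obtain ⟨t, ht⟩ := exists_nonroot (F := F) (p := X * (X ^ 2 - 1) * (X ^ 2 + 1) * ((X ^ 2 + 1) ^ 4 - C 4 * X ^ 2 * (X ^ 2 + 1) ^ 2 + C 16 * X ^ 4))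
    (by monicity!) (lt_of_le_of_lt (b := 13) (by compute_degree) (by
      by_contra h
      have : Fintype.card F ≤ 13 := by omega
      revert hp h4 h9
      interval_cases Fintype.card F <;> first | omega | norm_num))
  simp only [eval_mul, eval_sub, eval_add, eval_pow, eval_X, eval_one, eval_C, mul_ne_zero_iff] at ht
  obtain ⟨⟨⟨t1, t2⟩, t3⟩, t4⟩ := ht
  refine ⟨2 * t / (t ^ 2 + 1), (t ^ 2 - 1) / (t ^ 2 + 1), by simp [h2, t1, t3], by simp [t2, t3], by field_simp; ring, fun h => t4 ?_⟩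
  field_simp at h
  linear_combination h

theorem sl_H {F : Type*} [Field F] [Fintype F] {V : Type*} [AddCommGroup V] [Module F V] [FiniteDimensional F V] (h2 : 2 ≤ finrank F V)
    (e2 : finrank F V = 2 → 5 ≤ Fintype.card F ∧ Fintype.card F ≠ 9) (e3 : finrank F V = 3 → Fintype.card F ≠ 2 ∧ Fintype.card F ≠ 4)
    (e4 : finrank F V = 4 → Fintype.card F ≠ 2) {E : Type*} [Group E] (ρ : E →* (V ≃ₗ[F] V)) (C : CX ρ (SLg F V)) :
    ∃ M : Subgroup E, (∀ x ∈ SLg F V, ∃ g ∈ M, ρ g = x) ∧ ∀ g ∈ M, ρ g = 1 → g = 1 := by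
  have h1 := Fintype.one_lt_card (α := F)
  obtain ⟨ℓ, L⟩ : ∃ ℓ, LL ρ ℓ := by
    by_cases h4 : 4 ≤ finrank F V
    · exact ll_B C (ct_of C fun h1 h2 h3 h5 hk => ct_four C h1 h2 h3 h5 hk h4 fun h => exists_ne_zero_one (by have := e4 h; omega)) h4
    obtain ⟨l, l0, l1⟩ : ∃ l : F, l ≠ 0 ∧ l ^ finrank F V ≠ 1 := by
      by_contra! h
      have h5 := card_of_sq h
      have h6 := Nat.le_of_dvd (by omega) h5
      obtain h7 | h7 : finrank F V = 2 ∨ finrank F V = 3 := by omega
      · have := e2 h7; omega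
      · have := e3 h7
        rw [h7, show Fintype.card F = 3 by omega] at h5
        omega
    refine ll_A C ?_ l0 l1
    by_cases h3 : 3 ≤ finrank F V
    · exact ct_of C fun h1 h2 h4 h5 hk => ct_pow C h1 h2 h4 h5 hk h3 l0 l1
    · exact ct_two C (by omega) (field_cases (by have := e2 (by omega); omega) (e2 (by omega)).2)
  exact ⟨gH (ptL ⊤) (SL' ℓ ⊥), fun x hx => (show SLg F V ≤ (gH (ptL ⊤) (SL' ℓ ⊥)).map ρ from SLg_le_of_tr fun φ a h =>
    ⟨_, L.mem_G mem_top h (by simp), L.map _ _ h⟩) hx, L.ker (by simp) (by simp)⟩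

/-- the special linear group as a group of linear maps -/
noncomputable def slE (n : ℕ) (F : Type*) [Field F] : SL(n, F) ≃* SLg F (Fin n → F) :=
  (slEquivKer _ F).trans (glSub fun _ => mem_specialLinear)

theorem sl_mult {F : Type u} [Field F] [Fintype F] {n : ℕ} (h2 : 2 ≤ n) (e2 : n = 2 → 5 ≤ Fintype.card F ∧ Fintype.card F ≠ 9)
    (e3 : n = 3 → Fintype.card F ≠ 2 ∧ Fintype.card F ≠ 4) (e4 : n = 4 → Fintype.card F ≠ 2) :
    HasCyclicSchurMultiplier (Matrix.ProjectiveSpecialLinearGroup (Fin n) F) (Nat.gcd n (Fintype.card F - 1)) ∧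
      HasCyclicSchurMultiplier SL(n, F) 1 := by
  have : Nonempty (Fin n) := ⟨⟨0, by omega⟩⟩
  have pf : commutator SL(n, F) = ⊤ := by
    rcases h2.eq_or_lt with rfl | h3
    · obtain ⟨a, h1, h3⟩ := exists_sq_ne_one (F := F) (by have := e2 rfl; omega)
      exact Matrix.SL2.commutator_eq_top h1 h3
    · exact SL_commutator_eq_top (by simpa)
  have H := fun (E : Type u) [Group E] (ρ : E →* _) C => sl_H (F := F) (V := Fin n → F) (by simpa) (by simpa) (by simpa) (by simpa) ρ C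
  refine ⟨mult_of_split ((commutator_eq_top_iff _).1 (commutator_eq_top_of_equiv (slE n F) pf)) (fun g hg => ?_) (slE n F).symm
    (MulEquiv.refl _) (by simp [card_center_SL]) fun E _ _ => H E, ?_⟩
  · obtain ⟨g, rfl⟩ := (slE n F).surjective g
    obtain ⟨r, -, hr⟩ := Matrix.SpecialLinearGroup.mem_center_iff.1 ((mem_center_equiv (slE n F)).1 hg)
    refine ⟨r, fun x => ?_⟩
    change Matrix.mulVec (g : Matrix (Fin n) (Fin n) F) x = _
    rw [← hr]; ext i; simp [Matrix.mulVec_diagonal]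
  have C : CX ((SLg F _).subtype.comp (slE n F).toMonoidHom) (SLg F (Fin n → F)) := ⟨fun g => (slE n F g).2,
    fun x hx => ⟨(slE n F).symm ⟨x, hx⟩, by simp⟩, fun z hz e => by simp [show z = 1 from (slE n F).injective (Subtype.ext (by simpa using hz))]⟩
  have : Subsingleton ((slE n F).symm.toMonoidHom.comp (((SLg F _).subtype.comp (slE n F).toMonoidHom).codRestrict _ C.mem)).ker :=
    ⟨fun a b => Subtype.ext ((((slE n F).symm_apply_apply a).symm.trans a.2).trans (((slE n F).symm_apply_apply b).symm.trans b.2).symm)⟩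
  have := uniqueOfSubsingleton (1 : ((slE n F).symm.toMonoidHom.comp (((SLg F _).subtype.comp (slE n F).toMonoidHom).codRestrict _ C.mem)).ker)
  refine hasMult_gen C pf (slE n F).symm.toMonoidHom (slE n F).symm.surjective (fun x hx => ?_) MulEquiv.ofUnique fun E _ _ ρ C _ => ?_
  · rw [show x = 1 from (slE n F).symm.injective (by simpa using hx)]; exact one_mem _
  obtain ⟨M, m1, m2⟩ := H E ρ C
  exact ⟨M, m1, 1, fun g hg h => .inl (m2 g hg h), .inl rfl⟩

end Cfsg.Agent.C3.SM
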