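import Cfsg.Agent.C3.SM14

/-! Schur multipliers of `SL₂(2)` and `SL₂(3)`. -/

set_option autoImplicit false

namespace Cfsg.Agent.C3.SM

open H4
open scoped MatrixGroups commutatorElement

theorem braid_stem {Γ G : Type*} [Group Γ] [Finite Γ] [Group G] {σ : Γ →* G} (hσ : IsStemExtension σ) {x y : G}
    (hg : Subgroup.closure {x, y} = ⊤) (hb : x * y * x = y * x * y) : ∃ a b, σ a = x ∧ σ b = y ∧ a * b * a = b * a * b ∧
      (∃ w, b = w * a * w⁻¹) ∧ ∀ N : Subgroup Γ, a * b⁻¹ ∈ N → (∀ n ∈ N, a * n * a⁻¹ ∈ N) → σ.ker ≤ N := by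
  obtain ⟨a, rfl⟩ := hσ.1 x
  obtain ⟨b', rfl⟩ := hσ.1 y
  have C : CE σ := ⟨hσ.1, hσ.2.1⟩
  have e : σ (a * b' * a * (a * b')⁻¹) = σ b' := by simp only [map_mul, map_inv, hb]; group
  refine ⟨a, _, rfl, e, mul_inv_eq_iff_eq_mul.1 ?_, ⟨_, rfl⟩, fun N h1 h2 => hσ.2.2.trans ?_⟩
  · have := C.conj_eq (a := a * (a * b' * a * (a * b')⁻¹)) (b := a * b') (by rw [map_mul, e, map_mul]) a
    generalize a * b' * a * (a * b')⁻¹ = b at *
    nth_rewrite 3 [← this]
    group
  generalize a * b' * a * (a * b')⁻¹ = b at *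
  have t : ∀ g, g ∈ Subgroup.closure {a, b} := fun g => by
    obtain ⟨g, rfl⟩ := surj_of_stem hσ (τ := (Subgroup.closure {a, b}).subtype) (fun y => by
      have : y ∈ (Subgroup.closure {a, b}).map σ := by rw [MonoidHom.map_closure, Set.image_pair, e, hg]; trivial
      obtain ⟨g, h, rfl⟩ := this
      exact ⟨⟨g, h⟩, rfl⟩) g
    exact g.2
  have ha : a ∈ Subgroup.normalizer (N : Set Γ) := Subgroup.mem_normalizer_fintype h2
  haveI : N.Normal := Subgroup.normalizer_eq_top_iff.1 (eq_top_iff.2 fun g _ => (show Subgroup.closure {a, b} ≤ _ from (Subgroup.closure_le _).2 (by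
    rintro _ (rfl | rfl)
    exacts [ha, by simpa using mul_mem (inv_mem (Subgroup.le_normalizer h1)) ha])) (t g))
  have k : ∀ g : Γ, ∃ n : ℤ, (g : Γ ⧸ N) = (a : Γ ⧸ N) ^ n := fun g => by
    obtain ⟨n, hn⟩ := (show Subgroup.closure {a, b} ≤ (Subgroup.zpowers (a : Γ ⧸ N)).comap (QuotientGroup.mk' N) from (Subgroup.closure_le _).2 (by
      rintro _ (rfl | rfl)
      · exact Subgroup.mem_zpowers _
      · exact ⟨1, by simpa [mul_inv_eq_one] using (QuotientGroup.eq_one_iff _).2 h1⟩)) (t g)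
    exact ⟨n, hn.symm⟩
  refine Subgroup.commutator_le.2 fun g _ h _ => (QuotientGroup.eq_one_iff _).1 ?_
  obtain ⟨n, hn⟩ := k g
  obtain ⟨m, hm⟩ := k h
  simp [commutatorElement_def, hn, hm, ← zpow_add, ← zpow_neg]

theorem q8_aux {Γ : Type*} [Group Γ] {i j k : Γ} (h1 : j * k = i) (h2 : k * i = j) (h3 : i * j = k) :
    j * j = i * i ∧ j * i = i ^ 3 * j ∧ i ^ 4 = 1 := by
  have e1 : j * j = i * i := by nth_rewrite 2 [← h2]; rw [← mul_assoc, h1]
  have e2 : i * j * i = j := by rw [h3, h2]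
  have e3 : i ^ 4 = 1 := by
    have : i * i * j * (i * i) = j := by rw [show i * i * j * (i * i) = i * (i * j * i) * i by group, e2, e2]
    rw [← e1, show j * j * j * (j * j) = j * (j * j) * (j * j) by group, e1, mul_assoc, mul_eq_left] at this
    rw [← this]; simp only [pow_succ, pow_zero, one_mul, mul_assoc]
  exact ⟨e1, by rw [← one_mul (j * i), ← e3, pow_succ i 3, mul_assoc, ← mul_assoc i, e2], e3⟩

theorem sl_small {F : Type*} [Field F] [Fintype F] (h : Fintype.card F = 2 ∨ Fintype.card F = 3) :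
    HasCyclicSchurMultiplier SL(2, F) 1 := by
  have hc : ((Fintype.card F : ℕ) : F) = 0 := FiniteField.cast_card_eq_zero F
  let x : SL(2, F) := Matrix.SpecialLinearGroup.transvection zero_ne_one 1
  let y : SL(2, F) := Matrix.SpecialLinearGroup.transvection one_ne_zero (-1)
  have cx : (x : Matrix (Fin 2) (Fin 2) F) = !![1, 1; 0, 1] := by ext i j; fin_cases i <;> fin_cases j <;> simp [x, Matrix.SpecialLinearGroup.transvection, Matrix.transvection]
  have cy : (y : Matrix (Fin 2) (Fin 2) F) = !![1, 0; -1, 1] := by ext i j; fin_cases i <;> fin_cases j <;> simp [y, Matrix.SpecialLinearGroup.transvection, Matrix.transvection]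
  have hn : ∀ c : F, ∃ n : ℕ, c = n := fun c => by
    have hp : (Fintype.card F).Prime := by rcases h with h | h <;> rw [h] <;> norm_num
    haveI := Fact.mk hp
    obtain ⟨y, rfl⟩ := (ZMod.ringEquivOfPrime F hp rfl).surjective c
    exact ⟨y.val, by rw [← map_natCast (ZMod.ringEquivOfPrime F hp rfl), ZMod.natCast_zmod_val]⟩
  have pw : ∀ (i j : Fin 2) (h : i ≠ j) (c : F) (n : ℕ), Matrix.SpecialLinearGroup.transvection h (n * c) =
      Matrix.SpecialLinearGroup.transvection h c ^ n := fun i j h c n => by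
    induction n with
    | zero => ext; simp
    | succ n ih => rw [pow_succ, ← ih, Nat.cast_succ, add_mul, one_mul]; exact Subtype.ext (Matrix.transvection_mul_transvection_same _ _ h _ _).symm
  have hg : Subgroup.closure {x, y} = ⊤ := SL_eq_top_of_transvection_mem _ fun i j h c => by
    fin_cases i <;> fin_cases j
    · exact absurd rfl h
    · obtain ⟨n, rfl⟩ := hn c
      exact (mul_one (n : F)) ▸ pw _ _ _ 1 n ▸ pow_mem (Subgroup.subset_closure (by simp [x])) n
    · obtain ⟨n, e⟩ := hn (-c)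
      exact (show (n : F) * -1 = c by rw [← e]; ring) ▸ pw _ _ _ (-1) n ▸ pow_mem (Subgroup.subset_closure (by simp [y])) n
    · exact absurd rfl h
  have xp : x ^ Fintype.card F = 1 := by rw [← pw, hc]; ext; simp
  have : Subsingleton (MonoidHom.id SL(2, F)).ker := ⟨fun a b => Subtype.ext (a.2.trans b.2.symm)⟩
  have := uniqueOfSubsingleton (1 : (MonoidHom.id SL(2, F)).ker)
  refine hasMult_of_lift (π := MonoidHom.id _) ⟨Function.surjective_id, by simp, by simp⟩ MulEquiv.ofUnique fun Γ _ _ σ hσ => ?_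
  suffices k : σ.ker ≤ ⊥ from ⟨(MulEquiv.ofBijective σ ⟨σ.ker_eq_bot_iff.1 (eq_bot_iff.2 k), hσ.1⟩).symm.toMonoidHom,
    MonoidHom.ext fun g => (MulEquiv.ofBijective σ _).apply_symm_apply g⟩
  obtain ⟨a, b, ha, hb, br, ⟨w, hw⟩, hN⟩ := braid_stem hσ hg (Subtype.ext (by
    simp only [Matrix.SpecialLinearGroup.coe_mul, cx, cy]; ext i j; fin_cases i <;> fin_cases j <;> simp))
  have cen : ∀ z, σ z = 1 → ∀ g, g * z = z * g := fun z hz => Subgroup.mem_center_iff.1 (hσ.2.1 hz)
  have c1 := cen (a ^ Fintype.card F) (by rw [map_pow, ha, xp])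
  have c2 : b ^ Fintype.card F = a ^ Fintype.card F := by rw [hw, conj_pow, c1, mul_inv_cancel_right]
  have ci : ((σ (a * b⁻¹) : SL(2, F)) : Matrix (Fin 2) (Fin 2) F) = !![2, 1; 1, 1] := by
    rw [map_mul, map_inv, ha, hb, Matrix.SpecialLinearGroup.coe_mul, Matrix.SpecialLinearGroup.coe_inv, cx, cy, Matrix.adjugate_fin_two]
    ext i j; fin_cases i <;> fin_cases j <;> simp; norm_num
  intro z hz
  rcases h with h | h <;> rw [h] at c1 c2 hc
  · rw [sq] at c1 c2
    rw [sq] at c2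
    have u3 : (a * b⁻¹) ^ 3 = 1 := by
      rw [show (a * b⁻¹) ^ 3 = a * (b * b)⁻¹ * (b * a * b) * (b * b)⁻¹ * a * b⁻¹ by simp only [pow_succ, pow_zero]; group, ← br, c2,
        mul_assoc _ (a * a)⁻¹, ← (Commute.inv_right (c1 a)).eq]
      group
    obtain ⟨n, rfl⟩ := (mem_powers_iff_mem_zpowers).2 (hN (Subgroup.zpowers (a * b⁻¹)) (Subgroup.mem_zpowers _) (by
      rintro _ ⟨n, rfl⟩
      refine ⟨-n, ?_⟩
      rw [← conj_zpow, show a * (a * b⁻¹) * a⁻¹ = a * a * b⁻¹ * a⁻¹ by group, ← c2, mul_inv_cancel_right]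
      simp [← inv_zpow]) hz)
    have n1 : σ (a * b⁻¹) ≠ 1 := fun e => by simpa [e] using congrFun (congrFun ci 0) 1
    change σ ((a * b⁻¹) ^ n) = 1 at hz
    change (a * b⁻¹) ^ n = 1
    rw [pow_eq_pow_mod n u3] at hz ⊢
    have : n % 3 < 3 := Nat.mod_lt _ (by norm_num)
    interval_cases n % 3
    · simp
    · exact absurd (by simpa using hz) n1
    · refine absurd ?_ n1
      rw [← one_mul (σ (a * b⁻¹)), ← hz, ← map_mul, ← pow_succ, u3, map_one, hz]
  obtain ⟨i, hi⟩ : ∃ i, i = a * b⁻¹ := ⟨_, rfl⟩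
  obtain ⟨j, hj⟩ : ∃ j, j = a * i * a⁻¹ := ⟨_, rfl⟩
  have k1 : a * j * a⁻¹ = b⁻¹ * a := by
    rw [hj, hi, show a * (a * (a * b⁻¹) * a⁻¹) * a⁻¹ = a ^ 3 * b⁻¹ * a⁻¹ * a⁻¹ by simp only [pow_succ, pow_zero]; group, ← c1]; group
  have k2 : a * (b⁻¹ * a) * a⁻¹ = i := by rw [hi]; group
  have r1 : j * (b⁻¹ * a) = i := by
    rw [hj, hi, show a * (a * b⁻¹) * a⁻¹ * (b⁻¹ * a) = a * a * (b * a * b)⁻¹ * a by group, ← br]; group
  have r2 : b⁻¹ * a * i = j := by rw [hj, ← k1]; nth_rewrite 1 [← k2]; rw [← r1]; group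
  have r3 : i * j = b⁻¹ * a := by rw [← k1, ← k2]; nth_rewrite 1 [hj]; rw [← r2]; group
  obtain ⟨q1, q2, q3⟩ := q8_aux r1 r2 r3
  have n1 : σ (i * i) ≠ 1 := fun e => by
    have := congrArg (fun g : SL(2, F) => (g : Matrix (Fin 2) (Fin 2) F) 1 1) e
    rw [← hi] at ci
    simp only [map_mul σ i, Matrix.SpecialLinearGroup.coe_mul, ci] at this
    simp [Matrix.mul_apply] at this
  have n2 : j * i ≠ i * j := fun e => n1 (by
    rw [q2, mul_left_inj] at e
    rw [← mul_left_inj (σ i), ← map_mul, one_mul]; nth_rewrite 4 [← e]; simp only [pow_succ, pow_zero, one_mul])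
  have q4 : ∀ s : ℕ, j * i ^ s = i ^ (3 * s) * j := fun s => by
    induction s with
    | zero => simp
    | succ s ih => rw [pow_succ, ← mul_assoc, ih, mul_assoc, q2, ← mul_assoc, ← pow_add, mul_add]
  have hz2 := hN (Subgroup.closure {i, j}) (hi ▸ Subgroup.subset_closure (by simp)) (fun n hn => conj_closure a (by
    rintro _ (rfl | rfl)
    · exact hj ▸ Subgroup.subset_closure (by simp)
    · rw [k1, ← r3]; exact mul_mem (Subgroup.subset_closure (by simp)) (Subgroup.subset_closure (by simp))) hn) hz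
  obtain ⟨s, hs⟩ : ∃ s : ℕ, z = i ^ s ∨ z = i ^ s * j := by
    clear hz
    have k : ∀ g ∈ ({i, j} : Set Γ), ∀ z, (∃ s : ℕ, z = i ^ s ∨ z = i ^ s * j) → ∃ s : ℕ, g * z = i ^ s ∨ g * z = i ^ s * j := by
      rintro _ (rfl | rfl) _ ⟨s, rfl | rfl⟩
      · exact ⟨s + 1, .inl (pow_succ' _ _).symm⟩
      · exact ⟨s + 1, .inr (by rw [pow_succ', mul_assoc])⟩
      · exact ⟨_, .inr (q4 s)⟩
      · exact ⟨3 * s + 2, .inl (by rw [← mul_assoc, q4, mul_assoc, q1, pow_add, sq])⟩
    induction hz2 using Subgroup.closure_induction_left with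
    | one => exact ⟨0, .inl (by simp)⟩
    | mul_left g hg z _ ih => exact k g hg z ih
    | inv_mul_cancel g hg z _ ih =>
      have : g⁻¹ = g * (g * g) := by
        rw [inv_eq_iff_mul_eq_one, ← mul_assoc]
        rcases hg with rfl | rfl
        · rw [← q3]; simp only [pow_succ, pow_zero, one_mul, mul_assoc]
        · rw [q1, ← q3]; simp only [pow_succ, pow_zero, one_mul, mul_assoc]
      rw [this, mul_assoc, mul_assoc]
      exact k g hg _ (k g hg _ (k g hg z ih))
  rcases hs with rfl | rfl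
  · have c := cen _ hz j
    change σ (i ^ s) = 1 at hz
    change i ^ s = 1
    rw [pow_eq_pow_mod s q3] at hz c ⊢
    have : s % 4 < 4 := Nat.mod_lt _ (by norm_num)
    interval_cases s % 4
    · simp
    · exact absurd (by simpa using c) n2
    · exact absurd (by rwa [sq] at hz) n1
    · refine absurd ?_ n2
      rw [eq_inv_of_mul_eq_one_right (show i * i ^ 3 = 1 by rw [← pow_succ', q3])] at c
      exact Commute.inv_right_iff.1 c
  · have c := cen _ hz i
    rw [← mul_assoc, ← pow_succ', pow_succ, mul_assoc, mul_assoc, mul_right_inj] at c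
    exact absurd c.symm n2

end Cfsg.Agent.C3.SM
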