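import Cfsg.Agent.C3.SM1

/-! Point stabilisers in groups generated by lifted "elation groups". -/

set_option autoImplicit false

namespace Cfsg.Agent.C3.SM

open Submodule

theorem conj_closure {E : Type*} [Group E] {s : Set E} {M : Subgroup E} (g : E) (h : ∀ x ∈ s, g * x * g⁻¹ ∈ M) {x : E}
    (hx : x ∈ Subgroup.closure s) : g * x * g⁻¹ ∈ M :=
  (show Subgroup.closure s ≤ M.comap (MulAut.conj g).toMonoidHom from (Subgroup.closure_le _).2 h) hx

variable {F V E : Type*} [Field F] [AddCommGroup V] [Module F V] [Group E]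

theorem inv_app (ρ : E →* (V ≃ₗ[F] V)) {g : E} {a b : V} (h : ρ g a = b) : ρ g⁻¹ b = a := by
  rw [← h, ← LinearEquiv.mul_apply, ← map_mul]; simp

theorem mul_app (ρ : E →* (V ≃ₗ[F] V)) (g h : E) (a : V) : ρ (g * h) a = ρ g (ρ h a) := by
  rw [map_mul]; rfl

/-- the group generated by all the `S u` -/
def gH (pt : V → Prop) (S : V → Subgroup E) : Subgroup E := Subgroup.closure {s | ∃ u, pt u ∧ s ∈ S u}
/-- generators fixing `a` -/
def gS (ρ : E →* (V ≃ₗ[F] V)) (pt : V → Prop) (S : V → Subgroup E) (a : V) : Subgroup E :=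
  Subgroup.closure {s | ∃ u, pt u ∧ s ∈ S u ∧ ρ s a = a}
/-- the group of a line -/
def gK (F : Type*) [Field F] [Module F V] (pt : V → Prop) (S : V → Subgroup E) (a b : V) : Subgroup E :=
  Subgroup.closure {s | ∃ u ∈ span F {a, b}, pt u ∧ s ∈ S u}

structure Geo (ρ : E →* (V ≃ₗ[F] V)) (pt : V → Prop) (adj : V → V → Prop) (S : V → Subgroup E) : Prop where
  ne : ∀ a, pt a → a ≠ 0
  symm : ∀ a b, adj a b → adj b a
  refl : ∀ a, pt a → adj a a
  spt : ∀ a b, pt a → pt b → adj a b → ∀ x ∈ span F {a, b}, x ≠ 0 → pt x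
  sadj : ∀ a b c, adj c a → adj c b → ∀ x ∈ span F {a, b}, adj c x
  Ssmul : ∀ u (c : F), pt u → c ≠ 0 → S (c • u) = S u
  ptm : ∀ g ∈ gH pt S, ∀ a, pt a → pt (ρ g a)
  adjm : ∀ g ∈ gH pt S, ∀ a b, adj (ρ g a) (ρ g b) ↔ adj a b
  conj : ∀ g ∈ gH pt S, ∀ u, pt u → ∀ s ∈ S u, g * s * g⁻¹ ∈ S (ρ g u)
  self : ∀ u, pt u → ∀ s ∈ S u, ρ s u = u
  fix : ∀ u, pt u → ∀ s ∈ S u, ∀ x, adj u x → ∃ t : F, ρ s x = x + t • u
  tr : ∀ u x, pt u → pt x → adj u x → x ∉ span F {u} → ∀ t : F, ∃ s ∈ S u, ρ s x = x + t • u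

namespace Geo

variable {ρ : E →* (V ≃ₗ[F] V)} {pt : V → Prop} {adj : V → V → Prop} {S : V → Subgroup E} (h : Geo ρ pt adj S)

omit h in
theorem S_le_H {u : V} (hu : pt u) {s : E} (hs : s ∈ S u) : s ∈ gH pt S := Subgroup.subset_closure ⟨u, hu, hs⟩
omit h in
theorem gS_le (a : V) : gS ρ pt S a ≤ gH pt S := Subgroup.closure_mono fun _ ⟨u, h1, h2, _⟩ => ⟨u, h1, h2⟩
omit h in
theorem gK_le (a b : V) : gK F pt S a b ≤ gH pt S := Subgroup.closure_mono fun _ ⟨u, _, h1, h2⟩ => ⟨u, h1, h2⟩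
omit h in
theorem gK_mono {a b c d : V} (hl : span F {a, b} ≤ span F {c, d}) : gK F pt S a b ≤ gK F pt S c d :=
  Subgroup.closure_mono fun _ ⟨u, h0, h1, h2⟩ => ⟨u, hl h0, h1, h2⟩
omit h in
theorem gS_fix {a : V} {g : E} (hg : g ∈ gS ρ pt S a) : ρ g a = a := by
  induction hg using Subgroup.closure_induction with
  | mem s hs => exact hs.choose_spec.2.2
  | one => simp
  | mul x y _ _ h1 h2 => rw [mul_app, h2, h1]
  | inv x _ h1 => exact inv_app ρ h1
omit h in
theorem gS_smul (a : V) {c : F} (hc : c ≠ 0) : gS ρ pt S (c • a) = gS ρ pt S a := by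
  simp only [gS, map_smul, smul_right_inj hc]

include h

theorem conj_gS {g : E} (hg : g ∈ gH pt S) {a : V} {x : E} (hx : x ∈ gS ρ pt S a) : g * x * g⁻¹ ∈ gS ρ pt S (ρ g a) :=
  conj_closure g (fun s hs => by
    obtain ⟨u, h1, h2, h3⟩ := hs
    exact Subgroup.subset_closure ⟨_, h.ptm g hg u h1, h.conj g hg u h1 s h2, by rw [mul_app, mul_app, inv_app ρ rfl, h3]⟩) hx

theorem conj_gK {g : E} (hg : g ∈ gH pt S) {a b : V} {x : E} (hx : x ∈ gK F pt S a b) :
    g * x * g⁻¹ ∈ gK F pt S (ρ g a) (ρ g b) :=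
  conj_closure g (fun s hs => by
    obtain ⟨u, h0, h1, h2⟩ := hs
    refine Subgroup.subset_closure ⟨_, ?_, h.ptm g hg u h1, h.conj g hg u h1 s h2⟩
    obtain ⟨α, β, rfl⟩ := mem_span_pair.1 h0
    exact mem_span_pair.2 ⟨α, β, by simp⟩) hx

theorem adj_span {a b : V} (ha : pt a) (hb : pt b) (hab : adj a b) {x y : V} (hx : x ∈ span F {a, b}) (hy : y ∈ span F {a, b}) :
    adj x y :=
  h.sadj a b x (h.symm _ _ (h.sadj a b a (h.refl a ha) hab x hx)) (h.symm _ _ (h.sadj a b b (h.symm _ _ hab) (h.refl b hb) x hx)) y hy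

theorem gK_mem {a b : V} (ha : pt a) (hb : pt b) (hab : adj a b) {k : E} (hk : k ∈ gK F pt S a b) :
    ∀ x ∈ span F {a, b}, ρ k x ∈ span F {a, b} := by
  have : ∀ u ∈ span F {a, b}, pt u → ∀ s ∈ S u, ∀ x ∈ span F {a, b}, ρ s x ∈ span F {a, b} := fun u h0 h1 s h2 x hx => by
    obtain ⟨t, ht⟩ := h.fix u h1 s h2 x (h.adj_span ha hb hab h0 hx)
    rw [ht]; exact add_mem hx (smul_mem _ _ h0)
  induction hk using Subgroup.closure_induction_left with
  | one => simp
  | mul_left s hs g _ ih => obtain ⟨u, h0, h1, h2⟩ := hs; exact fun x hx => by rw [mul_app]; exact this u h0 h1 s h2 _ (ih x hx)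
  | inv_mul_cancel s hs g _ ih =>
    obtain ⟨u, h0, h1, h2⟩ := hs; exact fun x hx => by rw [mul_app]; exact this u h0 h1 _ (inv_mem h2) _ (ih x hx)

theorem line [Finite F] {a b : V} (ha : pt a) (hb : pt b) (hab : adj a b) (hn : b ∉ span F {a}) {k : E} (hk : k ∈ gK F pt S a b)
    (hka : ρ k a = a) : k ∈ gS ρ pt S a := by
  have hn' : a ∉ span F {b} := fun hh => hn (by
    obtain ⟨c, rfl⟩ := mem_span_singleton.1 hh
    have : c ≠ 0 := by rintro rfl; exact h.ne _ ha (by simp)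
    exact mem_span_singleton.2 ⟨c⁻¹, by rw [smul_smul, inv_mul_cancel₀ this, one_smul]⟩)
  have ma : a ∈ span F ({a, b} : Set V) := subset_span (by simp)
  have mb : b ∈ span F ({a, b} : Set V) := subset_span (by simp)
  let K := gK F pt S a b
  let R := Subgroup.closure {s | ∃ u ∈ span F {a, b}, pt u ∧ s ∈ S u ∧ ∀ x ∈ span F {a, b}, ρ s x = x}
  have hR : R ≤ gS ρ pt S a := Subgroup.closure_mono fun _ ⟨u, _, h1, h2, h3⟩ => ⟨u, h1, h2, h3 a ma⟩
  have hN : (R.subgroupOf K).Normal := ⟨fun r hr g => by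
    refine conj_closure (M := R) (g : E) (fun s hs => ?_) hr
    obtain ⟨u, h0, h1, h2, h3⟩ := hs
    refine Subgroup.subset_closure ⟨_, h.gK_mem ha hb hab g.2 u h0,
      h.ptm _ (gK_le a b g.2) u h1, h.conj _ (gK_le a b g.2) u h1 s h2, fun x hx => ?_⟩
    rw [mul_app, mul_app, h3 _ (h.gK_mem ha hb hab (inv_mem g.2) x hx), ← mul_app]; simp⟩
  let π := QuotientGroup.mk' (R.subgroupOf K)
  have mK : ∀ {u}, u ∈ span F ({a, b} : Set V) → pt u → ∀ {s}, s ∈ S u → s ∈ K := fun h0 h1 s h2 =>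
    Subgroup.subset_closure ⟨_, h0, h1, h2⟩
  have key : ∀ u ∈ span F ({a, b} : Set V), pt u → ∀ s s' : K, (s : E) ∈ S u → (s' : E) ∈ S u → ρ s a = ρ s' a → ρ s b = ρ s' b →
      π s = π s' := fun u h0 h1 s s' h2 h3 h4 h5 => by
    refine QuotientGroup.eq.2 (Subgroup.subset_closure ⟨u, h0, h1, mul_mem (inv_mem h2) h3, fun x hx => ?_⟩)
    obtain ⟨α, β, rfl⟩ := mem_span_pair.1 hx
    change ρ ((s : E)⁻¹ * s') _ = _
    rw [mul_app]
    exact inv_app ρ (by simp [h4, h5])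
  choose sx hx1 hx2 using h.tr a b ha hb hab hn
  choose sy hy1 hy2 using h.tr b a hb ha (h.symm _ _ hab) hn'
  have hx0 : ∀ t, ρ (sx t) a = a := fun t => h.self a ha _ (hx1 t)
  have hy0 : ∀ t, ρ (sy t) b = b := fun t => h.self b hb _ (hy1 t)
  let X : F → K := fun t => ⟨sx t, mK ma ha (hx1 t)⟩
  let Y : F → K := fun t => ⟨sy t, mK mb hb (hy1 t)⟩
  have wa : ∀ t, t ≠ 0 → ρ (ww X Y t : K) a = (-t⁻¹) • b := fun t ht => by
    simp only [ww, X, Y, Subgroup.coe_mul, mul_app, hx0, hy2, map_add, map_smul, hx2]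
    match_scalars <;> field_simp <;> ring
  have wb : ∀ t, t ≠ 0 → ρ (ww X Y t : K) b = t • a := fun t ht => by
    simp only [ww, X, Y, Subgroup.coe_mul, mul_app, hx0, hy0, hy2, map_add, map_smul, hx2]
    match_scalars <;> field_simp <;> ring
  have H1 : R1 (fun t => π (X t)) (fun t => π (Y t)) := by
    refine ⟨fun s t => ?_, fun s t => ?_, fun t s ht => ?_⟩
    · rw [← map_mul]
      refine key a ma ha _ _ (hx1 _) (mul_mem (hx1 _) (hx1 _)) ?_ ?_
      · simp [X, hx0]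
      · simp only [X, Subgroup.coe_mul, mul_app, hx2, map_add, map_smul, hx0]; module
    · rw [← map_mul]
      refine key b mb hb _ _ (hy1 _) (mul_mem (hy1 _) (hy1 _)) ?_ ?_
      · simp only [Y, Subgroup.coe_mul, mul_app, hy2, map_add, map_smul, hy0]; module
      · simp [Y, hy0]
    · rw [← map_mul, ← map_mul, ← map_mul, ← map_inv, ← map_mul]
      have m := h.conj _ (gK_le a b (ww X Y t).2) a ha _ (hx1 s)
      rw [wa t ht, h.Ssmul b _ hb (by simpa)] at m
      refine key b mb hb _ _ m (hy1 _) ?_ ((h.self b hb _ m).trans (hy0 _).symm)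
      change ρ ((ww X Y t : K) * sx s * ((ww X Y t : K) : E)⁻¹) a = ρ (sy _) a
      have i1 : ρ ((ww X Y t : K) : E)⁻¹ a = t⁻¹ • b := inv_app ρ (by rw [map_smul, wb t ht, smul_smul, inv_mul_cancel₀ ht, one_smul])
      rw [mul_app, mul_app, i1, hy2, map_smul, hx2, map_smul, map_add, map_smul, wa t ht, wb t ht]
      match_scalars <;> field_simp
  have hgen : ∀ g : K, π g ∈ Subgroup.closure (Set.range (fun t => π (X t)) ∪ Set.range (fun t => π (Y t))) := by
    set C := Subgroup.closure (Set.range (fun t => π (X t)) ∪ Set.range (fun t => π (Y t)))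
    have cx : ∀ t, π (X t) ∈ C := fun t => Subgroup.subset_closure (.inl ⟨t, rfl⟩)
    have cy : ∀ t, π (Y t) ∈ C := fun t => Subgroup.subset_closure (.inr ⟨t, rfl⟩)
    have cb : ∀ s : K, (s : E) ∈ S b → π s ∈ C := fun s hs => by
      obtain ⟨t, ht⟩ := h.fix b hb s hs a (h.symm _ _ hab)
      rw [key b mb hb s (Y t) hs (hy1 t) (ht.trans (hy2 t).symm) ((h.self b hb _ hs).trans (hy0 _).symm)]
      exact cy t
    rintro ⟨g, hg⟩
    induction hg using Subgroup.closure_induction with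
    | mem s hs =>
      obtain ⟨u, h0, h1, h2⟩ := hs
      obtain ⟨α, β, rfl⟩ := mem_span_pair.1 h0
      by_cases hβ : β = 0
      · subst hβ
        have hα : α ≠ 0 := by rintro rfl; exact h.ne _ h1 (by simp)
        rw [zero_smul, add_zero, h.Ssmul a α ha hα] at h2
        obtain ⟨t, ht⟩ := h.fix a ha s h2 b hab
        exact key a ma ha ⟨s, mK ma ha h2⟩ (X t) h2 (hx1 t) ((h.self a ha _ h2).trans (hx0 _).symm) (ht.trans (hx2 t).symm) ▸ cx t
      · have m := h.conj _ (S_le_H ha (hx1 (-(α / β)))) _ h1 s h2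
        rw [show ρ (sx (-(α / β))) (α • a + β • b) = β • b by
          simp only [map_add, map_smul, hx0, hx2]; match_scalars <;> field_simp <;> ring, h.Ssmul b β hb hβ] at m
        have := mul_mem (mul_mem (inv_mem (cx (-(α / β)))) (cb (X (-(α / β)) * ⟨s, mK h0 h1 h2⟩ * (X (-(α / β)))⁻¹) m))
          (cx (-(α / β)))
        simpa [mul_assoc] using this
    | one => exact one_mem _
    | mul x y hx hy i1 i2 => exact mul_mem i1 i2
    | inv x hx i1 => exact inv_mem i1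
  have act : ∀ g g' : K, π g = π g' → (g' : E) ∈ gS ρ pt S a → (g : E) ∈ gS ρ pt S a := fun g g' e hg' => by
    have := hR (show (g' : E)⁻¹ * g ∈ R from (QuotientGroup.eq (s := R.subgroupOf K)).1 e.symm)
    simpa using mul_mem hg' this
  have act2 : ∀ g g' : K, π g = π g' → ρ g a = ρ g' a := fun g g' e => by
    have := gS_fix (hR (show (g' : E)⁻¹ * g ∈ R from (QuotientGroup.eq (s := R.subgroupOf K)).1 e.symm))
    rw [mul_app] at this
    simpa using inv_app ρ this |>.symm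
  rcases H1.nf (hgen ⟨k, hk⟩) with ⟨s, t, ht, e⟩ | ⟨s, t, s', ht, e⟩
  · have e2 : π ⟨k, hk⟩ = π (X s * (ww X Y t * ww X Y (-1))) := by rw [e]; simp [hh, ww]
    have e3 := act2 _ _ e2
    simp only [Subgroup.coe_mul, mul_app, hka, wa (-1) (by simp), map_smul, wb t ht, X, hx0] at e3
    have : t = 1 := by
      by_contra hne
      have : (t - 1) • a = 0 := by rw [sub_smul, one_smul]; nth_rewrite 2 [e3]; module
      exact h.ne a ha ((smul_eq_zero.1 this).resolve_left (sub_ne_zero.2 hne))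
    rw [this, H1.h1, mul_one] at e
    exact act _ _ e (Subgroup.subset_closure ⟨a, ha, hx1 s, hx0 s⟩)
  · have e2 : π ⟨k, hk⟩ = π (X s * ww X Y t * X s') := by rw [e]; simp [ww]
    have e3 := act2 _ _ e2
    simp only [Subgroup.coe_mul, mul_app, hka, wa t ht, map_smul, X, hx0, hx2] at e3
    exact absurd (mem_span_singleton.2 ⟨-t - s, by
      have : b = (-t) • ((-t⁻¹) • (b + s • a)) - s • a := by match_scalars <;> field_simp <;> ring
      rw [this, ← e3]; module⟩) hn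

/-- the point stabiliser theorem -/
theorem stab [Finite F]
    (tri : ∀ a b c, pt a → pt b → pt c → adj a b → adj b c → adj a c → a ∉ span F {b - a, c - a} →
      ∃ t1 ∈ gK F pt S a b, ∃ t2 ∈ gK F pt S b c, ∃ t3 ∈ gK F pt S a c, ρ t1 a = b ∧ ρ t2 b = c ∧ ρ t3 a = c ∧
        t3⁻¹ * (t2 * t1) ∈ gS ρ pt S a)
    (quad : ∀ a c b b', pt a → pt c → pt b → pt b' → ¬ adj a c → adj a b → adj b c → adj a b' → adj b' c →
      ∃ l ∈ gS ρ pt S a, l ∈ gS ρ pt S c ∧ adj (ρ l b) b')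
    (pent : ∀ a b c, pt a → pt b → pt c → ¬ adj a b → adj b c → ¬ adj a c → ∃ x, pt x ∧ adj a x ∧ adj x b ∧ adj x c)
    (lin : ∀ a b b', pt a → pt b → pt b' → adj a b → adj a b' → b ∉ span F {a} → b' ∉ span F {a} →
      ∃ l ∈ gS ρ pt S a, ρ l b ∈ span F {a, b'})
    {a : V} (ha : pt a) (hb : ∃ b, pt b ∧ adj a b ∧ b ∉ span F {a}) {g : E} (hg : g ∈ gH pt S) (hga : ρ g a = a) :
    g ∈ gS ρ pt S a := by
  let P : V → Subgroup E := fun a => gS ρ pt S a ⊔
    Subgroup.closure {k | ∃ b, pt b ∧ adj a b ∧ k ∈ gK F pt S a b ∧ ρ k a ∈ span F {a}}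
  have Pm : ∀ g ∈ gH pt S, ∀ a, pt a → ∀ p ∈ P a, g * p * g⁻¹ ∈ P (ρ g a) := fun g hg a ha p hp => by
    refine (show P a ≤ (P (ρ g a)).comap (MulAut.conj g).toMonoidHom from sup_le (fun x hx => ?_) fun x hx => ?_) hp
    · exact Subgroup.mem_sup_left (h.conj_gS hg hx)
    · refine conj_closure (M := P (ρ g a)) g (fun k hk => ?_) hx
      obtain ⟨b, h1, h2, h3, h4⟩ := hk
      refine Subgroup.mem_sup_right (Subgroup.subset_closure
        ⟨_, h.ptm g hg b h1, (h.adjm g hg _ _).2 h2, h.conj_gK hg h3, ?_⟩)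
      obtain ⟨c, hc⟩ := mem_span_singleton.1 h4
      rw [mul_app, mul_app, inv_app ρ rfl, ← hc, map_smul]
      exact smul_mem _ _ (mem_span_singleton_self _)
  have Ps : ∀ a (c : F), pt a → c ≠ 0 → P (c • a) ≤ P a := fun a c ha hc => by
    refine sup_le_sup (gS_smul a hc).le (Subgroup.closure_mono fun k ⟨b, h1, h2, h3, h4⟩ => ⟨b, h1, ?_, ?_, ?_⟩)
    · exact h.symm _ _ (h.sadj _ _ b (h.symm _ _ h2) (h.symm _ _ h2) a (mem_span_pair.2 ⟨c⁻¹, 0, by simp [smul_smul, hc]⟩))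
    · exact gK_mono (span_le.2 (by
        rintro _ (rfl | rfl)
        exacts [smul_mem _ _ (subset_span (by simp)), subset_span (by simp)])) h3
    · rw [map_smul, span_singleton_smul_eq (IsUnit.mk0 c hc)] at h4
      exact (smul_mem_iff _ hc).1 h4
  have pts : ∀ a (c : F), pt a → c ≠ 0 → pt (c • a) := fun a c ha hc =>
    h.spt a a ha ha (h.refl a ha) _ (smul_mem _ _ (subset_span (by simp))) (smul_ne_zero hc (h.ne a ha))
  have Pse : ∀ a (c : F), pt a → c ≠ 0 → P (c • a) = P a := fun a c ha hc => le_antisymm (Ps a c ha hc) (by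
    have := Ps _ c⁻¹ (pts a c ha hc) (inv_ne_zero hc)
    rwa [smul_smul, inv_mul_cancel₀ hc, one_smul] at this)
  have mp : ∀ t a b, pt a → ρ t a ∈ span F {b} → ∃ c : F, c ≠ 0 ∧ ρ t a = c • b := fun t a b ha hh => by
    obtain ⟨c, hc⟩ := mem_span_singleton.1 hh
    exact ⟨c, by rintro rfl; exact h.ne a ha (by simpa using hc.symm), hc.symm⟩
  have ln : ∀ a d t, pt d → adj a d → t ∈ gK F pt S a d → ρ t a ∈ span F {a} → t ∈ P a := fun a d t h1 h2 h3 h4 =>
    Subgroup.mem_sup_right (Subgroup.subset_closure ⟨d, h1, h2, h3, h4⟩)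
  have back : ∀ a b c t1 t2 t3, pt a → pt b → ρ t1 a ∈ span F {b} → ρ t2 b ∈ span F {c} → ρ t3 a ∈ span F {c} →
      ρ (t3⁻¹ * (t2 * t1)) a ∈ span F {a} := fun a b c t1 t2 t3 ha hb h1 h2 h3 => by
    obtain ⟨c1, -, e1⟩ := mp _ _ _ ha h1
    obtain ⟨c2, -, e2⟩ := mp _ _ _ hb h2
    obtain ⟨c3, n3, e3⟩ := mp _ _ _ ha h3
    have e4 : ρ t3⁻¹ c = c3⁻¹ • a := inv_app ρ (by rw [map_smul, e3, smul_smul, inv_mul_cancel₀ n3, one_smul])
    rw [mul_app, mul_app, e1, map_smul, e2, map_smul, map_smul, e4]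
    exact smul_mem _ _ (smul_mem _ _ (smul_mem _ _ (mem_span_singleton_self _)))
  have eP : ∀ a b t, pt a → pt b → t ∈ gK F pt S a b → ρ t a ∈ span F {b} → ∀ p, t * p * t⁻¹ ∈ P b ↔ p ∈ P a := by
    intro a b t ha hb h1 h2 p
    obtain ⟨c, n, e⟩ := mp _ _ _ ha h2
    refine ⟨fun hp => ?_, fun hp => by have := Pm t (gK_le a b h1) a ha p hp; rwa [e, Pse b c hb n] at this⟩
    rw [← Pse b c hb n, ← e] at hp
    have := Pm t⁻¹ (inv_mem (gK_le a b h1)) _ (h.ptm t (gK_le a b h1) a ha) _ hp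
    rw [inv_app ρ rfl] at this
    simpa [mul_assoc] using this
  have uq : ∀ a b t t', pt a → pt b → adj a b → t ∈ gK F pt S a b → ρ t a ∈ span F {b} → t' ∈ gK F pt S a b →
      ρ t' a ∈ span F {b} → t⁻¹ * t' ∈ P a := fun a b t t' ha hb hab h1 h2 h3 h4 =>
    ln a b _ hb hab (mul_mem (inv_mem h1) h3) (by
      simpa using back a b b t' 1 t ha hb h4 (by simpa using mem_span_singleton_self b) h2)
  have hP : g ∈ P a := by
    refine cover (gH pt S) _ le_rfl Subgroup.subset_closure (fun g a => ρ g a) (by simp) (mul_app ρ) pt h.ptm adj h.symm h.refl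
      h.adjm P (fun a b t => t ∈ gK F pt S a b ∧ ρ t a ∈ span F {b}) ?_ (fun a _ => ⟨one_mem _, by simp⟩) ?_ Pm
      (fun a b t ha hb _ hh => eP a b t ha hb hh.1 hh.2) ?_ ?_ pent ?_ hg ha (by simpa [hga] using h.refl a ha) ⟨one_mem _, by simp [hga]⟩
    · intro a b ha hb hab
      by_cases hn : a ∈ span F {b}
      · exact ⟨1, one_mem _, by simpa using hn⟩
      have m : b - a ∈ span F ({a, b} : Set V) := sub_mem (subset_span (by simp)) (subset_span (by simp))
      have n : b - a ≠ 0 := fun e => hn (by rw [← sub_eq_zero.1 e]; exact mem_span_singleton_self _)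
      have p := h.spt a b ha hb hab _ m n
      by_cases hn2 : a ∈ span F {b - a}
      · obtain ⟨c, hc⟩ := mem_span_singleton.1 hn2
        by_cases h1 : 1 + c = 0
        · exact absurd (by
            have : c • b = (1 + c) • a := by rw [add_smul, one_smul]; nth_rewrite 1 [← hc]; module
            rw [h1, zero_smul, show c = -1 by linear_combination h1] at this
            simpa using this) (h.ne b hb)
        · exact absurd (mem_span_singleton.2 ⟨c / (1 + c), by
            have : c • b = (1 + c) • a := by rw [add_smul, one_smul]; nth_rewrite 1 [← hc]; module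
            rw [div_eq_inv_mul, mul_smul, this, smul_smul, inv_mul_cancel₀ h1, one_smul]⟩) hn
      obtain ⟨s, h1, h2⟩ := h.tr _ a p ha (h.adj_span ha hb hab m (subset_span (by simp))) hn2 1
      exact ⟨s, Subgroup.subset_closure ⟨_, m, p, h1⟩, by rw [h2]; simp⟩
    · rintro g hg a b t ha hb hab ⟨h1, h2⟩
      refine ⟨h.conj_gK hg h1, ?_⟩
      obtain ⟨c, hc⟩ := mem_span_singleton.1 h2
      rw [mul_app, mul_app, inv_app ρ rfl, ← hc, map_smul]
      exact smul_mem _ _ (mem_span_singleton_self _)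
    · rintro a b c t1 t2 t3 ha hb hc hab hbc hac ⟨h1, k1⟩ ⟨h2, k2⟩ ⟨h3, k3⟩
      by_cases hn : a ∈ span F {b - a, c - a}
      · have : ∃ d, pt d ∧ adj a d ∧ b ∈ span F {a, d} ∧ c ∈ span F {a, d} := by
          by_cases hba : b ∈ span F {a}
          · exact ⟨c, hc, hac, span_mono (by simp) hba, subset_span (by simp)⟩
          refine ⟨b, hb, hab, subset_span (by simp), ?_⟩
          obtain ⟨α, β, e⟩ := mem_span_pair.1 hn
          by_cases hβ : β = 0
          · have hα : α ≠ 0 := by rintro rfl; exact h.ne a ha (by simpa [hβ] using e.symm)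
            exact absurd (mem_span_singleton.2 ⟨α⁻¹ + 1, by
              rw [add_smul, one_smul]; nth_rewrite 1 [← e]; rw [hβ]; match_scalars <;> field_simp <;> ring⟩) hba
          · exact mem_span_pair.2 ⟨β⁻¹ * (1 + α + β), -α / β, by
              have : c = a + β⁻¹ • (a - α • (b - a)) := by nth_rewrite 2 [← e]; match_scalars <;> field_simp <;> ring
              rw [this]; match_scalars <;> field_simp <;> ring⟩
        obtain ⟨d, hd, had, mb, mc⟩ := this
        have ma : a ∈ span F ({a, d} : Set V) := subset_span (by simp)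
        have le : ∀ x y, x ∈ span F ({a, d} : Set V) → y ∈ span F ({a, d} : Set V) → gK F pt S x y ≤ gK F pt S a d :=
          fun x y hx hy => gK_mono (span_le.2 (by rintro _ (rfl | rfl); exacts [hx, hy]))
        exact ln a d _ hd had (mul_mem (inv_mem (le _ _ ma mc h3)) (mul_mem (le _ _ mb mc h2) (le _ _ ma mb h1)))
          (back a b c t1 t2 t3 ha hb k1 k2 k3)
      · obtain ⟨s1, m1, s2, m2, s3, m3, e1, e2, e3, e4⟩ := tri a b c ha hb hc hab hbc hac hn
        have n1 : ρ s1 a ∈ span F {b} := e1 ▸ mem_span_singleton_self _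
        have i1 := uq a b s1 t1 ha hb hab m1 n1 h1 k1
        have i2 := uq b c s2 t2 hb hc hbc m2 (e2 ▸ mem_span_singleton_self _) h2 k2
        have i3 := uq a c t3 s3 ha hc hac h3 k3 m3 (e3 ▸ mem_span_singleton_self _)
        have i4 := (eP a b s1 ha hb m1 n1 (s1⁻¹ * (s2⁻¹ * t2) * s1)).1 (by simpa [mul_assoc] using i2)
        have := mul_mem (mul_mem (mul_mem i3 (Subgroup.mem_sup_left e4)) i4) i1
        simpa [mul_assoc] using this
    · intro a c b b' ha hc hb hb' h0 h1 h2 h3 h4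
      obtain ⟨l, l1, l2, l3⟩ := quad a c b b' ha hc hb hb' h0 h1 h2 h3 h4
      exact ⟨l, gS_le a l1, Subgroup.mem_sup_left l1, Subgroup.mem_sup_left l2, gS_fix l1, gS_fix l2, l3⟩
    · rintro s ⟨u, h1, h2⟩
      exact .inr ⟨u, h1, h.self u h1 s h2, Subgroup.mem_sup_left (Subgroup.subset_closure ⟨u, h1, h2, h.self u h1 s h2⟩)⟩
  obtain ⟨b, hb, hab, hn⟩ := hb
  have nrm : ∀ k ∈ gH pt S, ρ k a ∈ span F {a} → ∀ x ∈ gS ρ pt S a, k * x * k⁻¹ ∈ gS ρ pt S a := fun k hk h1 x hx => by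
    obtain ⟨c, n, e⟩ := mp _ _ _ ha h1
    have := h.conj_gS hk hx
    rwa [e, gS_smul a n] at this
  let M : Subgroup E :=
    { carrier := {g | ∃ x ∈ gS ρ pt S a, ∃ k ∈ gK F pt S a b, ρ k a ∈ span F {a} ∧ g = x * k}
      one_mem' := ⟨1, one_mem _, 1, one_mem _, by simp, by simp⟩
      mul_mem' := by
        rintro _ _ ⟨x, hx, k, hk, h1, rfl⟩ ⟨x', hx', k', hk', h1', rfl⟩
        refine ⟨_, mul_mem hx (nrm k (gK_le a b hk) h1 x' hx'), k * k', mul_mem hk hk', ?_, by group⟩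
        simpa using back a a a k' k 1 ha ha h1' h1 (by simp)
      inv_mem' := by
        rintro _ ⟨x, hx, k, hk, h1, rfl⟩
        have h2 : ρ k⁻¹ a ∈ span F {a} := by simpa using back a a a 1 1 k ha ha (by simp) (by simp) h1
        exact ⟨_, nrm k⁻¹ (inv_mem (gK_le a b hk)) h2 _ (inv_mem hx), k⁻¹, inv_mem hk, h2, by group⟩ }
  have hM : P a ≤ M := by
    refine sup_le (fun x hx => ⟨x, hx, 1, one_mem _, by simp, by simp⟩) ((Subgroup.closure_le _).2 ?_)
    rintro k ⟨d, h1, h2, h3, h4⟩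
    by_cases hd : d ∈ span F {a}
    · exact ⟨1, one_mem _, k, gK_mono (span_le.2 (by
        rintro _ (rfl | rfl)
        exacts [subset_span (by simp), span_mono (by simp) hd])) h3, h4, by simp⟩
    obtain ⟨l, l1, l2⟩ := lin a d b ha h1 hb h2 hab hd hn
    have i1 := h.conj_gK (gS_le a l1) h3
    rw [gS_fix l1] at i1
    have i2 := gK_mono (pt := pt) (S := S) (c := a) (d := b) (span_le.2 (by
        rintro _ (rfl | rfl)
        exacts [subset_span (by simp), l2])) i1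
    have i3 : ρ (l * k * l⁻¹) a ∈ span F {a} := by
      obtain ⟨c, hc⟩ := mem_span_singleton.1 h4
      rw [mul_app, mul_app, gS_fix (inv_mem l1), ← hc, map_smul, gS_fix l1]
      exact smul_mem _ _ (mem_span_singleton_self _)
    exact ⟨_, mul_mem (inv_mem l1) (nrm _ (gK_le a b i2) i3 l l1), _, i2, i3, by group⟩
  obtain ⟨x, hx, k, hk, -, rfl⟩ := hM hP
  refine mul_mem hx (h.line ha hb hab hn hk ?_)
  rw [mul_app] at hga
  exact (inv_app ρ hga).symm.trans (gS_fix (inv_mem hx))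

end Geo

end Cfsg.Agent.C3.SM
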