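import Cfsg.Agent.C3.SM2
import Cfsg.Agent.H4.Spin

/-! Lifted Eichler transformations: stabilisers and the inductive step. -/

set_option autoImplicit false

namespace Cfsg.Agent.C3.SM

open Submodule Module H4 H4.CForm

variable {F : Type*} [Field F] {T : FType F} {V : Type*} [AddCommGroup V] [Module F V] {f : CForm T V}
  {E : Type*} [Group E]

theorem eich_swap {u v : V} (hu : f.Q u = 0) (hv : f.Q v = 0) (h : f.B v u = 0) : f.eich u v 0 = f.eich v ((-T.ε) • u) 0 := by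
  ext x
  rw [eich_apply' (f.B_self_of_Q hu) h, eich_apply' (f.B_self_of_Q hv) (by simp [f.B_zero_symm h])]
  simp only [B_smul_right, map_neg, FType.σε, smul_smul, zero_smul, add_zero, mul_neg, T.εε]
  module

theorem eich_zero_left (v : V) (c : F) : f.eich 0 v c = 1 := by
  ext x; rw [eich_apply' (by simp) (by simp)]; simp

theorem exists_c (f : CForm T V) {u v : V} (hu : f.Q u = 0) (h : f.B v u = 0) : ∃ c, f.EichOk u v c :=
  (f.Q_range v).imp fun _ hc => ⟨hu, h, hc⟩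

theorem eich_eq_one {u v a : V} {c : F} (h : f.EichOk u v c) (ha : f.B a u ≠ 0) (e : f.eich u v c a = a) : f.eich u v c = 1 := by
  rw [h.apply] at e
  have e1 : T.ε • v + c • u = (f.B a v / f.B a u) • u := by
    have : f.B a u • (T.ε • v + c • u) = f.B a v • u := by linear_combination (norm := module) -e
    rw [div_eq_inv_mul, mul_smul, ← this, smul_smul, inv_mul_cancel₀ ha, one_smul]
  have e2 : v = (T.ε * (f.B a v / f.B a u - c)) • u := by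
    rw [mul_smul, sub_smul, ← e1, add_sub_cancel_right, smul_smul, T.εε, one_smul]
  ext x
  rw [h.apply, e1]
  have e3 : ∀ x, f.B x v = T.σ (T.ε * (f.B a v / f.B a u - c)) * f.B x u := fun x => by
    conv_lhs => rw [e2]
    rw [B_smul_right]
  have e4 := e3 a
  rw [e3 x, show T.σ (T.ε * (f.B a v / f.B a u - c)) = f.B a v / f.B a u by rw [eq_div_iff ha]; exact e4.symm]
  simp only [LinearEquiv.coe_one, id]; module

section
variable [FiniteDimensional F V]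

theorem exists_perp_W (hf : f.Nondeg) {W U : Submodule F V} (hW : W ⊓ f.perp W = ⊥) (hU : U ≤ W) {x : V} (hx : x ∈ W) (hxU : x ∉ U)
    (a : F) : ∃ z ∈ W, (∀ u ∈ U, f.B z u = 0) ∧ f.B x z = a := by
  obtain ⟨z, hz, e⟩ := hf.exists_perp_B_eq (U := U ⊔ f.perp W) (v := x) (fun h => by
    obtain ⟨u, hu, w, hw, rfl⟩ := mem_sup.1 h
    have : w ∈ W ⊓ f.perp W := ⟨by simpa using sub_mem hx (hU hu), hw⟩
    rw [hW, mem_bot] at this
    exact hxU (by simpa [this] using hu)) a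
  rw [f.perp_sup, hf.perp_perp] at hz
  exact ⟨z, hz.2, hz.1, e⟩

omit [FiniteDimensional F V] in
theorem inf_pair_nondeg {W : Submodule F V} (hW : W ⊓ f.perp W = ⊥) {a c : V} (ha : a ∈ W) (hc : c ∈ W) (hQa : f.Q a = 0)
    (hQc : f.Q c = 0) (hB : f.B a c ≠ 0) :
    (W ⊓ f.perp (span F {a, c})) ⊓ f.perp (W ⊓ f.perp (span F {a, c})) = ⊥ := by
  refine eq_bot_iff.2 fun x ⟨⟨h1, h2⟩, h3⟩ => hW ▸ ⟨h1, fun w hw => ?_⟩
  obtain ⟨b, hb⟩ := T.σ_surj (f.B a c)⁻¹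
  have hb0 : b ≠ 0 := by rintro rfl; exact inv_ne_zero hB (by simpa using hb.symm)
  have e : f.B a (b • c) = 1 := by rw [B_smul_right, hb, inv_mul_cancel₀ hB]
  have m := sub_mem_perp_pair hQa (f.Q_smul_of_Q hQc b) e w
  have m2 := f.mem_perp_pair.1 m
  have h4 := f.mem_perp_pair.1 h2
  have := h3 _ ⟨sub_mem (sub_mem hw (smul_mem _ _ ha)) (smul_mem _ _ (smul_mem _ _ hc)), f.mem_perp_pair.2 ⟨m2.1, by
    have := m2.2; rwa [B_smul_right, mul_eq_zero, or_iff_right (T.σ_ne_zero hb0)] at this⟩⟩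
  simpa [h4.1, h4.2] using this
end

/-- an equivariant system of lifts of the Eichler transformations -/
structure Lift (f : CForm T V) (ρ : E →* (V ≃ₗ[F] V)) (ℓ : (V ≃ₗ[F] V) → E) : Prop where
  map : ∀ u v c, f.EichOk u v c → ρ (ℓ (f.eich u v c)) = f.eich u v c
  mul : ∀ u v c v' c', f.EichOk u v c → f.EichOk u v' c' → ℓ (f.eich u v c * f.eich u v' c') = ℓ (f.eich u v c) * ℓ (f.eich u v' c')
  conj : ∀ g, ρ g ∈ f.E → ∀ u v c, f.EichOk u v c → g * ℓ (f.eich u v c) * g⁻¹ = ℓ (f.eich (ρ g u) (ρ g v) c)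

variable (f) in
def ptW (W : Submodule F V) (a : V) : Prop := a ∈ W ∧ a ≠ 0 ∧ f.Q a = 0

variable (f) in
def SW (ℓ : (V ≃ₗ[F] V) → E) (W : Submodule F V) (u : V) : Subgroup E :=
  Subgroup.closure {e | ∃ v ∈ W, ∃ c, f.EichOk u v c ∧ e = ℓ (f.eich u v c)}

variable (f) in
/-- the group generated by the lifts of the Eichler transformations of `W` -/
abbrev GW (ℓ : (V ≃ₗ[F] V) → E) (W : Submodule F V) : Subgroup E := gH (ptW f W) (SW f ℓ W)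

theorem lift_id : Lift f (MonoidHom.id _) id :=
  ⟨fun _ _ _ _ => rfl, fun _ _ _ _ _ _ _ => rfl, fun _ hg u v c _ => eich_conj (E_le_iso hg) u v c⟩

namespace Lift

variable {ρ : E →* (V ≃ₗ[F] V)} {ℓ : (V ≃ₗ[F] V) → E} (L : Lift f ρ ℓ)
include L

theorem one : ℓ 1 = 1 := by
  have := L.mul 0 0 0 0 0 ⟨by simp, by simp, by simp⟩ ⟨by simp, by simp, by simp⟩
  simpa using this

theorem inv {u v : V} {c : F} (h : f.EichOk u v c) : ℓ (f.eich u v c)⁻¹ = (ℓ (f.eich u v c))⁻¹ := by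
  rw [eq_inv_iff_mul_eq_one, eich_inv (f.B_self_of_Q h.hu) h.hv, ← L.mul _ _ _ _ _ h.inv h, ← eich_inv (f.B_self_of_Q h.hu) h.hv,
    inv_mul_cancel, L.one]

theorem mem_SW {W : Submodule F V} {u : V} (hu : f.Q u = 0) {e : E} :
    e ∈ SW f ℓ W u ↔ ∃ v ∈ W, ∃ c, f.EichOk u v c ∧ e = ℓ (f.eich u v c) := by
  refine ⟨fun h => ?_, fun h => Subgroup.subset_closure h⟩
  induction h using Subgroup.closure_induction with
  | mem x hx => exact hx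
  | one => exact ⟨0, zero_mem _, 0, ⟨hu, by simp, by simp⟩, by simp [L.one]⟩
  | mul x y _ _ h1 h2 =>
    obtain ⟨v, hv, c, h, rfl⟩ := h1
    obtain ⟨v', hv', c', h', rfl⟩ := h2
    exact ⟨_, add_mem hv hv', _, h.mul h', by rw [← L.mul _ _ _ _ _ h h', eich_mul (f.B_self_of_Q hu) h.hv h'.hv]⟩
  | inv x _ h1 =>
    obtain ⟨v, hv, c, h, rfl⟩ := h1
    exact ⟨_, neg_mem hv, _, h.inv, by rw [← L.inv h, eich_inv (f.B_self_of_Q hu) h.hv]⟩

theorem mem_GW {W : Submodule F V} {u v : V} {c : F} (hu : u ∈ W) (hv : v ∈ W) (h : f.EichOk u v c) :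
    ℓ (f.eich u v c) ∈ GW f ℓ W := by
  by_cases h0 : u = 0
  · rw [h0, eich_zero_left, L.one]; exact one_mem _
  · exact Geo.S_le_H ⟨hu, h0, h.hu⟩ (Subgroup.subset_closure ⟨v, hv, c, h, rfl⟩)

theorem GW_ind {W : Submodule F V} {M : Subgroup E} (h : ∀ u ∈ W, ∀ v ∈ W, ∀ c, u ≠ 0 → f.EichOk u v c → ℓ (f.eich u v c) ∈ M) :
    GW f ℓ W ≤ M := (Subgroup.closure_le _).2 fun _ ⟨u, hu, hs⟩ => by
  obtain ⟨v, hv, c, h1, rfl⟩ := (L.mem_SW hu.2.2).1 hs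
  exact h u hu.1 v hv c hu.2.1 h1

theorem GW_mono {W W' : Submodule F V} (h : W ≤ W') : GW f ℓ W ≤ GW f ℓ W' :=
  L.GW_ind fun _ hu _ hv _ _ hh => L.mem_GW (h hu) (h hv) hh

theorem GW_prop {W : Submodule F V} {g : E} (hg : g ∈ GW f ℓ W) :
    ρ g ∈ f.E ∧ (∀ x ∈ W, ρ g x ∈ W) ∧ ∀ x ∈ f.perp W, ρ g x = x := by
  have k : ∀ u, ptW f W u → ∀ s ∈ SW f ℓ W u, ρ s ∈ f.E ∧ (∀ x ∈ W, ρ s x ∈ W) ∧ ∀ x ∈ f.perp W, ρ s x = x := fun u hu s hs => by
    obtain ⟨v, hv, c, h1, rfl⟩ := (L.mem_SW hu.2.2).1 hs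
    rw [L.map _ _ _ h1]
    refine ⟨h1.mem_E, fun x hx => ?_, fun x hx => eich_fix c (hx u hu.1) (hx v hv)⟩
    rw [h1.apply]
    exact sub_mem (add_mem hx (smul_mem _ _ hu.1)) (smul_mem _ _ (add_mem (smul_mem _ _ hv) (smul_mem _ _ hu.1)))
  have k2 : ∀ s g : E, (ρ s ∈ f.E ∧ (∀ x ∈ W, ρ s x ∈ W) ∧ ∀ x ∈ f.perp W, ρ s x = x) →
      (ρ g ∈ f.E ∧ (∀ x ∈ W, ρ g x ∈ W) ∧ ∀ x ∈ f.perp W, ρ g x = x) →
      (ρ (s * g) ∈ f.E ∧ (∀ x ∈ W, ρ (s * g) x ∈ W) ∧ ∀ x ∈ f.perp W, ρ (s * g) x = x) := fun s g h1 h2 =>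
    ⟨by rw [map_mul]; exact mul_mem h1.1 h2.1, fun x hx => by rw [mul_app]; exact h1.2.1 _ (h2.2.1 x hx),
      fun x hx => by rw [mul_app, h2.2.2 x hx, h1.2.2 x hx]⟩
  induction hg using Subgroup.closure_induction_left with
  | one => simp [one_mem]
  | mul_left s hs g _ ih => obtain ⟨u, h1, h2⟩ := hs; exact k2 _ _ (k u h1 s h2) ih
  | inv_mul_cancel s hs g _ ih => obtain ⟨u, h1, h2⟩ := hs; exact k2 _ _ (k u h1 _ (inv_mem h2)) ih

theorem conj_SW {W : Submodule F V} {g : E} (hg : ρ g ∈ f.E) (hW : ∀ x ∈ W, ρ g x ∈ W) {u : V} (hu : f.Q u = 0) {s : E}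
    (hs : s ∈ SW f ℓ W u) : g * s * g⁻¹ ∈ SW f ℓ W (ρ g u) := by
  obtain ⟨v, hv, c, h1, rfl⟩ := (L.mem_SW hu).1 hs
  rw [L.conj g hg _ _ _ h1]
  exact Subgroup.subset_closure ⟨_, hW v hv, c, h1.map (E_le_iso hg), rfl⟩

theorem SW_smul_le {W : Submodule F V} {u : V} (hu : f.Q u = 0) {c : F} (hc : c ≠ 0) : SW f ℓ W (c • u) ≤ SW f ℓ W u := fun s hs => by
  obtain ⟨v, hv, d, h1, rfl⟩ := (L.mem_SW (f.Q_smul_of_Q hu c)).1 hs
  have h2 := EichOk.smul hu hc h1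
  have : f.B v u = 0 := by
    have := h1.hv; rwa [B_smul_right, mul_eq_zero, or_iff_right (T.σ_ne_zero hc)] at this
  rw [eich_smul (f.B_self_of_Q hu) this]
  exact Subgroup.subset_closure ⟨_, smul_mem _ _ hv, _, h2, rfl⟩

theorem eq_one_of_fix {W : Submodule F V} {u a : V} (hu : f.Q u = 0) {s : E} (hs : s ∈ SW f ℓ W u) (ha : f.B a u ≠ 0)
    (e : ρ s a = a) : s = 1 := by
  obtain ⟨v, hv, c, h1, rfl⟩ := (L.mem_SW hu).1 hs
  rw [L.map _ _ _ h1] at e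
  rw [eich_eq_one h1 ha e, L.one]

variable [FiniteDimensional F V] (hf : f.Nondeg) {W : Submodule F V} (hW : W ⊓ f.perp W = ⊥)
include hf hW

theorem geo : Geo ρ (ptW f W) (fun a b => f.B a b = 0) (SW f ℓ W) where
  ne _ h := h.2.1
  symm _ _ := f.B_zero_symm
  refl _ h := f.B_self_of_Q h.2.2
  spt a b ha hb hab x hx h0 := by
    obtain ⟨α, β, rfl⟩ := mem_span_pair.1 hx
    refine ⟨add_mem (smul_mem _ _ ha.1) (smul_mem _ _ hb.1), h0, ?_⟩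
    rw [f.Q_add_of_perp (by simp [hab]), f.Q_smul_of_Q ha.2.2, f.Q_smul_of_Q hb.2.2, add_zero]
  sadj a b c h1 h2 x hx := by
    obtain ⟨α, β, rfl⟩ := mem_span_pair.1 hx
    simp [h1, h2]
  Ssmul u c hu hc := le_antisymm (L.SW_smul_le hu.2.2 hc) (by
    have := L.SW_smul_le (W := W) (f.Q_smul_of_Q hu.2.2 c) (inv_ne_zero hc)
    rwa [smul_smul, inv_mul_cancel₀ hc, one_smul] at this)
  ptm g hg a ha := ⟨(L.GW_prop hg).2.1 a ha.1, by simpa using ha.2.1, (iso_Q (E_le_iso (L.GW_prop hg).1) a).trans ha.2.2⟩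
  adjm g hg a b := by rw [iso_B (E_le_iso (L.GW_prop hg).1)]
  conj g hg u hu s hs := L.conj_SW (L.GW_prop hg).1 (L.GW_prop hg).2.1 hu.2.2 hs
  self u hu s hs := by
    obtain ⟨v, hv, c, h1, rfl⟩ := (L.mem_SW hu.2.2).1 hs
    rw [L.map _ _ _ h1, h1.apply_self]
  fix u hu s hs x hx := by
    obtain ⟨v, hv, c, h1, rfl⟩ := (L.mem_SW hu.2.2).1 hs
    exact ⟨f.B x v, by rw [L.map _ _ _ h1, h1.apply, f.B_zero_symm hx]; simp⟩
  tr u x hu hx h hn t := by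
    obtain ⟨v, hv, h1, h2⟩ := exists_perp_W hf hW ((span_singleton_le_iff_mem _ _).2 hu.1) hx.1 hn t
    obtain ⟨c, hc⟩ := exists_c f hu.2.2 (h1 u (mem_span_singleton_self u))
    exact ⟨_, Subgroup.subset_closure ⟨v, hv, c, hc, rfl⟩, by rw [L.map _ _ _ hc, hc.apply, f.B_zero_symm h, h2]; simp⟩

omit hf in
theorem trans {a c : V} (ha : ptW f W a) (hc : ptW f W c) (hB : f.B a c ≠ 0) (hT : f.Thick (W ⊓ f.perp (span F {a, c})))
    {b b' : V} (hb : ptW f (W ⊓ f.perp (span F {a, c})) b) (hb' : ptW f (W ⊓ f.perp (span F {a, c})) b') :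
    ∃ l ∈ gS ρ (ptW f W) (SW f ℓ W) a, l ∈ gS ρ (ptW f W) (SW f ℓ W) c ∧ ∃ k : F, k ≠ 0 ∧ ρ l b = k • b' := by
  obtain ⟨_, ⟨l, hl, rfl⟩, -, -, e⟩ := hT.exists_E_map (inf_pair_nondeg hW ha.1 hc.1 ha.2.2 hc.2.2 hB)
    (S := (gS ρ (ptW f W) (SW f ℓ W) a ⊓ gS ρ (ptW f W) (SW f ℓ W) c).map ρ) (fun u hu v hv d h => by
      by_cases h0 : u = 0
      · rw [h0, eich_zero_left]; exact one_mem _
      have h1 := f.mem_perp_pair.1 hu.2
      have h2 := f.mem_perp_pair.1 hv.2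
      refine ⟨ℓ (f.eich u v d), ⟨Subgroup.subset_closure ⟨u, ⟨hu.1, h0, h.hu⟩, Subgroup.subset_closure ⟨v, hv.1, d, h, rfl⟩, ?_⟩,
        Subgroup.subset_closure ⟨u, ⟨hu.1, h0, h.hu⟩, Subgroup.subset_closure ⟨v, hv.1, d, h, rfl⟩, ?_⟩⟩, L.map _ _ _ h⟩ <;>
        rw [L.map _ _ _ h]
      exacts [eich_fix d (f.B_zero_symm h1.1) (f.B_zero_symm h2.1), eich_fix d (f.B_zero_symm h1.2) (f.B_zero_symm h2.2)])
    hb.1 hb'.1 hb.2.1 hb'.2.1 hb.2.2 hb'.2.2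
  exact ⟨l, hl.1, hl.2, e⟩

omit hf hW L in
theorem exists_pt_perp (h2 : ∃ y y', ptW f W y ∧ ptW f W y' ∧ f.B y y' = 0 ∧ y' ∉ span F {y}) {a : V} (ha : ptW f W a) :
    ∃ b, ptW f W b ∧ f.B a b = 0 ∧ b ∉ span F {a} := by
  obtain ⟨y, y', hy, hy', e, hn⟩ := h2
  by_cases h1 : f.B y a = 0
  · by_cases h3 : y ∈ span F {a}
    · obtain ⟨k, rfl⟩ := mem_span_singleton.1 h3
      have hk : k ≠ 0 := by rintro rfl; exact hy.2.1 (by simp)
      rw [span_singleton_smul_eq (IsUnit.mk0 k hk)] at hn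
      exact ⟨y', hy', by simpa [hk] using e, hn⟩
    · exact ⟨y, hy, f.B_zero_symm h1, h3⟩
  · have hx : y' - (f.B y' a / f.B y a) • y ≠ 0 := fun h => hn (by rw [sub_eq_zero.1 h]; exact smul_mem _ _ (mem_span_singleton_self _))
    refine ⟨_, ⟨sub_mem hy'.1 (smul_mem _ _ hy.1), hx, ?_⟩, f.B_zero_symm (by simp [h1]), fun h => ?_⟩
    · rw [f.Q_sub, f.Q_smul_of_Q hy.2.2, hy'.2.2]; simp [f.B_zero_symm e]
    · obtain ⟨k, hk⟩ := mem_span_singleton.1 h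
      have hk0 : k ≠ 0 := by rintro rfl; exact hx (by simpa using hk.symm)
      have := congrArg (f.B y) hk
      simp [e, f.B_self_of_Q hy.2.2, hk0, h1] at this

omit hf hW L in
theorem proj {a a' : V} (ha : ptW f W a) (ha' : ptW f W a') (hB : f.B a a' = 1) {u : V} (hu : u ∈ W) (h : f.B u a = 0) :
    u - f.B u a' • a ∈ W ⊓ f.perp (span F {a, a'}) ∧ f.Q (u - f.B u a' • a) = f.Q u :=
  ⟨⟨sub_mem hu (smul_mem _ _ ha.1), f.mem_perp_pair.2 ⟨by simp [h, f.B_self_of_Q ha.2.2], by simp [hB]⟩⟩, by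
    rw [f.Q_sub, f.Q_smul_of_Q ha.2.2]; simp [h]⟩

theorem stab [Finite F] (hT : ∀ a c, ptW f W a → ptW f W c → f.B a c ≠ 0 → f.Thick (W ⊓ f.perp (span F {a, c})))
    (h2 : ∃ y y', ptW f W y ∧ ptW f W y' ∧ f.B y y' = 0 ∧ y' ∉ span F {y}) {a : V} (ha : ptW f W a) {g : E} (hg : g ∈ GW f ℓ W)
    (hga : ρ g a = a) : g ∈ gS ρ (ptW f W) (SW f ℓ W) a := by
  have G := L.geo hf hW
  refine G.stab ?_ ?_ ?_ ?_ ha (exists_pt_perp h2 ha) hg hga
  · intro a b c ha hb hc hab hbc hac hn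
    obtain ⟨v, hv, h1, h2⟩ := exists_perp_W hf hW (span_le.2 (by
      rintro _ (rfl | rfl)
      exacts [sub_mem hb.1 ha.1, sub_mem hc.1 ha.1])) ha.1 hn 1
    obtain ⟨k, hk⟩ := f.exists_Q_add_smul (x := v) ha.2.2 (f.B_ne_symm (by rw [h2]; exact one_ne_zero)) 0
    have e1 := h1 (b - a) (subset_span (by simp))
    have e2 := h1 (c - a) (subset_span (by simp))
    set w := v + k • a
    have wa : f.B a w = 1 := by simp [w, h2, f.B_self_of_Q ha.2.2]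
    have w1 : f.B w (b - a) = 0 := by rw [f.B_add_left, e1]; simp [hab, f.B_self_of_Q ha.2.2]
    have w2 : f.B w (c - a) = 0 := by rw [f.B_add_left, e2]; simp [hac, f.B_self_of_Q ha.2.2]
    have wb : f.B b w = 1 := by have := f.B_zero_symm w1; rw [f.B_sub_left, wa] at this; exact sub_eq_zero.1 this
    have wc : f.B c w = 1 := by have := f.B_zero_symm w2; rw [f.B_sub_left, wa] at this; exact sub_eq_zero.1 this
    have hw : ptW f W w := ⟨add_mem hv (smul_mem _ _ ha.1), by rintro e; simp [e] at wa, by simpa using hk⟩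
    have key : ∀ x y, ptW f W x → ptW f W y → f.B x y = 0 → f.B x w = 1 → f.B y w = 1 →
        ∃ t ∈ gK F (ptW f W) (SW f ℓ W) x y, t ∈ SW f ℓ W w ∧ ρ t x = y := fun x y hx hy hxy e1 e2 => by
      have q : f.Q (y - x) = 0 := by rw [f.Q_sub, hx.2.2, hy.2.2, f.B_zero_symm hxy]; simp
      have o : f.EichOk (y - x) w 0 := ⟨q, f.B_zero_symm (by simp [e1, e2]), by simp [hw.2.2]⟩
      refine ⟨ℓ (f.eich (y - x) w 0), ?_, ?_, ?_⟩
      · by_cases h0 : y - x = 0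
        · rw [h0, eich_zero_left, L.one]; exact one_mem _
        exact Subgroup.subset_closure ⟨y - x, sub_mem (subset_span (by simp)) (subset_span (by simp)), ⟨sub_mem hy.1 hx.1, h0, q⟩,
          Subgroup.subset_closure ⟨w, hw.1, 0, o, rfl⟩⟩
      · rw [eich_swap q hw.2.2 o.hv]
        exact Subgroup.subset_closure ⟨_, smul_mem _ _ (sub_mem hy.1 hx.1), 0,
          ⟨hw.2.2, by rw [B_smul_left, f.B_zero_symm o.hv, mul_zero], by rw [f.Q_smul_of_Q q]; simp⟩, rfl⟩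
      · rw [L.map _ _ _ o, o.apply, e1]; simp [hxy, f.B_self_of_Q hx.2.2]
    obtain ⟨t1, m1, n1, k1⟩ := key a b ha hb hab wa wb
    obtain ⟨t2, m2, n2, k2⟩ := key b c hb hc hbc wb wc
    obtain ⟨t3, m3, n3, k3⟩ := key a c ha hc hac wa wc
    exact ⟨t1, m1, t2, m2, t3, m3, k1, k2, k3, Subgroup.subset_closure ⟨w, hw, mul_mem (inv_mem n3) (mul_mem n2 n1), by
      rw [mul_app, mul_app, k1, k2, inv_app ρ k3]⟩⟩
  · intro a c b b' ha hc hb hb' h0 h1 h2 h3 h4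
    obtain ⟨l, l1, l2, k, -, e⟩ := L.trans hW ha hc h0 (hT a c ha hc h0) (b := b) (b' := b')
      ⟨⟨hb.1, f.mem_perp_pair.2 ⟨f.B_zero_symm h1, h2⟩⟩, hb.2⟩ ⟨⟨hb'.1, f.mem_perp_pair.2 ⟨f.B_zero_symm h3, h4⟩⟩, hb'.2⟩
    exact ⟨l, l1, l2, by simp [e, f.B_self_of_Q hb'.2.2]⟩
  · intro a b c ha hb hc h1 h3 h4
    have h1' := f.B_ne_symm h1
    by_cases hx : c - (f.B c a / f.B b a) • b = 0
    · obtain ⟨y, hy, e, hn⟩ := exists_pt_perp h2 ha
      have hz : y - (f.B y b / f.B a b) • a ≠ 0 := fun h => hn (by rw [sub_eq_zero.1 h]; exact smul_mem _ _ (mem_span_singleton_self _))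
      have i1 : f.B (y - (f.B y b / f.B a b) • a) b = 0 := by simp [h1]
      refine ⟨_, ⟨sub_mem hy.1 (smul_mem _ _ ha.1), hz, ?_⟩, by simp [e, f.B_self_of_Q ha.2.2], i1, by
        rw [sub_eq_zero.1 hx, B_smul_right, i1, mul_zero]⟩
      rw [f.Q_sub, f.Q_smul_of_Q ha.2.2, hy.2.2]; simp [f.B_zero_symm e]
    · refine ⟨_, ⟨sub_mem hc.1 (smul_mem _ _ hb.1), hx, ?_⟩, f.B_zero_symm (by simp [h1']),
        by simp [f.B_zero_symm h3, f.B_self_of_Q hb.2.2], by simp [h3, f.B_self_of_Q hc.2.2]⟩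
      rw [f.Q_sub, f.Q_smul_of_Q hb.2.2, hc.2.2]; simp [f.B_zero_symm h3]
  · intro a b b' ha hb hb' h1 h3 n1 n2
    obtain ⟨a', m, q, e⟩ := exists_partner_of_nondeg hW ha.1 ha.2.1 ha.2.2
    have ha' : ptW f W a' := ⟨m, by rintro rfl; simp at e, q⟩
    have p1 := proj ha ha' e hb.1 (f.B_zero_symm h1)
    have p2 := proj ha ha' e hb'.1 (f.B_zero_symm h3)
    obtain ⟨l, l1, -, k, -, e2⟩ := L.trans hW ha ha' (by simp [e]) (hT a a' ha ha' (by simp [e]))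
      ⟨p1.1, fun h => n1 (by rw [sub_eq_zero.1 h]; exact smul_mem _ _ (mem_span_singleton_self _)), p1.2.trans hb.2.2⟩
      ⟨p2.1, fun h => n2 (by rw [sub_eq_zero.1 h]; exact smul_mem _ _ (mem_span_singleton_self _)), p2.2.trans hb'.2.2⟩
    rw [map_sub, map_smul, Geo.gS_fix l1, sub_eq_iff_eq_add] at e2
    exact ⟨l, l1, mem_span_pair.2 ⟨f.B b a' - k * f.B b' a', k, by rw [e2]; module⟩⟩

theorem decomp {a a' : V} (ha : ptW f W a) (ha' : ptW f W a') (hB : f.B a a' = 1) {g : E}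
    (hg : g ∈ gS ρ (ptW f W) (SW f ℓ W) a) : ∃ r ∈ SW f ℓ W a, ∃ l ∈ GW f ℓ (W ⊓ f.perp (span F {a, a'})), g = r * l := by
  have G := L.geo hf hW
  have nrm : ∀ l ∈ GW f ℓ (W ⊓ f.perp (span F {a, a'})), ∀ r ∈ SW f ℓ W a, l * r * l⁻¹ ∈ SW f ℓ W a := fun l hl r hr => by
    have := G.conj l (L.GW_mono inf_le_left hl) a ha r hr
    rwa [(L.GW_prop hl).2.2 a fun x hx => f.B_zero_symm (hx.2 a (subset_span (by simp)))] at this
  let M : Subgroup E :=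
    { carrier := {g | ∃ r ∈ SW f ℓ W a, ∃ l ∈ GW f ℓ (W ⊓ f.perp (span F {a, a'})), g = r * l}
      one_mem' := ⟨1, one_mem _, 1, one_mem _, by simp⟩
      mul_mem' := by
        rintro _ _ ⟨x, hx, k, hk, rfl⟩ ⟨x', hx', k', hk', rfl⟩
        exact ⟨_, mul_mem hx (nrm k hk x' hx'), k * k', mul_mem hk hk', by group⟩
      inv_mem' := by
        rintro _ ⟨x, hx, k, hk, rfl⟩
        exact ⟨_, nrm k⁻¹ (inv_mem hk) _ (inv_mem hx), k⁻¹, inv_mem hk, by group⟩ }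
  have m1 : SW f ℓ W a ≤ M := fun r hr => ⟨r, hr, 1, one_mem _, by simp⟩
  have m2 : GW f ℓ (W ⊓ f.perp (span F {a, a'})) ≤ M := fun r hr => ⟨1, one_mem _, r, hr, by simp⟩
  have key : ∀ w, ptW f (W ⊓ f.perp (span F {a, a'})) w → ∀ s ∈ SW f ℓ W w, ρ s a = a → s ∈ M := fun w hw s hs e => by
    obtain ⟨v, hv, c, h1, rfl⟩ := (L.mem_SW hw.2.2).1 hs
    have i1 := f.mem_perp_pair.1 hw.1.2
    rw [L.map _ _ _ h1, h1.apply, f.B_zero_symm i1.1, zero_smul, sub_zero, add_eq_left, smul_eq_zero, or_iff_left hw.2.1] at e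
    have p := proj ha ha' hB hv (f.B_zero_symm e)
    have o1 : f.EichOk w (v - f.B v a' • a) c := ⟨h1.hu, by simp [h1.hv, f.B_zero_symm i1.1], h1.hc.trans p.2.symm⟩
    have q := f.Q_smul_of_Q ha.2.2 (f.B v a')
    have o2 : f.EichOk w (f.B v a' • a) 0 := ⟨h1.hu, by simp [f.B_zero_symm i1.1], by simp [q]⟩
    have : f.eich w v c = f.eich w (v - f.B v a' • a) c * f.eich w (f.B v a' • a) 0 := by
      rw [eich_mul (f.B_self_of_Q h1.hu) o1.hv o2.hv]; simp [e, f.B_self_of_Q ha.2.2]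
    rw [this, L.mul _ _ _ _ _ o1 o2]
    refine mul_mem (m2 (L.mem_GW hw.1 p.1 o1)) (m1 ?_)
    rw [eich_swap h1.hu q o2.hv]
    by_cases h0 : f.B v a' = 0
    · rw [h0, zero_smul, eich_zero_left, L.one]; exact one_mem _
    · exact L.SW_smul_le ha.2.2 h0 (Subgroup.subset_closure ⟨_, smul_mem _ _ hw.1.1, 0,
        ⟨q, by simp [i1.1], by rw [f.Q_smul_of_Q h1.hu]; simp⟩, rfl⟩)
  refine (show _ ≤ M from (Subgroup.closure_le _).2 ?_) hg
  rintro s ⟨u, hu, hs, e⟩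
  by_cases h1 : f.B a u = 0
  swap
  · rw [L.eq_one_of_fix hu.2.2 hs h1 e]; exact one_mem M
  by_cases h3 : u ∈ span F {a}
  · obtain ⟨k, rfl⟩ := mem_span_singleton.1 h3
    exact m1 (L.SW_smul_le ha.2.2 (by rintro rfl; exact hu.2.1 (by simp)) hs)
  have p := proj ha ha' hB hu.1 (f.B_zero_symm h1)
  obtain ⟨r, hr, e2⟩ := G.tr a u ha hu h1 h3 (-f.B u a')
  have i1 := G.conj r (Geo.S_le_H ha hr) u hu s hs
  rw [e2, neg_smul, ← sub_eq_add_neg] at i1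
  have := key _ ⟨p.1, fun h => h3 (by rw [sub_eq_zero.1 h]; exact smul_mem _ _ (mem_span_singleton_self _)), p.2.trans hu.2.2⟩ _ i1
    (by rw [mul_app, mul_app, G.self a ha _ (inv_mem hr), e, G.self a ha _ hr])
  simpa [mul_assoc] using mul_mem (mul_mem (inv_mem (m1 hr)) this) (m1 hr)

/-- the stabiliser of a singular vector -/
theorem step [Finite F] (hT : ∀ a c, ptW f W a → ptW f W c → f.B a c ≠ 0 → f.Thick (W ⊓ f.perp (span F {a, c})))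
    (h2 : ∃ y y', ptW f W y ∧ ptW f W y' ∧ f.B y y' = 0 ∧ y' ∉ span F {y}) {a a' : V} (ha : ptW f W a) (ha' : ptW f W a')
    (hB : f.B a a' = 1) {g : E} (hg : g ∈ GW f ℓ W) (hga : ρ g a = a) :
    ∃ r ∈ SW f ℓ W a, ∃ l ∈ GW f ℓ (W ⊓ f.perp (span F {a, a'})), g = r * l :=
  L.decomp hf hW ha ha' hB (L.stab hf hW hT h2 ha hg hga)

theorem step2 [Finite F] (hT : ∀ a c, ptW f W a → ptW f W c → f.B a c ≠ 0 → f.Thick (W ⊓ f.perp (span F {a, c})))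
    (h2 : ∃ y y', ptW f W y ∧ ptW f W y' ∧ f.B y y' = 0 ∧ y' ∉ span F {y}) {a a' : V} (ha : ptW f W a) (ha' : ptW f W a')
    (hB : f.B a a' = 1) {g : E} (hg : g ∈ GW f ℓ W) (hga : ρ g a = a) (hga' : ρ g a' = a') :
    g ∈ GW f ℓ (W ⊓ f.perp (span F {a, a'})) := by
  obtain ⟨r, hr, l, hl, rfl⟩ := L.step hf hW hT h2 ha ha' hB hg hga
  rw [mul_app, (L.GW_prop hl).2.2 a' fun x hx => f.B_zero_symm (hx.2 a' (subset_span (by simp)))] at hga'
  rwa [L.eq_one_of_fix ha.2.2 hr (f.B_ne_symm (by simp [hB])) hga', one_mul]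

end Lift

end Cfsg.Agent.C3.SM
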