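import Cfsg.Agent.C3.SM3
import Cfsg.Agent.H4.Lin

/-! The group generated by an equivariant system of lifts of the Eichler transformations of an orthogonal or symplectic space. -/

set_option autoImplicit false

namespace Cfsg.Agent.C3.SM

open Submodule Module H4 H4.CForm

theorem R1.ker2 {K E : Type*} [Field K] [Finite K] [Group E] {x y : K → E} (H : R1 x y) (N : Subgroup E)
    (h1 : ∀ s, x s ∈ N → x s = 1) (h2 : ∀ s t, t ≠ 0 → x s * hh x y t ∈ N → t ^ 2 = 1)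
    (h3 : ∀ s t s', t ≠ 0 → x s * ww x y t * x s' ∉ N) :
    ∃ c, (∀ g ∈ Subgroup.closure (Set.range x ∪ Set.range y), g ∈ N → g = 1 ∨ g = c) ∧ ((2 : K) = 0 → c = 1) := by
  have key : ∀ g ∈ Subgroup.closure (Set.range x ∪ Set.range y), g ∈ N → g = 1 ∨ ∃ s, g = x s * hh x y (-1) := fun g hg hN => by
    rcases H.nf hg with ⟨s, t, ht, rfl⟩ | ⟨s, t, s', ht, rfl⟩
    · rcases mul_self_eq_one_iff.1 ((sq t).symm.trans (h2 s t ht hN)) with rfl | rfl
      · rw [H.h1, mul_one] at hN ⊢; exact .inl (h1 s hN)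
      · exact .inr ⟨s, rfl⟩
    · exact absurd hN (h3 s t s' ht)
  by_cases h : ∃ s, x s * hh x y (-1) ∈ N
  · obtain ⟨s, hs⟩ := h
    refine ⟨x s * hh x y (-1), fun g hg hN => (key g hg hN).imp id ?_, fun e => ?_⟩
    · rintro ⟨s', rfl⟩
      have := h1 (s' + -s) (by rw [H.xa, H.xn]; simpa [mul_assoc] using mul_mem hN (inv_mem hs))
      rw [H.xa, H.xn, mul_inv_eq_one] at this
      rw [this]
    · rw [show (-1 : K) = 1 by linear_combination -e, H.h1, mul_one] at hs ⊢; exact h1 s hs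
  · exact ⟨1, fun g hg hN => .inl ((key g hg hN).resolve_right fun ⟨s, e⟩ => h ⟨s, e ▸ hN⟩), fun _ => rfl⟩

variable {F : Type*} [Field F] {V : Type*} [AddCommGroup V] [Module F V] {E : Type*} [Group E]
  {ρ : E →* (V ≃ₗ[F] V)} {ℓ : (V ≃ₗ[F] V) → E}

theorem finrank_inf_pair {T : FType F} {f : CForm T V} [FiniteDimensional F V] {W : Submodule F V} {a c : V} (ha : ptW f W a)
    (hc : ptW f W c) (h : f.B a c ≠ 0) : finrank F (W ⊓ f.perp (span F {a, c}) : Submodule F V) + 2 = finrank F W := by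
  have h1 := finrank_inf_perp_singleton (f := f) ha.1 h
  have h2 := finrank_inf_perp_singleton (f := f) (W := W ⊓ f.perp (span F {c})) (u := c) (w := a)
    ⟨hc.1, f.mem_perp_singleton.2 (f.B_self_of_Q hc.2.2)⟩ (f.B_ne_symm h)
  rw [inf_assoc, ← f.perp_sup, ← span_insert, Set.pair_comm] at h2
  omega

namespace Lift

section
variable {T : FType F} {f : CForm T V} (L : Lift f ρ ℓ)
include L

theorem opp {W : Submodule F V} {M : Subgroup E} {u u' w : V} (hu : ptW f W u) (hu' : ptW f W u') (hw : ptW f W w)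
    (m : SW f ℓ W u ≤ M) (m' : SW f ℓ W u' ≤ M) (h1 : f.B u' u ≠ 0) (h2 : f.B w u ≠ 0) : SW f ℓ W w ≤ M := by
  have hk : f.B w u / f.B u' u ≠ 0 := div_ne_zero h2 h1
  obtain ⟨k, c, o, e⟩ := exists_eich_map (f := f) (u := u) (w := (f.B w u / f.B u' u) • u') (w' := w) hu.2.2 (by simp [h1])
    (by simp [h1, h2]) (by rw [f.Q_smul_of_Q hu'.2.2, hw.2.2])
  have hv := smul_mem W k (sub_mem (smul_mem W (f.B w u / f.B u' u) hu'.1) hw.1)
  have s1 : ℓ (f.eich u _ c) ∈ SW f ℓ W u := Subgroup.subset_closure ⟨_, hv, c, o, rfl⟩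
  have g1 := L.GW_prop (inv_mem (L.mem_GW hu.1 hv o))
  intro s hs
  have := L.conj_SW g1.1 g1.2.1 hw.2.2 hs
  rw [inv_app ρ (by rw [L.map _ _ _ o, e])] at this
  simpa [mul_assoc] using mul_mem (mul_mem (m s1) (m' (L.SW_smul_le hu'.2.2 hk this))) (inv_mem (m s1))

theorem GW_le [FiniteDimensional F V] (hf : f.Nondeg) {W : Submodule F V} (hW : W ⊓ f.perp W = ⊥) {M : Subgroup E} {a a' : V}
    (ha : ptW f W a) (ha' : ptW f W a') (hB : f.B a a' = 1) (m : SW f ℓ W a ≤ M) (m' : SW f ℓ W a' ≤ M) : GW f ℓ W ≤ M := by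
  have hB0 : f.B a a' ≠ 0 := by simp [hB]
  refine (Subgroup.closure_le _).2 fun s ⟨u, hu, hs⟩ => (?_ : SW f ℓ W u ≤ M) hs
  by_cases h1 : f.B u a = 0
  swap
  · exact L.opp ha ha' hu m m' (f.B_ne_symm hB0) h1
  by_cases h2 : f.B u a' = 0
  swap
  · exact L.opp ha' ha hu m' m hB0 h2
  obtain ⟨v, hv, h3⟩ := exists_B_ne_of_nondeg (inf_pair_nondeg hW ha.1 ha'.1 ha.2.2 ha'.2.2 hB0)
    (⟨hu.1, f.mem_perp_pair.2 ⟨h1, h2⟩⟩ : u ∈ W ⊓ f.perp (span F {a, a'})) hu.2.1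
  obtain ⟨c, o⟩ := exists_c f ha.2.2 (f.mem_perp_pair.1 hv.2).1
  have G := L.geo hf hW
  have p := G.ptm _ (L.mem_GW ha.1 hv.1 o) a' ha'
  rw [L.map _ _ _ o] at p
  have e1 : f.B (f.eich a v c a') a ≠ 0 := by
    nth_rewrite 2 [← o.apply_self]; rw [iso_B o.mem_iso]; exact f.B_ne_symm hB0
  have m2 := L.opp ha ha' p m m' (f.B_ne_symm hB0) e1
  refine L.opp p ha hu m2 m (f.B_ne_symm e1) ?_
  rw [o.apply]
  simp [h1, h2, h3, T.ε_ne, f.B_ne_symm hB0]

theorem ker_one {u v : V} {c : F} (o : f.EichOk u v c) (h : ℓ (f.eich u v c) ∈ ρ.ker) : ℓ (f.eich u v c) = 1 := by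
  rw [MonoidHom.mem_ker, L.map _ _ _ o] at h
  rw [h, L.one]

end

section orth
variable {f : CForm (FType.orth F) V}

theorem w_calc {a a' v : V} (ha : f.Q a = 0) (ha' : f.Q a' = 0) (hB : f.B a a' = 1) (h1 : f.B v a = 0) (h2 : f.B v a' = 0)
    (hv : f.Q v ≠ 0) {g : V ≃ₗ[F] V}
    (hg : g = f.eich a v (f.Q v) * f.eich a' ((f.Q v)⁻¹ • v) (f.Q ((f.Q v)⁻¹ • v)) * f.eich a v (f.Q v)) :
    g a = (-(f.Q v)⁻¹) • a' ∧ g a' = (-f.Q v) • a ∧
      ∀ z, f.B z a = 0 → f.B z a' = 0 → g z = z - ((f.Q v)⁻¹ * f.B z v) • v := by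
  have o1 := orth_eichOk ha h1
  have o2 := orth_eichOk (v := (f.Q v)⁻¹ • v) ha' (by simp [h2])
  have e1 := f.B_self_of_Q ha
  have e2 := f.B_self_of_Q ha'
  have e3 : f.B a' a = 1 := by rw [f.symm, hB]; simp
  have e4 := f.B_zero_symm h1
  have e5 := f.B_zero_symm h2
  have e6 : f.B v v = 2 * f.Q v := by rw [f.B_self]; simp
  have e7 : f.Q ((f.Q v)⁻¹ • v) = (f.Q v)⁻¹ := by rw [f.Q_smul]; simp; field_simp
  rw [e7] at hg o2
  subst hg
  clear e7
  refine ⟨?_, ?_, fun z z1 z2 => ?_⟩ <;>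
    simp only [LinearEquiv.mul_apply, o1.apply, o2.apply, map_add, map_sub, map_smul, LinearMap.add_apply, LinearMap.sub_apply,
      LinearMap.smul_apply, LinearMap.map_smulₛₗ, smul_eq_mul, FType.orth_σ, FType.orth_ε, *] <;>
    match_scalars <;> field_simp <;> ring

variable (L : Lift f ρ ℓ) [FiniteDimensional F V] (hf : f.Nondeg) {W : Submodule F V} (hW : W ⊓ f.perp W = ⊥) {a a' : V}
    (ha : ptW f W a) (ha' : ptW f W a') (hB : f.B a a' = 1)
include L hf hW ha ha' hB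

omit hf hW in
theorem SW_orth {s : E} (hs : s ∈ SW f ℓ W a) : ∃ v ∈ W ⊓ f.perp (span F {a, a'}), s = ℓ (f.eich a v (f.Q v)) := by
  obtain ⟨v, hv, c, o, rfl⟩ := (L.mem_SW ha.2.2).1 hs
  have p := proj ha ha' hB hv o.hv
  refine ⟨_, p.1, ?_⟩
  rw [p.2, ← o.orth_eq, sub_eq_add_neg, ← neg_smul, eich_add_smul (f.B_self_of_Q ha.2.2) o.hv]; simp

theorem base_aniso {K : Type*} [Field K] [Finite K] [Algebra F K] (σ : K →+* K) (hσ : ∀ t, σ (σ t) = t)
    (φ : K →ₗ[F] V) (h1 : ∀ t, φ t ∈ W ⊓ f.perp (span F {a, a'})) (h2 : ∀ v ∈ W ⊓ f.perp (span F {a, a'}), ∃ t, φ t = v)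
    {d : K} (hd : d ≠ 0) (hQ : ∀ t, algebraMap F K (f.Q (φ t)) = d * (t * σ t)) :
    ∃ c, (∀ g ∈ GW f ℓ W, ρ g = 1 → g = 1 ∨ g = c) ∧ ((2 : K) = 0 → c = 1) := by
  have p1 : ∀ t, f.B (φ t) a = 0 := fun t => (f.mem_perp_pair.1 (h1 t).2).1
  have p2 : ∀ t, f.B (φ t) a' = 0 := fun t => (f.mem_perp_pair.1 (h1 t).2).2
  have hσ0 : ∀ {t}, t ≠ 0 → σ t ≠ 0 := fun h => by simpa using h
  have q0 : ∀ {t}, t ≠ 0 → f.Q (φ t) ≠ 0 := fun {t} h e => by
    have := hQ t; rw [e, map_zero] at this; exact mul_ne_zero hd (mul_ne_zero h (hσ0 h)) this.symm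
  have hBK : ∀ s t, algebraMap F K (f.B (φ s) (φ t)) = d * (s * σ t + σ s * t) := fun s t => by
    have := hQ (s + t)
    rw [map_add, f.Q_add, map_add, map_add, hQ, hQ, map_add] at this
    simp only [FType.orth_τ] at this
    linear_combination this
  let x : K → E := fun t => ℓ (f.eich a (φ t) (f.Q (φ t)))
  let y : K → E := fun r => ℓ (f.eich a' (φ (-(σ r) / d)) (f.Q (φ (-(σ r) / d))))
  have o1 : ∀ t, f.EichOk a (φ t) (f.Q (φ t)) := fun t => orth_eichOk ha.2.2 (p1 t)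
  have o2 : ∀ t, f.EichOk a' (φ t) (f.Q (φ t)) := fun t => orth_eichOk ha'.2.2 (p2 t)
  have sm : ∀ (c : F) t, c • φ t = φ (algebraMap F K c * t) := fun c t => by rw [← map_smul, Algebra.smul_def]
  have wc : ∀ t, t ≠ 0 → ρ (ww x y t) ∈ f.E ∧ ρ (ww x y t) a = (-(f.Q (φ t))⁻¹) • a' ∧ ρ (ww x y t) a' = (-f.Q (φ t)) • a ∧
      ∀ s, ρ (ww x y t) (φ s) = φ (-(σ s * t / σ t)) := fun t ht => by
    have e : φ (-(σ (-t⁻¹)) / d) = (f.Q (φ t))⁻¹ • φ t := by
      rw [sm, map_inv₀, hQ]; congr 1; have := hσ0 ht; simp; field_simp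
    have := w_calc ha.2.2 ha'.2.2 hB (p1 t) (p2 t) (q0 ht) (g := ρ (ww x y t)) (by
      rw [← e]; simp only [ww, x, y, map_mul, L.map _ _ _ (o1 _), L.map _ _ _ (o2 _)])
    refine ⟨?_, this.1, this.2.1, fun s => ?_⟩
    · simp only [ww, x, y, map_mul, L.map _ _ _ (o1 _), L.map _ _ _ (o2 _)]
      exact mul_mem (mul_mem (o1 _).mem_E (o2 _).mem_E) (o1 _).mem_E
    · rw [this.2.2 _ (p1 s) (p2 s), sm, ← map_sub, map_mul, map_inv₀, hQ, hBK]
      congr 1; have := hσ0 ht; field_simp; ring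
  have H : R1 x y := by
    refine ⟨fun s t => ?_, fun s t => ?_, fun t s ht => ?_⟩
    · simp only [x]; rw [map_add, orth_eich_add ha.2.2 (p1 _) (p1 _), L.mul _ _ _ _ _ (o1 _) (o1 _)]
    · simp only [y]
      rw [show -(σ (s + t)) / d = -(σ s) / d + -(σ t) / d by rw [map_add]; ring, map_add, orth_eich_add ha'.2.2 (p2 _) (p2 _),
        L.mul _ _ _ _ _ (o2 _) (o2 _)]
    · obtain ⟨w1, w2, -, w3⟩ := wc t ht
      change ww x y t * ℓ _ * (ww x y t)⁻¹ = ℓ _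
      have o := (o1 s).map (E_le_iso w1)
      rw [L.conj _ w1 _ _ _ (o1 s)]
      rw [w2, w3] at o ⊢
      have o' := EichOk.smul ha'.2.2 (neg_ne_zero.2 (inv_ne_zero (q0 ht))) o
      rw [eich_smul (f.B_self_of_Q ha'.2.2) (p2 _), o'.orth_eq, sm]
      congr 3 <;> (simp only [FType.orth_σ, map_neg, map_inv₀, hQ, map_mul, map_pow]; have := hσ0 ht; field_simp)
  refine (H.ker2 ρ.ker (fun s => L.ker_one (o1 s)) (fun s t ht h => ?_) (fun s t s' ht h => ?_)).imp fun c hc => ?_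
  rotate_left 2
  · obtain ⟨c1, c2⟩ := hc
    refine ⟨fun g hg h => c1 g (L.GW_le hf hW ha ha' hB (fun s hs => ?_) (fun s hs => ?_) hg) h, c2⟩
    · obtain ⟨v, hv, rfl⟩ := L.SW_orth ha ha' hB hs
      obtain ⟨t, rfl⟩ := h2 v hv
      exact Subgroup.subset_closure (.inl ⟨t, rfl⟩)
    · obtain ⟨v, hv, rfl⟩ := L.SW_orth ha' ha (by rw [f.symm, hB]; simp) hs
      obtain ⟨t, rfl⟩ := h2 v (by rwa [Set.pair_comm])
      exact Subgroup.subset_closure (.inr ⟨σ (-(t * d)), by simp only [y, hσ]; congr 3 <;> field_simp⟩)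
  · have e1 := congrArg (fun g : V ≃ₗ[F] V => g a) h
    have e2 := congrArg (fun g : V ≃ₗ[F] V => g (φ 1)) h
    simp only [hh, mul_app, (wc t ht).2.2.1, (wc (-1) (by simp)).2.1, (wc (-1) (by simp)).2.2.2, (wc t ht).2.2.2, map_smul, x,
      L.map _ _ _ (o1 _), (o1 _).apply_self, smul_smul, LinearEquiv.coe_one, id] at e1 e2
    rw [(o1 _).apply, p1, zero_smul, sub_zero] at e2
    have e3 : -(f.Q (φ (-1)))⁻¹ * -f.Q (φ t) = 1 := by
      by_contra hne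
      exact ha.2.1 ((smul_eq_zero.1 (show (-(f.Q (φ (-1)))⁻¹ * -f.Q (φ t) - 1) • a = 0 by
        rw [sub_smul, e1, one_smul, sub_self])).resolve_left (sub_ne_zero.2 hne))
    have e4 := congrArg (algebraMap F K) e3
    rw [map_mul (algebraMap F K), map_neg (algebraMap F K), map_neg (algebraMap F K), map_inv₀, hQ, hQ, map_one] at e4
    have e5 := congrArg (fun z => f.B z a') e2
    simp only [map_add, map_smul, LinearMap.add_apply, LinearMap.smul_apply, p2, hB, smul_eq_mul, mul_one, zero_add] at e5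
    rw [e5, zero_smul, add_zero, ← sub_eq_zero, ← map_sub] at e2
    have e6 := not_imp_comm.1 (fun h => q0 h) (by rw [e2]; simp)
    have := hσ0 ht
    simp only [map_neg, map_one, map_div₀, map_mul] at e6 e4
    field_simp at e6 e4
    linear_combination t * e6 + e4
  · have e1 := congrArg (fun g : V ≃ₗ[F] V => f.B (g a) a) h
    simp only [mul_app, (wc t ht).2.1, map_smul, x, L.map _ _ _ (o1 _), (o1 _).apply_self, LinearEquiv.coe_one, id,
      f.B_self_of_Q ha.2.2] at e1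
    nth_rewrite 2 [← (o1 s).apply_self] at e1
    rw [LinearMap.smul_apply, iso_B (o1 s).mem_iso, f.symm, hB] at e1
    simp [q0 ht] at e1

omit [FiniteDimensional F V] hf hW in
theorem r1_plus {b b' : V} (hb : ptW f (W ⊓ f.perp (span F {a, a'})) b) (hb' : ptW f (W ⊓ f.perp (span F {a, a'})) b')
    (hB' : f.B b b' = 1) {x y : F → E} (hx : x = fun t => ℓ (f.eich a (t • b) 0)) (hy : y = fun r => ℓ (f.eich a' ((-r) • b') 0)) :
    R1 x y ∧ (∀ t, ρ (x t) a = a ∧ ρ (x t) b = b ∧ ρ (x t) b' = b' + t • a ∧ ρ (x t) a' = a' - t • b) ∧ ∀ t, t ≠ 0 →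
      ρ (ww x y t) a = (-t⁻¹) • b' ∧ ρ (ww x y t) b' = t • a ∧ ρ (ww x y t) b = t⁻¹ • a' ∧ ρ (ww x y t) a' = (-t) • b := by
  obtain ⟨p1, p2⟩ := f.mem_perp_pair.1 hb.1.2
  obtain ⟨p3, p4⟩ := f.mem_perp_pair.1 hb'.1.2
  have o1 : ∀ t : F, f.EichOk a (t • b) 0 := fun t => ⟨ha.2.2, by simp [p1], by simp [f.Q_smul_of_Q hb.2.2]⟩
  have o2 : ∀ t : F, f.EichOk a' (t • b') 0 := fun t => ⟨ha'.2.2, by simp [p4], by simp [f.Q_smul_of_Q hb'.2.2]⟩
  have e1 := f.B_self_of_Q ha.2.2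
  have e2 := f.B_self_of_Q ha'.2.2
  have e3 : f.B a' a = 1 := by rw [f.symm, hB]; simp
  have e4 := f.B_self_of_Q hb.2.2
  have e5 := f.B_self_of_Q hb'.2.2
  have e6 : f.B b' b = 1 := by rw [f.symm, hB']; simp
  have q1 := f.B_zero_symm p1
  have q2 := f.B_zero_symm p2
  have q3 := f.B_zero_symm p3
  have q4 := f.B_zero_symm p4
  have wc : ∀ t, t ≠ 0 → ρ (ww x y t) a = (-t⁻¹) • b' ∧ ρ (ww x y t) b' = t • a ∧ ρ (ww x y t) b = t⁻¹ • a' ∧
      ρ (ww x y t) a' = (-t) • b := fun t ht => by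
    refine ⟨?_, ?_, ?_, ?_⟩ <;>
    simp only [ww, hx, hy, mul_app, L.map _ _ _ (o1 _), L.map _ _ _ (o2 _), (o1 _).apply, (o2 _).apply, map_add, map_sub, map_smul,
      LinearMap.add_apply, LinearMap.sub_apply,
      LinearMap.smul_apply, LinearMap.map_smulₛₗ, smul_eq_mul, FType.orth_σ, FType.orth_ε, e1, e2, e3, e4, e5, e6, p1, p2, p3, p4,
      q1, q2, q3, q4, hB, hB'] <;>
    match_scalars <;> field_simp <;> ring
  refine ⟨⟨fun s t => ?_, fun s t => ?_, fun t s ht => ?_⟩, fun t => ?_, wc⟩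
  · simp only [hx]; rw [← L.mul _ _ _ _ _ (o1 _) (o1 _), eich_mul e1 (o1 _).hv (o1 _).hv]; simp [e4, add_smul]
  · simp only [hy]; rw [← L.mul _ _ _ _ _ (o2 _) (o2 _), eich_mul e2 (o2 _).hv (o2 _).hv]; simp [e5, add_smul, add_comm]
  · obtain ⟨w1, -, w2, -⟩ := wc t ht
    have w0 : ρ (ww x y t) ∈ f.E := by
      simp only [ww, hx, hy, map_mul, L.map _ _ _ (o1 _), L.map _ _ _ (o2 _)]
      exact mul_mem (mul_mem (o1 _).mem_E (o2 _).mem_E) (o1 _).mem_E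
    change ww x y t * x s * (ww x y t)⁻¹ = _
    conv_lhs => enter [1, 2]; rw [hx]
    rw [L.conj _ w0 _ _ _ (o1 s), w1, map_smul, w2, eich_swap (f.Q_smul_of_Q hb'.2.2 _) (by simp [f.Q_smul_of_Q, ha'.2.2]) (by simp [q4]),
      smul_smul, eich_smul e2 (by simp [p4]), hy]
    simp only [smul_smul, FType.orth_σ, FType.orth_ε, mul_zero]
    congr 3; ring
  · simp only [hx, L.map _ _ _ (o1 _), (o1 _).apply]; simp [*]

theorem base_plus [Finite F] {b b' : V} (hb : ptW f (W ⊓ f.perp (span F {a, a'})) b) (hb' : ptW f (W ⊓ f.perp (span F {a, a'})) b')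
    (hB' : f.B b b' = 1) (h2 : ∀ v ∈ W ⊓ f.perp (span F {a, a'}), v ∈ span F {b, b'}) :
    ∃ c, (∀ g ∈ GW f ℓ W, ρ g = 1 → g = 1 ∨ g = c) ∧ ((2 : F) = 0 → c = 1) := by
  have e6 : f.B b' b = 1 := by rw [f.symm, hB']; simp
  have e3 : f.B a' a = 1 := by rw [f.symm, hB]; simp
  obtain ⟨p1, p2⟩ := f.mem_perp_pair.1 hb.1.2
  obtain ⟨p3, p4⟩ := f.mem_perp_pair.1 hb'.1.2
  obtain ⟨x, hx⟩ : ∃ x : F → E, x = fun t => ℓ (f.eich a (t • b) 0) := ⟨_, rfl⟩
  obtain ⟨y, hy⟩ : ∃ y : F → E, y = fun r => ℓ (f.eich a' ((-r) • b') 0) := ⟨_, rfl⟩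
  obtain ⟨x', hx'⟩ : ∃ x : F → E, x = fun t => ℓ (f.eich a (t • b') 0) := ⟨_, rfl⟩
  obtain ⟨y', hy'⟩ : ∃ y : F → E, y = fun r => ℓ (f.eich a' ((-r) • b) 0) := ⟨_, rfl⟩
  obtain ⟨H, i1, i2⟩ := L.r1_plus ha ha' hB hb hb' hB' hx hy
  obtain ⟨H', j1, j2⟩ := L.r1_plus ha ha' hB hb' hb e6 hx' hy'
  have cm : ∀ u v v', f.Q u = 0 → f.Q v = 0 → f.Q v' = 0 → f.B v u = 0 → f.B v' u = 0 →
      Commute (ℓ (f.eich u v 0)) (ℓ (f.eich u v' 0)) := fun u v v' h0 h1 h2 h3 h4 => by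
    have o1 := orth_eichOk h0 h3
    have o2 := orth_eichOk h0 h4
    rw [← h1]; nth_rewrite 2 [h1]; rw [← h2, Commute, SemiconjBy, ← L.mul _ _ _ _ _ o1 o2, ← L.mul _ _ _ _ _ o2 o1,
      ← orth_eich_add h0 h3 h4, ← orth_eich_add h0 h4 h3, add_comm]
  have cm2 : ∀ (s t : F) u u' v, f.Q u = 0 → f.Q u' = 0 → f.Q v = 0 → f.B v u = 0 → f.B v u' = 0 →
      Commute (ℓ (f.eich u (s • v) 0)) (ℓ (f.eich u' (t • v) 0)) := fun s t u u' v h0 h1 h2 h3 h4 => by
    have k : ∀ (s : F) u, f.Q u = 0 → f.B v u = 0 → f.eich u (s • v) 0 = f.eich v ((-s) • u) 0 := fun s u h0 h3 => by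
      rw [eich_swap h0 (f.Q_smul_of_Q h2 s) (by simp [h3]), eich_smul (f.B_self_of_Q h2) (by simp [f.B_zero_symm h3])]
      simp
    rw [k s u h0 h3, k t u' h1 h4]
    exact cm _ _ _ h2 (f.Q_smul_of_Q h0 _) (f.Q_smul_of_Q h1 _) (by simp [f.B_zero_symm h3]) (by simp [f.B_zero_symm h4])
  let G1 := Subgroup.closure (Set.range x ∪ Set.range y)
  let G2 := Subgroup.closure (Set.range x' ∪ Set.range y')
  have c12 : ∀ g ∈ G1, ∀ g' ∈ G2, Commute g g' := by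
    have : G1 ≤ Subgroup.centralizer G2 := by
      rw [Subgroup.closure_le, Subgroup.centralizer_closure]
      rintro _ (⟨s, rfl⟩ | ⟨s, rfl⟩) _ (⟨t, rfl⟩ | ⟨t, rfl⟩) <;> simp only [hx, hy, hx', hy']
      · exact cm _ _ _ ha.2.2 (f.Q_smul_of_Q hb'.2.2 _) (f.Q_smul_of_Q hb.2.2 _) (by simp [p3]) (by simp [p1])
      · exact cm2 _ _ _ _ _ ha'.2.2 ha.2.2 hb.2.2 p2 p1
      · exact cm2 _ _ _ _ _ ha.2.2 ha'.2.2 hb'.2.2 p3 p4
      · exact cm _ _ _ ha'.2.2 (f.Q_smul_of_Q hb.2.2 _) (f.Q_smul_of_Q hb'.2.2 _) (by simp [p2]) (by simp [p4])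
    exact fun g hg g' hg' => (this hg g' hg').symm
  let M : Subgroup E :=
    { carrier := {g | ∃ r ∈ G1, ∃ l ∈ G2, g = r * l}
      one_mem' := ⟨1, one_mem _, 1, one_mem _, by simp⟩
      mul_mem' := by
        rintro _ _ ⟨r, hr, k, hk, rfl⟩ ⟨r', hr', k', hk', rfl⟩
        exact ⟨_, mul_mem hr hr', _, mul_mem hk hk', by rw [mul_assoc, ← mul_assoc k, ← (c12 r' hr' k hk).eq]; group⟩
      inv_mem' := by
        rintro _ ⟨r, hr, k, hk, rfl⟩
        exact ⟨_, inv_mem hr, k⁻¹, inv_mem hk, by rw [mul_inv_rev, (c12 _ (inv_mem hr) _ (inv_mem hk)).eq]⟩ }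
  have sp : ∀ u (α β : F), f.Q u = 0 → f.B b u = 0 → f.B b' u = 0 →
      ℓ (f.eich u (α • b + β • b') (f.Q (α • b + β • b'))) = ℓ (f.eich u (α • b) 0) * ℓ (f.eich u (β • b') 0) := fun u α β h0 h1 h2 => by
    have h3 : f.B (α • b) u = 0 := by simp [h1]
    have h4 : f.B (β • b') u = 0 := by simp [h2]
    rw [orth_eich_add h0 h3 h4, L.mul _ _ _ _ _ (orth_eichOk h0 h3) (orth_eichOk h0 h4), f.Q_smul_of_Q hb.2.2, f.Q_smul_of_Q hb'.2.2]
  have hM : GW f ℓ W ≤ M := L.GW_le hf hW ha ha' hB (fun s hs => by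
      obtain ⟨v, hv, rfl⟩ := L.SW_orth ha ha' hB hs
      obtain ⟨α, β, rfl⟩ := mem_span_pair.1 (h2 v hv)
      exact ⟨x α, Subgroup.subset_closure (.inl ⟨α, rfl⟩), x' β, Subgroup.subset_closure (.inl ⟨β, rfl⟩), by
        rw [sp a α β ha.2.2 p1 p3, hx, hx']⟩) fun s hs => by
      obtain ⟨v, hv, rfl⟩ := L.SW_orth ha' ha e3 hs
      obtain ⟨α, β, rfl⟩ := mem_span_pair.1 (h2 v (by rwa [Set.pair_comm]))
      have m1 : y (-β) ∈ G1 := Subgroup.subset_closure (.inr ⟨_, rfl⟩)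
      have m2 : y' (-α) ∈ G2 := Subgroup.subset_closure (.inr ⟨_, rfl⟩)
      exact ⟨_, m1, _, m2, by rw [(c12 _ m1 _ m2).eq, sp a' α β ha'.2.2 p2 p4, hy, hy']; simp⟩
  have ea := f.B_self_of_Q ha.2.2
  have eb := f.B_self_of_Q hb.2.2
  have eb' := f.B_self_of_Q hb'.2.2
  have q1 := f.B_zero_symm p1
  have q3 := f.B_zero_symm p3
  refine ⟨hh x y (-1) * hh x' y' (-1), fun g hg h => ?_, fun e => by
    rw [show (-1 : F) = 1 by linear_combination -e, H.h1, H'.h1, mul_one]⟩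
  obtain ⟨r, hr, l, hl, rfl⟩ := hM hg
  have n1 : (-1 : F) ≠ 0 := by simp
  have hc := (c12 r hr l hl).eq
  rcases H.nf hr with ⟨s, t, ht, rfl⟩ | ⟨s, t, s1, ht, rfl⟩
  · rcases H'.nf hl with ⟨s', t', ht', rfl⟩ | ⟨s', t', s2, ht', rfl⟩
    · have e1 := congrArg (fun g : V ≃ₗ[F] V => f.B (g a) a') h
      have e2 := congrArg (fun g : V ≃ₗ[F] V => f.B (g b) b') h
      have e3 := congrArg (fun g : V ≃ₗ[F] V => f.B (g b) a') h
      have e4 := congrArg (fun g : V ≃ₗ[F] V => f.B (g b') a') h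
      simp [hh, mul_app, i1, j1, i2 t ht, i2 _ n1, j2 t' ht', j2 _ n1, hB, hB', p2, p4, q3, ht, ht'] at e1 e2 e3 e4
      obtain rfl : t' = t := by field_simp at e2; exact e2.symm
      rw [e3, e4, H.x0, H'.x0, one_mul, one_mul]
      rcases mul_self_eq_one_iff.1 e1 with rfl | rfl
      · exact .inl (by rw [H.h1, H'.h1, mul_one])
      · exact .inr rfl
    · have e1 := congrArg (fun g : V ≃ₗ[F] V => f.B (g a) b') h
      simp [hh, mul_app, i1, j1, i2 t ht, i2 _ n1, j2 t' ht', hB', q3, ht, ht'] at e1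
  · rw [hc] at h
    rcases H'.nf hl with ⟨s', t', ht', rfl⟩ | ⟨s', t', s2, ht', rfl⟩
    · have e1 := congrArg (fun g : V ≃ₗ[F] V => f.B (g a) b) h
      simp [hh, mul_app, i1, j1, i2 t ht, j2 _ n1, j2 t' ht', e6, q1, ht, ht'] at e1
    · rw [← hc] at h
      have e1 := congrArg (fun g : V ≃ₗ[F] V => f.B (g a) a) h
      simp [mul_app, i1, j1, i2 t ht, j2 t' ht', e3, ea, p1, p3, ht, ht'] at e1

omit ha ha' hB in
/-- the group generated by the lifts is at most a double cover -/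
theorem orth_ker [Finite F] (h3 : 3 ≤ finrank F W) (hp : ∃ a, ptW f W a) :
    ∃ c, (∀ g ∈ GW f ℓ W, ρ g = 1 → g = 1 ∨ g = c) ∧ ((2 : F) = 0 → c = 1) := by
  induction hn : finrank F W using Nat.strong_induction_on generalizing W with
  | _ n ih =>
  obtain ⟨a, ha⟩ := hp
  obtain ⟨a', m, q, hB⟩ := exists_partner_of_nondeg hW ha.1 ha.2.1 ha.2.2
  have ha' : ptW f W a' := ⟨m, by rintro rfl; simp at hB, q⟩
  have hB0 : f.B a a' ≠ 0 := by simp [hB]
  have hW' := inf_pair_nondeg hW ha.1 ha'.1 ha.2.2 ha'.2.2 hB0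
  have hd := finrank_inf_pair ha ha' hB0
  set W' := W ⊓ f.perp (span F {a, a'})
  by_cases hp' : ∃ b, ptW f W' b
  · obtain ⟨b, hb⟩ := hp'
    obtain ⟨b', m, q, hB'⟩ := exists_partner_of_nondeg hW' hb.1 hb.2.1 hb.2.2
    have hb' : ptW f W' b' := ⟨m, by rintro rfl; simp at hB', q⟩
    by_cases h5 : 3 ≤ finrank F W'
    · obtain ⟨c, c1, c2⟩ := ih _ (by omega) hW' h5 ⟨b, hb⟩ rfl
      refine ⟨c, fun g hg h => c1 g (L.step2 hf hW (fun a c ha hc h => ?_) ⟨a, b, ha, ⟨hb.1.1, hb.2⟩,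
        f.B_zero_symm (f.mem_perp_pair.1 hb.1.2).1, fun h => ?_⟩ ha ha' hB hg (by simp [h]) (by simp [h])) h, c2⟩
      · exact thick_of_three_le (inf_pair_nondeg hW ha.1 hc.1 ha.2.2 hc.2.2 h) (by have := finrank_inf_pair ha hc h; omega)
      · obtain ⟨k, rfl⟩ := mem_span_singleton.1 h
        have := (f.mem_perp_pair.1 hb.1.2).2
        simp [hB] at this
        exact hb.2.1 (by simp [this])
    · refine L.base_plus hf hW ha ha' hB hb hb' hB' fun v hv => ?_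
      have le : span F {b, b'} ≤ W' := span_le.2 (by rintro _ (rfl | rfl); exacts [hb.1, hb'.1])
      rwa [eq_of_le_of_finrank_le le (by rw [finrank_span_pair hb.2.2 (by simp [hB'])]; omega)]
  have han : ∀ v ∈ W', f.Q v = 0 → v = 0 := fun v hv h => by_contra fun h0 => hp' ⟨v, hv, h0, h⟩
  have h2 : finrank F W' ≤ 2 := orth_aniso_le (f := f.res W') fun v h => Subtype.ext (han v v.2 h)
  obtain ⟨e, he, he0⟩ : ∃ e ∈ W', e ≠ 0 := exists_mem_ne_zero_of_ne_bot (by rintro h; rw [h, finrank_bot] at hd; omega)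
  have qe : f.Q e ≠ 0 := fun h => he0 (han e he h)
  have le : span F {e} ≤ W' := (span_singleton_le_iff_mem _ _).2 he
  by_cases h1 : finrank F W' ≤ 1
  · refine L.base_aniso hf hW ha ha' hB (RingHom.id F) (fun _ => rfl) (LinearMap.toSpanSingleton F V e) (fun t => smul_mem _ _ he)
      (fun v hv => ?_) qe fun t => by simp [f.Q_smul]; ring
    exact mem_span_singleton.1 ((eq_of_le_of_finrank_le le (by rw [finrank_span_singleton he0]; exact h1)).ge hv)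
  obtain ⟨e', he', hn'⟩ := exists_notMem_of_finrank_lt (U := span F {e}) (W := W') (by rw [finrank_span_singleton he0]; omega)
  have qq : ∀ r s : F, f.Q (r • e + s • e') = r ^ 2 * f.Q e + r * s * f.B e e' + s ^ 2 * f.Q e' := fun r s => by
    simp [f.Q_add, f.Q_smul]; ring
  haveI : Fact (∀ r : F, r ^ 2 ≠ -(f.Q e' / f.Q e) + f.B e e' / f.Q e * r) := ⟨fun r h => hn' (by
    have := han ((-r) • e + (1 : F) • e') (add_mem (smul_mem _ _ he) (smul_mem _ _ he')) (by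
      rw [qq]; field_simp at h; linear_combination h)
    exact mem_span_singleton.2 ⟨r, by linear_combination (norm := module) -this⟩)⟩
  haveI : Finite (QuadraticAlgebra F (-(f.Q e' / f.Q e)) (f.B e e' / f.Q e)) := Finite.of_equiv _ (QuadraticAlgebra.equivProd _ _).symm
  obtain ⟨c, c1, c2⟩ := L.base_aniso hf hW ha ha' hB (K := QuadraticAlgebra F (-(f.Q e' / f.Q e)) (f.B e e' / f.Q e))
    (starRingEnd _) (fun t => star_star t)
    ((LinearMap.toSpanSingleton F V e).comp (QuadraticAlgebra.reₗ _ _) + (LinearMap.toSpanSingleton F V e').comp (QuadraticAlgebra.imₗ _ _))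
    (fun t => add_mem (smul_mem _ _ he) (smul_mem _ _ he')) (fun v hv => by
      have le2 : span F {e} ⊔ span F {e'} ≤ W' := sup_le le ((span_singleton_le_iff_mem _ _).2 he')
      replace hv := (eq_of_le_of_finrank_le le2 (by rw [finrank_sup_singleton hn', finrank_span_singleton he0]; omega)).ge hv
      rw [← span_insert] at hv
      obtain ⟨r, s, rfl⟩ := mem_span_pair.1 hv
      exact ⟨⟨r, s⟩, rfl⟩) (d := algebraMap F _ (f.Q e)) (by simpa using qe) fun t => by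
      rw [starRingEnd_apply, ← QuadraticAlgebra.algebraMap_norm_eq_mul_star, ← map_mul]
      congr 1
      refine (qq t.re t.im).trans ?_
      rw [QuadraticAlgebra.norm_def]; field_simp; ring
  exact ⟨c, c1, fun h => c2 (by rw [← map_ofNat (algebraMap F _) 2, h, map_zero])⟩

end orth

section symp
variable {f : CForm (FType.symp F) V} (L : Lift f ρ ℓ) [FiniteDimensional F V] (hf : f.Nondeg) {W : Submodule F V}
  (hW : W ⊓ f.perp W = ⊥)
include L hf hW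

omit L hf hW [FiniteDimensional F V] in
theorem symp_Q (x : V) : f.Q x = 0 := by obtain ⟨c, hc⟩ := f.Q_range x; exact hc.symm

theorem symp_ker [Finite F] : ∀ g ∈ GW f ℓ W, ρ g = 1 → g = 1 := by
  induction hn : finrank F W using Nat.strong_induction_on generalizing W with
  | _ n ih =>
  by_cases hp : ∃ a, ptW f W a
  swap
  · exact fun g hg _ => (show GW f ℓ W ≤ ⊥ from L.GW_ind fun u hu v hv c h0 o => absurd ⟨u, hu, h0, o.hu⟩ hp) hg
  obtain ⟨a, ha⟩ := hp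
  obtain ⟨a', m, q, hB⟩ := exists_partner_of_nondeg hW ha.1 ha.2.1 ha.2.2
  have ha' : ptW f W a' := ⟨m, by rintro rfl; simp at hB, q⟩
  have hB0 : f.B a a' ≠ 0 := by simp [hB]
  have hW' := inf_pair_nondeg hW ha.1 ha'.1 ha.2.2 ha'.2.2 hB0
  have hd := finrank_inf_pair ha ha' hB0
  by_cases hp' : ∃ b, ptW f (W ⊓ f.perp (span F {a, a'})) b
  · obtain ⟨b, hb⟩ := hp'
    refine fun g hg h => ih _ (by omega) hW' rfl g (L.step2 hf hW (fun a c ha hc h => symp_thick _) ⟨a, b, ha, ⟨hb.1.1, hb.2⟩,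
        f.B_zero_symm (f.mem_perp_pair.1 hb.1.2).1, fun h => ?_⟩ ha ha' hB hg (by simp [h]) (by simp [h])) h
    obtain ⟨k, rfl⟩ := mem_span_singleton.1 h
    have := (f.mem_perp_pair.1 hb.1.2).2
    simp [hB] at this
    exact hb.2.1 (by simp [this])
  have e3 : f.B a' a = -1 := by rw [f.symm, hB]; simp
  have e1 := f.B_self_of_Q ha.2.2
  have e2 := f.B_self_of_Q ha'.2.2
  have o : ∀ u (c : F), f.EichOk u 0 c := fun u c => symp_eichOk (by simp) c
  let x : F → E := fun t => ℓ (f.eich a 0 t)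
  let y : F → E := fun t => ℓ (f.eich a' 0 (-t))
  have wc : ∀ t, t ≠ 0 → ρ (ww x y t) a = (-t⁻¹) • a' ∧ ρ (ww x y t) a' = t • a := fun t ht => by
    refine ⟨?_, ?_⟩ <;>
    simp only [ww, x, y, mul_app, L.map _ _ _ (o _ _), (o _ _).apply, map_add, map_sub, map_smul, map_zero,
      LinearMap.add_apply, LinearMap.sub_apply, LinearMap.smul_apply, LinearMap.zero_apply, smul_zero, zero_add, smul_eq_mul, e1, e2, e3,
      hB] <;>
    match_scalars <;> field_simp <;> ring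
  have H : R1 x y := by
    refine ⟨fun s t => ?_, fun s t => ?_, fun t s ht => ?_⟩
    · simp only [x]; rw [← L.mul _ _ _ _ _ (o _ _) (o _ _), eich_mul e1 (by simp) (by simp)]; simp
    · simp only [y]; rw [← L.mul _ _ _ _ _ (o _ _) (o _ _), eich_mul e2 (by simp) (by simp)]; simp [add_comm]
    · have w0 : ρ (ww x y t) ∈ f.E := by
        simp only [ww, x, y, map_mul, L.map _ _ _ (o _ _)]
        exact mul_mem (mul_mem (o _ _).mem_E (o _ _).mem_E) (o _ _).mem_E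
      change ww x y t * ℓ _ * (ww x y t)⁻¹ = ℓ _
      rw [L.conj _ w0 _ _ _ (o _ _), (wc t ht).1, map_zero, eich_smul e2 (by simp)]
      simp only [smul_zero, FType.symp_σ]
      congr 2; ring
  have k : ∀ u u', ptW f W u → ptW f W u' → f.B u u' = 1 → W ⊓ f.perp (span F {u, u'}) = W ⊓ f.perp (span F {a, a'}) →
      ∀ s ∈ SW f ℓ W u, ∃ c, s = ℓ (f.eich u 0 c) := fun u u' hu hu' hB e s hs => by
    obtain ⟨v, hv, c, o, rfl⟩ := (L.mem_SW hu.2.2).1 hs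
    have p := (proj hu hu' hB hv o.hv).1
    have : v - f.B v u' • u = 0 := by_contra fun h0 => hp' ⟨_, e ▸ p, h0, symp_Q _⟩
    exact ⟨_, by rw [sub_eq_zero.1 this, ← zero_add (_ • u), eich_add_smul (f.B_self_of_Q hu.2.2) (by simp)]⟩
  intro g hg h
  have := L.GW_le hf hW ha ha' hB (M := Subgroup.closure (Set.range x ∪ Set.range y)) (fun s hs => by
    obtain ⟨c, rfl⟩ := k a a' ha ha' hB rfl s hs
    exact Subgroup.subset_closure (.inl ⟨c, rfl⟩)) (fun s hs => by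
    obtain ⟨c, rfl⟩ := k a' ((-1 : F) • a) ha' ⟨smul_mem _ _ ha.1, by simpa using ha.2.1, symp_Q _⟩ (by simp [e3]) (by
      ext z; simp [f.mem_perp_pair, and_comm]) s hs
    exact Subgroup.subset_closure (.inr ⟨-c, by simp [y]⟩)) hg
  rcases H.nf this with ⟨s, t, ht, rfl⟩ | ⟨s, t, s', ht, rfl⟩
  · have i1 := congrArg (fun g : V ≃ₗ[F] V => f.B (g a) a') h
    simp [hh, mul_app, wc t ht, wc (-1) (by simp), x, L.map _ _ _ (o _ _), (o _ _).apply_self, hB] at i1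
    rw [i1, H.h1, mul_one] at h ⊢
    exact L.ker_one (o _ _) h
  · have i1 := congrArg (fun g : V ≃ₗ[F] V => f.B (g a) a) h
    simp [mul_app, wc t ht, x, L.map _ _ _ (o _ _), (o _ _).apply, e1, e3, ht] at i1

end symp

end Lift

end Cfsg.Agent.C3.SM
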