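import Cfsg.Agent.C3.SM4

/-! Central extensions of orthogonal groups: lifts of root elements commute with their stabilisers. -/

set_option autoImplicit false

namespace Cfsg.Agent.C3.SM

open Submodule Module H4 H4.CForm
open scoped commutatorElement

/-- `ρ` is a central extension of the subgroup `K` -/
structure CX {E G : Type*} [Group E] [Group G] (ρ : E →* G) (K : Subgroup G) : Prop where
  mem : ∀ g, ρ g ∈ K
  surj : ∀ x ∈ K, ∃ g, ρ g = x
  cen : ∀ z, ρ z = 1 → ∀ e, e * z = z * e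

namespace CX
variable {E G : Type*} [Group E] [Group G] {ρ : E →* G} {K : Subgroup G} (C : CX ρ K)
include C

theorem conj_eq {a b : E} (hab : ρ a = ρ b) (e : E) : a * e * a⁻¹ = b * e * b⁻¹ := by
  have := C.cen (b⁻¹ * a) (by simp [hab]) e
  rw [show a * e * a⁻¹ = b * (b⁻¹ * a * e) * a⁻¹ by group, ← this]; group

theorem comm_congr {a a' b b' : E} (ha : ρ a = ρ a') (hb : ρ b = ρ b') : ⁅a, b⁆ = ⁅a', b'⁆ := by
  rw [commutatorElement_def, C.conj_eq ha, mul_assoc a', mul_assoc, mul_assoc b, ← mul_assoc b, C.conj_eq hb]; group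

theorem commute_congr {a a' b b' : E} (ha : ρ a = ρ a') (hb : ρ b = ρ b') (h : Commute a b) : Commute a' b' := by
  rw [← commutatorElement_eq_one_iff_commute] at h ⊢
  rwa [← C.comm_congr ha hb]

omit C in
variable (ρ) in
/-- the elements whose lifts commute with `k` -/
def lc (k : E) : Subgroup G := (Subgroup.centralizer {k}).map ρ

theorem mem_lc {a k : E} : ρ a ∈ lc ρ k ↔ Commute a k :=
  ⟨fun ⟨b, h1, h2⟩ => C.commute_congr h2 rfl (Subgroup.mem_centralizer_singleton_iff.1 h1),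
    fun h => ⟨a, Subgroup.mem_centralizer_singleton_iff.2 h, rfl⟩⟩

theorem lc_comm {x y : G} {k : E} (hx : x ∈ K) (hy : y ∈ K) (h1 : Commute x (ρ k)) (h2 : Commute y (ρ k)) : ⁅x, y⁆ ∈ lc ρ k := by
  obtain ⟨a, rfl⟩ := C.surj x hx
  obtain ⟨b, rfl⟩ := C.surj y hy
  rw [← map_commutatorElement, C.mem_lc, ← commutatorElement_eq_one_iff_commute]
  exact comm_of_central (Subgroup.mem_center_iff.2 (C.cen _ (by rwa [map_commutatorElement, commutatorElement_eq_one_iff_commute])))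
    (Subgroup.mem_center_iff.2 (C.cen _ (by rwa [map_commutatorElement, commutatorElement_eq_one_iff_commute])))

theorem comm_pow {a b : E} (h : Commute (ρ a) (ρ b)) (n : ℕ) : ⁅a ^ n, b⁆ = ⁅a, b⁆ ^ n := by
  have hc := C.cen ⁅a, b⁆ (by rwa [map_commutatorElement, commutatorElement_eq_one_iff_commute])
  induction n with
  | zero => simp
  | succ n ih =>
    rw [pow_succ, pow_succ, ← ih, show ⁅a ^ n * a, b⁆ = a ^ n * ⁅a, b⁆ * (a ^ n)⁻¹ * ⁅a ^ n, b⁆ by group, hc, mul_assoc ⁅a, b⁆,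
      mul_inv_cancel, mul_one, hc]

theorem swap {a b g : E} (h : Commute (ρ a) (ρ b)) (h1 : ρ (g * a * g⁻¹) = ρ b) (h2 : ρ (g * b * g⁻¹) = ρ a) {n : ℕ} (hn : Odd n)
    (ha : ρ a ^ n = 1) : Commute a b := by
  have hc := C.cen ⁅a, b⁆ (by rwa [map_commutatorElement, commutatorElement_eq_one_iff_commute])
  have e1 : ⁅a, b⁆ = ⁅a, b⁆⁻¹ := by
    rw [commutatorElement_inv, ← C.comm_congr h1 h2, show ⁅g * a * g⁻¹, g * b * g⁻¹⁆ = g * ⁅a, b⁆ * g⁻¹ by group, hc]; group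
  have e2 : ⁅a, b⁆ ^ n = 1 := by
    rw [← C.comm_pow h, C.comm_congr (a' := 1) (b' := b) (by simp [ha]) rfl]; simp
  obtain ⟨k, rfl⟩ := hn
  rw [pow_succ, pow_mul, sq] at e2
  nth_rewrite 2 [e1] at e2
  rwa [mul_inv_cancel, one_pow, one_mul, commutatorElement_eq_one_iff_commute] at e2

end CX

variable {F : Type*} [Field F] {V : Type*} [AddCommGroup V] [Module F V] {E : Type*} [Group E]
  {ρ : E →* (V ≃ₗ[F] V)}

section
variable {T : FType F} {f : CForm T V}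

theorem E_le_GW : f.E ≤ GW f id ⊤ := E_le_iff.2 fun _ _ _ o => lift_id.mem_GW mem_top mem_top o

theorem comm_eich {g : V ≃ₗ[F] V} (hg : g ∈ f.E) {u v : V} (h1 : g u = u) (h2 : g v = v) (c : F) : Commute g (f.eich u v c) := by
  have := eich_conj (E_le_iso hg) u v c
  rw [h1, h2] at this
  exact mul_inv_eq_iff_eq_mul.1 this

theorem TS_span {s : Set V} (h1 : ∀ x ∈ s, f.Q x = 0) (h2 : ∀ x ∈ s, ∀ y ∈ s, f.B x y = 0) : f.TS (span F s) := by
  have hB : ∀ x ∈ span F s, ∀ y ∈ span F s, f.B x y = 0 := fun x hx y hy =>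
    (show span F s ≤ f.perp (span F s) from span_le.2 fun x hx => f.mem_perp_span.2 (h2 x hx)) hx y hy
  refine ⟨fun x hx => ?_, hB⟩
  induction hx using span_induction with
  | mem x hx => exact h1 x hx
  | zero => simp
  | add x y hx hy i1 i2 => rw [f.Q_add_of_perp (hB x hx y hy), i1, i2, add_zero]
  | smul a x _ i => exact f.Q_smul_of_Q i a

theorem ne_of_B {a a' : V} (h : f.B a a' = 1) : a' ≠ 0 := by rintro rfl; simp at h

theorem mem_pp {W : Submodule F V} {a a' x : V} (h : x ∈ W ⊓ f.perp (span F {a, a'})) : f.B x a = 0 ∧ f.B x a' = 0 :=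
  f.mem_perp_pair.1 h.2

variable [FiniteDimensional F V]

theorem exists_frame (hf : f.Nondeg) {u v : V} (hu : f.Q u = 0) (hv : f.Q v = 0) (h : f.B v u = 0) (hu0 : u ≠ 0) (hn : v ∉ span F {u}) :
    ∃ u' v', ptW f ⊤ u' ∧ f.B u u' = 1 ∧ ptW f (⊤ ⊓ f.perp (span F {u, u'})) v ∧ ptW f (⊤ ⊓ f.perp (span F {u, u'})) v' ∧
      f.B v v' = 1 := by
  have hn' : u ∉ span F {v} := fun hh => hn (by
    obtain ⟨c, rfl⟩ := mem_span_singleton.1 hh
    have : c ≠ 0 := by rintro rfl; exact hu0 (by simp)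
    exact mem_span_singleton.2 ⟨c⁻¹, by rw [smul_smul, inv_mul_cancel₀ this, one_smul]⟩)
  obtain ⟨u', h1, h2, h3⟩ := hf.exists_partner (U := span F {v}) hu hn' (f.mem_perp_singleton.2 (f.B_zero_symm h))
  have pv : ptW f (⊤ ⊓ f.perp (span F {u, u'})) v := ⟨⟨mem_top, f.mem_perp_pair.2 ⟨h, f.B_zero_symm (f.mem_perp_singleton.1 h1)⟩⟩,
    by rintro rfl; exact hn (zero_mem _), hv⟩
  obtain ⟨v', m, q, e⟩ := exists_partner_of_nondeg (inf_pair_nondeg hf.top_inf_perp mem_top mem_top hu h2 (by simp [h3])) pv.1 pv.2.1 hv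
  exact ⟨u', v', ⟨mem_top, ne_of_B h3, h2⟩, h3, pv, ⟨m, ne_of_B e, q⟩, e⟩

/-- the pointwise stabiliser of a totally singular line -/
theorem stab_pair [Finite F] (hf : f.Nondeg) {u u' v v' : V} (hu : ptW f ⊤ u) (hu' : ptW f ⊤ u') (hB : f.B u u' = 1)
    (hv : ptW f (⊤ ⊓ f.perp (span F {u, u'})) v) (hv' : ptW f (⊤ ⊓ f.perp (span F {u, u'})) v') (hB' : f.B v v' = 1)
    (hT : ∀ a c, ptW f ⊤ a → ptW f ⊤ c → f.B a c ≠ 0 → f.Thick (⊤ ⊓ f.perp (span F {a, c})))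
    (h : (∀ a c, ptW f (⊤ ⊓ f.perp (span F {u, u'})) a → ptW f (⊤ ⊓ f.perp (span F {u, u'})) c → f.B a c ≠ 0 →
      f.Thick (⊤ ⊓ f.perp (span F {u, u'}) ⊓ f.perp (span F {a, c}))) ∧
      ∃ y, ptW f (⊤ ⊓ f.perp (span F {u, u'}) ⊓ f.perp (span F {v, v'})) y)
    {M : Subgroup (V ≃ₗ[F] V)} (h1 : ∀ w c, f.EichOk u w c → f.B w v = 0 → f.eich u w c ∈ M)
    (h2 : ∀ w c, f.EichOk v w c → f.B w u = 0 → f.eich v w c ∈ M)
    (h3 : GW f id (⊤ ⊓ f.perp (span F {u, u'}) ⊓ f.perp (span F {v, v'})) ≤ M) {g : V ≃ₗ[F] V} (hg : g ∈ f.E) (gu : g u = u)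
    (gv : g v = v) : g ∈ M := by
  have nn : ∀ {W : Submodule F V} {a a' b}, ptW f W a → f.B a a' = 1 → ptW f (W ⊓ f.perp (span F {a, a'})) b →
      ∃ y y', ptW f W y ∧ ptW f W y' ∧ f.B y y' = 0 ∧ y' ∉ span F {y} := fun {W a a' b} ha hB hb =>
    ⟨a, b, ha, ⟨hb.1.1, hb.2⟩, f.B_zero_symm (mem_pp hb.1).1, fun h => by
      obtain ⟨k, rfl⟩ := mem_span_singleton.1 h
      have := (mem_pp hb.1).2
      simp [hB] at this
      exact hb.2.1 (by simp [this])⟩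
  obtain ⟨r, hr, l, hl, rfl⟩ := lift_id.step hf hf.top_inf_perp hT (nn hu hB hv) hu hu' hB (E_le_GW hg) gu
  obtain ⟨w, -, c, o, rfl⟩ := (lift_id.mem_SW hu.2.2).1 hr
  have m := (lift_id.GW_prop hl).2.1 v hv.1
  simp only [MonoidHom.id_apply, id] at m gv ⊢
  rw [LinearEquiv.mul_apply, o.apply, (mem_pp m).1, zero_smul, sub_zero] at gv
  have e := congrArg (fun z => f.B z u') gv
  simp only [map_add, map_smul, LinearMap.add_apply, LinearMap.smul_apply, (mem_pp m).2, (mem_pp hv.1).2, hB, smul_eq_mul, mul_one,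
    zero_add] at e
  rw [e, zero_smul, add_zero] at gv
  rw [gv] at e
  refine mul_mem (h1 w c o (f.B_zero_symm e)) ?_
  obtain ⟨y, hy⟩ := h.2
  obtain ⟨r', hr', l', hl', rfl⟩ := lift_id.step hf (inf_pair_nondeg hf.top_inf_perp mem_top mem_top hu.2.2 hu'.2.2 (by simp [hB])) h.1
    (nn hv hB' hy) hv hv' hB' hl gv
  obtain ⟨w', m', c', o', rfl⟩ := (lift_id.mem_SW hv.2.2).1 hr'
  exact mul_mem (h2 w' c' o' (mem_pp m').1) (h3 hl')

theorem exists_swap {u u' a a' : V} (hu : f.Q u = 0) (ha : f.Q a = 0) (hu' : f.Q u' = 0) (ha' : f.Q a' = 0) (h1 : f.B u u' = 1)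
    (h2 : f.B a a' = 1) (h3 : f.B a u = 0) (h4 : f.B a u' = 0) (h5 : f.B a' u = 0) :
    ∃ w ∈ f.E, w u = -a ∧ w a = u ∧ ∀ z, f.B z u = 0 → f.B z u' = 0 → f.B z a = 0 → f.B z a' = 0 → w z = z := by
  have o1 : f.EichOk u a' 0 := ⟨hu, h5, by simp [ha']⟩
  have o2 : f.EichOk a (-u') 0 := ⟨ha, by simp [f.B_zero_symm h4], by simp [hu']⟩
  have e1 := f.B_self_of_Q hu
  have e2 := f.B_self_of_Q ha
  have e3 := f.B_zero_symm h3
  have e4 := f.B_zero_symm h5
  refine ⟨f.eich u a' 0 * f.eich a (-u') 0 * f.eich u a' 0, mul_mem (mul_mem o1.mem_E o2.mem_E) o1.mem_E, ?_, ?_,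
    fun z z1 z2 z3 z4 => ?_⟩ <;> simp [o1.apply, o2.apply, *]

end

section orth
variable {f : CForm (FType.orth F) V}

theorem sing_ind {W : Submodule F V} {a a' : V} (ha : ptW f W a) (ha' : ptW f W a') (hB : f.B a a' = 1) (A : AddSubgroup V)
    (h : ∀ v ∈ W, f.Q v = 0 → v ∈ A) : ∀ w ∈ W, w ∈ A := fun w hw => by
  have m := sub_mem_perp_pair ha.2.2 ha'.2.2 hB w
  set z := w - f.B w a' • a - ((FType.orth F).ε * f.B w a) • a' with hz
  have zW : z ∈ W := sub_mem (sub_mem hw (smul_mem _ _ ha.1)) (smul_mem _ _ ha'.1)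
  obtain ⟨z1, z2⟩ := f.mem_perp_pair.1 m
  have e3 : f.B a' a = 1 := by rw [f.symm, hB]; simp
  have : w = (z + a' + (-f.Q z) • a) - a' + f.Q z • a + f.B w a' • a + ((FType.orth F).ε * f.B w a) • a' := by rw [hz]; module
  rw [this]
  refine add_mem (add_mem (add_mem (sub_mem (h _ (add_mem (add_mem zW ha'.1) (smul_mem _ _ ha.1)) ?_) (h _ ha'.1 ha'.2.2))
    (h _ (smul_mem _ _ ha.1) (f.Q_smul_of_Q ha.2.2 _))) (h _ (smul_mem _ _ ha.1) (f.Q_smul_of_Q ha.2.2 _)))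
    (h _ (smul_mem _ _ ha'.1) (f.Q_smul_of_Q ha'.2.2 _))
  rw [f.Q_add_smul ha.2.2, f.Q_add_of_perp z2, ha'.2.2]; simp [z1, e3]

theorem torus {a a' v v' : V} (ha : f.Q a = 0) (ha' : f.Q a' = 0) (hB : f.B a a' = 1) (h1 : f.B v a = 0) (h2 : f.B v a' = 0)
    (hv : f.Q v ≠ 0) (h1' : f.B v' a = 0) (h2' : f.B v' a' = 0) (hv' : f.Q v' ≠ 0) :
    ∃ g ∈ f.E, g a = (f.Q v / f.Q v') • a ∧ ∀ z, f.B z a = 0 → f.B z a' = 0 → g z = f.rfx v (f.rfx v' z) := by
  have k : ∀ v, f.B v a = 0 → f.B v a' = 0 →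
      f.eich a v (f.Q v) * f.eich a' ((f.Q v)⁻¹ • v) (f.Q ((f.Q v)⁻¹ • v)) * f.eich a v (f.Q v) ∈ f.E := fun v h1 h2 =>
    mul_mem (mul_mem (orth_eichOk ha h1).mem_E (orth_eichOk ha' (by simp [h2])).mem_E) (orth_eichOk ha h1).mem_E
  obtain ⟨-, i2, i3⟩ := Lift.w_calc ha ha' hB h1 h2 hv rfl
  obtain ⟨j1, -, j3⟩ := Lift.w_calc ha ha' hB h1' h2' hv' rfl
  refine ⟨_, mul_mem (k v h1 h2) (k v' h1' h2'), ?_, fun z z1 z2 => ?_⟩
  · rw [LinearEquiv.mul_apply, j1, map_smul, i2, smul_smul]; congr 1; ring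
  · rw [LinearEquiv.mul_apply, j3 z z1 z2, i3 _ (by simp [z1, h1']) (by simp [z2, h2']), rfx_apply, rfx_apply]

variable [FiniteDimensional F V] [Finite F]

theorem exists_pt {W : Submodule F V} (h : 3 ≤ finrank F W) : ∃ a, ptW f W a := by
  by_contra hp
  have : finrank F W ≤ 2 := orth_aniso_le (f := f.res W) fun v h => Subtype.ext (by_contra fun h0 => hp ⟨v, v.2, h0, h⟩)
  omega

omit [Finite F] in
theorem orth_hT {W : Submodule F V} (hW : W ⊓ f.perp W = ⊥) (h : 5 ≤ finrank F W) :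
    ∀ a c, ptW f W a → ptW f W c → f.B a c ≠ 0 → f.Thick (W ⊓ f.perp (span F {a, c})) := fun a c ha hc h' =>
  thick_of_three_le (inf_pair_nondeg hW ha.1 hc.1 ha.2.2 hc.2.2 h') (by have := finrank_inf_pair ha hc h'; omega)

omit [Finite F] in
theorem exists_B_one {W : Submodule F V} (hW : W ⊓ f.perp W = ⊥) (h : 1 ≤ finrank F W) : ∃ w ∈ W, ∃ b ∈ W, f.B w b = 1 := by
  obtain ⟨e, he, he0⟩ : ∃ e ∈ W, e ≠ 0 := exists_mem_ne_zero_of_ne_bot (by rintro rfl; simp at h)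
  obtain ⟨y, hy, h1⟩ := exists_B_ne_of_nondeg hW he he0
  exact ⟨e, he, (f.B e y)⁻¹ • y, smul_mem _ _ hy, by simp [h1]⟩

namespace CX

variable (C : CX ρ f.E) (hf : f.Nondeg) {u v : V} {k : E} (hk : ρ k = f.eich u v 0)
include C hk

omit [FiniteDimensional F V] [Finite F] in
theorem K1 {x : V ≃ₗ[F] V} (hx : x ∈ f.E) (xu : x u = u) (xv : x v = v) {p w : V} (hp : f.Q p = 0) {l : F} (hl : l ≠ 0)
    (xp : x p = l • p) (wp : f.B w p = 0) (e1 : f.eich p w (f.Q w) u = u) (e2 : f.eich p w (f.Q w) v = v) :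
    l • x w - w ∈ siegelSub hp (lc ρ k) := by
  have o := orth_eichOk hp wp
  have h1 : f.B (x w) p = 0 := by
    have := iso_B (E_le_iso hx) w p
    rwa [xp, B_smul_right, wp, mul_eq_zero, or_iff_right (by simpa using hl)] at this
  have := C.lc_comm hx o.mem_E (hk ▸ comm_eich hx xu xv 0) (hk ▸ comm_eich o.mem_E e1 e2 0)
  refine ⟨by simp [h1, wp], ?_⟩
  rw [commutatorElement_def, eich_conj (E_le_iso hx), xp, eich_smul (f.B_self_of_Q hp) h1, ← orth_eich_neg hp wp] at this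
  rw [sub_eq_add_neg, orth_eich_add hp (by simp [h1]) (by simp [wp]), f.Q_smul, iso_Q (E_le_iso hx)]
  exact this

include hf in
theorem K2 {p : V} (hp : f.Q p = 0) (pu : f.B u p = 0) (pv : f.B v p = 0) {U : Submodule F V} (hU : U ⊓ f.perp U = ⊥)
    (h3 : 3 ≤ finrank F U) (h : ∀ x ∈ U, f.B x u = 0 ∧ f.B x v = 0 ∧ f.B x p = 0) : ∀ w ∈ U, w ∈ siegelSub hp (lc ρ k) := by
  obtain ⟨a, ha⟩ := exists_pt (f := f) h3
  obtain ⟨a', m, q, hB⟩ := exists_partner_of_nondeg hU ha.1 ha.2.1 ha.2.2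
  refine sing_ind ha ⟨m, ne_of_B hB, q⟩ hB _ fun b hb qb => ?_
  by_cases h0 : b = 0
  · rw [h0]; exact zero_mem _
  obtain ⟨b', m, q, hB⟩ := exists_partner_of_nondeg hU hb h0 qb
  have hd := finrank_inf_pair (f := f) ⟨hb, h0, qb⟩ ⟨m, ne_of_B hB, q⟩ (by simp [hB])
  obtain ⟨w, hw, y, hy, e⟩ := exists_B_one (inf_pair_nondeg hU hb m qb q (by simp [hB])) (by omega)
  have o := orth_eichOk qb (mem_pp hy).1
  have := C.K1 hk o.mem_E (eich_fix _ (f.B_zero_symm (h b hb).1) (f.B_zero_symm (h y hy.1).1))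
    (eich_fix _ (f.B_zero_symm (h b hb).2.1) (f.B_zero_symm (h y hy.1).2.1)) hp one_ne_zero
    (by rw [one_smul]; exact eich_fix _ (f.B_zero_symm (h b hb).2.2) (f.B_zero_symm (h y hy.1).2.2)) (h w hw.1).2.2
    (eich_fix _ pu (f.B_zero_symm (h w hw.1).1)) (eich_fix _ pv (f.B_zero_symm (h w hw.1).2.1))
  rwa [o.apply, e, (mem_pp hw).1, one_smul, one_smul, zero_smul, sub_zero, add_sub_cancel_left] at this

include hf in
/-- lifts of root elements commute with the pointwise stabiliser of the line -/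
theorem root_comm (h7 : 7 ≤ finrank F V)
    (hx : (∀ c : F, c ≠ 0 → c ^ 2 = 1) → finrank F V ≠ 7 ∧ ((2 : F) = 0 → finrank F V = 8 → f.wi ≠ 4))
    (hu : f.Q u = 0) (hv : f.Q v = 0) (h : f.B v u = 0) (hu0 : u ≠ 0) (hn : v ∉ span F {u}) {g : E} (gu : ρ g u = u)
    (gv : ρ g v = v) : Commute g k := by
  obtain ⟨u', v', pu', hB, pv, pv', hB'⟩ := exists_frame hf hu hv h hu0 hn
  have pu : ptW f ⊤ u := ⟨mem_top, hu0, hu⟩
  have n1 := inf_pair_nondeg hf.top_inf_perp mem_top mem_top hu pu'.2.2 (by simp [hB])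
  have d1 := finrank_inf_pair pu pu' (by simp [hB])
  have n2 := inf_pair_nondeg n1 pv.1 pv'.1 hv pv'.2.2 (by simp [hB'])
  have d2 := finrank_inf_pair pv pv' (by simp [hB'])
  rw [finrank_top] at d1
  have hT1 := orth_hT n1 (by omega)
  set W1 := ⊤ ⊓ f.perp (span F {u, u'})
  set W2 := W1 ⊓ f.perp (span F {v, v'})
  have w2 : ∀ x ∈ W2, f.B x u = 0 ∧ f.B x v = 0 := fun x hx => ⟨(mem_pp hx.1).1, (mem_pp hx).1⟩
  have eu := f.B_self_of_Q hu
  have ev := f.B_self_of_Q hv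
  have h' := f.B_zero_symm h
  have s1 := C.K2 hf hk hu eu h n2 (by omega) fun x hx => ⟨(w2 x hx).1, (w2 x hx).2, (w2 x hx).1⟩
  have s2 := C.K2 hf hk hv h' ev n2 (by omega) fun x hx => ⟨(w2 x hx).1, (w2 x hx).2, (w2 x hx).2⟩
  obtain ⟨w, hw, y, hy, e⟩ := exists_B_one n2 (by omega)
  have s3 : ∀ p q (hp : f.Q p = 0), f.Q q = 0 → (p = u ∧ q = v ∨ p = v ∧ q = u) → ∀ α : F, α • q ∈ siegelSub hp (lc ρ k) := by
    intro p q hp hq hpq α
    have i : (∀ x ∈ W2, f.B x p = 0 ∧ f.B x q = 0) ∧ f.B u p = 0 ∧ f.B u q = 0 ∧ f.B v p = 0 ∧ f.B v q = 0 ∧ f.B p q = 0 := by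
      rcases hpq with ⟨rfl, rfl⟩ | ⟨rfl, rfl⟩
      exacts [⟨w2, eu, h', h, ev, h'⟩, ⟨fun x hx => (w2 x hx).symm, h', eu, ev, h, h⟩]
    obtain ⟨i0, i1, i2, i3, i4, i5⟩ := i
    have o := orth_eichOk hq (i0 y hy).2
    have := C.K1 hk o.mem_E (eich_fix _ i2 (f.B_zero_symm (w2 y hy).1)) (eich_fix _ i4 (f.B_zero_symm (w2 y hy).2)) hp one_ne_zero
      (by rw [one_smul]; exact eich_fix _ i5 (f.B_zero_symm (i0 y hy).1)) (w := α • w) (by simp [(i0 w hw).1])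
      (eich_fix _ i1 (by simp [f.B_zero_symm (w2 w hw).1])) (eich_fix _ i3 (by simp [f.B_zero_symm (w2 w hw).2]))
    rw [one_smul, map_smul, o.apply, e, (i0 w hw).2] at this
    simpa using this
  have dec : ∀ x, f.B x u = 0 → f.B x v = 0 → ∃ α β : F, ∃ z ∈ W2, x = α • u + β • v + z := fun x x1 x2 => by
    have p1 := Lift.proj pu pu' hB (mem_top (x := x)) x1
    have p2 := Lift.proj pv pv' hB' p1.1 (by simp [x2, h'])
    exact ⟨f.B x u', _, _, p2.1, by module⟩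
  refine C.mem_lc.1 (stab_pair hf pu pu' hB pv pv' hB' (orth_hT hf.top_inf_perp (by rw [finrank_top]; omega))
    ⟨hT1, exists_pt (W := W2) (by omega)⟩ (fun x c o x1 => ?_) (fun x c o x1 => ?_) ?_ (C.mem g) gu gv)
  · obtain ⟨α, β, z, hz, rfl⟩ := dec x o.hv x1
    rw [o.orth_eq]
    exact (add_mem (add_mem (smul_self_mem_siegelSub hu _ α) (s3 u v hu hv (.inl ⟨rfl, rfl⟩) β)) (s1 z hz)).2
  · obtain ⟨α, β, z, hz, rfl⟩ := dec x x1 o.hv
    rw [o.orth_eq]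
    exact (add_mem (add_mem (s3 v u hv hu (.inr ⟨rfl, rfl⟩) α) (smul_self_mem_siegelSub hv _ β)) (s2 z hz)).2
  refine lift_id.GW_ind fun a ha b hb c ha0 o => ?_
  have pa : ptW f W2 a := ⟨ha, ha0, o.hu⟩
  obtain ⟨a', m, q, hA⟩ := exists_partner_of_nondeg n2 ha ha0 o.hu
  have pa' : ptW f W2 a' := ⟨m, ne_of_B hA, q⟩
  have n3 := inf_pair_nondeg n2 ha m o.hu q (by simp [hA])
  have d3 := finrank_inf_pair pa pa' (by simp [hA])
  set U := W2 ⊓ f.perp (span F {a, a'})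
  have au := f.B_zero_symm (w2 a ha).1
  have av := f.B_zero_symm (w2 a ha).2
  have a'u := f.B_zero_symm (w2 a' m).1
  have a'v := f.B_zero_symm (w2 a' m).2
  suffices hU : ∀ w ∈ U, w ∈ siegelSub o.hu (lc ρ k) by
    have := add_mem (hU _ (Lift.proj pa pa' hA hb o.hv).1) (smul_self_mem_siegelSub o.hu _ (f.B b a'))
    rw [sub_add_cancel] at this
    exact o.orth_eq ▸ this.2
  have rf : ∀ z ∈ U, f.rfx z u = u ∧ f.rfx z v = v := fun z hz =>
    ⟨rfx_fix (f.B_zero_symm (w2 z hz.1).1), rfx_fix (f.B_zero_symm (w2 z hz.1).2)⟩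
  have tor : ∀ z ∈ U, ∀ z' ∈ U, f.Q z ≠ 0 → f.Q z' ≠ 0 → ∀ w ∈ U,
      (f.Q z / f.Q z') • f.rfx z (f.rfx z' w) - w ∈ siegelSub o.hu (lc ρ k) := fun z hz z' hz' q q' w hw => by
    obtain ⟨x, x1, x2, x3⟩ := torus o.hu pa'.2.2 hA (mem_pp hz).1 (mem_pp hz).2 q (mem_pp hz').1 (mem_pp hz').2 q'
    rw [← x3 w (mem_pp hw).1 (mem_pp hw).2]
    exact C.K1 hk x1 (by rw [x3 u au a'u, (rf z' hz').1, (rf z hz).1]) (by rw [x3 v av a'v, (rf z' hz').2, (rf z hz).2]) o.hu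
      (div_ne_zero q q') x2 (mem_pp hw).1 (eich_fix _ au (f.B_zero_symm (w2 w hw.1).1)) (eich_fix _ av (f.B_zero_symm (w2 w hw.1).2))
  obtain ⟨w0, hw0, y0, hy0, e0⟩ := exists_B_one n3 (by omega)
  by_cases hl : ∃ l : F, l ≠ 0 ∧ l ^ 2 ≠ 1
  · obtain ⟨l, l0, l1⟩ := hl
    obtain ⟨z, hz, q⟩ := orth_exists_Q_ne (f := f) hw0 hy0 (by simp [e0])
    intro w hw
    have := tor (l • z) (smul_mem _ _ hz) z hz (by simp [f.Q_smul, l0, q]) q ((l ^ 2 - 1)⁻¹ • w) (smul_mem _ _ hw)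
    rw [rfx_smul l0, rfx_rfx, f.Q_smul] at this
    convert this using 1
    have := sub_ne_zero.2 l1
    simp only [FType.orth_σ]
    match_scalars; field_simp
  push Not at hl
  obtain ⟨x7, x8⟩ := hx hl
  by_cases h3 : 3 ≤ finrank F U
  · exact C.K2 hf hk o.hu au av n3 h3 fun x hx => ⟨(w2 x hx.1).1, (w2 x hx.1).2, (mem_pp hx).1⟩
  by_cases hp : ∃ b, ptW f U b
  · obtain ⟨b, hb⟩ := hp
    obtain ⟨b', m, q, hB2⟩ := exists_partner_of_nondeg n3 hb.1 hb.2.1 hb.2.2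
    have h2 : (2 : F) ≠ 0 := fun h2 => x8 h2 (by omega) (le_antisymm (by have := hf.two_mul_wi_le; omega) (by
      have li : LinearIndependent F ![u, v, a, b] := LinearIndependent.of_pairwise_dual_eq_zero_one _ ![f.fn u', f.fn v', f.fn a', f.fn b']
        (by
          have := (mem_pp pv.1).2; have := (mem_pp ha.1).2; have := (mem_pp hb.1.1.1).2; have := f.B_zero_symm (mem_pp pv'.1).1
          have := (mem_pp ha).2; have := (mem_pp hb.1.1).2; have := (mem_pp hb.1).2; have := f.B_zero_symm (w2 b' m.1).1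
          have := f.B_zero_symm (w2 b' m.1).2; have := f.B_zero_symm (mem_pp m).1
          intro i j hij; fin_cases i <;> fin_cases j <;> simp_all)
        (by intro i; fin_cases i <;> simp [*])
      refine le_wi_iff.2 ⟨span F (Set.range ![u, v, a, b]), ?_, by rw [finrank_span_eq_card li]; simp⟩
      have := w2 a ha; have := w2 b hb.1.1; have := (mem_pp hb.1).1
      have := f.B_zero_symm (w2 b hb.1.1).1; have := f.B_zero_symm (w2 b hb.1.1).2; have := f.B_zero_symm (mem_pp hb.1).1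
      have := f.B_self_of_Q o.hu; have := f.B_self_of_Q hb.2.2; have := o.hu; have := hb.2.2
      refine TS_span (fun x ⟨i, e⟩ => ?_) fun x ⟨i, e⟩ y ⟨j, e'⟩ => ?_
      · subst e; fin_cases i <;> simp [*]
      · subst e e'; fin_cases i <;> fin_cases j <;> simp [*]))
    have h3 : (3 : F) = 0 := by have := hl 2 h2; linear_combination this
    refine sing_ind hb ⟨m, ne_of_B hB2, q⟩ hB2 _ fun b hb qb => ?_
    by_cases b0 : b = 0
    · rw [b0]; exact zero_mem _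
    obtain ⟨b', m', q', hB2⟩ := exists_partner_of_nondeg n3 hb b0 qb
    obtain ⟨g1, g10, g11, g12, g13⟩ := exists_swap hu o.hu pu'.2.2 pa'.2.2 hB hA (w2 a ha).1 (mem_pp ha.1).2 (w2 a' pa'.1).1
    obtain ⟨g2, g20, g21, g22, g23⟩ := exists_swap hv qb pv'.2.2 q' hB' hB2 (w2 b hb.1).2 (mem_pp hb.1).2 (w2 b' m'.1).2
    have o2 := orth_eichOk o.hu (mem_pp hb).1
    refine ⟨o2.hv, ?_⟩
    obtain ⟨g, hg⟩ := C.surj _ (mul_mem g10 g20)
    obtain ⟨k', hk'⟩ := C.surj _ o2.mem_E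
    have y1 : g1 v = v := g13 v h (mem_pp pv.1).2 av a'v
    have y2 : g1 b = b := g13 b (w2 b hb.1).1 (mem_pp hb.1.1).2 (mem_pp hb).1 (mem_pp hb).2
    have y3 : g2 u = u := g23 u h' (f.B_zero_symm (mem_pp pv'.1).1) (f.B_zero_symm (w2 b hb.1).1) (f.B_zero_symm (w2 b' m'.1).1)
    have y4 : g2 a = a := g23 a (w2 a ha).2 (mem_pp ha).2 (f.B_zero_symm (mem_pp hb).1) (f.B_zero_symm (mem_pp m').1)
    rw [← hk', C.mem_lc]
    refine (C.swap (g := g) (n := 3) ?_ ?_ ?_ (by decide) ?_).symm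
    · rw [hk, hk']
      exact (comm_eich o2.mem_E (eich_fix _ au (f.B_zero_symm (w2 b hb.1).1)) (eich_fix _ av (f.B_zero_symm (w2 b hb.1).2)) 0).symm
    · rw [map_mul, map_mul, map_inv, hg, hk, hk', eich_conj (E_le_iso (mul_mem g10 g20)), LinearEquiv.mul_apply, LinearEquiv.mul_apply,
        y3, g11, g21, map_neg, y2, qb, ← neg_one_smul F a, eich_smul (f.B_self_of_Q o.hu) (by simp [o2.hv])]
      simp
    · rw [map_mul, map_mul, map_inv, hg, hk, hk', eich_conj (E_le_iso (mul_mem g10 g20)), LinearEquiv.mul_apply, LinearEquiv.mul_apply,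
        y4, g12, g22, y1, qb]
    · rw [hk, pow_three', eich_mul eu h h, eich_mul eu (by simp [h]) h, show v + v + v = (3 : F) • v by module, h3]
      simp [ev]
  · have han : ∀ z ∈ U, z ≠ 0 → f.Q z ≠ 0 := fun z hz h0 h => hp ⟨z, hz, h0, h⟩
    have w00 : w0 ≠ 0 := by rintro rfl; simp at e0
    obtain ⟨e', he', hn'⟩ := exists_notMem_of_finrank_lt (U := span F {w0}) (W := U) (by rw [finrank_span_singleton w00]; omega)
    have e'0 : e' ≠ 0 := by rintro rfl; exact hn' (zero_mem _)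
    have n1 : w0 + e' ∉ span F {w0} := fun h => hn' (by simpa using sub_mem h (mem_span_singleton_self w0))
    have n2 : w0 + e' ∉ span F {e'} := fun h => hn' (by
      obtain ⟨c, hc⟩ := mem_span_singleton.1 (by simpa using sub_mem h (mem_span_singleton_self e') : w0 ∈ span F {e'})
      have : c ≠ 0 := by rintro rfl; exact w00 (by simpa using hc.symm)
      exact mem_span_singleton.2 ⟨c⁻¹, by rw [← hc, smul_smul, inv_mul_cancel₀ this, one_smul]⟩)
    have s0 : w0 + e' ≠ 0 := fun h => n1 (h ▸ zero_mem _)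
    obtain ⟨z, hz, z', hz', z0, nz, q⟩ : ∃ z ∈ U, ∃ z' ∈ U, z ≠ 0 ∧ z' ∉ span F {z} ∧ f.Q z = f.Q z' := by
      have sq : ∀ z ∈ U, z ≠ 0 → f.Q z = 1 ∨ f.Q z = -1 := fun z hz h0 => mul_self_eq_one_iff.1 ((sq _).symm.trans (hl _ (han z hz h0)))
      rcases sq _ hw0 w00 with i1 | i1 <;> rcases sq _ he' e'0 with i2 | i2 <;> rcases sq _ (add_mem hw0 he') s0 with i3 | i3 <;>
        first
        | exact ⟨w0, hw0, e', he', w00, hn', i1.trans i2.symm⟩
        | exact ⟨w0, hw0, _, add_mem hw0 he', w00, n1, i1.trans i3.symm⟩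
        | exact ⟨e', he', _, add_mem hw0 he', e'0, n2, i2.trans i3.symm⟩
    have z'0 : z' ≠ 0 := by rintro rfl; exact nz (zero_mem _)
    have qz := han z hz z0
    have sp : span F {z} ⊔ span F {z'} = U := eq_of_le_of_finrank_le
      (sup_le ((span_singleton_le_iff_mem _ _).2 hz) ((span_singleton_le_iff_mem _ _).2 hz'))
      (by rw [finrank_sup_singleton nz, finrank_span_singleton z0]; omega)
    have rm : ∀ z ∈ U, ∀ w ∈ U, f.rfx z w ∈ U := fun z hz w hw => by rw [rfx_apply]; exact sub_mem hw (smul_mem _ _ hz)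
    let φ : U →ₗ[F] U := (((f.rfx z * f.rfx z' : V ≃ₗ[F] V) : V →ₗ[F] V) - LinearMap.id).restrict fun w hw =>
      sub_mem (rm z hz _ (rm z' hz' w hw)) hw
    have inj : Function.Injective φ := by
      rw [injective_iff_map_eq_zero]
      rintro ⟨w, hw⟩ h0
      have h1 : f.rfx z (f.rfx z' w) = w := sub_eq_zero.1 (congrArg Subtype.val h0)
      have h2 : f.rfx z' w = f.rfx z w := by rw [← h1, rfx_rfx, h1]
      rw [rfx_apply, rfx_apply, sub_right_inj, ← q] at h2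
      have i1 : f.B w z' = 0 := by
        by_contra hne
        exact nz (mem_span_singleton.2 ⟨f.B w z / f.B w z', by
          calc _ = (f.Q z / f.B w z') • ((f.Q z)⁻¹ * f.B w z) • z := by match_scalars; field_simp
            _ = _ := by rw [← h2]; match_scalars; field_simp⟩)
      have i2 : f.B w z = 0 := by simpa [i1, z0, qz] using h2.symm
      have : w ∈ U ⊓ f.perp U := ⟨hw, by rw [← sp, f.perp_sup]; exact ⟨f.mem_perp_singleton.2 i2, f.mem_perp_singleton.2 i1⟩⟩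
      exact Subtype.ext (by simpa [n3] using this)
    intro w hw
    obtain ⟨⟨w', hw'⟩, e⟩ := LinearMap.injective_iff_surjective.1 inj ⟨w, hw⟩
    have := tor z hz z' hz' qz (q ▸ qz) w' hw'
    rw [← q, div_self qz, one_smul] at this
    have e' : f.rfx z (f.rfx z' w') - w' = w := congrArg Subtype.val e
    rwa [e'] at this

end CX

end orth

end Cfsg.Agent.C3.SM
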