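import Cfsg.Agent.C3.SM5

/-! Central extensions of orthogonal groups: construction of an equivariant system of lifts. -/

set_option autoImplicit false

namespace Cfsg.Agent.C3.SM

open Submodule Module H4 H4.CForm
open scoped commutatorElement

variable {F : Type*} [Field F] {V : Type*} [AddCommGroup V] [Module F V] {E : Type*} [Group E]
  {ρ : E →* (V ≃ₗ[F] V)}

theorem exists_lift_of {T : FType F} {f : CForm T V} [FiniteDimensional F V] (hf : f.Nondeg) (S : V → Subgroup E)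
    (h1 : ∀ u v c, u ≠ 0 → f.EichOk u v c → ∃ s ∈ S u, ρ s = f.eich u v c)
    (h2 : ∀ u, u ≠ 0 → f.Q u = 0 → ∀ s ∈ S u, ρ s = 1 → s = 1)
    (h3 : ∀ u (k : F), u ≠ 0 → f.Q u = 0 → k ≠ 0 → S (k • u) ≤ S u)
    (h4 : ∀ u u' (k : F), u ≠ 0 → f.Q u = 0 → f.Q u' = 0 → f.B u' u = 0 → u' ∉ span F {u} →
      ∃ s ∈ S u, s ∈ S u' ∧ ρ s = f.eich u (k • u') 0)
    (h5 : ∀ g, ρ g ∈ f.E → ∀ u, u ≠ 0 → f.Q u = 0 → ∀ s ∈ S u, g * s * g⁻¹ ∈ S (ρ g u)) : ∃ ℓ, Lift f ρ ℓ := by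
  have inj : ∀ u, u ≠ 0 → f.Q u = 0 → ∀ s ∈ S u, ∀ s' ∈ S u, ρ s = ρ s' → s = s' := fun u u0 hu s hs s' hs' e =>
    (inv_mul_eq_one.1 (h2 u u0 hu _ (mul_mem (inv_mem hs) hs') (by simp [e])))
  have key : ∀ u v c u' v' c', u ≠ 0 → u' ≠ 0 → f.EichOk u v c → f.EichOk u' v' c' → ∀ s ∈ S u, ∀ s' ∈ S u',
      ρ s = f.eich u v c → ρ s' = f.eich u' v' c' → ρ s = ρ s' → s = s' := by
    intro u v c u' v' c' u0 u0' o o' s hs s' hs' e e' ee
    by_cases hn : u' ∈ span F {u}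
    · obtain ⟨k, rfl⟩ := mem_span_singleton.1 hn
      exact inj u u0 o.hu s hs s' (h3 u k u0 o.hu (by rintro rfl; simp at u0') hs') ee
    have e2 : f.eich u v c = f.eich u' v' c' := by rw [← e, ← e', ee]
    by_cases hB : f.B u' u = 0
    swap
    · have := eich_eq_one o hB (by rw [e2, o'.apply_self])
      rw [h2 u u0 o.hu s hs (e.trans this), h2 u' u0' o'.hu s' hs' (ee ▸ e.trans this)]
    have hn' : u ∉ span F {u'} := fun hh => hn (by
      obtain ⟨c, rfl⟩ := mem_span_singleton.1 hh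
      have : c ≠ 0 := by rintro rfl; exact u0 (by simp)
      exact mem_span_singleton.2 ⟨c⁻¹, by rw [smul_smul, inv_mul_cancel₀ this, one_smul]⟩)
    obtain ⟨z, hz, z1⟩ := hf.exists_perp_B_eq hn' T.ε
    have z2 : f.B z u = 1 := by rw [f.symm, z1]; simp
    have z3 := f.mem_perp_singleton.1 hz
    have e3 := congrArg (fun g : V ≃ₗ[F] V => g z) e2
    simp only [o.apply, o'.apply, z2, z3, zero_smul, sub_zero, one_smul] at e3
    have e4 : v = (-T.ε * f.B z v') • u' + (T.ε * (f.B z v - c)) • u := by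
      have : T.ε • v = (-f.B z v') • u' + (f.B z v - c) • u := by linear_combination (norm := module) -e3
      calc v = T.ε • T.ε • v := by rw [smul_smul, T.εε, one_smul]
        _ = _ := by rw [this]; module
    obtain ⟨s0, m1, m2, e5⟩ := h4 u u' (-T.ε * f.B z v') u0 o.hu o'.hu hB hn
    have e6 : f.eich u v c = f.eich u ((-T.ε * f.B z v') • u') 0 := by
      have i1 : f.B z v = T.σ (T.ε * (f.B z v - c)) := by
        conv_lhs => rw [e4]
        simp [z2, z3]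
      rw [e4, eich_add_smul (f.B_self_of_Q o.hu) (by simp [hB]), ← i1]; simp
    rw [inj u u0 o.hu s hs s0 m1 (by rw [e, e5, e6]), inj u' u0' o'.hu s' hs' s0 m2 (by rw [← ee, e, e5, e6])]
  classical
  let P : (V ≃ₗ[F] V) → E → Prop := fun x s => ∃ u v c, u ≠ 0 ∧ f.EichOk u v c ∧ s ∈ S u ∧ ρ s = f.eich u v c ∧ x = f.eich u v c
  let ℓ : (V ≃ₗ[F] V) → E := fun x => if h : ∃ s, P x s then h.choose else 1
  have l1 : ∀ u v c, u ≠ 0 → f.EichOk u v c → ∀ s ∈ S u, ρ s = f.eich u v c → ℓ (f.eich u v c) = s := fun u v c u0 o s hs e => by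
    have h : ∃ s, P (f.eich u v c) s := ⟨s, u, v, c, u0, o, hs, e, rfl⟩
    obtain ⟨u', v', c', u0', o', hs', e', e2⟩ := h.choose_spec
    simp only [ℓ, dif_pos h]
    exact key _ _ _ _ _ _ u0' u0 o' o _ hs' s hs e' e (by rw [e', e, e2])
  have l0 : ℓ 1 = 1 := by
    simp only [ℓ]
    split_ifs with h
    · obtain ⟨u', v', c', u0', o', hs', e', e2⟩ := h.choose_spec
      exact h2 u' u0' o'.hu _ hs' (e'.trans e2.symm)
    · rfl
  refine ⟨ℓ, fun u v c o => ?_, fun u v c v' c' o o' => ?_, fun g hg u v c o => ?_⟩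
  all_goals by_cases u0 : u = 0
  · simp [u0, eich_zero_left, l0]
  · obtain ⟨s, hs, e⟩ := h1 u v c u0 o
    rw [l1 u v c u0 o s hs e, e]
  · simp [u0, eich_zero_left, l0]
  · obtain ⟨s, hs, e⟩ := h1 u v c u0 o
    obtain ⟨s', hs', e'⟩ := h1 u v' c' u0 o'
    have m := eich_mul (f.B_self_of_Q o.hu) o.hv o'.hv c c'
    rw [l1 u v c u0 o s hs e, l1 u v' c' u0 o' s' hs' e', m, l1 _ _ _ u0 (o.mul o') _ (mul_mem hs hs') (by rw [map_mul, e, e', m])]
  · simp [u0, eich_zero_left, l0]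
  · obtain ⟨s, hs, e⟩ := h1 u v c u0 o
    rw [l1 u v c u0 o s hs e, l1 _ _ _ (by simpa using u0) (o.map (E_le_iso hg)) _ (h5 g hg u u0 o.hu s hs)
      (by rw [map_mul, map_mul, map_inv, e, eich_conj (E_le_iso hg)])]

section orth
variable {f : CForm (FType.orth F) V}

variable (f) in
noncomputable abbrev ee (u w : V) : V ≃ₗ[F] V := f.eich u w (f.Q w)

theorem ee_conj {g : V ≃ₗ[F] V} (hg : g ∈ f.E) (u w : V) : g * ee f u w * g⁻¹ = ee f (g u) (g w) := by
  rw [eich_conj (E_le_iso hg), ee, iso_Q (E_le_iso hg)]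

theorem ee_smul {u w : V} (hu : f.Q u = 0) (hw : f.B w u = 0) (k : F) : ee f (k • u) w = ee f u (k • w) := by
  rw [ee, eich_smul (f.B_self_of_Q hu) hw, ee, f.Q_smul]; rfl

theorem ee_self {u w : V} (hu : f.Q u = 0) (hw : w ∈ span F {u}) : ee f u w = 1 := by
  obtain ⟨k, rfl⟩ := mem_span_singleton.1 hw
  rw [ee, f.Q_smul_of_Q hu, orth_eich_smul_self hu]

theorem ee_app {e b w : V} (he : f.Q e = 0) (hb : f.B b e = 0) (hw : f.B w e = 0) : ee f e b w = w + f.B w b • e := by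
  rw [(orth_eichOk he hb).apply, hw]; simp

variable (f ρ) in
/-- hypotheses for the construction -/
structure OC (j : (V ≃ₗ[F] V) → E) : Prop where
  C : CX ρ f.E
  hf : f.Nondeg
  h7 : 7 ≤ finrank F V
  hj : ∀ x ∈ f.E, ρ (j x) = x
  RC : ∀ u v k g, f.Q u = 0 → f.Q v = 0 → f.B v u = 0 → u ≠ 0 → v ∉ span F {u} → ρ k = f.eich u v 0 → ρ g u = u → ρ g v = v →
    Commute g k

variable (f) in
noncomputable def kap (j : (V ≃ₗ[F] V) → E) (u e b w : V) : E := ⁅j (ee f e b), j (ee f u w)⁆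

namespace OC

variable {j : (V ≃ₗ[F] V) → E} (H : OC ρ f j)
include H

theorem hje {u w : V} (hu : f.Q u = 0) (hw : f.B w u = 0) : ρ (j (ee f u w)) = ee f u w := H.hj _ (orth_eichOk hu hw).mem_E

theorem RC' {u v : V} {k g : E} (hu : f.Q u = 0) (hv : f.Q v = 0) (h : f.B v u = 0) (u0 : u ≠ 0) (hk : ρ k = ee f u v) (gu : ρ g u = u)
    (gv : ρ g v = v) : Commute g k := by
  by_cases hn : v ∈ span F {u}
  · exact H.C.cen k (hk.trans (ee_self hu hn)) g
  · exact H.RC u v k g hu hv h u0 hn (by rw [hk, ee, hv]) gu gv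

section
variable {u e : V} (hu : f.Q u = 0) (he : f.Q e = 0) (heu : f.B e u = 0)
include hu he heu

theorem kap_map {b w : V} (b1 : f.B b u = 0) (b2 : f.B b e = 0) (w1 : f.B w u = 0) (w2 : f.B w e = 0) :
    ρ (kap f j u e b w) = ee f u (f.B w b • e) := by
  rw [kap, map_commutatorElement, H.hje he b2, H.hje hu w1, commutatorElement_def, ee_conj (orth_eichOk he b2).mem_E,
    eich_fix _ (f.B_zero_symm heu) (f.B_zero_symm b1), ee_app he b2 w2, add_comm, ee, orth_eich_add hu (by simp [heu]) w1,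
    mul_inv_cancel_right]

theorem kap_comm (u0 : u ≠ 0) {b w : V} (b1 : f.B b u = 0) (b2 : f.B b e = 0) (w1 : f.B w u = 0) (w2 : f.B w e = 0) {g : E}
    (gu : ρ g u = u) (ge : ρ g e = e) : Commute g (kap f j u e b w) :=
  H.RC' hu (f.Q_smul_of_Q he _) (by simp [heu]) u0 (H.kap_map hu he heu b1 b2 w1 w2) gu (by rw [map_smul, ge])

theorem kap_addw (u0 : u ≠ 0) {b w w' : V} (b1 : f.B b u = 0) (b2 : f.B b e = 0) (w1 : f.B w u = 0) (w2 : f.B w e = 0)
    (w1' : f.B w' u = 0) (w2' : f.B w' e = 0) : kap f j u e b (w + w') = kap f j u e b w * kap f j u e b w' := by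
  have := H.kap_comm hu he heu u0 b1 b2 w1' w2' (g := j (ee f u w)) (by rw [H.hje hu w1, (orth_eichOk hu w1).apply_self])
    (by rw [H.hje hu w1]; exact eich_fix _ heu (f.B_zero_symm w2))
  rw [kap, H.C.comm_congr rfl (b' := j (ee f u w) * j (ee f u w')) (by
    rw [map_mul, H.hje hu w1, H.hje hu w1', H.hje hu (by simp [w1, w1']), ee, orth_eich_add hu w1 w1']),
    ← mul_inv_cancel_right (kap f j u e b w') (j (ee f u w)), ← this.eq, kap, kap]
  group

theorem kap_addb (u0 : u ≠ 0) {b b' w : V} (b1 : f.B b u = 0) (b2 : f.B b e = 0) (b1' : f.B b' u = 0) (b2' : f.B b' e = 0)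
    (w1 : f.B w u = 0) (w2 : f.B w e = 0) : kap f j u e (b + b') w = kap f j u e b w * kap f j u e b' w := by
  have := H.kap_comm hu he heu u0 b1 b2 w1 w2 (g := j (ee f e b')) (by
    rw [H.hje he b2']; exact eich_fix _ (f.B_zero_symm heu) (f.B_zero_symm b1')) (by rw [H.hje he b2', (orth_eichOk he b2').apply_self])
  rw [kap, H.C.comm_congr (a' := j (ee f e b') * j (ee f e b)) (by
    rw [map_mul, H.hje he b2, H.hje he b2', H.hje he (by simp [b2, b2']), ee, add_comm, orth_eich_add he b2' b2]) rfl,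
    ← mul_inv_cancel_right (kap f j u e b w) (j (ee f e b')), ← this.eq, kap, kap]
  group

theorem kap_zero (u0 : u ≠ 0) {b w : V} (b1 : f.B b u = 0) (b2 : f.B b e = 0) (w1 : f.B w u = 0) (w2 : f.B w e = 0) (hw : f.Q w = 0)
    (h : f.B w b = 0) : kap f j u e b w = 1 :=
  commutatorElement_eq_one_iff_commute.2 (H.RC' hu hw w1 u0 (H.hje hu w1)
    (by rw [H.hje he b2]; exact eich_fix _ (f.B_zero_symm heu) (f.B_zero_symm b1)) (by rw [H.hje he b2]; exact eich_fix _ w2 h))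

omit heu in
theorem kap_conj {b w : V} (b2 : f.B b e = 0) (w1 : f.B w u = 0) (g : E) :
    g * kap f j u e b w * g⁻¹ = kap f j (ρ g u) (ρ g e) (ρ g b) (ρ g w) := by
  have hg := E_le_iso (H.C.mem g)
  refine Eq.trans ?_ (H.C.comm_congr (a := g * j (ee f e b) * g⁻¹) (b := g * j (ee f u w) * g⁻¹) ?_ ?_)
  · rw [kap]; group
  · rw [map_mul, map_mul, map_inv, H.hje he b2, ee_conj (H.C.mem g), H.hje ((iso_Q hg _).trans he) ((iso_B hg _ _).trans b2)]
  · rw [map_mul, map_mul, map_inv, H.hje hu w1, ee_conj (H.C.mem g), H.hje ((iso_Q hg _).trans hu) ((iso_B hg _ _).trans w1)]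

theorem kap_inv (u0 : u ≠ 0) {b w : V} (b1 : f.B b u = 0) (b2 : f.B b e = 0) (w1 : f.B w u = 0) (w2 : f.B w e = 0) {g : V ≃ₗ[F] V}
    (hg : g ∈ f.E) (gu : g u = u) (ge : g e = e) : kap f j u e b w = kap f j u e (g b) (g w) := by
  have := H.kap_conj hu he b2 w1 (j g)
  rwa [H.hj g hg, gu, ge, (H.kap_comm hu he heu u0 b1 b2 w1 w2 (by rwa [H.hj g hg]) (by rwa [H.hj g hg])).eq,
    mul_inv_cancel_right] at this

variable [FiniteDimensional F V] [Finite F]

theorem exists_gam (u0 : u ≠ 0) (hn : e ∉ span F {u}) : ∃ γ : F → E, (∀ s t, γ (s + t) = γ s * γ t) ∧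
    ∀ b w, f.B b u = 0 → f.B b e = 0 → f.B w u = 0 → f.B w e = 0 → kap f j u e b w = γ (f.B w b) := by
  obtain ⟨u', e', pu', hB, pe, pe', hB'⟩ := exists_frame H.hf hu he heu u0 hn
  have pu : ptW f ⊤ u := ⟨mem_top, u0, hu⟩
  have n1 := inf_pair_nondeg H.hf.top_inf_perp mem_top mem_top hu pu'.2.2 (by simp [hB])
  have d1 := finrank_inf_pair pu pu' (by simp [hB])
  have n2 := inf_pair_nondeg n1 pe.1 pe'.1 he pe'.2.2 (by simp [hB'])
  have d2 := finrank_inf_pair pe pe' (by simp [hB'])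
  have h7 := H.h7
  rw [finrank_top] at d1
  set W1 := ⊤ ⊓ f.perp (span F {u, u'})
  set W2 := W1 ⊓ f.perp (span F {e, e'})
  have w2 : ∀ x ∈ W2, f.B x u = 0 ∧ f.B x e = 0 := fun x hx => ⟨(mem_pp hx.1).1, (mem_pp hx).1⟩
  obtain ⟨a, ha⟩ := exists_pt (f := f) (W := W2) (by omega)
  obtain ⟨a', m, q, hA⟩ := exists_partner_of_nondeg n2 ha.1 ha.2.1 ha.2.2
  have pa' : ptW f W2 a' := ⟨m, ne_of_B hA, q⟩
  have n3 := inf_pair_nondeg n2 ha.1 m ha.2.2 q (by simp [hA])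
  have d3 := finrank_inf_pair ha pa' (by simp [hA])
  obtain ⟨a1, a2⟩ := w2 a ha.1
  obtain ⟨a3, a4⟩ := w2 a' m
  have ea := f.B_self_of_Q ha.2.2
  let Γ : F → F → E := fun y μ => kap f j u e (y • a') (μ • a)
  have g1 : ∀ b μ, f.B b u = 0 → f.B b e = 0 → kap f j u e b (μ • a) = Γ (f.B a b) μ := fun b μ b1 b2 => by
    have := H.kap_addb hu he heu u0 (b := b - f.B a b • a') (b' := f.B a b • a') (w := μ • a) (by simp [b1, a3]) (by simp [b2, a4])
      (by simp [a3]) (by simp [a4]) (by simp [a1]) (by simp [a2])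
    rwa [sub_add_cancel, H.kap_zero hu he heu u0 (b := b - f.B a b • a') (by simp [b1, a3]) (by simp [b2, a4]) (by simp [a1]) (by simp [a2])
      (f.Q_smul_of_Q ha.2.2 _) (by simp [hA]), one_mul] at this
  have g2 : ∀ y y' μ, Γ (y + y') μ = Γ y μ * Γ y' μ := fun y y' μ => by
    simp only [Γ, add_smul]; exact H.kap_addb hu he heu u0 (by simp [a3]) (by simp [a4]) (by simp [a3]) (by simp [a4]) (by simp [a1]) (by simp [a2])
  have g3 : ∀ y μ μ', Γ y (μ + μ') = Γ y μ * Γ y μ' := fun y y' μ => by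
    simp only [Γ, add_smul]; exact H.kap_addw hu he heu u0 (by simp [a3]) (by simp [a4]) (by simp [a1]) (by simp [a2]) (by simp [a1]) (by simp [a2])
  obtain ⟨w0, hw0, y0, hy0, e0⟩ := exists_B_one n3 (by omega)
  obtain ⟨z, hz, qz⟩ := orth_exists_Q_ne (f := f) hw0 hy0 (by simp [e0])
  have g4 : ∀ l y μ, Γ (l ^ 2 * y) μ = Γ y (l ^ 2 * μ) := fun l y μ => by
    by_cases l0 : l = 0
    · have i1 := g2 0 0 μ
      have i2 := g3 y 0 0
      simp only [add_zero, left_eq_mul] at i1 i2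
      simp [l0, i1, i2]
    obtain ⟨x, x1, x2, x3⟩ := torus ha.2.2 q hA (v := l • z) (by simp [(mem_pp hz).1]) (by simp [(mem_pp hz).2])
      (by simp [f.Q_smul, l0, qz]) (mem_pp hz).1 (mem_pp hz).2 qz
    rw [show f.Q (l • z) / f.Q z = l ^ 2 by rw [f.Q_smul]; simp; field_simp] at x2
    simp only [rfx_smul l0, rfx_rfx] at x3
    have xu := x3 u (f.B_zero_symm a1) (f.B_zero_symm a3)
    have xe := x3 e (f.B_zero_symm a2) (f.B_zero_symm a4)
    have i1 := iso_B (E_le_iso x1) a a'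
    have i2 := iso_B (E_le_iso x1) a' u
    have i3 := iso_B (E_le_iso x1) a' e
    rw [x2, B_smul_left, hA] at i1
    rw [xu, a3] at i2
    rw [xe, a4] at i3
    simp only [Γ]
    rw [H.kap_inv hu he heu u0 (by simp [a3]) (by simp [a4]) (by simp [a1]) (by simp [a2]) x1 xu xe, map_smul, map_smul, x2, smul_smul,
      g1 _ _ (by simp [i2]) (by simp [i3]), mul_comm μ, B_smul_right]
    simp only [Γ, FType.orth_σ]
    congr 2; linear_combination y * i1
  have g5 : ∀ y μ, Γ y μ = Γ (μ * y) 1 := fun y μ => by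
    obtain ⟨r, s, rfl⟩ := exists_binary_eq (F := F) one_ne_zero one_ne_zero μ
    rw [g3, add_mul, g2, one_mul, one_mul, g4, g4, mul_one, mul_one]
  refine ⟨fun t => Γ t 1, fun s t => g2 s t 1, fun b w b1 b2 w1 w2' => ?_⟩
  let A : AddSubgroup V :=
    { carrier := {w | f.B w u = 0 ∧ f.B w e = 0 ∧ kap f j u e b w = Γ (f.B w b) 1}
      zero_mem' := ⟨by simp, by simp, by have := g1 b 0 b1 b2; rw [g5] at this; simpa using this⟩
      add_mem' := fun {x y} hx hy => ⟨by simp [hx.1, hy.1], by simp [hx.2.1, hy.2.1], by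
        rw [H.kap_addw hu he heu u0 b1 b2 hx.1 hx.2.1 hy.1 hy.2.1, hx.2.2, hy.2.2, f.B_add_left, g2]⟩
      neg_mem' := fun {x} hx => ⟨by simp [hx.1], by simp [hx.2.1], by
        have i1 := H.kap_addw hu he heu u0 b1 b2 hx.1 hx.2.1 (w' := -x) (by simp [hx.1]) (by simp [hx.2.1])
        have i2 := g2 (f.B x b) (f.B (-x) b) 1
        have i3 := g1 b 0 b1 b2
        rw [g5, zero_smul, zero_mul] at i3
        rw [add_neg_cancel, i3, hx.2.2] at i1
        rw [show f.B x b + f.B (-x) b = 0 by simp, i1] at i2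
        exact mul_left_cancel i2⟩ }
  have z0 : ∀ x, f.B x u = 0 → f.B x e = 0 → f.Q x = 0 → f.B x b = 0 → x ∈ A := fun x x1 x2 x3 x4 => ⟨x1, x2, by
    have i1 := g2 0 0 1
    simp only [add_zero, left_eq_mul] at i1
    rw [H.kap_zero hu he heu u0 b1 b2 x1 x2 x3 x4, x4, i1]⟩
  refine (sing_ind (W := f.perp (span F {u, e})) ⟨f.mem_perp_pair.2 ⟨a1, a2⟩, ha.2⟩ ⟨f.mem_perp_pair.2 ⟨a3, a4⟩, pa'.2⟩ hA A
    (fun x hx qx => ?_) w (f.mem_perp_pair.2 ⟨w1, w2'⟩)).2.2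
  obtain ⟨x1, x2⟩ := f.mem_perp_pair.1 hx
  have p1 := Lift.proj pu pu' hB (mem_top (x := x)) x1
  have p2 := Lift.proj pe pe' hB' p1.1 (by simp [x2, f.B_zero_symm heu])
  set y := x - f.B x u' • u - f.B (x - f.B x u' • u) e' • e with hy
  rw [show x = y + f.B x u' • u + f.B (x - f.B x u' • u) e' • e by rw [hy]; module]
  refine add_mem (add_mem ?_ (z0 _ (by simp [f.B_self_of_Q hu]) (by simp [f.B_zero_symm heu]) (f.Q_smul_of_Q hu _)
    (by simp [f.B_zero_symm b1]))) (z0 _ (by simp [heu]) (by simp [f.B_self_of_Q he]) (f.Q_smul_of_Q he _) (by simp [f.B_zero_symm b2]))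
  by_cases y0 : y = 0
  · rw [y0]; exact zero_mem _
  obtain ⟨g, -, g0, gf, μ, -, gy⟩ := (thick_of_three_le n2 (by omega)).exists_E_map n2 (S := ⊤) (fun _ _ _ _ _ _ => Subgroup.mem_top _)
    p2.1 ha.1 y0 ha.2.1 (p2.2.trans (p1.2.trans qx)) ha.2.2
  have gu := gf u fun x hx => f.B_zero_symm (w2 x hx).1
  have ge := gf e fun x hx => f.B_zero_symm (w2 x hx).2
  refine ⟨(w2 y p2.1).1, (w2 y p2.1).2, ?_⟩
  rw [H.kap_inv hu he heu u0 b1 b2 (w2 y p2.1).1 (w2 y p2.1).2 g0 gu ge, gy,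
    g1 _ _ (by rw [← gu, iso_B (E_le_iso g0), b1]) (by rw [← ge, iso_B (E_le_iso g0), b2]), g5, ← B_smul_left, ← gy, iso_B (E_le_iso g0)]

end

variable [FiniteDimensional F V] [Finite F]

theorem exists_pair_perp {u a a' : V} (hu : f.Q u = 0) (u0 : u ≠ 0) (ha : f.Q a = 0) (ha' : f.Q a' = 0) (h1 : f.B a u = 0) (h2 : f.B a' u = 0)
    (h : f.B a a' ≠ 0) : ∃ e e', f.Q e = 0 ∧ f.Q e' = 0 ∧ f.B e' e = 1 ∧ f.B e u = 0 ∧ f.B e' u = 0 ∧ f.B e a = 0 ∧ f.B e' a = 0 ∧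
      f.B e a' = 0 ∧ f.B e' a' = 0 := by
  have n1 := inf_pair_nondeg H.hf.top_inf_perp mem_top mem_top ha ha' h
  have d1 := finrank_inf_pair (W := ⊤) ⟨mem_top, by rintro rfl; simp at h, ha⟩ ⟨mem_top, by rintro rfl; simp at h, ha'⟩ h
  have pu : ptW f (⊤ ⊓ f.perp (span F {a, a'})) u := ⟨⟨mem_top, f.mem_perp_pair.2 ⟨f.B_zero_symm h1, f.B_zero_symm h2⟩⟩, u0, hu⟩
  obtain ⟨u', m, q, hB⟩ := exists_partner_of_nondeg n1 pu.1 u0 hu
  have n2 := inf_pair_nondeg n1 pu.1 m hu q (by simp [hB])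
  have d2 := finrank_inf_pair pu ⟨m, ne_of_B hB, q⟩ (by simp [hB])
  have h7 := H.h7
  rw [finrank_top] at d1
  obtain ⟨e', he'⟩ := exists_pt (f := f) (W := ⊤ ⊓ f.perp (span F {a, a'}) ⊓ f.perp (span F {u, u'})) (by omega)
  obtain ⟨e, m, q, hB⟩ := exists_partner_of_nondeg n2 he'.1 he'.2.1 he'.2.2
  exact ⟨e, e', q, he'.2.2, hB, (mem_pp m).1, (mem_pp he'.1).1, (mem_pp m.1).1, (mem_pp he'.1.1).1, (mem_pp m.1).2, (mem_pp he'.1.1).2⟩

theorem exists_pair {u : V} (hu : f.Q u = 0) (u0 : u ≠ 0) : ∃ e e', f.Q e = 0 ∧ f.Q e' = 0 ∧ f.B e e' = 1 ∧ f.B e u = 0 ∧ f.B e' u = 0 := by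
  obtain ⟨u', q, hB⟩ := H.hf.exists_pair u0 hu
  have n1 := inf_pair_nondeg H.hf.top_inf_perp mem_top mem_top hu q (by simp [hB])
  have d1 := finrank_inf_pair (W := ⊤) ⟨mem_top, u0, hu⟩ ⟨mem_top, ne_of_B hB, q⟩ (by simp [hB])
  have h7 := H.h7
  rw [finrank_top] at d1
  obtain ⟨e', he'⟩ := exists_pt (f := f) (W := ⊤ ⊓ f.perp (span F {u, u'})) (by omega)
  obtain ⟨e, m, q, hB⟩ := exists_partner_of_nondeg n1 he'.1 he'.2.1 he'.2.2
  exact ⟨e', e, he'.2.2, q, hB, (mem_pp he'.1).1, (mem_pp m).1⟩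

theorem abel {u : V} (hu : f.Q u = 0) (u0 : u ≠ 0) {w w' : V} (h1 : f.B w u = 0) (h2 : f.B w' u = 0) {y y' : E} (e1 : ρ y = ee f u w)
    (e2 : ρ y' = ee f u w') : Commute y y' := by
  have key : ∀ a a', f.Q a = 0 → f.Q a' = 0 → f.B a u = 0 → f.B a' u = 0 → ∀ y y', ρ y = ee f u a → ρ y' = ee f u a' → Commute y y' := by
    intro a a' ha ha' h1 h2 y y' e1 e2
    by_cases h : f.B a a' = 0
    · exact H.RC' hu ha' h2 u0 e2 (by rw [e1, (orth_eichOk hu h1).apply_self]) (by rw [e1]; exact eich_fix _ h2 (f.B_zero_symm h))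
    obtain ⟨e, e', qe, qe', i0, i1, i2, i3, i4, i5, i6⟩ := H.exists_pair_perp hu u0 ha ha' h1 h2 h
    have hn : e ∉ span F {u} := fun hh => by
      obtain ⟨k, rfl⟩ := mem_span_singleton.1 hh
      simp [i2] at i0
    obtain ⟨γ, -, hγ⟩ := H.exists_gam hu qe i1 u0 hn
    have k1 : ∀ a, f.Q a = 0 → f.B a u = 0 → f.B e a = 0 → f.B e' a = 0 →
        ρ ((j (ee f u e'))⁻¹ * (j (ee f e (-a)) * j (ee f u e') * (j (ee f e (-a)))⁻¹)) = ee f u a := fun a ha h1 i3 i4 => by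
      have o := orth_eichOk (v := -a) qe (by simp [f.B_zero_symm i3])
      simp only [map_mul, map_inv, H.hje hu i2, H.hje qe o.hv]
      rw [ee_conj o.mem_E, eich_fix _ (f.B_zero_symm i1) (by simp [f.B_zero_symm h1]), o.apply,
        show e' + f.B e' (-a) • e - f.B e' e • ((FType.orth F).ε • -a + f.Q (-a) • e) = e' + a by simp [i4, i0, ha],
        ee, ee, orth_eich_add hu i2 h1, inv_mul_cancel_left]
    have k2 : ∀ a a', f.B a u = 0 → f.B e a = 0 → f.B a' u = 0 → f.B e a' = 0 → ∀ y', ρ y' = ee f u a' →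
        j (ee f e (-a)) * y' * (j (ee f e (-a)))⁻¹ = γ (-f.B a' a) * y' ∧ Commute y' (γ (-f.B a' a)) := fun a a' h1 i3 h2 i5 y' e2 => by
      have := hγ (-a) a' (by simp [h1]) (by simp [f.B_zero_symm i3]) h2 (f.B_zero_symm i5)
      rw [map_neg] at this
      rw [← this]
      refine ⟨by rw [kap, ← H.C.comm_congr rfl (e2.trans (H.hje hu h2).symm)]; group, H.kap_comm hu qe i1 u0 (by simp [h1])
        (by simp [f.B_zero_symm i3]) h2 (f.B_zero_symm i5) (by rw [e2, (orth_eichOk hu h2).apply_self])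
        (by rw [e2]; exact eich_fix _ i1 i5)⟩
    refine H.C.commute_congr ((k1 a ha h1 i3 i4).trans e1.symm) ((k1 a' ha' h2 i5 i6).trans e2.symm) ?_
    obtain ⟨m1, m2⟩ := k2 a a' h1 i3 h2 i5 _ (k1 a' ha' h2 i5 i6)
    obtain ⟨m3, m4⟩ := k2 a' a h2 i5 h1 i3 _ (k1 a ha h1 i3 i4)
    have m5 := H.C.conj_eq (a := j (ee f e (-a)) * j (ee f e (-a'))) (b := j (ee f e (-a')) * j (ee f e (-a))) (by
      have o := orth_eichOk (v := -a) qe (by simp [f.B_zero_symm i3])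
      have o' := orth_eichOk (v := -a') qe (by simp [f.B_zero_symm i5])
      simp only [map_mul, H.hje qe o.hv, H.hje qe o'.hv]
      rw [← orth_eich_add qe o.hv o'.hv, ← orth_eich_add qe o'.hv o.hv, add_comm]) (j (ee f u e'))
    rw [show f.B a a' = f.B a' a by rw [f.symm]; simp] at m3 m4
    generalize γ (-f.B a' a) = c, j (ee f e (-a)) = l, j (ee f e (-a')) = l', j (ee f u e') = φ at *
    have m6 : l * l' * φ * (l * l')⁻¹ = φ * (φ⁻¹ * (l * φ * l⁻¹)) * (l * (φ⁻¹ * (l' * φ * l'⁻¹)) * l⁻¹) := by group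
    have m7 : l' * l * φ * (l' * l)⁻¹ = φ * (φ⁻¹ * (l' * φ * l'⁻¹)) * (l' * (φ⁻¹ * (l * φ * l⁻¹)) * l'⁻¹) := by group
    rw [m6, m7, m1, m3] at m5
    generalize φ⁻¹ * (l * φ * l⁻¹) = α, φ⁻¹ * (l' * φ * l'⁻¹) = α' at *
    rw [mul_assoc, mul_assoc, mul_left_cancel_iff, ← mul_assoc, ← mul_assoc, m4.eq, m2.eq, mul_assoc, mul_assoc,
      mul_left_cancel_iff] at m5
    exact m5
  obtain ⟨a, a', q, q', hB, a1, a2⟩ := H.exists_pair hu u0
  have pa : ptW f (f.perp (span F {u})) a := ⟨f.mem_perp_singleton.2 a1, by rintro rfl; simp at hB, q⟩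
  have pa' : ptW f (f.perp (span F {u})) a' := ⟨f.mem_perp_singleton.2 a2, ne_of_B hB, q'⟩
  have k2 : ∀ y' : E, (∀ a, f.Q a = 0 → f.B a u = 0 → ∀ y, ρ y = ee f u a → Commute y y') →
      ∀ w, f.B w u = 0 → ∀ y, ρ y = ee f u w → Commute y y' := fun y' hy w h1 y e1 => by
    have := (sing_ind pa pa' hB (siegelSub hu (CX.lc ρ y')) (fun v hv qv => ⟨f.mem_perp_singleton.1 hv, by
      rw [← ee, ← H.hje hu (f.mem_perp_singleton.1 hv), H.C.mem_lc]
      exact hy v qv (f.mem_perp_singleton.1 hv) _ (H.hje hu (f.mem_perp_singleton.1 hv))⟩) w (f.mem_perp_singleton.2 h1)).2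
    rwa [← ee, ← e1, H.C.mem_lc] at this
  exact k2 y' (fun a qa a1 y e1 => (k2 y (fun a' qa' a1' y' e1' => key a' a qa' qa a1' a1 y' y e1' e1) w' h2 y' e2).symm) w h1 y e1

theorem exists_bw {u e : V} (hu : f.Q u = 0) (he : f.Q e = 0) (heu : f.B e u = 0) (u0 : u ≠ 0) :
    ∃ b w, f.B b u = 0 ∧ f.B b e = 0 ∧ f.B w u = 0 ∧ f.B w e = 0 ∧ f.B w b = 1 := by
  by_cases hn : e ∈ span F {u}
  · obtain ⟨k, rfl⟩ := mem_span_singleton.1 hn
    obtain ⟨a, a', q, q', hB, a1, a2⟩ := H.exists_pair hu u0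
    exact ⟨a', a, a2, by simp [a2], a1, by simp [a1], hB⟩
  obtain ⟨u', e', pu', hB, pe, pe', hB'⟩ := exists_frame H.hf hu he heu u0 hn
  have n1 := inf_pair_nondeg H.hf.top_inf_perp mem_top mem_top hu pu'.2.2 (by simp [hB])
  have d1 := finrank_inf_pair ⟨mem_top, u0, hu⟩ pu' (by simp [hB])
  have n2 := inf_pair_nondeg n1 pe.1 pe'.1 he pe'.2.2 (by simp [hB'])
  have d2 := finrank_inf_pair pe pe' (by simp [hB'])
  have h7 := H.h7
  rw [finrank_top] at d1
  obtain ⟨w, hw, b, hb, e⟩ := exists_B_one n2 (by omega)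
  exact ⟨b, w, (mem_pp hb.1).1, (mem_pp hb).1, (mem_pp hw.1).1, (mem_pp hw).1, e⟩

theorem exists_s : ∃ s : V → V → E, ∀ u e, f.Q u = 0 → f.Q e = 0 → f.B e u = 0 → u ≠ 0 →
    (∀ b w, f.B b u = 0 → f.B b e = 0 → f.B w u = 0 → f.B w e = 0 → kap f j u e b w = s u (f.B w b • e)) := by
  have := fun (u e : V) (h : f.Q u = 0 ∧ f.Q e = 0 ∧ f.B e u = 0 ∧ u ≠ 0) => H.exists_bw h.1 h.2.1 h.2.2.1 h.2.2.2
  choose! b0 w0 h0 using this
  refine ⟨fun u e => kap f j u e (b0 u e) (w0 u e), fun u e hu he heu u0 b w b1 b2 w1 w2 => ?_⟩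
  obtain ⟨i1, i2, i3, i4, i5⟩ := h0 u (f.B w b • e) ⟨hu, f.Q_smul_of_Q he _, by simp [heu], u0⟩
  have triv : ∀ e b w, e ∈ span F {u} → f.B b u = 0 → f.B w u = 0 → kap f j u e b w = 1 := fun e b w hn b1 w1 => by
    obtain ⟨k, rfl⟩ := mem_span_singleton.1 hn
    exact commutatorElement_eq_one_iff_commute.2 (H.abel hu u0 (w := k • b) (by simp [b1]) w1
      (by rw [ee_smul hu b1, H.hje hu (by simp [b1])]) (H.hje hu w1))
  by_cases hn : e ∈ span F {u}
  · exact (triv e b w hn b1 w1).trans (triv _ _ _ (smul_mem _ _ hn) i1 i3).symm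
  obtain ⟨γ, h1, h2⟩ := H.exists_gam hu he heu u0 hn
  by_cases h : f.B w b = 0
  · have := h1 0 0
    simp only [add_zero, left_eq_mul] at this
    rw [h2 b w b1 b2 w1 w2, h, this, zero_smul]
    exact (triv 0 _ _ (zero_mem _) (by simpa [h] using i1) (by simpa [h] using i3)).symm
  rw [B_smul_right, mul_eq_zero, or_iff_right (by simpa using h)] at i2 i4
  rw [h2 b w b1 b2 w1 w2]
  dsimp only
  rw [kap, ee_smul he i2, ← kap, h2 _ _ (by simp [i1]) (by simp [i2]) i3 i4]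
  simp [i5]

theorem exists_lift : ∃ ℓ, Lift f ρ ℓ := by
  obtain ⟨s, hs⟩ := H.exists_s
  have s0 : ∀ u e, f.Q u = 0 → f.Q e = 0 → f.B e u = 0 → u ≠ 0 → ∀ b w, f.B b u = 0 → f.B b e = 0 → f.B w u = 0 → f.B w e = 0 →
      f.B w b = 1 → s u e = kap f j u e b w := fun u e hu he heu u0 b w b1 b2 w1 w2 h => by
    rw [hs u e hu he heu u0 b w b1 b2 w1 w2, h, one_smul]
  have s1 : ∀ u e, f.Q u = 0 → f.Q e = 0 → f.B e u = 0 → u ≠ 0 → ρ (s u e) = ee f u e := fun u e hu he heu u0 => by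
    obtain ⟨b, w, b1, b2, w1, w2, h⟩ := H.exists_bw hu he heu u0
    rw [s0 u e hu he heu u0 b w b1 b2 w1 w2 h, H.kap_map hu he heu b1 b2 w1 w2, h, one_smul]
  have s2 : ∀ u e, f.Q u = 0 → f.Q e = 0 → f.B e u = 0 → u ≠ 0 → ∀ g, g * s u e * g⁻¹ = s (ρ g u) (ρ g e) := fun u e hu he heu u0 g => by
    obtain ⟨b, w, b1, b2, w1, w2, h⟩ := H.exists_bw hu he heu u0
    have hg := E_le_iso (H.C.mem g)
    rw [s0 u e hu he heu u0 b w b1 b2 w1 w2 h, H.kap_conj hu he b2 w1, s0 _ _ ((iso_Q hg _).trans hu) ((iso_Q hg _).trans he)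
      ((iso_B hg _ _).trans heu) (by simpa using u0) _ _ ((iso_B hg _ _).trans b1) ((iso_B hg _ _).trans b2) ((iso_B hg _ _).trans w1)
      ((iso_B hg _ _).trans w2) ((iso_B hg _ _).trans h)]
  have s3 : ∀ u e, f.Q u = 0 → f.Q e = 0 → f.B e u = 0 → u ≠ 0 → ∀ α β : F, s u ((α + β) • e) = s u (α • e) * s u (β • e) := by
    intro u e hu he heu u0 α β
    obtain ⟨b, w, b1, b2, w1, w2, h⟩ := H.exists_bw hu he heu u0
    have k : ∀ α : F, s u (α • e) = kap f j u e b (α • w) := fun α => by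
      rw [hs u e hu he heu u0 b _ b1 b2 (by simp [w1]) (by simp [w2])]; simp [h]
    rw [k, k, k, add_smul, H.kap_addw hu he heu u0 b1 b2 (by simp [w1]) (by simp [w2]) (by simp [w1]) (by simp [w2])]
  have s4 : ∀ u e, f.Q u = 0 → e ∈ span F {u} → u ≠ 0 → s u e = 1 := fun u e hu hn u0 => by
    obtain ⟨k, rfl⟩ := mem_span_singleton.1 hn
    obtain ⟨b, w, b1, b2, w1, w2, h⟩ := H.exists_bw hu hu (f.B_self_of_Q hu) u0
    rw [s0 u _ hu (f.Q_smul_of_Q hu k) (by simp [f.B_self_of_Q hu]) u0 b w b1 (by simp [b1]) w1 (by simp [w1]) h]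
    exact commutatorElement_eq_one_iff_commute.2 (H.abel hu u0 (w := k • b) (by simp [b1]) w1
      (by rw [ee_smul hu b1, H.hje hu (by simp [b1])]) (H.hje hu w1))
  have s5 : ∀ u v v', f.Q u = 0 → u ≠ 0 → f.Q v = 0 → f.Q v' = 0 → f.B v u = 0 → f.B v' u = 0 → f.B v v' = 0 →
      s u (v + v') = s u v * s u v' := by
    intro u v v' hu u0 hv hv' h1 h2 h3
    have cm := H.abel hu u0 h1 h2 (s1 u v hu hv h1 u0) (s1 u v' hu hv' h2 u0)
    by_cases hn : v ∈ span F {u, v'}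
    · obtain ⟨α, β, rfl⟩ := mem_span_pair.1 hn
      have k : ∀ β : F, s u (α • u + β • v') = s u (β • v') := fun β => by
        by_cases hn : β • v' ∈ span F {u}
        · rw [s4 u _ hu hn u0, s4 u _ hu (add_mem (smul_mem _ _ (mem_span_singleton_self u)) hn) u0]
        obtain ⟨z, hz, e⟩ := H.hf.exists_perp_B_eq hn α
        have z1 := f.mem_perp_singleton.1 hz
        have := s2 u (β • v') hu (f.Q_smul_of_Q hv' _) (by simp [h2]) u0 (j (ee f u z))
        rw [H.hje hu z1, (orth_eichOk hu z1).apply_self, ee_app hu z1 (by simp [h2]), e, (H.abel hu u0 z1 (by simp [h2]) (H.hje hu z1)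
          (s1 u _ hu (f.Q_smul_of_Q hv' β) (by simp [h2]) u0)).eq, mul_inv_cancel_right] at this
        rw [this, add_comm]
      have := s3 u v' hu hv' h2 u0 β 1
      rw [one_smul] at this
      rw [k, ← this, ← k, add_smul, one_smul, add_assoc]
    obtain ⟨b, hb, e⟩ := H.hf.exists_perp_B_eq hn 1
    obtain ⟨b1, b2⟩ := f.mem_perp_pair.1 hb
    have i1 := s2 u v hu hv h1 u0 (j (ee f v' b))
    rw [H.hje hv' b2, eich_fix _ (f.B_zero_symm h2) (f.B_zero_symm b1), ee_app hv' b2 h3, e, one_smul] at i1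
    rw [← i1, cm.eq, s0 u v' hu hv' h2 u0 b v b1 b2 h1 h3 e, kap, ← H.C.comm_congr rfl ((s1 u v hu hv h1 u0).trans (H.hje hu h1).symm)]
    group
  let S : V → Subgroup E := fun u => Subgroup.closure {x | ∃ e, f.Q e = 0 ∧ f.B e u = 0 ∧ x = s u e}
  have mS : ∀ u e, f.Q e = 0 → f.B e u = 0 → s u e ∈ S u := fun u e h1 h2 => Subgroup.subset_closure ⟨e, h1, h2, rfl⟩
  have sec : ∀ u, u ≠ 0 → f.Q u = 0 → ∃ σ : V → E, (∀ w, f.B w u = 0 → σ w ∈ S u ∧ ρ (σ w) = ee f u w) ∧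
      (∀ w w', f.B w u = 0 → f.B w' u = 0 → σ (w + w') = σ w * σ w') ∧ ∀ v, f.Q v = 0 → f.B v u = 0 → σ v = s u v := by
    intro u u0 hu
    obtain ⟨e', e, qe', qe, i0, i2, i1⟩ := H.exists_pair hu u0
    have i0' : f.B e e' = 1 := by rw [f.symm, i0]; simp
    have ee0 := f.B_self_of_Q qe
    have ee1 := f.B_self_of_Q qe'
    have mX : ∀ x ∈ S u, ∃ w, f.B w u = 0 ∧ ρ x = ee f u w := fun x hx => by
      induction hx using Subgroup.closure_induction with
      | mem x hx => obtain ⟨v, h1, h2, rfl⟩ := hx; exact ⟨v, h2, s1 u v hu h1 h2 u0⟩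
      | one => exact ⟨0, by simp, by simp [ee]⟩
      | mul x y _ _ h1 h2 =>
        obtain ⟨w, h1, e1⟩ := h1
        obtain ⟨w', h2, e2⟩ := h2
        exact ⟨w + w', by simp [h1, h2], by rw [map_mul, e1, e2, ee, ee, ee, orth_eich_add hu h1 h2]⟩
      | inv x _ h1 =>
        obtain ⟨w, h1, e1⟩ := h1
        exact ⟨-w, by simp [h1], by rw [map_inv, e1, ee, ee, orth_eich_neg hu h1]⟩
    have cm : ∀ x ∈ S u, ∀ y ∈ S u, x * y = y * x := fun x hx y hy => by
      obtain ⟨w, h1, e1⟩ := mX x hx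
      obtain ⟨w', h2, e2⟩ := mX y hy
      exact H.abel hu u0 h1 h2 e1 e2
    letI : CommGroup (S u) := { (inferInstance : Group (S u)) with mul_comm := fun a b => Subtype.ext (cm a a.2 b b.2) }
    let P : V → Prop := fun b => f.B b u = 0 ∧ f.B b e = 0 ∧ f.B b e' = 0
    have qv : ∀ (β : F) b, β ≠ 0 → P b → f.Q (β • e' + b + (-(f.Q b / β)) • e) = 0 := fun β b hβ hb => by
      rw [f.Q_add_smul qe, f.Q_add_of_perp (by simp [f.B_zero_symm hb.2.2]), f.Q_smul_of_Q qe']; simp [i0, hb.2.1, hβ]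
    have bv : ∀ (β γ : F) b, P b → f.B (β • e' + b + γ • e) u = 0 := fun β γ b hb => by simp [i1, i2, hb.1]
    classical
    let t : V → S u := fun v => if h : f.Q v = 0 ∧ f.B v u = 0 then ⟨s u v, mS u v h.1 h.2⟩ else 1
    have ht : ∀ v, f.Q v = 0 → f.B v u = 0 → (t v : E) = s u v := fun v h1 h2 => by simp [t, h1, h2]
    have t5 : ∀ v v', f.Q v = 0 → f.Q v' = 0 → f.B v u = 0 → f.B v' u = 0 → f.B v v' = 0 → t (v + v') = t v * t v' :=
      fun v v' hv hv' h1 h2 h3 => Subtype.ext (by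
        rw [Subgroup.coe_mul, ht v hv h1, ht v' hv' h2, ht _ (by rw [f.Q_add_of_perp h3, hv, hv', add_zero]) (by simp [h1, h2]),
          s5 u v v' hu u0 hv hv' h1 h2 h3])
    have te : ∀ α β : F, t ((α + β) • e) = t (α • e) * t (β • e) := fun α β => by
      rw [add_smul, t5 _ _ (f.Q_smul_of_Q qe _) (f.Q_smul_of_Q qe _) (by simp [i1]) (by simp [i1]) (by simp [ee0])]
    have te' : ∀ α β : F, t ((α + β) • e') = t (α • e') * t (β • e') := fun α β => by
      rw [add_smul, t5 _ _ (f.Q_smul_of_Q qe' _) (f.Q_smul_of_Q qe' _) (by simp [i2]) (by simp [i2]) (by simp [ee1])]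
    have t0 : t 0 = 1 := by have := te 0 0; simpa using this
    let G : F → V → S u := fun β b => t (β • e' + b + (-(f.Q b / β)) • e) * (t (β • e'))⁻¹ * t ((f.Q b / β) • e)
    have G1 : ∀ β b, β ≠ 0 → P b → f.Q b = 0 → G β b = t b := fun β b hβ hb q => by
      simp only [G, q, zero_div, neg_zero, zero_smul, add_zero, t0, mul_one]
      rw [t5 _ _ (f.Q_smul_of_Q qe' _) q (by simp [i2]) hb.1 (by simp [f.B_zero_symm hb.2.2]), mul_inv_cancel_comm]
    have G2 : ∀ β b b', β ≠ 0 → P b → P b' → G β (b + b') = G β b * G β b' := fun β b b' hβ hb hb' => by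
      have hb2 : P (b + b') := ⟨by simp [hb.1, hb'.1], by simp [hb.2.1, hb'.2.1], by simp [hb.2.2, hb'.2.2]⟩
      have o := orth_eichOk (v := (-β⁻¹) • b) qe (by simp [hb.2.1])
      have lu : ρ (j (ee f e ((-β⁻¹) • b))) u = u := by
        rw [H.hje qe o.hv]; exact eich_fix _ (f.B_zero_symm i1) (by simp [f.B_zero_symm hb.1])
      have c1 := s2 u _ hu (f.Q_smul_of_Q qe' β) (by simp [i2]) u0 (j (ee f e ((-β⁻¹) • b)))
      have c2 := s2 u _ hu (qv β b' hβ hb') (bv β _ b' hb') u0 (j (ee f e ((-β⁻¹) • b)))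
      rw [lu, H.hje qe o.hv, o.apply] at c1 c2
      rw [show β • e' + f.B (β • e') ((-β⁻¹) • b) • e - f.B (β • e') e • ((FType.orth F).ε • (-β⁻¹) • b + f.Q ((-β⁻¹) • b) • e) =
        β • e' + b + (-(f.Q b / β)) • e by
          simp [f.Q_smul, i0, f.B_zero_symm hb.2.2]; match_scalars <;> field_simp <;> ring] at c1
      rw [show β • e' + b' + (-(f.Q b' / β)) • e + f.B (β • e' + b' + (-(f.Q b' / β)) • e) ((-β⁻¹) • b) • e -
        f.B (β • e' + b' + (-(f.Q b' / β)) • e) e • ((FType.orth F).ε • (-β⁻¹) • b + f.Q ((-β⁻¹) • b) • e) =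
        β • e' + (b + b') + (-(f.Q (b + b') / β)) • e by
          simp [f.Q_smul, f.Q_add, i0, f.B_zero_symm hb.2.2, f.B_zero_symm hb.2.1, hb'.2.1, ee0, f.symm b b']
          match_scalars <;> field_simp <;> ring] at c2
      have y1 : ρ ((s u (β • e'))⁻¹ * s u (β • e' + b' + (-(f.Q b' / β)) • e)) = ee f u (b' + (-(f.Q b' / β)) • e) := by
        rw [map_mul, map_inv, s1 u _ hu (f.Q_smul_of_Q qe' β) (by simp [i2]) u0, s1 u _ hu (qv β b' hβ hb') (bv β _ b' hb') u0, add_assoc,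
          ee, ee, orth_eich_add hu (by simp [i2]) (by simp [i1, hb'.1]), inv_mul_cancel_left]
      have c3 := hs u e hu qe i1 u0 ((-β⁻¹) • b) (b' + (-(f.Q b' / β)) • e) (by simp [hb.1]) o.hv (by simp [i1, hb'.1])
        (by simp [hb'.2.1, ee0])
      rw [kap, ← H.C.comm_congr rfl (y1.trans (H.hje hu (by simp [i1, hb'.1])).symm),
        show f.B (b' + (-(f.Q b' / β)) • e) ((-β⁻¹) • b) = -(f.B b b' / β) by
          simp [f.B_zero_symm hb.2.1, f.symm b b']; ring] at c3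
      have c4 : t (β • e' + (b + b') + (-(f.Q (b + b') / β)) • e) = t (β • e' + b + (-(f.Q b / β)) • e) * (t ((-(f.B b b' / β)) • e) *
          ((t (β • e'))⁻¹ * t (β • e' + b' + (-(f.Q b' / β)) • e))) := Subtype.ext (by
        simp only [Subgroup.coe_mul, Subgroup.coe_inv]
        rw [ht _ (qv β _ hβ hb2) (bv β _ _ hb2), ht _ (qv β _ hβ hb) (bv β _ _ hb), ht _ (qv β _ hβ hb') (bv β _ _ hb'),
          ht _ (f.Q_smul_of_Q qe' β) (by simp [i2]), ht _ (f.Q_smul_of_Q qe _) (by simp [i1]), ← c2, ← c1, ← c3]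
        group)
      have c5 : t ((f.Q (b + b') / β) • e) * t ((-(f.B b b' / β)) • e) = t ((f.Q b / β) • e) * t ((f.Q b' / β) • e) := by
        rw [← te, ← te, f.Q_add]; congr 2; simp; ring
      simp only [G]
      rw [c4, eq_mul_inv_of_mul_eq c5]
      generalize t (β • e' + b + (-(f.Q b / β)) • e) = x1, t ((-(f.B b b' / β)) • e) = x2, t (β • e') = x3,
        t (β • e' + b' + (-(f.Q b' / β)) • e) = x4, t ((f.Q b / β) • e) = x5, t ((f.Q b' / β) • e) = x6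
      apply Additive.ofMul.injective; simp only [ofMul_mul, ofMul_inv]; abel
    have G3 : ∀ β b, β ≠ 0 → P b → G β b = G 1 b := fun β b hβ hb => by
      obtain ⟨a, a', q, q', hB, k1, k2, k3, k4, k5, k6⟩ := H.exists_pair_perp hu u0 qe qe' i1 i2 (by simp [i0'])
      let A : AddSubgroup V :=
        { carrier := {b | P b ∧ G β b = G 1 b}
          zero_mem' := ⟨by simp [P], by rw [G1 β 0 hβ (by simp [P]) (by simp), G1 1 0 one_ne_zero (by simp [P]) (by simp)]⟩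
          add_mem' := fun {x y} hx hy => ⟨⟨by simp [hx.1.1, hy.1.1], by simp [hx.1.2.1, hy.1.2.1], by simp [hx.1.2.2, hy.1.2.2]⟩,
            by rw [G2 β x y hβ hx.1 hy.1, G2 1 x y one_ne_zero hx.1 hy.1, hx.2, hy.2]⟩
          neg_mem' := fun {x} hx => by
            have p : P (-x) := ⟨by simp [hx.1.1], by simp [hx.1.2.1], by simp [hx.1.2.2]⟩
            have j1 := G2 β x _ hβ hx.1 p
            have j2 := G2 1 x _ one_ne_zero hx.1 p
            rw [add_neg_cancel, G1 _ 0 hβ (by simp [P]) (by simp)] at j1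
            rw [add_neg_cancel, G1 _ 0 one_ne_zero (by simp [P]) (by simp), j1, hx.2] at j2
            exact ⟨p, mul_left_cancel j2⟩ }
      have mp : ∀ {x}, x ∈ f.perp (span F {u, e, e'}) ↔ P x := fun {x} => by simp [f.mem_perp_span, P]
      exact (sing_ind (W := f.perp (span F {u, e, e'})) ⟨mp.2 ⟨k2, k4, k6⟩, by rintro rfl; simp at hB, q'⟩ ⟨mp.2 ⟨k1, k3, k5⟩, ne_of_B hB, q⟩
        hB A (fun v hv qv => ⟨mp.1 hv, by rw [G1 β v hβ (mp.1 hv) qv, G1 1 v one_ne_zero (mp.1 hv) qv]⟩) b (mp.2 hb)).2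
    have pw : ∀ w, f.B w u = 0 → P (w - f.B w e' • e - f.B w e • e') := fun w hw =>
      ⟨by simp [hw, i1, i2], by simp [ee0, i0], by simp [ee1, i0']⟩
    let σ : V → S u := fun w => t (f.B w e' • e) * t (f.B w e • e') * G 1 (w - f.B w e' • e - f.B w e • e')
    have σ1 : ∀ w w', f.B w u = 0 → f.B w' u = 0 → σ (w + w') = σ w * σ w' := fun w w' h1 h2 => by
      simp only [σ, f.B_add_left, te, te']
      rw [show w + w' - (f.B w e' + f.B w' e') • e - (f.B w e + f.B w' e) • e' =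
        (w - f.B w e' • e - f.B w e • e') + (w' - f.B w' e' • e - f.B w' e • e') by module, G2 1 _ _ one_ne_zero (pw w h1) (pw w' h2)]
      ac_rfl
    have σ2 : ∀ v, f.Q v = 0 → f.B v u = 0 → σ v = t v := fun v hv h1 => by
      have p := pw v h1
      have q : f.Q (v - f.B v e' • e - f.B v e • e') = -(f.B v e' * f.B v e) := by
        rw [sub_eq_add_neg, ← neg_smul, f.Q_add_smul qe', sub_eq_add_neg, ← neg_smul, f.Q_add_smul qe, hv]; simp [i0']
      simp only [σ]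
      by_cases hβ : f.B v e = 0
      · rw [G1 1 _ one_ne_zero p (by rw [q, hβ, mul_zero, neg_zero]), hβ, zero_smul, t0, mul_one, ← t5 _ _ (f.Q_smul_of_Q qe _)
          (by rw [hβ, mul_zero, neg_zero, zero_smul] at q; exact q) (by simp [i1]) (by simpa [hβ] using p.1) (by simp [ee0, f.B_zero_symm hβ])]
        simp
      · rw [← G3 _ _ hβ p]
        simp only [G, q]
        rw [show f.B v e • e' + (v - f.B v e' • e - f.B v e • e') + (-(-(f.B v e' * f.B v e) / f.B v e)) • e = v by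
          match_scalars <;> field_simp <;> ring]
        have := te (f.B v e') (-(f.B v e' * f.B v e) / f.B v e)
        rw [show f.B v e' + -(f.B v e' * f.B v e) / f.B v e = 0 by field_simp; ring, zero_smul, t0] at this
        rw [eq_inv_of_mul_eq_one_left this.symm]
        generalize t ((-(f.B v e' * f.B v e) / f.B v e) • e) = x1, t (f.B v e • e') = x2, t v = x3
        apply Additive.ofMul.injective; simp only [ofMul_mul, ofMul_inv]; abel
    refine ⟨fun w => σ w, fun w hw => ⟨(σ w).2, ?_⟩, fun w w' h1 h2 => by simp [σ1 w w' h1 h2], fun v h1 h2 => by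
      simp only [σ2 v h1 h2, ht v h1 h2]⟩
    let A : AddSubgroup V :=
      { carrier := {w | f.B w u = 0 ∧ ρ (σ w) = ee f u w}
        zero_mem' := ⟨by simp, by rw [σ2 0 (by simp) (by simp), t0]; simp [ee]⟩
        add_mem' := fun {x y} hx hy => ⟨by simp [hx.1, hy.1], by
          rw [σ1 x y hx.1 hy.1, Subgroup.coe_mul, map_mul, hx.2, hy.2, ee, ee, ee, orth_eich_add hu hx.1 hy.1]⟩
        neg_mem' := fun {x} hx => ⟨by simp [hx.1], by
          have := σ1 x (-x) hx.1 (by simp [hx.1])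
          rw [add_neg_cancel, σ2 0 (by simp) (by simp), t0] at this
          rw [eq_inv_of_mul_eq_one_right this.symm, Subgroup.coe_inv, map_inv, hx.2, ee, ee, orth_eich_neg hu hx.1]⟩ }
    exact (sing_ind (W := f.perp (span F {u})) ⟨f.mem_perp_singleton.2 i1, ne_of_B i0, qe⟩ ⟨f.mem_perp_singleton.2 i2, ne_of_B i0', qe'⟩
      i0' A (fun v hv qv => ⟨f.mem_perp_singleton.1 hv, by
        rw [σ2 v qv (f.mem_perp_singleton.1 hv), ht v qv (f.mem_perp_singleton.1 hv), s1 u v hu qv (f.mem_perp_singleton.1 hv) u0]⟩)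
      w (f.mem_perp_singleton.2 hw)).2
  refine exists_lift_of H.hf S (fun u v c u0 o => ?_) (fun u u0 hu x hx h => ?_) (fun u k u0 hu k0 => (Subgroup.closure_le _).2 ?_)
    (fun u u' k u0 hu hu' h hn => ⟨s u (k • u'), mS _ _ (f.Q_smul_of_Q hu' k) (by simp [h]), ?_, ?_⟩)
    fun g _ u u0 hu x hx => conj_closure g ?_ hx
  · obtain ⟨σ, h1, -, -⟩ := sec u u0 o.hu
    exact ⟨σ v, (h1 v o.hv).1, by rw [(h1 v o.hv).2, o.orth_eq]⟩
  · obtain ⟨σ, h1, h2, h3⟩ := sec u u0 hu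
    have z : σ 0 = 1 := by rw [h3 0 (by simp) (by simp), s4 u 0 hu (zero_mem _) u0]
    obtain ⟨w, hw, rfl⟩ : ∃ w, f.B w u = 0 ∧ x = σ w := by
      clear h
      induction hx using Subgroup.closure_induction with
      | mem x hx => obtain ⟨v, i1, i2, rfl⟩ := hx; exact ⟨v, i2, (h3 v i1 i2).symm⟩
      | one => exact ⟨0, by simp, z.symm⟩
      | mul x y _ _ i1 i2 =>
        obtain ⟨w, i1, rfl⟩ := i1
        obtain ⟨w', i2, rfl⟩ := i2
        exact ⟨w + w', by simp [i1, i2], (h2 w w' i1 i2).symm⟩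
      | inv x _ i1 =>
        obtain ⟨w, i1, rfl⟩ := i1
        exact ⟨-w, by simp [i1], by rw [inv_eq_iff_mul_eq_one, ← h2 w _ i1 (by simp [i1]), add_neg_cancel, z]⟩
    rw [(h1 w hw).2] at h
    obtain ⟨u', -, hB⟩ := H.hf.exists_pair u0 hu
    have := congrArg (fun g : V ≃ₗ[F] V => g u') h
    simp only [(orth_eichOk hu hw).apply, show f.B u' u = 1 by rw [f.symm, hB]; simp, LinearEquiv.coe_one, id, FType.orth_ε] at this
    have m : w ∈ span F {u} := mem_span_singleton.2 ⟨f.B u' w - f.Q w, by linear_combination (norm := module) this⟩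
    obtain ⟨k, rfl⟩ := mem_span_singleton.1 m
    rw [h3 _ (f.Q_smul_of_Q hu k) hw, s4 u _ hu m u0]
  · rintro _ ⟨e, he, h1, rfl⟩
    rw [B_smul_right, mul_eq_zero, or_iff_right (by simpa using k0)] at h1
    obtain ⟨b, w, b1, b2, w1, w2, h⟩ := H.exists_bw hu he h1 u0
    rw [SetLike.mem_coe, s0 _ e (f.Q_smul_of_Q hu k) he (by simp [h1]) (smul_ne_zero k0 u0) b w (by simp [b1]) b2 (by simp [w1]) w2 h, kap,
      ee_smul hu w1, ← kap, hs u e hu he h1 u0 b _ b1 b2 (by simp [w1]) (by simp [w2])]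
    exact mS _ _ (f.Q_smul_of_Q he _) (by simp [h1])
  · obtain ⟨b, w, b1, b2, w1, w2, h1⟩ := H.exists_bw hu hu' h u0
    have i1 := hs u u' hu hu' h u0 b (k • w) b1 b2 (by simp [w1]) (by simp [w2])
    have i2 := hs u' u hu' hu (f.B_zero_symm h) (by rintro rfl; exact hn (zero_mem _)) (k • w) b (by simp [w2]) (by simp [w1]) b2 b1
    rw [B_smul_left, h1, mul_one] at i1
    rw [← i1, kap, ← commutatorElement_inv, ← kap, i2]
    exact inv_mem (mS _ _ (f.Q_smul_of_Q hu _) (by simp [f.B_zero_symm h]))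
  · rw [s1 u _ hu (f.Q_smul_of_Q hu' k) (by simp [h]) u0, ee, f.Q_smul_of_Q hu']
  · rintro _ ⟨e, he, h1, rfl⟩
    have hg := E_le_iso (H.C.mem g)
    rw [s2 u e hu he h1 u0]
    exact mS _ _ ((iso_Q hg _).trans he) ((iso_B hg _ _).trans h1)

end OC

theorem CX.orth_lift [FiniteDimensional F V] [Finite F] (C : CX ρ f.E) (hf : f.Nondeg) (h7 : 7 ≤ finrank F V)
    (hx : (∀ c : F, c ≠ 0 → c ^ 2 = 1) → finrank F V ≠ 7 ∧ ((2 : F) = 0 → finrank F V = 8 → f.wi ≠ 4)) : ∃ ℓ, Lift f ρ ℓ := by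
  choose! j hj using C.surj
  exact OC.exists_lift (j := j) ⟨C, hf, h7, hj, fun u v k g hu hv h u0 hn hk gu gv => C.root_comm hf hk h7 hx hu hv h u0 hn gu gv⟩

end orth

end Cfsg.Agent.C3.SM
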