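import Cfsg.Agent.C3.SM6

/-! Schur multipliers from systems of lifts; the spin group; Schur multipliers of the orthogonal groups. -/

set_option autoImplicit false

namespace Cfsg.Agent.C3.SM

open Submodule Module H4 H4.CForm
open scoped commutatorElement

theorem commute_of_perfect {P : Type*} [Group P] {z : P} (h : ∀ a : P, ⁅a, z⁆ ∈ Subgroup.center P) {e : P} (he : e ∈ commutator P) :
    e * z = z * e :=
  ((show commutator P ≤ Subgroup.centralizer {z} from Subgroup.commutator_le.2 fun a _ b _ =>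
    Subgroup.mem_centralizer_singleton_iff.2 (commutatorElement_eq_one_iff_mul_comm.1 (comm_of_central (h a) (h b)))) he z rfl).symm

theorem CX.eq_top {E G : Type*} [Group E] [Group G] {ρ : E →* G} {K : Subgroup G} (C : CX ρ K) (hp : commutator E = ⊤) {D : Subgroup E}
    (h : ∀ x ∈ K, ∃ g ∈ D, ρ g = x) : D = ⊤ := by
  rw [eq_top_iff, ← hp]
  refine Subgroup.commutator_le.2 fun a _ b _ => ?_
  obtain ⟨a', ha, e1⟩ := h _ (C.mem a)
  obtain ⟨b', hb, e2⟩ := h _ (C.mem b)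
  rw [← C.comm_congr e1 e2, commutatorElement_def]
  exact mul_mem (mul_mem (mul_mem ha hb) (inv_mem ha)) (inv_mem hb)

universe u

theorem hasMult_gen {G : Type*} [Group G] {K : Subgroup G} {Q Δ : Type u} [Group Q] [Group Δ] [Finite Δ] {π₀ : Δ →* G} (C : CX π₀ K)
    (hp : commutator Δ = ⊤) (θ : K →* Q) (hθ : Function.Surjective θ) (hc : θ.ker ≤ Subgroup.center K) {A : Type*} [CommGroup A]
    (e : (θ.comp (π₀.codRestrict K C.mem)).ker ≃* A)
    (H : ∀ (E : Type u) [Group E] [Finite E] (ρ : E →* G), CX ρ K → commutator E = ⊤ → ∃ M : Subgroup E, (∀ x ∈ K, ∃ g ∈ M, ρ g = x) ∧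
      ∃ c, (∀ g ∈ M, ρ g = 1 → g = 1 ∨ g = c) ∧ (c = 1 ∨ ∃ z : Δ, z ≠ 1 ∧ π₀ z = 1)) : HasSchurMultiplier Q A := by
  refine hasMult_of_lift ⟨fun y => ?_, fun z hz => Subgroup.mem_center_iff.2 fun g => ?_, hp ▸ le_top⟩ e fun Γ _ _ σ hσ => ?_
  · obtain ⟨⟨x, hx⟩, rfl⟩ := hθ y
    obtain ⟨g, rfl⟩ := C.surj x hx
    exact ⟨g, rfl⟩
  · refine commute_of_perfect (fun a => Subgroup.mem_center_iff.2 (C.cen _ ?_)) (hp ▸ Subgroup.mem_top g)
    rw [map_commutatorElement, commutatorElement_eq_one_iff_mul_comm]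
    exact congrArg Subtype.val (Subgroup.mem_center_iff.1 (hc hz) ⟨π₀ a, C.mem a⟩)
  obtain ⟨P, hP, hP2⟩ := exists_pullback ⟨hσ.1, hσ.2.1⟩ (θ.comp (π₀.codRestrict K C.mem))
  let ψ := (MonoidHom.snd Γ Δ).comp P.subtype
  let φ := ψ.comp (commutator P).subtype
  have hφ : Function.Surjective φ := fun d => by
    obtain ⟨p, hp, rfl⟩ : d ∈ (commutator P).map ψ := by
      rw [map_commutator_eq, MonoidHom.range_eq_top.2 hP.surj, ← commutator_def, hp]; trivial
    exact ⟨⟨p, hp⟩, rfl⟩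
  have CP : CX φ ⊤ := ⟨fun _ => trivial, fun x _ => hφ x, fun z hz e => Subtype.ext (hP.comm hz _)⟩
  have pf : commutator (commutator P) = ⊤ := by
    have C0 : CX ψ ⊤ := ⟨fun _ => trivial, fun x _ => hP.surj x, fun z hz e => hP.comm hz _⟩
    rw [eq_top_iff]
    rintro ⟨x, hx⟩ -
    have : commutator P ≤ (commutator (commutator P)).map (commutator P).subtype := Subgroup.commutator_le.2 fun a _ b _ => by
      obtain ⟨a', ha⟩ := hφ (ψ a)
      obtain ⟨b', hb⟩ := hφ (ψ b)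
      exact ⟨⁅a', b'⁆, Subgroup.commutator_mem_commutator trivial trivial, (map_commutatorElement _ _ _).trans (C0.comm_congr ha hb)⟩
    obtain ⟨y, hy, e⟩ := this hx
    exact (show y = ⟨x, hx⟩ from Subtype.ext e) ▸ hy
  obtain ⟨M, h1, c, h2, h3⟩ := H (commutator P) (π₀.comp φ) ⟨fun g => C.mem _, fun x hx => by
      obtain ⟨d, rfl⟩ := C.surj x hx
      obtain ⟨p, rfl⟩ := hφ d
      exact ⟨p, rfl⟩, fun z hz g => Subtype.ext (commute_of_perfect (fun a => hP.cen (by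
        rw [MonoidHom.mem_ker, map_commutatorElement, commutatorElement_eq_one_iff_mul_comm]
        exact C.cen _ hz _)) g.2)⟩ pf
  have hs : Function.Surjective (φ.comp M.subtype) := by
    have := C.eq_top hp (D := M.map φ) fun x hx => by
      obtain ⟨g, hg, rfl⟩ := h1 x hx
      exact ⟨φ g, ⟨g, hg, rfl⟩, rfl⟩
    intro d
    obtain ⟨g, hg, rfl⟩ : d ∈ M.map φ := this ▸ Subgroup.mem_top d
    exact ⟨⟨g, hg⟩, rfl⟩
  have hi : Function.Injective (φ.comp M.subtype) := by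
    rw [injective_iff_map_eq_one]
    rintro ⟨g, hg⟩ h
    have h : φ g = 1 := h
    refine Subtype.ext ((h2 g hg (by simp [h])).elim id fun e => ?_)
    rcases h3 with h3 | ⟨z, z1, z2⟩
    · exact e.trans h3
    obtain ⟨⟨m, hm⟩, rfl⟩ := hs z
    rcases h2 m hm z2 with rfl | rfl
    · exact absurd (map_one φ) z1
    · exact absurd (e ▸ h) z1
  let i := MulEquiv.ofBijective _ ⟨hi, hs⟩
  refine ⟨(((MonoidHom.fst Γ Δ).comp P.subtype).comp ((commutator P).subtype.comp M.subtype)).comp i.symm.toMonoidHom, ?_⟩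
  ext d
  obtain ⟨m, rfl⟩ := i.surjective d
  simp only [MonoidHom.comp_apply, MulEquiv.coe_toMonoidHom, MulEquiv.symm_apply_apply]
  exact hP2 _ m.1.1.2

theorem card_ker_comp {Δ K Q : Type*} [Group Δ] [Group K] [Group Q] (π : Δ →* K) (hπ : Function.Surjective π) (θ : K →* Q) :
    Nat.card (θ.comp π).ker = Nat.card θ.ker * Nat.card π.ker := by
  rw [← MonoidHom.comap_ker, card_eq_card_ker_mul_of_surjective _ (π.subgroupComap_surjective_of_surjective θ.ker hπ)]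
  congr 1
  refine Nat.card_congr ⟨fun x => ⟨x.1.1, congrArg Subtype.val x.2⟩, fun x => ⟨⟨x.1, ?_⟩, Subtype.ext x.2⟩, fun _ => rfl, fun _ => rfl⟩
  rw [Subgroup.mem_comap, show π x = 1 from x.2]; exact one_mem _

section spin
open CliffordAlgebra
variable {F : Type*} [Field F] {V : Type*} [AddCommGroup V] [Module F V] {f : CForm (FType.orth F) V}
  {Q : QuadraticForm F V} (hQ : ∀ x, Q x = f.Q x)
include hQ

theorem cl_swap (x y : V) : ι Q x * ι Q y = algebraMap F _ (f.B x y) - ι Q y * ι Q x := by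
  rw [ι_mul_ι_comm, QuadraticMap.polar, hQ, hQ, hQ, f.Q_add]; congr 2; rw [FType.orth_τ]; ring

theorem cl_sq (x : V) : ι Q x * ι Q x = algebraMap F _ (f.Q x) := by rw [ι_sq_scalar, hQ]

theorem cl_step (h2 : (2 : F) ≠ 0) {U : Submodule F V} {e : V} (he : e ∈ U) (qe : f.Q e ≠ 0) {g : CliffordAlgebra Q}
    (hg : g ∈ Algebra.adjoin F (ι Q '' U)) (h1 : involute g = g) (h3 : ι Q e * g = g * ι Q e) :
    g ∈ Algebra.adjoin F (ι Q '' (U ⊓ f.perp (span F {e}) : Submodule F V)) := by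
  set A := Algebra.adjoin F (ι Q '' (U ⊓ f.perp (span F {e}) : Submodule F V))
  have k1 : ∀ a ∈ A, involute a ∈ A ∧ ι Q e * a = involute a * ι Q e := fun a ha => by
    induction ha using Algebra.adjoin_induction with
    | mem x hx =>
      obtain ⟨y, hy, rfl⟩ := hx
      refine ⟨by rw [involute_ι]; exact neg_mem (Algebra.subset_adjoin ⟨y, hy, rfl⟩), ?_⟩
      rw [cl_swap hQ, f.B_zero_symm (f.mem_perp_singleton.1 hy.2)]; simp
    | algebraMap r => exact ⟨by simp, by simp [Algebra.commutes]⟩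
    | add x y _ _ i1 i2 => exact ⟨by rw [map_add]; exact add_mem i1.1 i2.1, by rw [mul_add, map_add, add_mul, i1.2, i2.2]⟩
    | mul x y _ _ i1 i2 => exact ⟨by rw [map_mul]; exact mul_mem i1.1 i2.1, by rw [← mul_assoc, i1.2, mul_assoc, i2.2, map_mul, mul_assoc]⟩
  have ee : f.B e e = 2 * f.Q e := by rw [f.B_self]; rfl
  obtain ⟨a, ha, b, hb, rfl⟩ : ∃ a ∈ A, ∃ b ∈ A, g = a + b * ι Q e := by
    clear h1 h3
    induction hg using Algebra.adjoin_induction with
    | mem x hx =>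
      obtain ⟨y, hy, rfl⟩ := hx
      refine ⟨ι Q (y - (f.B y e / f.B e e) • e), Algebra.subset_adjoin ⟨_, ⟨sub_mem hy (smul_mem _ _ he), f.mem_perp_singleton.2 (by
        simp [ee, h2, qe])⟩, rfl⟩, algebraMap F _ (f.B y e / f.B e e), A.algebraMap_mem _, by simp [Algebra.smul_def]⟩
    | algebraMap r => exact ⟨_, A.algebraMap_mem r, 0, zero_mem _, by simp⟩
    | add x y _ _ i1 i2 =>
      obtain ⟨a, ha, b, hb, rfl⟩ := i1
      obtain ⟨a', ha', b', hb', rfl⟩ := i2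
      exact ⟨_, add_mem ha ha', _, add_mem hb hb', by noncomm_ring⟩
    | mul x y _ _ i1 i2 =>
      obtain ⟨a, ha, b, hb, rfl⟩ := i1
      obtain ⟨a', ha', b', hb', rfl⟩ := i2
      refine ⟨a * a' + b * involute b' * algebraMap F _ (f.Q e), add_mem (mul_mem ha ha') (mul_mem (mul_mem hb (k1 b' hb').1) (A.algebraMap_mem _)),
        a * b' + b * involute a', add_mem (mul_mem ha hb') (mul_mem hb (k1 a' ha').1), ?_⟩
      rw [← cl_sq hQ]
      calc _ = a * a' + a * b' * ι Q e + b * (ι Q e * a') + b * (ι Q e * b') * ι Q e := by noncomm_ring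
        _ = _ := by rw [(k1 a' ha').2, (k1 b' hb').2]; noncomm_ring
  have e1 : (involute a + involute b * ι Q e) * ι Q e = (a + b * ι Q e) * ι Q e := by
    rw [← h3, mul_add, ← mul_assoc, (k1 a ha).2, (k1 b hb).2]; noncomm_ring
  rw [← h1] at e1
  simp only [map_add, map_mul, involute_ι, add_mul, mul_assoc, mul_neg, neg_mul, cl_sq hQ, add_right_inj] at e1
  have e2 : (2 * f.Q e) • involute b = 0 := by
    rw [mul_smul, Algebra.smul_def (f.Q e), Algebra.commutes, two_smul]; nth_rewrite 1 [e1]; simp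
  have e3 : b = 0 := by simpa using congrArg involute ((smul_eq_zero.1 e2).resolve_left (mul_ne_zero h2 qe))
  simpa [e3] using ha

variable [FiniteDimensional F V]

omit hQ in
theorem exists_nonsing (h2 : (2 : F) ≠ 0) {U : Submodule F V} (hU : U ⊓ f.perp U = ⊥) (h : 1 ≤ finrank F U) :
    ∃ e ∈ U, f.Q e ≠ 0 ∧ (U ⊓ f.perp (span F {e})) ⊓ f.perp (U ⊓ f.perp (span F {e})) = ⊥ ∧
      finrank F (U ⊓ f.perp (span F {e}) : Submodule F V) + 1 = finrank F U := by
  obtain ⟨w, hw, b, hb, e0⟩ := exists_B_one hU h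
  obtain ⟨e, he, qe⟩ := orth_exists_Q_ne (f := f) hw hb (by simp [e0])
  have ee : f.B e e ≠ 0 := by rw [f.B_self]; exact mul_ne_zero h2 qe
  refine ⟨e, he, qe, eq_bot_iff.2 fun x ⟨⟨h1, h2⟩, h3⟩ => hU ▸ ⟨h1, fun y hy => ?_⟩, finrank_inf_perp_singleton he ee⟩
  have := h3 (y - (f.B y e / f.B e e) • e) ⟨sub_mem hy (smul_mem _ _ he), f.mem_perp_singleton.2 (by simp [ee])⟩
  simpa [f.mem_perp_singleton.1 h2] using this

theorem cl_scalar (h2 : (2 : F) ≠ 0) {U : Submodule F V} (hU : U ⊓ f.perp U = ⊥) {g : CliffordAlgebra Q}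
    (hg : g ∈ Algebra.adjoin F (ι Q '' U)) (h1 : involute g = g) (h3 : ∀ x ∈ U, ι Q x * g = g * ι Q x) : ∃ c, g = algebraMap F _ c := by
  induction hn : finrank F U using Nat.strong_induction_on generalizing U with
  | _ n ih =>
  by_cases h : 1 ≤ finrank F U
  · obtain ⟨e, he, qe, n1, d1⟩ := exists_nonsing h2 hU h
    exact ih _ (by omega) n1 (cl_step hQ h2 he qe hg h1 (h3 e he)) (fun x hx => h3 x hx.1) rfl
  · obtain rfl : U = ⊥ := finrank_eq_zero.1 (by omega)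
    obtain ⟨c, hc⟩ := Algebra.mem_bot.1 ((show Algebra.adjoin F (ι Q '' (⊥ : Submodule F V)) ≤ ⊥ from Algebra.adjoin_le (by
      rintro _ ⟨x, hx, rfl⟩; rw [show x = 0 from hx, map_zero]; exact zero_mem _)) hg)
    exact ⟨c, hc.symm⟩

theorem cl_rev (h2 : (2 : F) ≠ 0) (l : ℕ) {U : Submodule F V} (hU : U ⊓ f.perp U = ⊥) (hl : finrank F U = 2 * l) {g : CliffordAlgebra Q}
    (hg : g ∈ Algebra.adjoin F (ι Q '' U)) (h1 : involute g = g) (h3 : ∀ x ∈ U, ι Q x * g = -(g * ι Q x)) :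
    reverse g = (-1) ^ l * g := by
  induction l generalizing U g with
  | zero =>
    obtain ⟨c, rfl⟩ := cl_scalar hQ h2 hU hg h1 fun x hx => by
      obtain rfl : U = ⊥ := finrank_eq_zero.1 hl
      simp [show x = 0 from hx]
    simp
  | succ l ih =>
    obtain ⟨e, he, qe, n1, d1⟩ := exists_nonsing h2 hU (by omega)
    obtain ⟨e', he', qe', n2, d2⟩ := exists_nonsing h2 n1 (by omega)
    have a1 : ∀ x y, f.B x y = 0 → ι Q x * ι Q y = -(ι Q y * ι Q x) := fun x y h => by rw [cl_swap hQ, h]; simp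
    have a2 := a1 e' e (f.mem_perp_singleton.1 he'.2)
    have m : ι Q e * ι Q e' * g ∈ Algebra.adjoin F (ι Q '' U) :=
      mul_mem (mul_mem (Algebra.subset_adjoin ⟨e, he, rfl⟩) (Algebra.subset_adjoin ⟨e', he'.1, rfl⟩)) hg
    have i1 : involute (ι Q e * ι Q e' * g) = ι Q e * ι Q e' * g := by simp [h1]
    have g1 := h3 e he
    have g2 := h3 e' he'.1
    have g3 : ι Q e * ι Q e' * g = g * (ι Q e * ι Q e') := by rw [mul_assoc, g2, mul_neg, ← mul_assoc, g1]; noncomm_ring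
    have := ih n2 (by omega) (cl_step hQ h2 he' qe' (cl_step hQ h2 he qe m i1 (by
        calc _ = ι Q e * (-(ι Q e' * ι Q e)) * g := by rw [a2]; noncomm_ring
          _ = ι Q e * ι Q e' * -(ι Q e * g) := by noncomm_ring
          _ = _ := by rw [g1]; noncomm_ring)) i1 (by
        rw [mul_assoc _ g, ← neg_neg (g * _), ← g2, ← mul_assoc, ← mul_assoc, a2]; noncomm_ring)) i1 fun x hx => by
      rw [mul_assoc _ g, ← mul_neg, ← h3 x hx.1.1, ← mul_assoc, ← mul_assoc, a1 x e (f.mem_perp_singleton.1 hx.1.2), neg_mul, mul_assoc (ι Q e),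
        a1 x e' (f.mem_perp_singleton.1 hx.2)]
      noncomm_ring
    rw [reverse.map_mul, reverse.map_mul, reverse_ι, reverse_ι, a2, g3] at this
    have u1 : ι Q e * ι Q e' * (ι Q e' * ι Q e) = algebraMap F _ (f.Q e' * f.Q e) := by
      rw [mul_assoc, ← mul_assoc (ι Q e'), cl_sq hQ, Algebra.commutes, ← mul_assoc, cl_sq hQ, ← map_mul, mul_comm]
    have i2 : (f.Q e' * f.Q e) • (reverse g - (-1) ^ (l + 1) * g) = 0 := by
      rw [Algebra.smul_def, Algebra.commutes, ← u1, ← mul_assoc, sub_mul, ← neg_neg (reverse g * _), ← mul_neg, this]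
      noncomm_ring
    exact sub_eq_zero.1 ((smul_eq_zero.1 i2).resolve_left (mul_ne_zero qe' qe))

omit [FiniteDimensional F V] in
theorem cl_uv {u v : V} (hu : f.Q u = 0) (h : f.B v u = 0) : ι Q u * ι Q v * (ι Q u * ι Q v) = 0 := by
  rw [mul_assoc, ← mul_assoc (ι Q v), cl_swap hQ v u, h, map_zero, zero_sub, neg_mul, mul_neg, ← mul_assoc, ← mul_assoc, cl_sq hQ, hu]; simp

omit hQ in
variable (f Q) in
/-- the spin group, as a group of pairs -/
def Spin : Subgroup ((CliffordAlgebra Q)ˣ × (V ≃ₗ[F] V)) :=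
  Subgroup.closure {p | ∃ u v, f.Q u = 0 ∧ f.B v u = 0 ∧ (p.1 : CliffordAlgebra Q) = 1 + ι Q u * ι Q v ∧ p.2 = ee f u v}

omit [FiniteDimensional F V] in
theorem spin_gen {u v : V} (hu : f.Q u = 0) (h : f.B v u = 0) :
    ∃ p ∈ Spin f Q, (p.1 : CliffordAlgebra Q) = 1 + ι Q u * ι Q v ∧ p.2 = ee f u v := by
  have := cl_uv hQ hu h
  exact ⟨(⟨1 + ι Q u * ι Q v, 1 - ι Q u * ι Q v, by rw [add_mul, mul_sub, mul_sub, this]; simp, by rw [sub_mul, mul_add, mul_add, this]; simp⟩,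
    ee f u v), Subgroup.subset_closure ⟨u, v, hu, h, rfl, rfl⟩, rfl, rfl⟩

omit [FiniteDimensional F V] in
theorem spin_prop {p : (CliffordAlgebra Q)ˣ × (V ≃ₗ[F] V)} (hp : p ∈ Spin f Q) : p.2 ∈ f.E ∧ involute (p.1 : CliffordAlgebra Q) = p.1 ∧
    reverse (p.1 : CliffordAlgebra Q) * p.1 = 1 ∧ ∀ x, (p.1 : CliffordAlgebra Q) * ι Q x = ι Q (p.2 x) * p.1 := by
  induction hp using Subgroup.closure_induction with
  | mem p hp =>
    obtain ⟨u, v, hu, h, e1, e2⟩ := hp
    have o := orth_eichOk hu h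
    have a1 : ι Q v * ι Q u = -(ι Q u * ι Q v) := by rw [cl_swap hQ, h]; simp
    have a2 := cl_uv hQ hu h
    have a3 : ι Q u * ι Q u = 0 := by rw [cl_sq hQ, hu, map_zero]
    refine ⟨e2 ▸ o.mem_E, by simp [e1], ?_, fun x => ?_⟩
    · rw [e1, map_add, reverse.map_mul, reverse_ι, reverse_ι, reverse.map_one, a1, add_mul, mul_add, mul_add, neg_mul, neg_mul, a2]; simp
    · rw [e1, e2, o.apply]
      have b1 : ι Q x * (ι Q u * ι Q v) = f.B x u • ι Q v - f.B x v • ι Q u + ι Q u * ι Q v * ι Q x := by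
        rw [← mul_assoc, cl_swap hQ x u, sub_mul, mul_assoc, cl_swap hQ x v, mul_sub, ← Algebra.commutes, ← Algebra.smul_def,
          ← Algebra.smul_def, mul_assoc]; abel
      have b2 : ι Q v * (ι Q u * ι Q v) = -(f.Q v • ι Q u) := by
        rw [← mul_assoc, a1, neg_mul, mul_assoc, cl_sq hQ, ← Algebra.commutes, ← Algebra.smul_def]
      simp only [map_add, map_sub, map_smul, FType.orth_ε, one_smul, add_mul, sub_mul, mul_add, mul_one, one_mul, smul_mul_assoc, b1, b2,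
        ← mul_assoc (ι Q u) (ι Q u), a3, zero_mul]
      module
  | one => simp [one_mem]
  | mul p p' _ _ i1 i2 =>
    refine ⟨mul_mem i1.1 i2.1, by simp [i1.2.1, i2.2.1], ?_, fun x => ?_⟩
    · simp only [Prod.fst_mul, Units.val_mul, reverse.map_mul]
      rw [mul_assoc, ← mul_assoc (reverse _) (p.1 : CliffordAlgebra Q), i1.2.2.1, one_mul, i2.2.2.1]
    · simp only [Prod.fst_mul, Units.val_mul, Prod.snd_mul, LinearEquiv.mul_apply]
      rw [mul_assoc, i2.2.2.2, ← mul_assoc, i1.2.2.2, mul_assoc]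
  | inv p _ i =>
    have e : ((p.1⁻¹ : (CliffordAlgebra Q)ˣ) : CliffordAlgebra Q) = reverse (p.1 : CliffordAlgebra Q) :=
      Units.inv_eq_of_mul_eq_one_left i.2.2.1
    refine ⟨inv_mem i.1, ?_, ?_, fun x => ?_⟩
    · rw [Prod.fst_inv, e, ← reverse_involute, i.2.1]
    · rw [Prod.fst_inv]; nth_rewrite 1 [e]; simp
    · rw [Prod.fst_inv, Units.inv_mul_eq_iff_eq_mul, ← mul_assoc, i.2.2.2]; simp

theorem spin_ker (hf : f.Nondeg) (h2 : (2 : F) ≠ 0) {p : (CliffordAlgebra Q)ˣ × (V ≃ₗ[F] V)} (hp : p ∈ Spin f Q) (h : p.2 = 1) :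
    p = 1 ∨ p = (-1, 1) := by
  obtain ⟨-, h1, h3, h4⟩ := spin_prop hQ hp
  obtain ⟨c, hc⟩ := cl_scalar hQ h2 hf.top_inf_perp (g := p.1) (by simp [adjoin_range_ι]) h1 fun x _ => by rw [h4, h]; rfl
  letI := invertibleOfNonzero h2
  rw [hc, reverse.commutes, ← map_mul, ← map_one (algebraMap F (CliffordAlgebra Q)), (algebraMap F _).injective.eq_iff,
    mul_self_eq_one_iff] at h3
  rcases h3 with rfl | rfl
  · exact .inl (Prod.ext (Units.ext (by simp [hc])) h)
  · exact .inr (Prod.ext (Units.ext (by simp [hc])) h)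

omit [FiniteDimensional F V] in
theorem neg_one_mem_spin {a a' v : V} (ha : f.Q a = 0) (ha' : f.Q a' = 0) (hB : f.B a a' = 1) (h1 : f.B v a = 0) (h2 : f.B v a' = 0)
    (hv : f.Q v ≠ 0) : ((-1, 1) : (CliffordAlgebra Q)ˣ × (V ≃ₗ[F] V)) ∈ Spin f Q := by
  obtain ⟨p, hp, p1, p2⟩ := spin_gen hQ ha h1
  obtain ⟨p', hp', p1', p2'⟩ := spin_gen hQ (v := (f.Q v)⁻¹ • v) ha' (by simp [h2])
  convert mul_mem (mul_mem (mul_mem hp hp') hp) (mul_mem (mul_mem hp hp') hp) using 1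
  refine Prod.ext (Units.ext ?_) ?_
  · have a1 : ι Q v * ι Q a = -(ι Q a * ι Q v) := by rw [cl_swap hQ, h1]; simp
    have a2 : ι Q v * ι Q a' = -(ι Q a' * ι Q v) := by rw [cl_swap hQ, h2]; simp
    have a3 : ι Q a * ι Q a' = 1 - ι Q a' * ι Q a := by rw [cl_swap hQ, hB]; simp
    have a4 : ι Q a * ι Q a = 0 := by rw [cl_sq hQ, ha, map_zero]
    have a5 : ι Q a' * ι Q a' = 0 := by rw [cl_sq hQ, ha', map_zero]
    have a6 : ι Q v * ι Q v = f.Q v • 1 := by rw [cl_sq hQ, Algebra.algebraMap_eq_smul_one]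
    have e : ((p * p' * p).1 : CliffordAlgebra Q) = (ι Q a + (f.Q v)⁻¹ • ι Q a') * ι Q v := by
      simp only [Prod.fst_mul, Units.val_mul, p1, p1', map_smul]
      have b1 : ι Q a * ι Q v * (ι Q a' * (f.Q v)⁻¹ • ι Q v) = -(ι Q a * ι Q a') := by
        rw [mul_assoc, ← mul_assoc (ι Q v), a2, mul_smul_comm, neg_mul, mul_assoc, a6]; simp [smul_smul, hv]
      have b2 : ι Q a' * (f.Q v)⁻¹ • ι Q v * (ι Q a * ι Q v) = -(ι Q a' * ι Q a) := by
        rw [mul_assoc, smul_mul_assoc, ← mul_assoc (ι Q v), a1, neg_mul, mul_assoc, a6]; simp [smul_smul, hv]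
      rw [add_mul 1, mul_add (ι Q a * ι Q v), b1, a3]
      simp only [add_mul, mul_add, one_mul, mul_one, b2, cl_uv hQ ha h1, neg_mul, sub_mul, mul_assoc (ι Q a') (ι Q a),
        ← mul_assoc (ι Q a) (ι Q a), a4, zero_mul, mul_zero, smul_mul_assoc, mul_smul_comm]
      have := b2
      simp only [mul_smul_comm, smul_mul_assoc] at this
      rw [this]; abel
    rw [Prod.fst_mul, Units.val_mul, e, mul_assoc, ← mul_assoc (ι Q v), mul_add (ι Q v), mul_smul_comm, a1, a2]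
    simp only [add_mul, neg_mul, smul_neg, smul_mul_assoc, mul_assoc, a6, mul_smul_comm, mul_one, mul_add, mul_neg, a3, a4, a5, smul_smul,
      inv_mul_cancel₀ hv, mul_inv_cancel₀ hv, one_smul, smul_zero, Units.val_neg, Units.val_one, smul_add, smul_sub]
    abel
  · obtain ⟨i1, i2, i3⟩ := Lift.w_calc ha ha' hB h1 h2 hv (g := (p * p' * p).2) (by simp [p2, p2'])
    refine ext_pair ha ha' hB ?_ ?_ fun z hz => ?_
    · rw [Prod.snd_mul, LinearEquiv.mul_apply, i1, map_smul, i2, smul_smul]; simp [hv]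
    · rw [Prod.snd_mul, LinearEquiv.mul_apply, i2, map_smul, i1, smul_smul]; simp [hv]
    · obtain ⟨z1, z2⟩ := f.mem_perp_pair.1 hz
      rw [Prod.snd_mul, LinearEquiv.mul_apply, i3 z z1 z2, i3 _ (by simp [z1, h1]) (by simp [z2, h2]), ← rfx_apply, ← rfx_apply]; simp

omit hQ [FiniteDimensional F V] in
variable (f Q) in
/-- the projection of the spin group -/
def spinπ : Spin f Q →* (V ≃ₗ[F] V) := (MonoidHom.snd _ _).comp (Spin f Q).subtype

theorem spin_CX (hf : f.Nondeg) (h2 : (2 : F) ≠ 0) : CX (spinπ f Q) f.E :=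
  ⟨fun g => (spin_prop hQ g.2).1, fun x hx => (show f.E ≤ (spinπ f Q).range from E_le_iff.2 fun u v c o => by
    obtain ⟨p, hp, -, p2⟩ := spin_gen hQ o.hu o.hv
    exact ⟨⟨p, hp⟩, by rw [o.orth_eq]; exact p2⟩) hx, fun z hz e => by
      rcases spin_ker hQ hf h2 z.2 hz with h | h
      · simp [show z = 1 from Subtype.ext h]
      · exact Subtype.ext (by simp [h, Prod.ext_iff])⟩

theorem spin_perfect [Finite F] (hf : f.Nondeg) (h2 : (2 : F) ≠ 0) (hp : f.E ≤ ⁅f.E, f.E⁆) : commutator (Spin f Q) = ⊤ := by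
  have C := spin_CX hQ hf h2
  have key : ∀ g : Spin f Q, g ^ 2 ∈ commutator (Spin f Q) := fun g => by
    obtain ⟨s, hs, e⟩ : spinπ f Q g ∈ (commutator (Spin f Q)).map (spinπ f Q) := by
      rw [map_commutator_eq, show (spinπ f Q).range = f.E from le_antisymm (by rintro _ ⟨x, rfl⟩; exact C.mem x) C.surj]
      exact hp (C.mem g)
    have h1 : spinπ f Q (s⁻¹ * g) = 1 := by simp [e]
    have h3 : (s⁻¹ * g) ^ 2 = 1 := by
      rcases spin_ker hQ hf h2 (s⁻¹ * g).2 h1 with h | h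
      · simp [show s⁻¹ * g = 1 from Subtype.ext h]
      · exact Subtype.ext (by rw [Subgroup.coe_pow, h]; simp)
    rw [show g = s * (s⁻¹ * g) by group, (show Commute s (s⁻¹ * g) from C.cen _ h1 s).mul_pow, h3, mul_one]
    exact pow_mem hs 2
  obtain ⟨p, hp⟩ := CharP.exists F
  have pp := CharP.char_is_prime F p
  obtain ⟨k, hk⟩ : Odd p := pp.odd_of_ne_two (by rintro rfl; exact h2 (CharP.cast_eq_zero F 2))
  rw [eq_top_iff]
  rintro ⟨g, hg⟩ -
  induction hg using Subgroup.closure_induction with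
  | mem g hg =>
    obtain ⟨u, v, hu, h, e1, e2⟩ := id hg
    have pw : ∀ n : ℕ, ((g.1 ^ n : (CliffordAlgebra Q)ˣ) : CliffordAlgebra Q) = 1 + (n : F) • (ι Q u * ι Q v) ∧
        g.2 ^ n = ee f u ((n : F) • v) := fun n => by
      induction n with
      | zero => simp [ee]
      | succ n ih =>
        refine ⟨?_, ?_⟩
        · rw [pow_succ, Units.val_mul, ih.1, e1, add_mul, mul_add (_ • _), smul_mul_assoc _ (ι Q u * ι Q v), smul_mul_assoc, cl_uv hQ hu h]
          simp [add_smul]; abel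
        · rw [pow_succ, ih.2, e2, Nat.cast_succ, add_smul, one_smul, ee, ee, ee, orth_eich_add hu (by simp [h]) h]
    have h1 : (⟨g, Subgroup.subset_closure hg⟩ : Spin f Q) ^ p = 1 :=
      Subtype.ext (Prod.ext (Units.ext (by simpa using (pw p).1)) (by simpa [ee] using (pw p).2))
    have := inv_mem (pow_mem (key ⟨g, Subgroup.subset_closure hg⟩) k)
    rwa [← pow_mul, ← mul_one (_)⁻¹, ← h1, hk, pow_succ, inv_mul_cancel_left] at this
  | one => exact one_mem _
  | mul x y hx hy i1 i2 => exact mul_mem i1 i2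
  | inv x hx i1 => exact inv_mem i1

theorem spin_sq (hf : f.Nondeg) (h2 : (2 : F) ≠ 0) {l : ℕ} (hl : finrank F V = 2 * l) {p : (CliffordAlgebra Q)ˣ × (V ≃ₗ[F] V)}
    (hp : p ∈ Spin f Q) (h : ∀ x, p.2 x = -x) : p ^ 2 = ((-1) ^ l, 1) := by
  obtain ⟨-, h1, h3, h4⟩ := spin_prop hQ hp
  rw [cl_rev hQ h2 l hf.top_inf_perp (by rw [finrank_top, hl]) (by simp [adjoin_range_ι]) h1 fun x _ => by rw [h4, h]; simp] at h3
  refine Prod.ext (Units.ext ?_) (by ext x; simp [sq, h])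
  have := congrArg ((-1) ^ l * ·) h3
  simp only [← mul_assoc, ← pow_add, (Even.add_self l).neg_one_pow] at this
  simpa [sq] using this

end spin

section final
variable {F : Type u} [Field F] [Finite F] {V : Type u} [AddCommGroup V] [Module F V] [FiniteDimensional F V] {f : CForm (FType.orth F) V}

theorem wi_two (hf : f.Nondeg) (h7 : 7 ≤ finrank F V) : 2 ≤ f.wi := by
  obtain ⟨a, ha⟩ := exists_pt (f := f) (W := ⊤) (by rw [finrank_top]; omega)
  obtain ⟨a', q, hB⟩ := hf.exists_pair ha.2.1 ha.2.2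
  have d := finrank_inf_pair ha ⟨mem_top, ne_of_B hB, q⟩ (by simp [hB])
  rw [finrank_top] at d
  obtain ⟨b, hb⟩ := exists_pt (f := f) (W := ⊤ ⊓ f.perp (span F {a, a'})) (by omega)
  have hn : b ∉ span F {a} := fun h => by
    obtain ⟨k, rfl⟩ := mem_span_singleton.1 h
    have := (mem_pp hb.1).2
    simp [hB] at this
    exact hb.2.1 (by simp [this])
  exact le_wi_iff.2 ⟨_, (TS_span_singleton ha.2.2).sup_singleton hb.2.2 (f.mem_perp_singleton.2 (mem_pp hb.1).1), by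
    rw [finrank_sup_singleton hn, finrank_span_singleton ha.2.1]⟩

theorem orth_H (hf : f.Nondeg) (h7 : 7 ≤ finrank F V)
    (hx : (∀ c : F, c ≠ 0 → c ^ 2 = 1) → finrank F V ≠ 7 ∧ ((2 : F) = 0 → finrank F V = 8 → f.wi ≠ 4))
    {E : Type*} [Group E] (ρ : E →* (V ≃ₗ[F] V)) (C : CX ρ f.E) : ∃ M : Subgroup E, (∀ x ∈ f.E, ∃ g ∈ M, ρ g = x) ∧
      ∃ c, (∀ g ∈ M, ρ g = 1 → g = 1 ∨ g = c) ∧ ((2 : F) = 0 → c = 1) := by
  obtain ⟨ℓ, L⟩ := C.orth_lift hf h7 hx
  exact ⟨GW f ℓ ⊤, fun x hx => (show f.E ≤ (GW f ℓ ⊤).map ρ from E_le_iff.2 fun u v c o =>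
    ⟨_, L.mem_GW mem_top mem_top o, L.map _ _ _ o⟩) hx,
    L.orth_ker hf hf.top_inf_perp (by rw [finrank_top]; omega) (exists_pt (by rw [finrank_top]; omega))⟩

theorem orth_mult (hf : f.Nondeg) (h7 : 7 ≤ finrank F V)
    (hx : (∀ c : F, c ≠ 0 → c ^ 2 = 1) → finrank F V ≠ 7 ∧ ((2 : F) = 0 → finrank F V = 8 → f.wi ≠ 4))
    {Q : QuadraticForm F V} (hQ : ∀ x, Q x = f.Q x) {G : Type u} [Group G] (i : f.E ≃* G) {A : Type*} [CommGroup A]
    (h0 : (2 : F) = 0 → Nat.card A = 1) (h1 : (2 : F) ≠ 0 → scal V (-1) ∉ f.E → Nat.card A = 2)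
    (h3 : (2 : F) ≠ 0 → scal V (-1) ∈ f.E → Nat.card A = 4 ∧ ∃ l, finrank F V = 2 * l ∧ (Odd l → IsCyclic A) ∧ (Even l → IsKleinFour A)) :
    HasSchurMultiplier (G ⧸ Subgroup.center G) A := by
  have : Finite V := Module.finite_of_finite F
  have : Finite (V ≃ₗ[F] V) := Finite.of_injective _ DFunLike.coe_injective
  have pf := hf.orth_E_perfect (by omega) (wi_two hf h7)
  obtain ⟨a, ha⟩ := exists_pt (f := f) (W := ⊤) (by rw [finrank_top]; omega)
  have cc := hf.orth_card_center_E (by omega) (not_aniso.2 ⟨a, ha.2⟩)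
  let θ : f.E →* G ⧸ Subgroup.center G := (QuotientGroup.mk' _).comp i.toMonoidHom
  have hθ : Function.Surjective θ := (QuotientGroup.mk'_surjective _).comp i.surjective
  have kθ : θ.ker = Subgroup.center f.E := by
    ext x; rw [← mem_center_equiv i, MonoidHom.mem_ker]; exact QuotientGroup.eq_one_iff _
  by_cases h2 : (2 : F) = 0
  · have C : CX f.E.subtype f.E := ⟨fun g => g.2, fun x hx => ⟨⟨x, hx⟩, rfl⟩, fun z hz e => by simp [show z = 1 from Subtype.ext hz]⟩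
    have c1 : Nat.card (θ.comp (f.E.subtype.codRestrict f.E C.mem)).ker = 1 := by
      rw [show θ.comp (f.E.subtype.codRestrict f.E C.mem) = θ from rfl, kθ, cc, if_neg (by simp [h2])]
    have := (Nat.card_eq_one_iff_unique.1 c1).1
    have := (Nat.card_eq_one_iff_unique.1 (h0 h2)).1
    have := uniqueOfSubsingleton (1 : A)
    have := uniqueOfSubsingleton (1 : (θ.comp (f.E.subtype.codRestrict f.E C.mem)).ker)
    refine hasMult_gen C ((commutator_eq_top_iff _).2 pf) θ hθ kθ.le MulEquiv.ofUnique fun E _ _ ρ C _ => ?_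
    obtain ⟨M, m1, c, m2, m3⟩ := orth_H hf h7 hx ρ C
    exact ⟨M, m1, c, m2, .inl (m3 h2)⟩
  have C := spin_CX hQ hf h2
  obtain ⟨a', q, hB⟩ := hf.exists_pair ha.2.1 ha.2.2
  have d := finrank_inf_pair ha ⟨mem_top, ne_of_B hB, q⟩ (by simp [hB])
  rw [finrank_top] at d
  obtain ⟨v, hv, qv, -⟩ := exists_nonsing h2 (inf_pair_nondeg hf.top_inf_perp mem_top mem_top ha.2.2 q (by simp [hB])) (by omega)
  have nm := neg_one_mem_spin hQ ha.2.2 q hB (mem_pp hv).1 (mem_pp hv).2 qv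
  letI := invertibleOfNonzero h2
  have n1 : (⟨_, nm⟩ : Spin f Q) ≠ 1 := fun h => by
    have := congrArg (fun p : Spin f Q => (p.1.1 : CliffordAlgebra Q)) h
    simp only [Units.val_neg, Units.val_one, OneMemClass.coe_one, Prod.fst_one] at this
    exact h2 ((algebraMap F (CliffordAlgebra Q)).injective (by rw [map_ofNat, map_zero, ← one_add_one_eq_two]; exact neg_eq_iff_add_eq_zero.1 this))
  let π := (spinπ f Q).codRestrict f.E C.mem
  have hπ : Function.Surjective π := fun x => (C.surj x x.2).imp fun g hg => Subtype.ext hg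
  have mk : ∀ z : Spin f Q, π z = 1 ↔ z = 1 ∨ z = ⟨_, nm⟩ := fun z => ⟨fun h => (spin_ker hQ hf h2 z.2 (congrArg Subtype.val h)).imp
    Subtype.ext Subtype.ext, by rintro (rfl | rfl); exacts [map_one _, rfl]⟩
  have ck : Nat.card π.ker = 2 := Nat.card_eq_two_iff.2 ⟨1, ⟨⟨_, nm⟩, (mk _).2 (.inr rfl)⟩, fun h => n1 (congrArg Subtype.val h).symm, by
    rw [Set.eq_univ_iff_forall]; rintro ⟨z, hz⟩; rcases (mk z).1 hz with rfl | rfl; exacts [.inl rfl, .inr rfl]⟩
  have : Finite (Spin f Q) := Nat.finite_of_card_ne_zero (by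
    rw [card_eq_card_ker_mul_of_surjective π hπ, ck]; exact mul_ne_zero Nat.card_pos.ne' two_ne_zero)
  have cK := card_ker_comp π hπ θ
  rw [ck, kθ, cc] at cK
  suffices e : Nonempty ((θ.comp π).ker ≃* A) by
    refine hasMult_gen C (spin_perfect hQ hf h2 pf) θ hθ kθ.le e.some fun E _ _ ρ C _ => ?_
    obtain ⟨M, m1, c, m2, -⟩ := orth_H hf h7 hx ρ C
    exact ⟨M, m1, c, m2, .inr ⟨_, n1, rfl⟩⟩
  by_cases hm : scal V (-1) ∈ f.E
  swap
  · haveI : Fact (Nat.Prime 2) := ⟨Nat.prime_two⟩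
    exact ⟨mulEquivOfPrimeCardEq (p := 2) (by rw [cK, if_neg (by simp [hm])]) (h1 h2 hm)⟩
  rw [if_pos ⟨h2, hm⟩] at cK
  obtain ⟨c4, l, hl, o1, o2⟩ := h3 h2 hm
  obtain ⟨z, hz⟩ := hπ ⟨_, hm⟩
  have zs := spin_sq hQ hf h2 hl z.2 fun x => by rw [show z.1.2 = scal V (-1) from congrArg Subtype.val hz]; simp
  have cen := fun g => hf.mem_center_E_iff (hf.thick_top (by omega)) ha.2.1 ha.2.2 (g := g)
  have zk : z ∈ (θ.comp π).ker := by
    rw [← MonoidHom.comap_ker, kθ, Subgroup.mem_comap, hz, cen]; exact ⟨-1, fun x => by simp⟩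
  rcases Nat.even_or_odd l with hl2 | hl2
  · haveI := o2 hl2
    haveI : Nontrivial (θ.comp π).ker := Finite.one_lt_card_iff_nontrivial.1 (by omega)
    haveI : IsKleinFour (θ.comp π).ker := ⟨cK, (Monoid.exponent_eq_prime_iff Nat.prime_two).2 fun y hy => orderOf_eq_prime ?_ hy⟩
    · exact IsKleinFour.nonempty_mulEquiv
    obtain ⟨y, hy2⟩ := y
    rw [← MonoidHom.comap_ker, kθ, Subgroup.mem_comap, cen] at hy2
    obtain ⟨c, hc⟩ := id hy2
    have := iso_scalar_norm hf (E_le_iso (π y).2) hc ha.2.1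
    refine Subtype.ext (Subtype.ext ?_)
    rcases mul_self_eq_one_iff.1 this with rfl | rfl
    · rcases (mk y).1 (Subtype.ext (LinearEquiv.ext fun x => by simpa using hc x)) with rfl | rfl <;> simp
    · simpa [hl2.neg_one_pow, Prod.ext_iff] using spin_sq hQ hf h2 hl y.2 fun x => (hc x).trans (neg_one_smul F x)
  · haveI := o1 hl2
    rw [hl2.neg_one_pow] at zs
    have z2 : z ^ 2 = ⟨_, nm⟩ := Subtype.ext zs
    haveI : IsCyclic (θ.comp π).ker := isCyclic_of_orderOf_eq_card ⟨z, zk⟩ (by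
      rw [cK, ← Subgroup.orderOf_coe]
      exact orderOf_eq_prime_pow (p := 2) (n := 1) (by simpa [z2] using n1) (by
        rw [show 2 ^ (1 + 1) = 2 * 2 from rfl, pow_mul, z2]; exact Subtype.ext (by simp)))
    exact ⟨mulEquivOfCyclicCardEq (cK.trans c4.symm)⟩

end final

end Cfsg.Agent.C3.SM
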