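import Cfsg.Agent.C3.SM7

/-! Invariant complements in central extensions. -/

set_option autoImplicit false

namespace Cfsg.Agent.C3.SM

open Submodule Module H4 H4.CForm
open scoped commutatorElement

theorem comm_surj {G : Type*} [Group G] {X : Subgroup G} [Finite X] {h : G} (h0 : ∀ x ∈ X, h * x * h⁻¹ ∈ X)
    (h2 : ∀ x ∈ X, ⁅x, h⁆ ∈ ⁅X, X⁆ → x ∈ ⁅X, X⁆) {x : G} (hx : x ∈ X) : ∃ y ∈ X, ⁅y, h⁆ * x⁻¹ ∈ ⁅X, X⁆ := by
  have m : ∀ y ∈ X, ⁅y, h⁆ ∈ X := fun y hy => by simpa [commutatorElement_def, mul_assoc] using mul_mem hy (h0 _ (inv_mem hy))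
  let δ : Abelianization X →* Abelianization X := Abelianization.lift (MonoidHom.mk' (fun y : X => ab X ⁅(y : G), h⁆) fun a b => by
    rw [Subgroup.coe_mul, show ⁅(a : G) * b, h⁆ = a * ⁅(b : G), h⁆ * (a : G)⁻¹ * ⁅(a : G), h⁆ by group,
      ab_mul (mul_mem (mul_mem a.2 (m _ b.2)) (inv_mem a.2)) (m _ a.2), ab_conj a.2 (m _ b.2), mul_comm])
  have e : ∀ y ∈ X, δ (ab X y) = ab X ⁅y, h⁆ := fun y hy => by rw [ab_of_mem hy]; rfl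
  have : Finite (Abelianization X) := Finite.of_surjective _ (fun a => Quotient.exists_rep a : Function.Surjective (Abelianization.of (G := X)))
  have hi : Function.Injective δ := (injective_iff_map_eq_one δ).2 fun a ha => by
    obtain ⟨y, hy, rfl⟩ := ab_surjective X a
    rw [e y hy, ab_eq_one_iff (m y hy)] at ha
    exact (ab_eq_one_iff hy).2 (h2 y hy ha)
  obtain ⟨a, ha⟩ := Finite.surjective_of_injective hi (ab X x)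
  obtain ⟨y, hy, rfl⟩ := ab_surjective X a
  exact ⟨y, hy, (ab_eq_iff (m y hy) hx).1 (e y hy ▸ ha)⟩

theorem CX.lemB {E G : Type*} [Group E] [Group G] {ρ : E →* G} {K : Subgroup G} (C : CX ρ K) {X N : Subgroup G} [Finite X]
    (hX : X ≤ K) (hN : X ≤ N) (h0 : ∀ n ∈ N, ∀ x ∈ X, n * x * n⁻¹ ∈ X) (h1 : ∀ d ∈ ⁅X.comap ρ, X.comap ρ⁆, ρ d = 1 → d = 1)
    {h : E} (hh : ρ h ∈ N) (h2 : ∀ x ∈ X, ⁅x, ρ h⁆ ∈ ⁅X, X⁆ → x ∈ ⁅X, X⁆) (h3 : ∀ n, ρ n ∈ N → ⁅ρ n, ρ h⁆ ∈ X) :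
    (∀ s ∈ ⁅X.comap ρ, N.comap ρ⁆, ρ s = 1 → s = 1) ∧ ∀ x ∈ X, ∃ s ∈ ⁅X.comap ρ, N.comap ρ⁆, ρ s = x := by
  set A := X.comap ρ
  have mA : A.map ρ = X := Subgroup.map_comap_eq_self fun x hx => C.surj x (hX hx)
  have mD : ∀ x ∈ ⁅X, X⁆, ∃ d ∈ ⁅A, A⁆, ρ d = x := fun x hx => by rwa [← mA, ← Subgroup.map_commutator] at hx
  have cA : ∀ n, ρ n ∈ N → ∀ a ∈ A, n * a * n⁻¹ ∈ A := fun n hn a ha => by simpa [A] using h0 _ hn _ ha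
  have cD : ∀ n, ρ n ∈ N → ∀ d ∈ ⁅A, A⁆, n * d * n⁻¹ ∈ ⁅A, A⁆ := fun n hn d hd => by
    rw [Subgroup.commutator_def] at hd
    refine conj_closure n ?_ hd
    rintro _ ⟨a, ha, b, hb, rfl⟩
    rw [show n * ⁅a, b⁆ * n⁻¹ = ⁅n * a * n⁻¹, n * b * n⁻¹⁆ by group]
    exact Subgroup.commutator_mem_commutator (cA n hn a ha) (cA n hn b hb)
  have m : ∀ n, ρ n ∈ N → ∀ y ∈ A, ⁅y, n⁆ ∈ A := fun n hn y hy => by
    simpa [commutatorElement_def, mul_assoc] using mul_mem hy (cA n hn _ (inv_mem hy))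
  have le := commutator_le_self A
  have dec : ∀ a ∈ A, ∃ b ∈ A, ∃ d ∈ ⁅A, A⁆, ∃ z, ρ z = 1 ∧ a = d * ⁅b, h⁆ * z := fun a ha => by
    obtain ⟨y, hy, e⟩ := comm_surj (h0 _ hh) h2 ha
    obtain ⟨b, rfl⟩ := C.surj y (hX hy)
    obtain ⟨d, hd, e⟩ := mD _ e
    exact ⟨b, hy, d⁻¹, inv_mem hd, ⁅b, h⁆⁻¹ * d * a, by rw [map_mul, map_mul, e, map_inv, map_commutatorElement]; group, by group⟩
  have δ : ∀ a ∈ A, ∀ b ∈ A, ab A ⁅a * b, h⁆ = ab A ⁅a, h⁆ * ab A ⁅b, h⁆ := fun a ha b hb => by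
    rw [show ⁅a * b, h⁆ = a * ⁅b, h⁆ * a⁻¹ * ⁅a, h⁆ by group, ab_mul (mul_mem (mul_mem ha (m h hh _ hb)) (inv_mem ha)) (m h hh _ ha),
      ab_conj ha (m h hh _ hb), mul_comm]
  have δ1 : ∀ a ∈ A, ab A ⁅a⁻¹, h⁆ = (ab A ⁅a, h⁆)⁻¹ := fun a ha => by
    rw [eq_inv_iff_mul_eq_one, ← δ _ (inv_mem ha) _ ha, ab_eq_one_iff (m h hh _ (mul_mem (inv_mem ha) ha))]; simp [one_mem]
  let T : Subgroup E :=
    { carrier := {s | s ∈ A ∧ ∃ b ∈ A, ab A s = ab A ⁅b, h⁆}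
      one_mem' := ⟨one_mem _, 1, one_mem _, by simp⟩
      mul_mem' := fun ⟨a, b, hb, e⟩ ⟨a', b', hb', e'⟩ => ⟨mul_mem a a', _, mul_mem hb hb', by rw [δ _ hb _ hb', ab_mul a a', e, e']⟩
      inv_mem' := fun ⟨a, b, hb, e⟩ => ⟨inv_mem a, _, inv_mem hb, by rw [δ1 _ hb, ab_inv a, e]⟩ }
  have hT : ⁅A, N.comap ρ⁆ ≤ T := Subgroup.commutator_le.2 fun a ha n hn => by
    obtain ⟨b, hb, d, hd, z, hz, rfl⟩ := dec a ha
    have x : ⁅n, h⁆ ∈ A := by simpa [A, map_commutatorElement] using h3 n hn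
    have b' := cA n hn b hb
    rw [C.comm_congr (a' := d * ⁅b, h⁆) (b' := n) (by simp [hz]) rfl]
    refine ⟨m n hn _ (mul_mem (le hd) (m h hh _ hb)), b * (n * b * n⁻¹)⁻¹, mul_mem hb (inv_mem b'), ?_⟩
    have i1 := cD n hn d hd
    rw [δ _ hb _ (inv_mem b'), δ1 _ b', show ⁅d * ⁅b, h⁆, n⁆ = d * ⁅b, h⁆ * (n * d * n⁻¹ * ⁅n * b * n⁻¹, ⁅n, h⁆⁆ *
      (⁅n, h⁆ * ⁅n * b * n⁻¹, h⁆ * ⁅n, h⁆⁻¹))⁻¹ by group]
    have i2 := Subgroup.commutator_mem_commutator b' x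
    have i3 := m h hh _ b'
    have i4 := mul_mem (mul_mem x i3) (inv_mem x)
    rw [ab_mul (mul_mem (le hd) (m h hh _ hb)) (inv_mem (mul_mem (mul_mem (le i1) (le i2)) i4)), ab_inv (mul_mem (mul_mem (le i1) (le i2)) i4),
      ab_mul (le hd) (m h hh _ hb), ab_mul (mul_mem (le i1) (le i2)) i4, ab_conj x i3, (ab_eq_one_iff (le hd)).2 hd,
      (ab_eq_one_iff (mul_mem (le i1) (le i2))).2 (mul_mem i1 i2), one_mul, one_mul]
  refine ⟨fun s hs e => ?_, fun x hx => ?_⟩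
  · obtain ⟨ha, b, hb, e1⟩ := hT hs
    have i1 := inv_mem ((ab_eq_iff ha (m h hh _ hb)).1 e1)
    obtain ⟨d, hd, e2⟩ := mD _ (h2 _ hb (by
      have := Subgroup.mem_map_of_mem ρ i1
      rwa [Subgroup.map_commutator, mA, mul_inv_rev, inv_inv, map_mul, map_inv, e, inv_one, mul_one, map_commutatorElement] at this))
    rw [← C.comm_congr e2 rfl, (ab_eq_one_iff (m h hh _ (le hd))).2 (by
      simpa [commutatorElement_def, mul_assoc] using mul_mem hd (cD h hh _ (inv_mem hd))), ab_eq_one_iff ha] at e1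
    exact h1 s e1 e
  · obtain ⟨a, rfl⟩ := C.surj x (hX hx)
    obtain ⟨b, hb, d, hd, z, hz, rfl⟩ := dec a hx
    exact ⟨_, mul_mem (Subgroup.commutator_mono le_rfl (Subgroup.comap_mono hN) hd) (Subgroup.commutator_mem_commutator hb hh), by simp [hz]⟩

variable {F : Type*} [Field F] {V : Type*} [AddCommGroup V] [Module F V] {T : FType F} {f : CForm T V}

theorem exists_X_map {u u' : V} (hu : f.Q u = 0) (hu' : f.Q u' = 0) (hB : f.B u u' = 1) {g : V ≃ₗ[F] V} (hg : g ∈ f.iso) (gu : g u = u) :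
    ∃ v c, f.EichOk u v c ∧ ((f.eich u v c)⁻¹ * g) u = u ∧ ((f.eich u v c)⁻¹ * g) u' = u' := by
  obtain ⟨a, c, o, e⟩ := exists_eich_map (w := u') (w' := g u') hu (by nth_rewrite 1 [← gu]; rw [iso_B hg])
    (f.B_ne_symm (by simp [hB])) (iso_Q hg _)
  exact ⟨_, c, o, by rw [LinearEquiv.mul_apply, gu]; exact (LinearEquiv.symm_apply_eq _).2 o.apply_self.symm,
    by rw [LinearEquiv.mul_apply]; exact (LinearEquiv.symm_apply_eq _).2 e.symm⟩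

theorem mem_X_of {u u' : V} (hu : f.Q u = 0) (hu' : f.Q u' = 0) (hB : f.B u u' = 1) {g : V ≃ₗ[F] V} (hg : g ∈ f.iso) (gu : g u = u)
    (h : ∀ x, f.B x u = 0 → g x - x ∈ span F {u}) : g ∈ f.X u := by
  obtain ⟨v, c, o, e1, e2⟩ := exists_X_map hu hu' hB hg gu
  rw [← inv_mul_eq_one.1 (ext_pair hu hu' hB e1 e2 fun z hz => ?_ : (f.eich u v c)⁻¹ * g = 1)]
  · exact o.mem_X
  obtain ⟨z1, z2⟩ := f.mem_perp_pair.1 hz
  obtain ⟨t, ht⟩ := mem_span_singleton.1 (h z z1)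
  have i1 := iso_B (mul_mem (inv_mem o.mem_iso) hg) z u'
  have i2 : ((f.eich u v c)⁻¹ * g) z = z + (t - f.B z v) • u := by
    rw [LinearEquiv.mul_apply]
    refine (LinearEquiv.symm_apply_eq _).2 ?_
    rw [map_add, map_smul, o.apply_self, o.apply, z1, sub_smul, ht]; simp
  rw [e2, i2, z2] at i1
  simp only [map_add, map_smul, LinearMap.add_apply, LinearMap.smul_apply, z2, hB, smul_eq_mul, mul_one, zero_add] at i1
  rw [i2, i1]; simp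

/-- the stabiliser of a point -/
def pst (u : V) (K : Subgroup (V ≃ₗ[F] V)) : Subgroup (V ≃ₗ[F] V) where
  carrier := {g | g ∈ K ∧ ∃ l : F, l ≠ 0 ∧ g u = l • u}
  one_mem' := ⟨one_mem _, 1, one_ne_zero, by simp⟩
  mul_mem' := fun ⟨a, l, hl, e⟩ ⟨a', l', hl', e'⟩ => ⟨mul_mem a a', l' * l, mul_ne_zero hl' hl, by simp [e, e', smul_smul]⟩
  inv_mem' := fun {g} ⟨a, l, hl, e⟩ => ⟨inv_mem a, l⁻¹, inv_ne_zero hl, (LinearEquiv.symm_apply_eq _).2 (by simp [e, smul_smul, hl])⟩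

theorem conj_X {u : V} (hu : f.Q u = 0) {g x : V ≃ₗ[F] V} (hg : g ∈ f.E) (hx : x ∈ f.X u) : g * x * g⁻¹ ∈ f.X (g u) := by
  obtain ⟨v, c, o, rfl⟩ := (mem_X hu).1 hx
  rw [eich_conj (E_le_iso hg)]
  exact (o.map (E_le_iso hg)).mem_X

theorem pst_X {u : V} (hu : f.Q u = 0) : ∀ n ∈ pst u f.E, ∀ x ∈ f.X u, n * x * n⁻¹ ∈ f.X u := fun _ ⟨hn, l, _, e⟩ _ hx =>
  X_smul_le hu l (e ▸ conj_X hu hn hx)

theorem X_le_pst {u : V} (hu : f.Q u = 0) : f.X u ≤ pst u f.E :=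
  X_le_iff.2 fun _ _ o => ⟨o.mem_E, 1, one_ne_zero, by rw [o.apply_self, one_smul]⟩

theorem conj_comm {E : Type*} [Group E] {A B A' B' : Subgroup E} (g : E) (h1 : ∀ a ∈ A, g * a * g⁻¹ ∈ A') (h2 : ∀ a ∈ B, g * a * g⁻¹ ∈ B')
    {s : E} (hs : s ∈ ⁅A, B⁆) : g * s * g⁻¹ ∈ ⁅A', B'⁆ := by
  rw [Subgroup.commutator_def] at hs
  refine conj_closure g ?_ hs
  rintro _ ⟨a, ha, b, hb, rfl⟩
  rw [show g * ⁅a, b⁆ * g⁻¹ = ⁅g * a * g⁻¹, g * b * g⁻¹⁆ by group]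
  exact Subgroup.commutator_mem_commutator (h1 a ha) (h2 b hb)

theorem conj_pst {u : V} {K : Subgroup (V ≃ₗ[F] V)} {g x : V ≃ₗ[F] V} (hg : g ∈ K) (hx : x ∈ pst u K) : g * x * g⁻¹ ∈ pst (g u) K :=
  ⟨mul_mem (mul_mem hg hx.1) (inv_mem hg), hx.2.imp fun l h => ⟨h.1, by simp [h.2]⟩⟩

theorem pst_smul {u : V} {K : Subgroup (V ≃ₗ[F] V)} {k : F} (hk : k ≠ 0) : pst (k • u) K ≤ pst u K := fun _ h =>
  ⟨h.1, h.2.imp fun l h => ⟨h.1, smul_right_injective V hk (by simpa [smul_comm l k] using h.2)⟩⟩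

theorem lift_of_comm [FiniteDimensional F V] {E : Type*} [Group E] {ρ : E →* (V ≃ₗ[F] V)} (hf : f.Nondeg)
    (h1 : ∀ u, u ≠ 0 → f.Q u = 0 → (∀ s ∈ ⁅(f.X u).comap ρ, (pst u f.E).comap ρ⁆, ρ s = 1 → s = 1) ∧
      ∀ x ∈ f.X u, ∃ s ∈ ⁅(f.X u).comap ρ, (pst u f.E).comap ρ⁆, ρ s = x)
    (h4 : ∀ u u' (k : F), u ≠ 0 → f.Q u = 0 → f.Q u' = 0 → f.B u' u = 0 → u' ∉ span F {u} →
      ∃ a n, ρ a ∈ f.X u ∧ ρ a ∈ f.X u' ∧ ρ n ∈ pst u f.E ∧ ρ n ∈ pst u' f.E ∧ ⁅ρ a, ρ n⁆ = f.eich u (k • u') 0) : ∃ ℓ, Lift f ρ ℓ := by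
  refine exists_lift_of hf (fun u => ⁅(f.X u).comap ρ, (pst u f.E).comap ρ⁆) (fun u v c u0 o => (h1 u u0 o.hu).2 _ o.mem_X)
    (fun u u0 hu => (h1 u u0 hu).1) (fun u k _ hu hk => Subgroup.commutator_mono (Subgroup.comap_mono (X_smul_le hu k))
      (Subgroup.comap_mono (pst_smul hk))) (fun u u' k u0 hu hu' h hn => ?_) fun g hg u _ hu s hs => conj_comm g (fun a ha => ?_) (fun a ha => ?_) hs
  · obtain ⟨a, n, i1, i2, i3, i4, e⟩ := h4 u u' k u0 hu hu' h hn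
    exact ⟨⁅a, n⁆, Subgroup.commutator_mem_commutator i1 i3, Subgroup.commutator_mem_commutator i2 i4, by rw [map_commutatorElement, e]⟩
  · simpa using conj_X hu hg ha
  · simpa using conj_pst hg ha

end Cfsg.Agent.C3.SM
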